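/-
The Steinberg character is the only irreducible character of `p`-defect zero of a Chevalley group.
-/
import Mathlib
import Cfsg.Agent.Lib.KS71.StDefectAbs
import Cfsg.Agent.Lib.KS71.StUnip
import Cfsg.Agent.Lib.KS71.StIrr
import Cfsg.Agent.Lib.Char.DefectZero
import Cfsg.Agent.Lib.Chev.Diag
import Cfsg.Agent.Lib.KS71.ChevInv

set_option autoImplicit false
set_option linter.unusedSectionVars false
set_option linter.unusedVariables false
set_option linter.style.haveILetI false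

namespace Cfsg.Agent.Lib.KS71.StDefect

open Cfsg Cfsg.Lie Cfsg.Lie.ChevalleyDatum
open Cfsg.Agent.Lib.Chev.Tables Cfsg.Agent.Lib.Chev.Tables2 Cfsg.Agent.Lib.Chev.Tables3 Cfsg.Agent.Lib.Chev.Raise
open Cfsg.Agent.Lib.Chev.Basic Cfsg.Agent.Lib.Chev.AxBasic Cfsg.Agent.Lib.Chev.Torus
open Cfsg.Agent.Lib.Chev.Products Cfsg.Agent.Lib.Chev.Products2 Cfsg.Agent.Lib.Chev.Mono1
open Cfsg.Agent.Lib.Chev.Mono2 Cfsg.Agent.Lib.Chev.Mono3 Cfsg.Agent.Lib.Chev.Bn
open Cfsg.Agent.Lib.Chev.Order1 Cfsg.Agent.Lib.Chev.Order2 Cfsg.Agent.Lib.Chev.Parab Cfsg.Agent.Lib.Chev.Diag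
open Cfsg.Agent.Lib.KS71.StWeyl Cfsg.Agent.Lib.KS71.StCell Cfsg.Agent.Lib.KS71.StMain Cfsg.Agent.Lib.KS71.StUnip
open Cfsg.Agent.Lib.KS71.StDefectAbs
open Module
open scoped ComplexConjugate

variable {D : ChevalleyDatum} {F : Type*} [Field F]
variable (h : Tab D) (h2 : Tab2 D) (ax : Ax D F)

/-! ### Rank one relations -/

include h h2 ax in
/-- Conjugating `n_p(t)` by the reflection. -/
lemma s_conj_nG {j : ℕ} (hj : j < D.rank) {t : F} (ht : t ≠ 0) :
    sG ax j * nG ax (D.simple j) t * (sG ax j)⁻¹ = nG ax (D.simple j) t⁻¹ := by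
  have hp := h.simple_lt j hj
  have e1 : ∀ u, sG ax j * xG ax (D.simple j) u * (sG ax j)⁻¹ = xG ax (D.neg (D.simple j)) (-u) := by
    intro u
    rw [sG_mul_x h h2 ax hj]
    group
  have e2 : ∀ u, sG ax j * xG ax (D.neg (D.simple j)) u * (sG ax j)⁻¹ = xG ax (D.simple j) (-u) := by
    intro u
    rw [sG_mul_x' h h2 ax hj]
    group
  have e3 : sG ax j * nG ax (D.simple j) t * (sG ax j)⁻¹ =
      (sG ax j * xG ax (D.simple j) t * (sG ax j)⁻¹) * (sG ax j * xG ax (D.neg (D.simple j)) (-t⁻¹) * (sG ax j)⁻¹) *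
        (sG ax j * xG ax (D.simple j) t * (sG ax j)⁻¹) := by
    simp only [nG]
    group
  have e4 := nG_neg_simple h h2 ax hj (neg_ne_zero.mpr ht)
  have e5 : -(-t)⁻¹ = t⁻¹ := by simp
  rw [e5] at e4
  rw [e3, e1, e2, neg_neg, ← e4]
  simp only [nG, h.neg_neg _ hp]
  rw [e5]

lemma hG_one (r : ℕ) : hG ax r 1 = 1 := by
  rw [hG, ← nG_inv, mul_inv_cancel]

include h h2 ax in
lemma s_x_s {j : ℕ} (hj : j < D.rank) {t : F} (ht : t ≠ 0) :
    sG ax j * xG ax (D.simple j) t * sG ax j =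
      xG ax (D.simple j) (-t⁻¹) * sG ax j * (hG ax (D.simple j) t * (sG ax j * sG ax j)) *
        xG ax (D.simple j) (-t⁻¹) := by
  have e1 := sG_x_relation h h2 ax hj ht
  have e2 := sG_mul_x h h2 ax hj (-t⁻¹)
  rw [neg_neg] at e2
  have e3 : hG ax (D.simple j) t⁻¹ * sG ax j = sG ax j * hG ax (D.simple j) t := by
    have a1 : hG ax (D.simple j) t⁻¹ * sG ax j = nG ax (D.simple j) t⁻¹ := (nG_eq_hG_mul ax _ t⁻¹).symm
    have a2 : hG ax (D.simple j) t = nG ax (D.simple j) t * (sG ax j)⁻¹ := by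
      rw [hG, sG, nG_inv]
    rw [a1, a2, ← mul_assoc, s_conj_nG h h2 ax hj ht]
  calc sG ax j * xG ax (D.simple j) t * sG ax j
      = xG ax (D.simple j) (-t⁻¹) * hG ax (D.simple j) t⁻¹ * (sG ax j * sG ax j) *
          (xG ax (D.neg (D.simple j)) t⁻¹ * sG ax j) := by
        rw [e1]
        simp only [mul_assoc]
    _ = xG ax (D.simple j) (-t⁻¹) * hG ax (D.simple j) t⁻¹ * (sG ax j * sG ax j) *
          (sG ax j * xG ax (D.simple j) (-t⁻¹)) := by rw [e2]
    _ = xG ax (D.simple j) (-t⁻¹) * (hG ax (D.simple j) t⁻¹ * sG ax j) * (sG ax j * sG ax j) *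
          xG ax (D.simple j) (-t⁻¹) := by simp only [mul_assoc]
    _ = _ := by
        rw [e3]
        simp only [mul_assoc]

/-! ### The subgroup `U_j` -/

lemma hcl_Up (j : ℕ) : Subgroup.closure {g : GL D.Idx F | ∃ (s : ℕ) (t : F), D.IsPosRoot s ∧ s ≠ D.simple j ∧
    (g : Matrix D.Idx D.Idx F) = D.x F s t} = Up ax j := by
  rw [Up, ← closure_eq_rootClosure ax]
  congr 1
  ext g
  simp only [Set.mem_setOf_eq, and_assoc]

include h h2 ax in
lemma x_conj_Up {j : ℕ} (hj : j < D.rank) (t : F) {v : GL D.Idx F} (hv : v ∈ Up ax j) :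
    xG ax (D.simple j) t * v * (xG ax (D.simple j) t)⁻¹ ∈ Up ax j := by
  obtain ⟨h3, h4⟩ := simple_root_complement (F := F) ax h h2 hj
  rw [hcl_Up ax j] at h3 h4
  have hx : xG ax (D.simple j) t ∈ D.rootSubgroup F (D.simple j) := by
    rw [rootSubgroup_eq ax]
    exact xG_mem_rootClosure ax (P := (· = D.simple j)) (r := D.simple j) rfl t
  have := h3 ((le_sup_left : D.rootSubgroup F (D.simple j) ≤ _) hx)
  exact (Subgroup.mem_normalizer_iff.mp this v).mp hv

include h h2 ax in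
lemma U_form_GL {j : ℕ} (hj : j < D.rank) {u : GL D.Idx F} (hu : u ∈ D.posUnipotent F) :
    ∃ c ∈ Up ax j, ∃ t : F, u = c * xG ax (D.simple j) t := by
  obtain ⟨h3, h4⟩ := simple_root_complement (F := F) ax h h2 hj
  rw [hcl_Up ax j] at h3 h4
  have hnorm : ∀ x ∈ D.rootSubgroup F (D.simple j), ∀ v ∈ Up ax j, x * v * x⁻¹ ∈ Up ax j := by
    intro x hx v hv
    have := h3 ((le_sup_left : D.rootSubgroup F (D.simple j) ≤ _) hx)
    exact (Subgroup.mem_normalizer_iff.mp this v).mp hv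
  rw [← h4] at hu
  obtain ⟨v, hv, x, hx, rfl⟩ := (mem_sup_iff_of_normalizes hnorm).mp hu
  rw [rootSubgroup_eq ax] at hx
  obtain ⟨t, rfl⟩ := mem_rootSubgroup h ax hx
  exact ⟨v, hv, t, rfl⟩

include ax in
lemma Up_le_U' (j : ℕ) : Up ax j ≤ D.posUnipotent F := by
  rw [posUnipotent_eq ax]
  exact rootClosure_mono ax fun s hs => hs.1

include h h2 in
lemma Up_eq_Pp {j : ℕ} (hj : j < D.rank) : Up ax j = rootClosure ax (Pp D [j]) := by
  rw [Up]
  congr 1
  funext r
  apply propext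
  constructor
  · rintro ⟨hr, hne⟩
    exact ⟨hr, isPos_reflect h h2 hj hr hne⟩
  · rintro ⟨hr, hw⟩
    refine ⟨hr, ?_⟩
    rintro rfl
    have hn : D.IsPosRoot (D.neg (D.simple j)) := by
      rw [← reflect_simple h hj]
      exact hw
    exact not_isNeg_of_isPos h hn ((isNegRoot_neg h (h.simple_lt j hj)).mpr (simple_isPos h hj))

include h h2 in
lemma mem_Pm_iff {j : ℕ} (hj : j < D.rank) {r : ℕ} : Pm D [j] r ↔ r = D.simple j := by
  constructor
  · rintro ⟨hr, hw⟩
    by_contra hne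
    exact not_isNeg_of_isPos h (isPos_reflect h h2 hj hr hne) hw
  · rintro rfl
    refine ⟨simple_isPos h hj, ?_⟩
    show D.IsNegRoot (D.reflectRoot j (D.simple j))
    rw [reflect_simple h hj]
    exact (isNegRoot_neg h (h.simple_lt j hj)).mpr (simple_isPos h hj)

include h h2 in
lemma length_Lm_single {j : ℕ} (hj : j < D.rank) : (Lm D [j]).length = 1 := by
  classical
  have hl : ∀ i ∈ [j], i < D.rank := by simpa using hj
  have hnd : (Lm D [j]).Nodup := (goodList_Lm h hl).sorted.imp (fun hab => Nat.ne_of_lt hab)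
  rw [← List.toFinset_card_of_nodup hnd]
  have e : (Lm D [j]).toFinset = {D.simple j} := by
    ext r
    rw [List.mem_toFinset, mem_Lm, Finset.mem_singleton, mem_Pm_iff h h2 hj]
  rw [e, Finset.card_singleton]

include h h2 ax in
lemma bruhat_form [Finite F] {j : ℕ} (hj : j < D.rank) {g : GL D.Idx F} (hg : g ∈ D.group F) :
    ∃ t : F, ∃ c ∈ Up ax j, ∃ y ∈ D.group F, ∃ b ∈ D.borelSubgroup F,
      (∀ u : F, y⁻¹ * xG ax (D.simple j) u * y ∈ D.posUnipotent F) ∧
      (g = xG ax (D.simple j) t * c * y * b ∨ g = xG ax (D.simple j) t * c * sG ax j * y * b) := by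
  obtain ⟨m, hm, hgc⟩ := bruhat_exists h h2 ax hg
  obtain ⟨b₁, hb₁, b₂, hb₂, rfl⟩ := mem_cell.mp hgc
  obtain ⟨c₁, hc₁, t₁, e₁⟩ := borel_form h h2 ax hj (Subgroup.inv_mem _ hb₁)
  have hb₁' : b₁ = xG ax (D.simple j) (-t₁) * c₁⁻¹ := by
    have e : b₁ = (b₁⁻¹)⁻¹ := by simp
    rw [e, e₁, _root_.mul_inv_rev, xG_inv]
  have hc₁' : c₁⁻¹ ∈ Bp ax j := Subgroup.inv_mem _ hc₁
  have hnormH : ∀ a ∈ D.diagonalSubgroup F, ∀ v ∈ Up ax j, a * v * a⁻¹ ∈ Up ax j :=
    fun a ha v hv => diagonal_conj_rootClosure ax h (fun r hr => hr.1.1) ha hv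
  obtain ⟨c, hc, a, ha, ec⟩ := (mem_sup_iff_of_normalizes hnormH).mp hc₁'
  have haN : a ∈ D.monomialSubgroup F := by
    rw [monomial_eq_monoS h h2 ax]
    exact diagonal_le_monoS ax ha
  have hy₀ : a * m ∈ D.monomialSubgroup F := Subgroup.mul_mem _ haN hm
  obtain ⟨π, cc, H⟩ := exists_isNor h h2 ax hy₀
  have Hi := H.inv h ax
  have hp := h.simple_lt j hj
  have hyG : a * m ∈ D.group F := monomial_le_group h ax hy₀
  have hgeq : b₁ * m * b₂ = xG ax (D.simple j) (-t₁) * c * (a * m) * b₂ := by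
    rw [hb₁', ec]
    simp only [mul_assoc]
  by_cases hpos : D.IsPosRoot (π⁻¹ ⟨D.simple j, hp⟩)
  · refine ⟨-t₁, c, hc, a * m, hyG, b₂, hb₂, ?_, Or.inl hgeq⟩
    intro u
    have e := Hi.conj ⟨D.simple j, hp⟩ u
    simp only [inv_inv] at e
    rw [e, posUnipotent_eq ax]
    exact xG_mem_rootClosure ax hpos _
  · have hsm := sG_mem_monomial h h2 ax hj
    refine ⟨-t₁, c, hc, (sG ax j)⁻¹ * (a * m),
      Subgroup.mul_mem _ (Subgroup.inv_mem _ (monomial_le_group h ax hsm)) hyG, b₂, hb₂, ?_, Or.inr ?_⟩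
    · intro u
      have e0 : sG ax j * xG ax (D.simple j) u * (sG ax j)⁻¹ = xG ax (D.neg (D.simple j)) (-u) := by
        rw [sG_mul_x h h2 ax hj]
        group
      have e := Hi.conj (negF h ⟨D.simple j, hp⟩) (-u)
      simp only [inv_inv] at e
      have e2 : ((sG ax j)⁻¹ * (a * m))⁻¹ * xG ax (D.simple j) u * ((sG ax j)⁻¹ * (a * m)) =
          (a * m)⁻¹ * (sG ax j * xG ax (D.simple j) u * (sG ax j)⁻¹) * (a * m) := by group
      rw [e2, e0]
      have e3 : xG ax (D.neg (D.simple j)) (-u) = xG ax ((negF h ⟨D.simple j, hp⟩ : Fin D.nroots)) (-u) := rfl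
      rw [e3, e, Hi.neg, posUnipotent_eq ax]
      exact xG_mem_rootClosure ax ((isPos_negF_iff h _).mpr hpos) _
    · rw [hgeq]
      group

section fin

variable [Fintype F]

/-- A root element in the group. -/
def xJ (h : Tab D) (ax : Ax D F) {j : ℕ} (hj : j < D.rank) (t : F) : ↥(D.group F) :=
  ⟨xG ax (D.simple j) t, xG_mem_group ax (h.simple_lt j hj) t⟩

/-- A torus element in the group. -/
def hJ (h : Tab D) (ax : Ax D F) {j : ℕ} (hj : j < D.rank) (t : F) : ↥(D.group F) :=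
  ⟨hG ax (D.simple j) t, hG_mem_group h ax (h.simple_lt j hj) t⟩

/-- A reflection in the group. -/
def sJ (h : Tab D) (h2 : Tab2 D) (ax : Ax D F) {j : ℕ} (hj : j < D.rank) : ↥(D.group F) :=
  ⟨sG ax j, monomial_le_group h ax (sG_mem_monomial h h2 ax hj)⟩

/-- The complement to a root subgroup. -/
abbrev UjG (ax : Ax D F) (j : ℕ) : Subgroup ↥(D.group F) := (Up ax j).subgroupOf (D.group F)

include h h2 in
lemma card_U_eq {j : ℕ} (hj : j < D.rank) : Nat.card (UG D F) = Fintype.card F * Nat.card (UjG ax j) := by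
  have hl : ∀ i ∈ [j], i < D.rank := by simpa using hj
  have e1 : Nat.card (UG D F) = Nat.card (D.posUnipotent F) :=
    Nat.card_congr (Subgroup.subgroupOfEquivOfLe (U_le_group h ax)).toEquiv
  have e2 : Nat.card (UjG ax j) = Nat.card (Up ax j) :=
    Nat.card_congr (Subgroup.subgroupOfEquivOfLe ((Up_le_U' ax j).trans (U_le_group h ax))).toEquiv
  rw [e1, e2, ← rootClosure_posRoots ax, card_goodList ax h h2 (goodList_posRoots h), ← length_Lm_add_Lp h hl,
    length_Lm_single h h2 hj, pow_add, pow_one, Up_eq_Pp h h2 ax hj, ← rootClosure_Lp h h2 ax,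
    card_goodList ax h h2 (goodList_Lp h hl)]

/-- The system of the abstract argument in a Chevalley group. -/
theorem sys {j : ℕ} (hj : j < D.rank) :
    Sys (UG D F) (UjG ax j) (BG D F) (xJ h ax hj) (hJ h ax hj) (sJ h h2 ax hj) where
  x_add a b := Subtype.ext (xG_add ax _ a b).symm
  x_mem t := Subgroup.mem_subgroupOf.mpr (by
    rw [posUnipotent_eq ax]
    exact xG_mem_rootClosure ax (simple_isPos h hj) t)
  Uj_le := fun c hc => Subgroup.mem_subgroupOf.mpr (Up_le_U' ax j (Subgroup.mem_subgroupOf.mp hc))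
  U_form := by
    intro u hu
    obtain ⟨c, hc, t, e⟩ := U_form_GL h h2 ax hj (Subgroup.mem_subgroupOf.mp hu)
    have hcG : c ∈ D.group F := U_le_group h ax (Up_le_U' ax j hc)
    exact ⟨⟨c, hcG⟩, Subgroup.mem_subgroupOf.mpr hc, t, Subtype.ext e⟩
  x_norm := fun t c hc => Subgroup.mem_subgroupOf.mpr (x_conj_Up h h2 ax hj t (Subgroup.mem_subgroupOf.mp hc))
  s_norm := fun c hc => Subgroup.mem_subgroupOf.mpr (sG_conj_Up h h2 ax hj (Subgroup.mem_subgroupOf.mp hc))
  B_norm := fun b hb u hu => Subgroup.mem_subgroupOf.mpr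
    (borel_conj_U h ax (Subgroup.mem_subgroupOf.mp hb) (Subgroup.mem_subgroupOf.mp hu))
  h_mem := fun t ht => Subgroup.mem_subgroupOf.mpr (diag_mem_borel h h2 ax (hG_mem_diagonal ax (h.simple_lt j hj) ht))
  h_one := Subtype.ext (hG_one ax _)
  ss_mem := Subgroup.mem_subgroupOf.mpr (diag_mem_borel h h2 ax (sG_sq_mem h h2 ax hj))
  rel := fun t ht => Subtype.ext (s_x_s h h2 ax hj ht)
  card_U := card_U_eq h h2 ax hj
  bruhat := by
    intro g
    obtain ⟨t, c, hc, y, hy, b, hb, hP, e⟩ := bruhat_form h h2 ax hj g.2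
    have hcG : c ∈ D.group F := U_le_group h ax (Up_le_U' ax j hc)
    have hbG := borel_le_group h ax hb
    refine ⟨t, ⟨c, hcG⟩, Subgroup.mem_subgroupOf.mpr hc, ⟨y, hy⟩, ⟨b, hbG⟩, Subgroup.mem_subgroupOf.mpr hb, ?_, ?_⟩
    · intro u
      exact Subgroup.mem_subgroupOf.mpr (hP u)
    · rcases e with e | e
      · exact Or.inl (Subtype.ext e)
      · exact Or.inr (Subtype.ext e)

end fin

include h h2 ax in
/-- The subgroup `H` is generated by the elements `h_j(t)`. -/
lemma diag_le_of_simple {K : Subgroup (GL D.Idx F)}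
    (hK : ∀ j, j < D.rank → ∀ t : F, t ≠ 0 → hG ax (D.simple j) t ∈ K) : D.diagonalSubgroup F ≤ K := by
  intro g hg
  obtain ⟨c, rfl⟩ := exists_psi h h2 ax hg
  have key : ∀ L : List ℕ, (∀ i ∈ L, i < D.rank) → tor D ((L.map fun i => hW D (D.simple i) (c i)).prod) ∈ K := by
    intro L
    induction L with
    | nil =>
      intro _
      simp only [List.map_nil, List.prod_nil, tor_one]
      exact Subgroup.one_mem _
    | cons a L ih =>
      intro hL
      have ha := hL a (List.mem_cons_self)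
      simp only [List.map_cons, List.prod_cons]
      rw [tor_mul, ← hG_eq_tor ax h (h.simple_lt a ha)]
      exact Subgroup.mul_mem _ (hK a ha _ (c a).ne_zero) (ih (fun i hi => hL i (List.mem_cons_of_mem _ hi)))
  exact key _ (fun i hi => List.mem_range.mp hi)

lemma parabolic_empty : D.parabolicSubgroup F (∅ : Set ℕ) = D.borelSubgroup F := by
  rw [parabolicSubgroup]
  have e : {g : GL D.Idx F | ∃ j ∈ (∅ : Set ℕ), j < D.rank ∧ (g : Matrix D.Idx D.Idx F) = D.nMat F (D.simple j) 1} = ∅ := by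
    ext g
    simp
  rw [e, Subgroup.closure_empty, sup_bot_eq]

variable [Fintype F]

include h h2 ax in
/-- **The only irreducible character of `p`-defect zero of a Chevalley group is the Steinberg character.** -/
theorem defect_zero_unique (p : ℕ) [Fact p.Prime] [CharP F p] {V : Type*} [AddCommGroup V] [Module ℂ V]
    [FiniteDimensional ℂ V] (ρ : Representation ℂ ↥(D.group F) V) [ρ.IsIrreducible]
    (hIrr : IsIrrCharacter ↥(D.group F) ρ.character)
    (hdeg : p ^ (Nat.card ↥(D.group F)).factorization p ∣ finrank ℂ V) : ρ.character = D.steinbergCharacter F := by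
  classical
  haveI : Fintype ↥(D.group F) := Fintype.ofFinite _
  haveI : Fintype (UG D F) := Fintype.ofFinite _
  have hp : p.Prime := Fact.out
  -- vanishing on `U`
  have hvan : ∀ k ∈ UG D F, k ≠ 1 → ρ.character k = 0 := by
    intro k hk hk1
    obtain ⟨P, hP⟩ := Cfsg.Agent.Lib.KS71.ChevInv.exists_sylow h h2 ax p
    have hkP : k ∈ (P : Subgroup ↥(D.group F)) := by
      have e : (P : Subgroup ↥(D.group F)) = UG D F := hP
      rw [e]
      exact hk
    obtain ⟨a, ha⟩ := (IsPGroup.iff_orderOf.mp P.isPGroup') ⟨k, hkP⟩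
    have ha' : orderOf k = p ^ a := by
      rw [← ha]
      exact (Subgroup.orderOf_coe ⟨k, hkP⟩)
    have ha0 : a ≠ 0 := by
      rintro rfl
      rw [pow_zero, orderOf_eq_one_iff] at ha'
      exact hk1 ha'
    apply Cfsg.Agent.Lib.Char.DefectZero.character_eq_zero_of_defect_zero ρ p
      ((Nat.card ↥(D.group F)).factorization p) hp (Nat.ordProj_dvd _ _)
      (Nat.pow_succ_factorization_not_dvd Nat.card_pos.ne' hp) hdeg k
    rw [ha']
    exact dvd_pow_self p ha0
  have hpos : 0 < finrank ℂ V := Cfsg.Agent.Lib.Char.Central.finrank_pos_of_irreducible ρ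
  have hd := finrank_Fx_of_vanish ρ (K := UG D F) hvan
  have hF0pos : 0 < finrank ℂ (Fx ρ (UG D F)) := by
    apply Nat.pos_of_ne_zero
    intro e
    rw [e, zero_mul] at hd
    omega
  have h0 : Fx ρ (UG D F) ≠ ⊥ := by
    intro e
    rw [e, finrank_bot] at hF0pos
    exact lt_irrefl _ hF0pos
  have hmain := fun (j : ℕ) (hj : j < D.rank) => StDefectAbs.main ρ (sys h h2 ax hj) hvan h0
  -- the torus acts trivially
  have hH : ∀ a (ha : a ∈ D.diagonalSubgroup F) (haG : a ∈ D.group F), ∀ f ∈ Fx ρ (UG D F), ρ ⟨a, haG⟩ f = f := by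
    intro a ha haG f hf
    have hle := diag_le_of_simple h h2 ax (K := (StabF ρ (Fx ρ (UG D F))).map (D.group F).subtype) (by
      intro j hj t ht
      exact ⟨hJ h ax hj t, fun f hf => (hmain j hj).1 t ht f hf, rfl⟩)
    obtain ⟨g, hg, e⟩ := hle ha
    have : g = ⟨a, haG⟩ := Subtype.ext e
    rw [← this]
    exact hg f hf
  have hUB : UG D F ≤ BG D F := fun u hu =>
    Subgroup.mem_subgroupOf.mpr ((le_sup_left : D.posUnipotent F ≤ D.borelSubgroup F) (Subgroup.mem_subgroupOf.mp hu))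
  have hB : ∀ f ∈ Fx ρ (UG D F), f ∈ Fx ρ (BG D F) := by
    intro f hf b hb
    obtain ⟨u, hu, a, ha, e⟩ := (mem_borel_iff ax h).mp (Subgroup.mem_subgroupOf.mp hb)
    have huG : u ∈ D.group F := U_le_group h ax hu
    have haG : a ∈ D.group F := diagonal_le_group h ax ha
    have e2 : b = ⟨u, huG⟩ * ⟨a, haG⟩ := Subtype.ext e
    rw [e2, map_mul, Module.End.mul_apply, hH a ha haG f hf]
    exact hf _ (Subgroup.mem_subgroupOf.mpr hu)
  -- the parabolic subgroups
  have hP0 : Fx ρ (D.parabolicIn F ∅) = Fx ρ (UG D F) := by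
    apply le_antisymm
    · apply Fx_anti
      intro u hu
      exact BG_le_parabolicIn _ (hUB hu)
    · intro f hf
      have := hB f hf
      have e : D.parabolicIn F (∅ : Finset ℕ) = BG D F := by
        rw [ChevalleyDatum.parabolicIn, Finset.coe_empty, parabolic_empty]
      rw [e]
      exact this
  have hPJ : ∀ J ∈ (Finset.range D.rank).powerset, J ≠ ∅ → Fx ρ (D.parabolicIn F J) = ⊥ := by
    intro J hJ hne
    obtain ⟨j, hjJ⟩ := Finset.nonempty_iff_ne_empty.mpr hne
    have hj : j < D.rank := Finset.mem_range.mp (Finset.mem_powerset.mp hJ hjJ)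
    rw [eq_bot_iff]
    intro y hy
    have hU : y ∈ Fx ρ (UG D F) := Fx_anti ρ (fun u hu => BG_le_parabolicIn _ (hUB hu)) hy
    have hs : ρ (sJ h h2 ax hj) y = y := hy _ (Subgroup.mem_subgroupOf.mpr
      (simple_mem_parabolic h h2 ax hj (Finset.mem_coe.mpr hjJ)))
    have e1 := (hmain j hj).2 y hU
    have e2 : SS ρ (xJ h ax hj) (sJ h h2 ax hj) y = (Fintype.card F : ℂ) • y := by
      rw [SS]
      have e3 : ∀ t, ρ (xJ h ax hj t * sJ h h2 ax hj) y = y := by
        intro t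
        rw [map_mul, Module.End.mul_apply, hs]
        exact hU _ ((sys h h2 ax hj).x_mem t)
      simp_rw [e3]
      rw [Finset.sum_const, Finset.card_univ, Nat.cast_smul_eq_nsmul]
    have e4 : ρ (sJ h h2 ax hj * sJ h h2 ax hj) y = y := by
      rw [map_mul, Module.End.mul_apply, hs, hs]
    rw [e2, e4] at e1
    have e5 : ((Fintype.card F : ℂ) + 1) • y = 0 := by
      rw [add_smul, one_smul, e1]
      simp
    have hq : ((Fintype.card F : ℂ) + 1) ≠ 0 := by
      have h9 : ((Fintype.card F + 1 : ℕ) : ℂ) ≠ 0 := Nat.cast_ne_zero.mpr (Nat.succ_ne_zero _)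
      simpa using h9
    exact (Submodule.mem_bot ℂ).mpr ((smul_eq_zero.mp e5).resolve_left hq)
  -- the inner product
  by_contra hne
  have hinner := Cfsg.Agent.Lib.Char.Ortho.classInner_eq_zero_of_isIrr_of_ne hIrr
    (Cfsg.Agent.Lib.KS71.StIrr.isIrr_steinberg h h2 ax) hne
  rw [Cfsg.Agent.Lib.Char.Ortho.classInner_def] at hinner
  have hG0 : (Nat.card ↥(D.group F) : ℂ) ≠ 0 := Nat.cast_ne_zero.mpr Nat.card_pos.ne'
  have hsum : ∑ g : ↥(D.group F), ρ.character g * conj (D.steinbergCharacter F g) =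
      (Nat.card ↥(D.group F) : ℂ) * (finrank ℂ (Fx ρ (UG D F)) : ℂ) := by
    have e1 : ∀ g : ↥(D.group F), ρ.character g * conj (D.steinbergCharacter F g) =
        ∑ J ∈ (Finset.range D.rank).powerset,
          (-1 : ℂ) ^ J.card * (ρ.character g * (Nat.card (MulAction.fixedBy (↥(D.group F) ⧸ D.parabolicIn F J) g) : ℂ)) := by
      intro g
      rw [ChevalleyDatum.steinbergCharacter, map_sum, Finset.mul_sum]
      apply Finset.sum_congr rfl
      intro J _
      simp only [fixedPointCharacter, map_mul, map_pow, map_neg, map_one, Complex.conj_natCast]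
      ring
    simp_rw [e1]
    rw [Finset.sum_comm]
    rw [Finset.sum_eq_single (∅ : Finset ℕ)]
    · rw [← Finset.mul_sum, sum_char_mul_fix ρ, hP0]
      simp
    · intro J hJ hne
      rw [← Finset.mul_sum, sum_char_mul_fix ρ, hPJ J hJ hne, finrank_bot]
      simp
    · intro hn
      exact (hn (Finset.empty_mem_powerset _)).elim
  rw [hsum, inv_mul_cancel_left₀ hG0] at hinner
  have : finrank ℂ (Fx ρ (UG D F)) = 0 := by exact_mod_cast hinner
  omega

end Cfsg.Agent.Lib.KS71.StDefect
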