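/-
The Chevalley groups have exactly two blocks in the defining characteristic.
-/
import Mathlib
import Cfsg.Agent.Lib.KS71.BlockTwo
import Cfsg.Agent.Lib.KS71.BTCent
import Cfsg.Agent.Lib.KS71.StDefect

set_option autoImplicit false
set_option linter.unusedSectionVars false
set_option linter.unusedVariables false

namespace Cfsg.Agent.Lib.KS71.BlockChev

open Cfsg Cfsg.Lie Cfsg.Lie.ChevalleyDatum
open Cfsg.Agent.Lib.Chev.Tables Cfsg.Agent.Lib.Chev.Tables2 Cfsg.Agent.Lib.Chev.Tables3 Cfsg.Agent.Lib.Chev.Raise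
open Cfsg.Agent.Lib.Chev.Basic Cfsg.Agent.Lib.Chev.AxBasic Cfsg.Agent.Lib.Chev.Torus
open Cfsg.Agent.Lib.Chev.Products Cfsg.Agent.Lib.Chev.Products2 Cfsg.Agent.Lib.Chev.Mono1
open Cfsg.Agent.Lib.Chev.Mono2 Cfsg.Agent.Lib.Chev.Mono3 Cfsg.Agent.Lib.Chev.Bn
open Cfsg.Agent.Lib.Chev.Order1 Cfsg.Agent.Lib.Chev.Order2 Cfsg.Agent.Lib.Chev.Parab
open Cfsg.Agent.Lib.KS71.BTCent Cfsg.Agent.Lib.KS71.BlockTwo

variable {D : ChevalleyDatum} {F : Type*} [Field F] [Fintype F]
variable (h : Tab D) (h2 : Tab2 D) (ax : Ax D F)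

lemma mem_map_conj {X : Subgroup (GL D.Idx F)} {g y : GL D.Idx F} :
    y ∈ X.map (MulAut.conj g).toMonoidHom ↔ g⁻¹ * y * g ∈ X := by
  constructor
  · rintro ⟨u, hu, rfl⟩
    have : g⁻¹ * ((MulAut.conj g).toMonoidHom u) * g = u := by
      simp only [MulEquiv.coe_toMonoidHom, MulAut.conj_apply]
      group
    rw [this]
    exact hu
  · intro hy
    refine ⟨_, hy, ?_⟩
    simp only [MulEquiv.coe_toMonoidHom, MulAut.conj_apply]
    group

include h h2 ax in
/-- A subgroup conjugate into `U` is a `p`-group. -/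
lemma isPGroup_of_conj (p : ℕ) [Fact p.Prime] [CharP F p] {K : Subgroup ↥(D.group F)} (g : ↥(D.group F))
    (hK : ∀ y ∈ K, ((g⁻¹ * y * g : ↥(D.group F)) : GL D.Idx F) ∈ D.posUnipotent F) : IsPGroup p K := by
  obtain ⟨P, hP⟩ := Cfsg.Agent.Lib.KS71.ChevInv.exists_sylow h h2 ax p
  rw [IsPGroup.iff_orderOf]
  rintro ⟨y, hy⟩
  have h3 : g⁻¹ * y * g ∈ (P : Subgroup ↥(D.group F)) := by
    rw [hP, Subgroup.mem_subgroupOf]
    exact hK y hy
  obtain ⟨k, hk⟩ := (IsPGroup.iff_orderOf.mp P.isPGroup') ⟨_, h3⟩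
  refine ⟨k, ?_⟩
  rw [Subgroup.orderOf_mk] at hk ⊢
  rw [← hk]
  have e : g⁻¹ * y * g = MulAut.conj g⁻¹ y := by
    rw [MulAut.conj_apply, inv_inv]
  rw [e]
  exact (MulEquiv.orderOf_eq _ y).symm

include h h2 ax in
/-- The hypothesis of the criterion. -/
theorem cent_le (ht2 : T2 D) (p : ℕ) [Fact p.Prime] [CharP F p] (Q : Subgroup ↥(D.group F)) (hne : Q ≠ ⊥)
    (hQ : IsPGroup p Q)
    (hcore : (pCore p (Subgroup.normalizer (Q : Set ↥(D.group F)))).map (Subgroup.normalizer (Q : Set ↥(D.group F))).subtype = Q) :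
    Subgroup.centralizer (Q : Set ↥(D.group F)) ≤ Q := by
  classical
  haveI : Fintype ↥(D.group F) := Fintype.ofFinite _
  set U₀ : Subgroup (GL D.Idx F) := Q.map (D.group F).subtype with hU₀
  have hU₀G : U₀ ≤ D.group F := by
    rintro _ ⟨a, -, rfl⟩
    exact a.2
  have hU₀p : IsPGroup p ↥U₀ := hQ.map _
  have hU₀ne : U₀ ≠ ⊥ := by
    rw [hU₀, Ne, Subgroup.map_eq_bot_iff_of_injective _ (D.group F).subtype_injective]
    exact hne
  obtain ⟨g, hg, J, ⟨i, hi, hiJ⟩, hN, hU⟩ := Cfsg.Agent.Lib.KS71.BTFinal.borel_tits h h2 ax p U₀ hU₀G hU₀p hU₀ne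
  set gG : ↥(D.group F) := ⟨g, hg⟩ with hgG
  -- the radical, conjugated
  let V : Subgroup ↥(D.group F) := ((D.unipotentRadical F J).map (MulAut.conj g).toMonoidHom).subgroupOf (D.group F)
  have memV : ∀ y : ↥(D.group F), y ∈ V ↔ g⁻¹ * (y : GL D.Idx F) * g ∈ D.unipotentRadical F J := by
    intro y
    rw [Subgroup.mem_subgroupOf, mem_map_conj]
  have hVp : IsPGroup p V := by
    apply isPGroup_of_conj h h2 ax p gG
    intro y hy
    exact radical_le_U h h2 ax J ((memV y).mp hy)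
  have hQV : Q ≤ V := by
    intro y hy
    rw [Subgroup.mem_subgroupOf]
    exact hU (Subgroup.mem_map_of_mem _ hy)
  have hNorm : ∀ n ∈ Subgroup.normalizer (Q : Set ↥(D.group F)), ∀ k ∈ V, n * k * n⁻¹ ∈ V := by
    intro n hn k hk
    have hn' : (n : GL D.Idx F) ∈ Subgroup.normalizer (U₀ : Set (GL D.Idx F)) ⊓ D.group F := by
      refine ⟨?_, n.2⟩
      show (n : GL D.Idx F) ∈ Subgroup.normalizer (U₀ : Set (GL D.Idx F))
      rw [Subgroup.mem_normalizer_iff]
      intro a
      constructor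
      · rintro ⟨b, hb, rfl⟩
        refine ⟨n * b * n⁻¹, (Subgroup.mem_normalizer_iff.mp hn b).mp hb, ?_⟩
        simp
      · intro ha
        have haG : (n : GL D.Idx F) * a * (n : GL D.Idx F)⁻¹ ∈ D.group F := hU₀G ha
        have haG' : a ∈ D.group F := by
          have : a = (n : GL D.Idx F)⁻¹ * ((n : GL D.Idx F) * a * (n : GL D.Idx F)⁻¹) * (n : GL D.Idx F) := by group
          rw [this]
          exact Subgroup.mul_mem _ (Subgroup.mul_mem _ (Subgroup.inv_mem _ n.2) haG) n.2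
        obtain ⟨b, hb, hbe⟩ := ha
        refine ⟨⟨a, haG'⟩, (Subgroup.mem_normalizer_iff.mp hn _).mpr ?_, rfl⟩
        have : n * ⟨a, haG'⟩ * n⁻¹ = b := Subtype.ext hbe.symm
        rw [this]
        exact hb
    have hp := hN hn'
    rw [mem_map_conj] at hp
    rw [memV]
    have hk' := (memV k).mp hk
    have h3 := (Subgroup.mem_normalizer_iff.mp (parabolic_le_normalizer h h2 ax J hp) _).mp hk'
    have e : g⁻¹ * ((n * k * n⁻¹ : ↥(D.group F)) : GL D.Idx F) * g =
        (g⁻¹ * (n : GL D.Idx F) * g) * (g⁻¹ * (k : GL D.Idx F) * g) * (g⁻¹ * (n : GL D.Idx F) * g)⁻¹ := by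
      simp only [Subgroup.coe_mul, InvMemClass.coe_inv]
      group
    rw [e]
    exact h3
  -- `Q` is this radical
  have hle : V ⊓ Subgroup.normalizer (Q : Set ↥(D.group F)) ≤ Q := by
    apply le_of_core (p := p) hcore inf_le_right (hVp.to_le inf_le_left)
    rintro n hn k ⟨hk1, hk2⟩
    exact ⟨hNorm n hn k hk1, Subgroup.mul_mem _ (Subgroup.mul_mem _ hn hk2) (Subgroup.inv_mem _ hn)⟩
  have hQe : Q = V := by
    by_contra hne'
    obtain ⟨x, hx1, hx2, hx3⟩ := exists_norm hVp hQV hne'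
    exact hx2 (hle ⟨hx1, hx3⟩)
  -- the centraliser
  apply le_of_core (p := p) hcore
  · intro y hy
    rw [Subgroup.mem_normalizer_iff]
    intro a
    rw [Subgroup.mem_centralizer_iff] at hy
    constructor
    · intro ha
      have : y * a * y⁻¹ = a := by
        rw [← hy a ha]
        group
      rw [this]
      exact ha
    · intro ha
      have h3 := hy _ ha
      have : a = y * a * y⁻¹ := by
        have h5 : y * a = y * (y * a * y⁻¹) := by
          rw [← h3]
          group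
        exact mul_left_cancel h5
      rw [this]
      exact ha
  · apply isPGroup_of_conj h h2 ax p gG
    intro y hy
    rw [Subgroup.mem_centralizer_iff] at hy
    apply centralizer_le_U h h2 ax ht2 hi hiJ
    intro u hu
    have hw : g * u * g⁻¹ ∈ (D.unipotentRadical F J).map (MulAut.conj g).toMonoidHom := by
      rw [mem_map_conj]
      have : g⁻¹ * (g * u * g⁻¹) * g = u := by group
      rw [this]
      exact hu
    have hwG : g * u * g⁻¹ ∈ D.group F :=
      Subgroup.mul_mem _ (Subgroup.mul_mem _ hg (U_le_group h ax (radical_le_U h h2 ax J hu))) (Subgroup.inv_mem _ hg)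
    have hwV : (⟨g * u * g⁻¹, hwG⟩ : ↥(D.group F)) ∈ V := Subgroup.mem_subgroupOf.mpr hw
    rw [← hQe] at hwV
    have h3 := congrArg Subtype.val (hy _ hwV)
    simp only [Subgroup.coe_mul] at h3
    simp only [hgG, Subgroup.coe_mul, InvMemClass.coe_inv]
    calc g⁻¹ * (y : GL D.Idx F) * g * u = g⁻¹ * ((y : GL D.Idx F) * (g * u * g⁻¹)) * g := by group
      _ = g⁻¹ * ((g * u * g⁻¹) * (y : GL D.Idx F)) * g := by rw [h3]
      _ = _ := by group
  · intro n hn k hk
    rw [Subgroup.mem_centralizer_iff] at hk ⊢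
    intro d hd
    have hd' : n⁻¹ * d * n ∈ Q := by
      apply (Subgroup.mem_normalizer_iff.mp hn _).mpr
      have : n * (n⁻¹ * d * n) * n⁻¹ = d := by group
      rw [this]
      exact hd
    have h3 := hk _ hd'
    calc d * (n * k * n⁻¹) = n * ((n⁻¹ * d * n) * k) * n⁻¹ := by group
      _ = n * (k * (n⁻¹ * d * n)) * n⁻¹ := by rw [h3]
      _ = _ := by group

include h h2 ax in
/-- **A Chevalley group has exactly two blocks in its defining characteristic.** -/
theorem two_blocks (ht2 : T2 D) (hrank : 0 < D.rank) (p : ℕ) [Fact p.Prime] [CharP F p] (M : Ideal AlgInt)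
    (hM : IsPModular p M) : Nat.card {B : Set (IrrCharacter ↥(D.group F)) // IsPBlock M B} = 2 := by
  classical
  haveI : Fintype ↥(D.group F) := Fintype.ofFinite _
  obtain ⟨P, hP⟩ := Cfsg.Agent.Lib.KS71.ChevInv.exists_sylow h h2 ax p
  have hSt1 : D.steinbergCharacter F 1 = ((Fintype.card F ^ (D.nroots / 2) : ℕ) : ℂ) := by
    rw [Cfsg.Agent.Lib.KS71.StMain.steinberg_one h h2 ax]
    push_cast
    rfl
  have hcardU : Nat.card (P : Subgroup ↥(D.group F)) = Fintype.card F ^ (D.nroots / 2) := by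
    rw [hP, ← card_U (F := F) ax h h2]
    exact Nat.card_congr (Subgroup.subgroupOfEquivOfLe (U_le_group h ax)).toEquiv
  have hsyl : Fintype.card F ^ (D.nroots / 2) = p ^ (Nat.card ↥(D.group F)).factorization p := by
    rw [← hcardU]
    exact Sylow.card_eq_multiplicity P
  let St : IrrCharacter ↥(D.group F) := ⟨D.steinbergCharacter F, Cfsg.Agent.Lib.KS71.StIrr.isIrr_steinberg h h2 ax⟩
  have hdegSt : charDegree (St : ↥(D.group F) → ℂ) = Fintype.card F ^ (D.nroots / 2) := by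
    have h3 := Cfsg.Agent.Lib.Char.Degree.charDegree_natCast
      (Cfsg.Agent.Lib.Char.Basic.isCharacter_of_isIrrCharacter St.2)
    have h4 : (St : ↥(D.group F) → ℂ) 1 = ((Fintype.card F ^ (D.nroots / 2) : ℕ) : ℂ) := hSt1
    rw [h4] at h3
    exact_mod_cast h3
  refine card_blocks_eq_two (p := p) hM St ?_ ?_ ?_ ?_
  · rw [hdegSt, hsyl]
  · intro χ hχ
    obtain ⟨χ₀, hχ₀⟩ := χ
    obtain ⟨n, ρ, hρ, rfl⟩ := id hχ₀
    haveI : ρ.IsIrreducible := hρ
    apply Subtype.ext
    apply Cfsg.Agent.Lib.KS71.StDefect.defect_zero_unique h h2 ax p ρ hχ₀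
    have h3 := Cfsg.Agent.Lib.Char.Degree.charDegree_natCast
      (Cfsg.Agent.Lib.Char.Basic.isCharacter_of_isIrrCharacter hχ₀)
    have h4 : ρ.character 1 = ((Module.finrank ℂ (Fin n → ℂ) : ℕ) : ℂ) := Representation.char_one ρ
    rw [h4] at h3
    have h5 : charDegree ρ.character = Module.finrank ℂ (Fin n → ℂ) := by exact_mod_cast h3
    rw [← h5]
    exact hχ
  · intro he
    have h3 := congrArg (fun χ : IrrCharacter ↥(D.group F) => (χ : ↥(D.group F) → ℂ) 1) he
    have h4 : D.steinbergCharacter F 1 = 1 := h3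
    rw [hSt1] at h4
    have h5 : Fintype.card F ^ (D.nroots / 2) = 1 := by exact_mod_cast h4
    have h6 : 1 < Fintype.card F := Fintype.one_lt_card
    have h7 : D.nroots / 2 ≠ 0 := by
      have h8 := h.simple_lt 0 hrank
      have h9 := h.neg_lt _ h8
      have h10 := h.neg_ne _ h8
      omega
    have := Nat.one_lt_pow h7 h6
    omega
  · exact fun Q hne hQ hcore => cent_le h h2 ax ht2 p Q hne hQ hcore

end Cfsg.Agent.Lib.KS71.BlockChev
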