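/-
Additivity of `p`-th powers modulo commutators, through symmetric functionals.
-/
import Mathlib

set_option autoImplicit false
set_option linter.unusedSectionVars false
set_option linter.unusedVariables false

namespace Cfsg.Agent.Lib.KS71.BrA

open scoped Fin.NatCast Fin.CommRing

/-- Expansion of a power of a sum in a noncommutative semiring. -/
lemma pow_sum_eq {R ι : Type*} [Semiring R] [Fintype ι] (f : ι → R) (r : ℕ) :
    (∑ i, f i) ^ r = ∑ t : Fin r → ι, (List.ofFn fun i => f (t i)).prod := by
  induction r with
  | zero => simp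
  | succ r ih =>
    rw [pow_succ', ih, Finset.sum_mul_sum]
    rw [← (Fin.consEquiv (fun _ : Fin (r + 1) => ι)).sum_comp]
    rw [Fintype.sum_prod_type]
    refine Finset.sum_congr rfl fun i _ => Finset.sum_congr rfl fun t _ => ?_
    simp [List.ofFn_succ, Fin.consEquiv]

/-- The sum of a rotation-invariant function equals the sum over the fixed points, in
characteristic `p`. -/
lemma sum_eq_sum_fix {X : Type*} [Fintype X] [DecidableEq X] (σ : Equiv.Perm X) {p e : ℕ} [Fact p.Prime]
    (hσ : σ ^ (p ^ e) = 1) {k : Type*} [Field k] [CharP k p] [DecidableEq k] (w : X → k)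
    (hw : ∀ x, w (σ x) = w x) :
    ∑ x, w x = ∑ x ∈ Finset.univ.filter (fun x => σ x = x), w x := by
  classical
  have key : ∀ c : k, ((Finset.univ.filter fun x => w x = c).card : k) =
      ((Finset.univ.filter fun x => w x = c ∧ σ x = x).card : k) := by
    intro c
    let L := {x : X // w x = c}
    let f : Function.End L := fun x => ⟨σ x.1, by rw [hw]; exact x.2⟩
    have hpow : ∀ (m : ℕ) (x : L), ((f ^ m) x).1 = (σ ^ m) x.1 := by
      intro m
      induction m with
      | zero => intro x; rfl
      | succ m ih =>
        intro x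
        rw [pow_succ', pow_succ', Equiv.Perm.mul_apply, ← ih]
        rfl
    have hf : f ^ p ^ e = 1 := by
      funext x
      apply Subtype.ext
      rw [hpow, hσ]
      rfl
    have h1 := Equiv.Perm.card_fixedPoints_modEq hf
    have h2 : Fintype.card L = (Finset.univ.filter fun x => w x = c).card := by
      rw [Fintype.card_subtype]
    have h3 : Fintype.card (Function.fixedPoints f) =
        (Finset.univ.filter fun x => w x = c ∧ σ x = x).card := by
      rw [Fintype.card_of_subtype (Finset.univ.filter fun x : L => f x = x) (fun x => by simp only [Finset.mem_filter, Finset.mem_univ, true_and]; exact Iff.rfl)]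
      refine Finset.card_bij (fun x _ => x.1) ?_ ?_ ?_
      · intro x hx
        simp only [Finset.mem_filter, Finset.mem_univ, true_and] at hx ⊢
        exact ⟨x.2, congrArg Subtype.val hx⟩
      · intro x _ y _ e
        exact Subtype.ext e
      · intro x hx
        simp only [Finset.mem_filter, Finset.mem_univ, true_and] at hx
        refine ⟨⟨x, hx.1⟩, ?_, rfl⟩
        simp only [Finset.mem_filter, Finset.mem_univ, true_and]
        exact Subtype.ext hx.2
    rw [h2, h3] at h1
    exact (CharP.natCast_eq_natCast k p).mpr h1
  have e1 : ∑ x, w x = ∑ c ∈ Finset.univ.image w, ((Finset.univ.filter fun x => w x = c).card : k) * c := by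
    rw [← Finset.sum_fiberwise_of_maps_to (s := Finset.univ) (t := Finset.univ.image w) (g := w)
      (fun x _ => Finset.mem_image_of_mem _ (Finset.mem_univ x))]
    refine Finset.sum_congr rfl fun c _ => ?_
    rw [Finset.sum_congr rfl (fun x hx => by rw [(Finset.mem_filter.mp hx).2]), Finset.sum_const, nsmul_eq_mul]
  have e2 : ∑ x ∈ Finset.univ.filter (fun x => σ x = x), w x =
      ∑ c ∈ Finset.univ.image w, ((Finset.univ.filter fun x => w x = c ∧ σ x = x).card : k) * c := by
    rw [← Finset.sum_fiberwise_of_maps_to (s := Finset.univ.filter (fun x => σ x = x))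
      (t := Finset.univ.image w) (g := w)
      (fun x _ => Finset.mem_image_of_mem _ (Finset.mem_univ x))]
    refine Finset.sum_congr rfl fun c _ => ?_
    have : (Finset.univ.filter fun x => w x = c ∧ σ x = x) =
        ((Finset.univ.filter fun x => σ x = x).filter fun x => w x = c) := by
      ext x
      simp only [Finset.mem_filter, Finset.mem_univ, true_and]
      tauto
    rw [this, Finset.sum_congr rfl (fun x hx => by rw [(Finset.mem_filter.mp hx).2]), Finset.sum_const,
      nsmul_eq_mul]
  rw [e1, e2]
  refine Finset.sum_congr rfl fun c _ => ?_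
  rw [key]

/-- The rotation of tuples. -/
def rot (r : ℕ) [NeZero r] (ι : Type*) : Equiv.Perm (Fin r → ι) :=
  (Equiv.addRight (1 : Fin r)).arrowCongr (Equiv.refl ι)

lemma rot_apply_symm (r : ℕ) [NeZero r] (ι : Type*) (t : Fin r → ι) (i : Fin r) :
    (rot r ι).symm t i = t (i + 1) := by
  simp [rot, Equiv.arrowCongr]

lemma rot_symm_pow (r : ℕ) [NeZero r] (ι : Type*) (m : ℕ) (t : Fin r → ι) (i : Fin r) :
    (((rot r ι).symm) ^ m) t i = t (i + (m : Fin r)) := by
  induction m generalizing t i with
  | zero => simp
  | succ m ih =>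
    rw [pow_succ, Equiv.Perm.mul_apply, ih, rot_apply_symm]
    congr 1
    push_cast
    ring

/-- `φ` symmetric: `φ` of a sum raised to a `p`-power is additive. -/
theorem sym_sum_pow {R k ι : Type*} [Ring R] [Field k] {p : ℕ} [Fact p.Prime] [CharP k p] [Fintype ι]
    (φ : R →+ k) (hφ : ∀ x y, φ (x * y) = φ (y * x)) (f : ι → R) (e : ℕ) :
    φ ((∑ i, f i) ^ (p ^ e)) = ∑ i, φ (f i ^ (p ^ e)) := by
  classical
  have hp0 : p ≠ 0 := (Fact.out : p.Prime).ne_zero
  set r := p ^ e with hr
  haveI : NeZero r := ⟨pow_ne_zero _ hp0⟩
  rw [pow_sum_eq, map_sum]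
  let w : (Fin r → ι) → k := fun t => φ (List.ofFn fun i => f (t i)).prod
  let σ : Equiv.Perm (Fin r → ι) := (rot r ι).symm
  have hσ : σ ^ (p ^ e) = 1 := by
    ext t i
    change (((rot r ι).symm) ^ (p ^ e)) t i = t i
    rw [rot_symm_pow, ← hr]
    simp
  have hw : ∀ t, w (σ t) = w t := by
    intro t
    obtain ⟨m, hm⟩ : ∃ m, r = m + 1 := Nat.exists_eq_succ_of_ne_zero (NeZero.ne r)
    revert t σ w hσ
    revert hr
    generalize r = r' at *
    subst hm
    intro hr w σ hσ t
    change φ _ = φ _
    have e1 : (List.ofFn fun i => f (σ t i)) = (List.ofFn fun i : Fin m => f (t i.succ)) ++ [f (t 0)] := by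
      rw [List.ofFn_succ', List.concat_eq_append]
      congr 1
      · congr 1
        funext i
        have : σ t i.castSucc = t (i.castSucc + 1) := rot_apply_symm _ _ _ _
        rw [this, Fin.coeSucc_eq_succ]
      · congr 2
        have : σ t (Fin.last m) = t (Fin.last m + 1) := rot_apply_symm _ _ _ _
        rw [this]
        simp
    have e2 : (List.ofFn fun i => f (t i)) = f (t 0) :: (List.ofFn fun i : Fin m => f (t i.succ)) := by
      rw [List.ofFn_succ]
    rw [e1, e2]
    simp only [List.prod_append, List.prod_cons, List.prod_nil, mul_one]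
    exact hφ _ _
  have h1 := sum_eq_sum_fix σ hσ w hw
  change ∑ t, w t = _
  rw [h1]
  -- the fixed points are the constant tuples
  have hfix : Finset.univ.filter (fun t => σ t = t) = Finset.univ.image (fun i : ι => fun _ : Fin r => i) := by
    ext t
    simp only [Finset.mem_filter, Finset.mem_univ, true_and, Finset.mem_image]
    constructor
    · intro ht
      refine ⟨t 0, ?_⟩
      funext i
      have h2 : ∀ m : ℕ, t (m : Fin r) = t 0 := by
        intro m
        induction m with
        | zero => simp
        | succ m ih =>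
          have h3 : σ t (m : Fin r) = t ((m : Fin r) + 1) := rot_apply_symm _ _ _ _
          rw [ht] at h3
          push_cast
          rw [← h3, ih]
      have h4 := h2 i.val
      rw [Fin.cast_val_eq_self] at h4
      exact h4.symm
    · rintro ⟨i, rfl⟩
      funext j
      rfl
  rw [hfix, Finset.sum_image]
  · refine Finset.sum_congr rfl fun i _ => ?_
    change φ _ = _
    congr 1
    have : (List.ofFn fun _ : Fin r => f i) = List.replicate r (f i) := by
      rw [List.ofFn_const]
    rw [this, List.prod_replicate]
  · intro i _ j _ e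
    exact congrFun e 0

end Cfsg.Agent.Lib.KS71.BrA
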