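/-
Class-sum functionals of a group algebra and symmetric functionals on matrix algebras.
-/
import Mathlib
import Cfsg.Agent.Lib.KS71.BrA

set_option autoImplicit false
set_option linter.unusedSectionVars false
set_option linter.unusedVariables false

namespace Cfsg.Agent.Lib.KS71.BrB

open Module MonoidAlgebra
open scoped MonoidAlgebra
open Cfsg.Agent.Lib.KS71.BrA

universe u v

section CS

variable {G : Type u} [Group G] [Fintype G] {k : Type u} [Field k]

/-- The sum of the coefficients over a conjugacy class. -/
noncomputable def cs (D : ConjClasses G) : k[G] →ₗ[k] k :=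
  letI := Classical.decEq (ConjClasses G)
  { toFun := fun a => ∑ g : G, if ConjClasses.mk g = D then a.coeff g else 0
    map_add' := by
      intro a b
      rw [← Finset.sum_add_distrib]
      refine Finset.sum_congr rfl fun g _ => ?_
      split_ifs
      · simp [coeff_add]
      · simp
    map_smul' := by
      intro c a
      simp only [RingHom.id_apply, smul_eq_mul, Finset.mul_sum]
      refine Finset.sum_congr rfl fun g _ => ?_
      split_ifs
      · simp [coeff_smul]
      · simp }

lemma cs_apply (D : ConjClasses G) (a : k[G]) [DecidableEq (ConjClasses G)] :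
    cs D a = ∑ g : G, if ConjClasses.mk g = D then a.coeff g else 0 := by
  simp only [cs, LinearMap.coe_mk, AddHom.coe_mk]
  refine Finset.sum_congr rfl fun g _ => ?_
  by_cases h : ConjClasses.mk g = D <;> simp [h]

lemma cs_single (D : ConjClasses G) (g : G) (c : k) [DecidableEq (ConjClasses G)] :
    cs D (single g c) = if ConjClasses.mk g = D then c else 0 := by
  classical
  rw [cs_apply, Finset.sum_eq_single g]
  · simp [coeff_single]
  · intro h _ hh
    split_ifs
    · simp [coeff_single, Finsupp.single_apply, Ne.symm hh]
    · rfl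
  · intro h
    exact absurd (Finset.mem_univ _) h

lemma cs_sym (D : ConjClasses G) (x y : k[G]) : cs D (x * y) = cs D (y * x) := by
  classical
  induction x using MonoidAlgebra.induction_on with
  | of g =>
    induction y using MonoidAlgebra.induction_on with
    | of h =>
      simp only [of_apply, single_mul_single, mul_one]
      rw [cs_single, cs_single]
      have : ConjClasses.mk (g * h) = ConjClasses.mk (h * g) := by
        rw [ConjClasses.mk_eq_mk_iff_isConj, isConj_iff]
        exact ⟨h, by group⟩
      rw [this]
    | add a b ha hb => simp only [mul_add, add_mul, map_add, ha, hb]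
    | smul c a ha => simp only [mul_smul_comm, smul_mul_assoc, map_smul, ha]
  | add a b ha hb => simp only [mul_add, add_mul, map_add, ha, hb]
  | smul c a ha => simp only [mul_smul_comm, smul_mul_assoc, map_smul, ha]

lemma cs_pow_sym (D : ConjClasses G) (x y : k[G]) (m : ℕ) : cs D ((x * y) ^ m) = cs D ((y * x) ^ m) := by
  cases m with
  | zero => simp
  | succ m =>
    have aux : ∀ m : ℕ, (x * y) ^ m * x = x * (y * x) ^ m := by
      intro m
      induction m with
      | zero => simp
      | succ m ih =>
        calc (x * y) ^ (m + 1) * x = ((x * y) ^ m * x) * (y * x) := by rw [pow_succ]; simp only [mul_assoc]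
          _ = x * (y * x) ^ (m + 1) := by rw [ih, pow_succ, mul_assoc]
    have e1 : (x * y) ^ (m + 1) = x * ((y * x) ^ m * y) := by
      rw [pow_succ, ← mul_assoc, ← mul_assoc, aux]
    have e2 : (y * x) ^ (m + 1) = ((y * x) ^ m * y) * x := by
      rw [pow_succ, mul_assoc]
    rw [e1, e2, cs_sym]

lemma eq_sum_single (a : k[G]) : a = ∑ g : G, single g (a.coeff g) := by
  classical
  ext h
  rw [coeff_sum, Finsupp.finsetSum_apply, Finset.sum_eq_single h]
  · simp [coeff_single]
  · intro g _ hg
    simp [coeff_single, Finsupp.single_apply, hg]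
  · intro h'
    exact absurd (Finset.mem_univ _) h'

/-- The power formula. -/
lemma cs_pow {p : ℕ} [Fact p.Prime] [CharP k p] (D : ConjClasses G) (a : k[G]) (e : ℕ)
    [DecidableEq (ConjClasses G)] :
    cs D (a ^ (p ^ e)) = ∑ g : G, if ConjClasses.mk (g ^ (p ^ e)) = D then (a.coeff g) ^ (p ^ e) else 0 := by
  conv_lhs => rw [eq_sum_single a]
  have h := sym_sum_pow (p := p) (cs D : k[G] →ₗ[k] k).toAddMonoidHom (cs_sym D)
    (fun g : G => single g (a.coeff g)) e
  simp only [LinearMap.toAddMonoidHom_coe] at h
  rw [h]
  refine Finset.sum_congr rfl fun g _ => ?_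
  rw [single_pow, cs_single]

end CS

section MatrixSym

variable {k : Type*} [Field k]

/-- A symmetric functional on a matrix algebra is a multiple of the trace. -/
lemma matrix_sym {n : Type*} [Fintype n] [DecidableEq n] (ψ : Matrix n n k →ₗ[k] k)
    (hψ : ∀ x y, ψ (x * y) = ψ (y * x)) : ∃ e : k, ∀ M, ψ M = e * M.trace := by
  classical
  by_cases hn : Nonempty n
  · obtain ⟨i₀⟩ := hn
    refine ⟨ψ (Matrix.single i₀ i₀ 1), fun M => ?_⟩
    have hoff : ∀ i j, i ≠ j → ψ (Matrix.single i j 1) = 0 := by
      intro i j hij
      have e1 : (Matrix.single i j (1 : k)) = Matrix.single i i 1 * Matrix.single i j 1 := by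
        rw [Matrix.single_mul_single_same, one_mul]
      rw [e1, hψ, Matrix.single_mul_single_of_ne _ _ _ _ (Ne.symm hij), map_zero]
    have hdiag : ∀ i, ψ (Matrix.single i i 1) = ψ (Matrix.single i₀ i₀ 1) := by
      intro i
      have e1 : (Matrix.single i i (1 : k)) = Matrix.single i i₀ 1 * Matrix.single i₀ i 1 := by
        rw [Matrix.single_mul_single_same, one_mul]
      have e2 : (Matrix.single i₀ i₀ (1 : k)) = Matrix.single i₀ i 1 * Matrix.single i i₀ 1 := by
        rw [Matrix.single_mul_single_same, one_mul]
      rw [e1, e2, hψ]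
    have hM : M = ∑ i, ∑ j, M i j • Matrix.single i j (1 : k) := by
      conv_lhs => rw [Matrix.matrix_eq_sum_single M]
      refine Finset.sum_congr rfl fun i _ => Finset.sum_congr rfl fun j _ => ?_
      rw [Matrix.smul_single, smul_eq_mul, mul_one]
    have h1 : ψ M = ∑ i, ∑ j, M i j * ψ (Matrix.single i j 1) := by
      conv_lhs => rw [hM]
      simp only [map_sum, map_smul, smul_eq_mul]
    rw [h1]
    change _ = _ * ∑ i, M i i
    rw [Finset.mul_sum]
    refine Finset.sum_congr rfl fun i _ => ?_
    rw [Finset.sum_eq_single i]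
    · rw [hdiag, mul_comm]
    · intro j _ hj
      rw [hoff i j (Ne.symm hj), mul_zero]
    · intro h
      exact absurd (Finset.mem_univ _) h
  · refine ⟨0, fun M => ?_⟩
    have : IsEmpty n := not_nonempty_iff.mp hn
    have h0 : M = 0 := by
      ext i
      exact (IsEmpty.false i).elim
    rw [h0, map_zero, zero_mul]

/-- A symmetric functional on the endomorphisms of a finite dimensional space is a multiple of
the trace. -/
lemma end_sym {V : Type*} [AddCommGroup V] [Module k V] [FiniteDimensional k V] (φ : End k V →ₗ[k] k)
    (hφ : ∀ x y, φ (x * y) = φ (y * x)) : ∃ e : k, ∀ T, φ T = e * LinearMap.trace k V T := by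
  classical
  let b := Module.finBasis k V
  let E := LinearMap.toMatrixAlgEquiv (R := k) b
  obtain ⟨e, he⟩ := matrix_sym (φ ∘ₗ (E.symm.toLinearEquiv : _ ≃ₗ[k] _).toLinearMap) (by
    intro x y
    change φ (E.symm (x * y)) = φ (E.symm (y * x))
    rw [map_mul E.symm, map_mul E.symm, hφ])
  refine ⟨e, fun T => ?_⟩
  have h1 := he (E T)
  have h2 : (φ ∘ₗ (E.symm.toLinearEquiv : _ ≃ₗ[k] _).toLinearMap) (E T) = φ T := by
    change φ (E.symm (E T)) = φ T
    rw [AlgEquiv.symm_apply_apply]
  rw [h2] at h1
  rw [h1, LinearMap.trace_eq_matrix_trace k b T]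
  rfl

/-- The trace of a `q`-th power. -/
lemma trace_pow_q {V : Type*} [AddCommGroup V] [Module k V] [FiniteDimensional k V] [Fintype k]
    (T : End k V) : LinearMap.trace k V (T ^ Fintype.card k) = LinearMap.trace k V T := by
  classical
  let b := Module.finBasis k V
  let E := LinearMap.toMatrixAlgEquiv (R := k) b
  have h : ∀ S : End k V, LinearMap.trace k V S = (E S).trace := by
    intro S
    rw [LinearMap.trace_eq_matrix_trace k b S]
    rfl
  rw [h, h, map_pow, FiniteField.trace_pow_card, FiniteField.pow_card]

end MatrixSym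

end Cfsg.Agent.Lib.KS71.BrB
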