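/-
Brauer's count: a family of pairwise nonisomorphic absolutely simple representations containing
all simple representations of a finite group over a finite field of characteristic `p` is indexed
like the `p`-regular conjugacy classes.
-/
import Mathlib
import Cfsg.Agent.Lib.KS71.BrB

set_option autoImplicit false
set_option linter.unusedSectionVars false
set_option linter.unusedVariables false
set_option linter.style.haveILetI false

namespace Cfsg.Agent.Lib.KS71.BrC

open Module MonoidAlgebra
open scoped MonoidAlgebra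
open Cfsg.Agent.Lib.KS71.BrA Cfsg.Agent.Lib.KS71.BrB

universe u v w

/-- A simple representation. -/
structure IsSimpleRep {k G V : Type*} [Field k] [Group G] [AddCommGroup V] [Module k V]
    (ρ : Representation k G V) : Prop where
  nontriv : Nontrivial V
  simple : ∀ S : Submodule k V, (∀ g, ∀ v ∈ S, ρ g v ∈ S) → S = ⊥ ∨ S = ⊤

section Density

variable {k : Type u} [Field k] {R : Type v} [Ring R] [Algebra k R]
  {ι : Type*} [Fintype ι] [DecidableEq ι] {M : ι → Type w}
  [∀ i, AddCommGroup (M i)] [∀ i, Module R (M i)] [∀ i, Module k (M i)]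
  [∀ i, IsScalarTower k R (M i)] [∀ i, IsSimpleModule R (M i)] [∀ i, FiniteDimensional k (M i)]

/-- Endomorphisms of the product are diagonal scalars. -/
theorem end_pi_diag' (hs : ∀ j (ψ : End R (M j)), ∃ c : k, ∀ m, ψ m = c • m)
    (hne : ∀ i j, i ≠ j → ∀ φ : M i →ₗ[R] M j, φ = 0) (φ : End R (Π i, M i)) :
    ∃ c : ι → k, ∀ (v : Π i, M i) (j : ι), φ v j = c j • v j := by
  classical
  have hscal : ∀ j, ∃ c : k, ∀ m : M j, φ (Pi.single j m) j = c • m := by
    intro j
    let ψ : End R (M j) := (LinearMap.proj j).comp (φ.comp (LinearMap.single R M j))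
    obtain ⟨c, hc⟩ := hs j ψ
    exact ⟨c, fun m => hc m⟩
  choose c hc using hscal
  refine ⟨c, fun v j => ?_⟩
  have hv : v = ∑ i, Pi.single i (v i) := (Finset.univ_sum_single v).symm
  conv_lhs => rw [hv]
  rw [map_sum, Finset.sum_apply, Finset.sum_eq_single j]
  · exact hc j (v j)
  · intro i _ hij
    let ψ : M i →ₗ[R] M j := (LinearMap.proj j).comp (φ.comp (LinearMap.single R M i))
    have h0 := hne i j hij ψ
    have h2 : ψ (v i) = φ (Pi.single i (v i)) j := rfl
    rw [← h2, h0]
    rfl
  · intro h
    exact absurd (Finset.mem_univ _) h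

/-- The density statement. -/
theorem exists_element' (hs : ∀ j (ψ : End R (M j)), ∃ c : k, ∀ m, ψ m = c • m)
    (hne : ∀ i j, i ≠ j → ∀ φ : M i →ₗ[R] M j, φ = 0) (i₀ : ι)
    (A : End k (M i₀)) : ∃ r : R, (∀ m, r • m = A m) ∧ ∀ i, i ≠ i₀ → ∀ m : M i, r • m = 0 := by
  classical
  let V := Π i, M i
  haveI : IsSemisimpleModule R V := inferInstance
  let f₀ : V →ₗ[k] V := (LinearMap.single k M i₀).comp (A.comp (LinearMap.proj i₀))
  have hf₀ : ∀ (φ : End R V) (v : V), f₀ (φ v) = φ (f₀ v) := by
    intro φ v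
    obtain ⟨c, hc⟩ := end_pi_diag' (k := k) hs hne φ
    funext j
    rw [hc]
    show (Pi.single i₀ (A (φ v i₀)) : V) j = c j • (Pi.single i₀ (A (v i₀)) : V) j
    by_cases hj : j = i₀
    · subst hj
      rw [Pi.single_eq_same, Pi.single_eq_same, hc, map_smul]
    · rw [Pi.single_eq_of_ne hj, Pi.single_eq_of_ne hj, smul_zero]
  let f : End (End R V) V :=
    { toFun := f₀
      map_add' := f₀.map_add
      map_smul' := by
        intro φ v
        exact hf₀ φ v }
  let bas := Module.finBasis k V
  obtain ⟨r, hr⟩ := jacobson_density f (Finset.univ.image bas)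
  have hall : ∀ v : V, f₀ v = r • v := by
    intro v
    have h1 : f₀ = (Algebra.lsmul k k V r) := by
      apply bas.ext
      intro i
      exact hr _ (Finset.mem_image_of_mem _ (Finset.mem_univ _))
    rw [h1]
    rfl
  refine ⟨r, fun m => ?_, fun i hi m => ?_⟩
  · have h1 := hall (Pi.single i₀ m)
    have h2 := congrFun h1 i₀
    have h3 : f₀ (Pi.single i₀ m) i₀ = A m := by
      show (Pi.single i₀ (A ((Pi.single i₀ m : V) i₀)) : V) i₀ = A m
      rw [Pi.single_eq_same, Pi.single_eq_same]
    rw [h3] at h2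
    rw [h2]
    show _ = r • (Pi.single i₀ m : V) i₀
    rw [Pi.single_eq_same]
  · have h1 := hall (Pi.single i m)
    have h2 := congrFun h1 i
    have h3 : f₀ (Pi.single i m) i = 0 := by
      show (Pi.single i₀ (A ((Pi.single i m : V) i₀)) : V) i = 0
      rw [Pi.single_eq_of_ne hi]
    rw [h3] at h2
    have h4 : (r • (Pi.single i m : V)) i = r • m := by
      show r • (Pi.single i m : V) i = r • m
      rw [Pi.single_eq_same]
    rw [← h4, ← h2]

end Density

section Family

variable {G : Type u} [Group G] [Fintype G] {k : Type u} [Field k]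

lemma isSimpleModule_of {V : Type*} [AddCommGroup V] [Module k V] {ρ : Representation k G V}
    (h : IsSimpleRep ρ) : IsSimpleModule k[G] ρ.asModule := by
  haveI : Nontrivial ρ.asModule := h.nontriv
  haveI : Nontrivial (Submodule k[G] ρ.asModule) := inferInstance
  refine { eq_bot_or_eq_top := fun S => ?_ }
  let S' : Submodule k V := (S.restrictScalars k).map ρ.asModuleEquiv.toLinearMap
  have hS' : ∀ v, v ∈ S' ↔ ρ.asModuleEquiv.symm v ∈ S := by
    intro v
    constructor
    · rintro ⟨x, hx, rfl⟩
      simpa using hx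
    · intro hv
      exact ⟨_, hv, by simp⟩
  rcases h.simple S' (by
    intro g v hv
    rw [hS'] at hv ⊢
    rw [Representation.asModuleEquiv_symm_map_rho]
    exact S.smul_mem _ hv) with h0 | h0
  · left
    rw [eq_bot_iff]
    intro x hx
    have : ρ.asModuleEquiv x ∈ S' := by
      rw [hS']
      simpa using hx
    rw [h0] at this
    have h1 : ρ.asModuleEquiv x = 0 := this
    have h2 : x = 0 := by simpa using h1
    rw [h2]
    exact Submodule.zero_mem _
  · right
    rw [eq_top_iff]
    intro x _
    have : ρ.asModuleEquiv x ∈ S' := by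
      rw [h0]
      trivial
    rw [hS'] at this
    simpa using this

variable {ι : Type*} [Fintype ι] {V : ι → Type v}
  [∀ i, AddCommGroup (V i)] [∀ i, Module k (V i)] [∀ i, FiniteDimensional k (V i)]
  (ρ : ∀ i, Representation k G (V i))

lemma asAlg_of {W : Type*} [AddCommGroup W] [Module k W] (σ : Representation k G W) (g : G) :
    σ.asAlgebraHom (of k G g) = σ g := by
  simp

include ρ in
/-- Density for the family. -/
theorem surj (hirr : ∀ i, IsSimpleRep (ρ i))
    (hscal : ∀ i (T : End k (V i)), (∀ g, T ∘ₗ ρ i g = ρ i g ∘ₗ T) → ∃ c : k, ∀ v, T v = c • v)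
    (hne : ∀ i j, i ≠ j → ∀ φ : V i →ₗ[k] V j, (∀ g, φ ∘ₗ ρ i g = ρ j g ∘ₗ φ) → φ = 0)
    (T : Π i, End k (V i)) : ∃ a : k[G], ∀ i, (ρ i).asAlgebraHom a = T i := by
  classical
  let R := k[G]
  let M := fun i => (ρ i).asModule
  haveI : ∀ i, IsSimpleModule k[G] (M i) := fun i => isSimpleModule_of (hirr i)
  -- components of `R`-maps
  have hcomp : ∀ {i j : ι} (ψ : (ρ j).asModule →ₗ[R] (ρ i).asModule), ∃ φ : V j →ₗ[k] V i,
      (∀ v, φ v = (ρ i).asModuleEquiv (ψ ((ρ j).asModuleEquiv.symm v))) ∧
        ∀ g, φ ∘ₗ ρ j g = ρ i g ∘ₗ φ := by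
    intro i j ψ
    refine ⟨(ρ i).asModuleEquiv.toLinearMap ∘ₗ (ψ.restrictScalars k) ∘ₗ
      (ρ j).asModuleEquiv.symm.toLinearMap, fun v => rfl, ?_⟩
    intro g
    ext v
    simp only [LinearMap.comp_apply, LinearEquiv.coe_coe, LinearMap.restrictScalars_apply]
    rw [Representation.asModuleEquiv_symm_map_rho, map_smul, Representation.asModuleEquiv_map_smul]
    simp
  have hzero : ∀ i j, i ≠ j → ∀ ψ : M i →ₗ[k[G]] M j, ψ = 0 := by
    intro i j hij ψ
    obtain ⟨φ, hφ, hφ2⟩ := hcomp ψ
    have h1 := hne i j hij φ hφ2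
    ext x
    have h2 := hφ ((ρ i).asModuleEquiv x)
    rw [h1, LinearEquiv.symm_apply_apply] at h2
    simpa using h2.symm
  have hs : ∀ j (ψ : End k[G] (M j)), ∃ c : k, ∀ m, ψ m = c • m := by
    intro i ψ
    obtain ⟨φ, hφ, hφ2⟩ := hcomp ψ
    obtain ⟨c, hc⟩ := hscal i φ hφ2
    refine ⟨c, fun x => ?_⟩
    have h1 := hφ ((ρ i).asModuleEquiv x)
    rw [hc, LinearEquiv.symm_apply_apply] at h1
    apply (ρ i).asModuleEquiv.injective
    rw [← h1, map_smul]
  have hel : ∀ i₀, ∃ a : k[G], ∀ i, (ρ i).asAlgebraHom a = if h : i = i₀ then h ▸ T i₀ else 0 := by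
    intro i₀
    let A : End k (M i₀) := (ρ i₀).asModuleEquiv.symm.toLinearMap ∘ₗ T i₀ ∘ₗ (ρ i₀).asModuleEquiv.toLinearMap
    obtain ⟨r, hr1, hr2⟩ := exists_element' (k := k) (R := k[G]) (M := M) hs hzero i₀ A
    refine ⟨r, fun i => ?_⟩
    by_cases hi : i = i₀
    · subst hi
      rw [dif_pos rfl]
      ext v
      have h1 := hr1 ((ρ i).asModuleEquiv.symm v)
      have h2 := congrArg (ρ i).asModuleEquiv h1
      rw [Representation.asModuleEquiv_map_smul] at h2
      simpa [A] using h2
    · rw [dif_neg hi]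
      ext v
      have h1 := hr2 i hi ((ρ i).asModuleEquiv.symm v)
      have h2 := congrArg (ρ i).asModuleEquiv h1
      rw [Representation.asModuleEquiv_map_smul] at h2
      simpa using h2
  choose a ha using hel
  refine ⟨∑ i₀, a i₀, fun i => ?_⟩
  rw [map_sum, Finset.sum_eq_single i]
  · rw [ha, dif_pos rfl]
  · intro j _ hj
    rw [ha, dif_neg (Ne.symm hj)]
  · intro h
    exact absurd (Finset.mem_univ _) h

/-- The two-sided nilpotency of the common kernel. -/
theorem ker_nil [FiniteDimensional k k[G]]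
    (hex : ∀ (M : Type u) [AddCommGroup M] [Module k M] [FiniteDimensional k M]
      (σ : Representation k G M), IsSimpleRep σ →
        ∃ i, ∃ φ : M →ₗ[k] V i, φ ≠ 0 ∧ ∀ g, φ ∘ₗ σ g = ρ i g ∘ₗ φ) :
    ∃ n : ℕ, ∀ a : k[G], (∀ i, (ρ i).asAlgebraHom a = 0) → a ^ n = 0 := by
  classical
  haveI : IsArtinianRing k[G] := IsArtinianRing.of_finite k k[G]
  obtain ⟨n, hn⟩ := IsSemiprimaryRing.isNilpotent (R := k[G])
  refine ⟨n, fun a ha => ?_⟩
  have hmem : a ∈ Ring.jacobson k[G] := by
    rw [Ring.jacobson, Module.jacobson, Submodule.mem_sInf]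
    intro 𝔪 h𝔪
    let Q := k[G] ⧸ 𝔪
    haveI : IsSimpleModule k[G] Q := isSimpleModule_iff_isCoatom.mpr h𝔪
    haveI : FiniteDimensional k Q :=
      Module.Finite.of_surjective (𝔪.mkQ.restrictScalars k) (Submodule.mkQ_surjective 𝔪)
    let σ : Representation k G Q := (Algebra.lsmul k k Q).toMonoidHom.comp (of k G)
    have hσ : ∀ g x, σ g x = of k G g • x := fun g x => rfl
    have hsimp : IsSimpleRep σ := by
      refine ⟨IsSimpleModule.nontrivial k[G] Q, fun S hS => ?_⟩
      let S' : Submodule k[G] Q :=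
        { carrier := S
          add_mem' := S.add_mem
          zero_mem' := S.zero_mem
          smul_mem' := by
            intro c x hx
            induction c using MonoidAlgebra.induction_on with
            | of g => exact hS g x hx
            | add a b ha hb =>
              rw [add_smul]
              exact S.add_mem ha hb
            | smul c a ha =>
              rw [smul_assoc]
              exact S.smul_mem c ha }
      rcases eq_bot_or_eq_top S' with h0 | h0
      · left
        rw [eq_bot_iff]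
        intro x hx
        have : x ∈ S' := hx
        rw [h0] at this
        exact this
      · right
        rw [eq_top_iff]
        intro x _
        have : x ∈ S' := by
          rw [h0]
          trivial
        exact this
    obtain ⟨i, φ, hφ0, hφ⟩ := hex Q σ hsimp
    have hact : ∀ (b : k[G]) (x : Q), φ (b • x) = (ρ i).asAlgebraHom b (φ x) := by
      intro b x
      induction b using MonoidAlgebra.induction_on with
      | of g =>
        rw [← hσ, asAlg_of]
        exact congrArg (fun t : Q →ₗ[k] V i => t x) (hφ g)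
      | add a b ha hb =>
        rw [add_smul, map_add, ha, hb, map_add]
        rfl
      | smul c a ha =>
        rw [smul_assoc, map_smul, ha, map_smul]
        rfl
    have hinj : Function.Injective φ := by
      rcases hsimp.simple (LinearMap.ker φ) (by
        intro g v hv
        rw [LinearMap.mem_ker] at hv ⊢
        have := congrArg (fun t : Q →ₗ[k] V i => t v) (hφ g)
        simp only [LinearMap.comp_apply] at this
        rw [this, hv, map_zero]) with h0 | h0
      · exact LinearMap.ker_eq_bot.mp h0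
      · exact absurd (LinearMap.ker_eq_top.mp h0) hφ0
    have h1 : φ (a • (Submodule.Quotient.mk 1 : Q)) = 0 := by
      rw [hact, ha, LinearMap.zero_apply]
    have h2 : a • (Submodule.Quotient.mk 1 : Q) = 0 := hinj (by rw [h1, map_zero])
    rw [← Submodule.Quotient.mk_smul, smul_eq_mul, mul_one, Submodule.Quotient.mk_eq_zero] at h2
    exact h2
  have h3 : a ^ n ∈ Ring.jacobson k[G] ^ n := Ideal.pow_mem_pow hmem n
  rw [hn] at h3
  exact h3

end Family

end Cfsg.Agent.Lib.KS71.BrC
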