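/-
Brauer's count, the main statement.
-/
import Mathlib
import Cfsg.Agent.Lib.KS71.BrC

set_option autoImplicit false
set_option linter.unusedSectionVars false
set_option linter.unusedVariables false
set_option linter.style.haveILetI false

namespace Cfsg.Agent.Lib.KS71.BrD

open Module MonoidAlgebra
open scoped MonoidAlgebra
open Cfsg.Agent.Lib.KS71.BrA Cfsg.Agent.Lib.KS71.BrB Cfsg.Agent.Lib.KS71.BrC

universe u v

variable {G : Type u} [Group G] [Fintype G] {k : Type u} [Field k]

lemma asAlg_eq {W : Type*} [AddCommGroup W] [Module k W] (σ : Representation k G W) (x : k[G]) :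
    σ.asAlgebraHom x = ∑ g : G, x.coeff g • σ g := by
  rw [Representation.asAlgebraHom_def, MonoidAlgebra.lift_apply, Finsupp.sum_fintype]
  intro i
  simp

lemma asAlg_single {W : Type*} [AddCommGroup W] [Module k W] (σ : Representation k G W) (g : G) (c : k) :
    σ.asAlgebraHom (single g c) = c • σ g := by
  simp

variable {ι : Type*} [Fintype ι] {V : ι → Type v}
  [∀ i, AddCommGroup (V i)] [∀ i, Module k (V i)] [∀ i, FiniteDimensional k (V i)]

/-- A symmetric functional vanishing on the common kernel is a combination of the traces. -/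
lemma sym_trace (ρ : ∀ i, Representation k G (V i))
    (hsurj : ∀ T : Π i, End k (V i), ∃ a : k[G], ∀ i, (ρ i).asAlgebraHom a = T i)
    (τ : k[G] →ₗ[k] k) (hτ : ∀ x y, τ (x * y) = τ (y * x))
    (h0 : ∀ a, (∀ i, (ρ i).asAlgebraHom a = 0) → τ a = 0) :
    ∃ e : ι → k, ∀ x, τ x = ∑ i, e i * LinearMap.trace k (V i) ((ρ i).asAlgebraHom x) := by
  classical
  -- the map to the product
  let Φ : k[G] →ₗ[k] (Π i, End k (V i)) := LinearMap.pi fun i => ((ρ i).asAlgebraHom).toLinearMap
  have hΦ : ∀ x i, Φ x i = (ρ i).asAlgebraHom x := fun x i => rfl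
  have hr : LinearMap.range Φ = ⊤ := by
    rw [LinearMap.range_eq_top]
    intro T
    obtain ⟨a, ha⟩ := hsurj T
    exact ⟨a, funext fun i => ha i⟩
  obtain ⟨s, hs⟩ := Φ.exists_rightInverse_of_surjective hr
  have hs' : ∀ T, Φ (s T) = T := fun T => congrArg (fun f => f T) hs
  let τ' : (Π i, End k (V i)) →ₗ[k] k := τ ∘ₗ s
  have hτ' : ∀ x, τ' (Φ x) = τ x := by
    intro x
    have h1 := h0 (s (Φ x) - x) (by
      intro i
      rw [map_sub, ← hΦ, ← hΦ, hs', sub_self])
    rw [map_sub, sub_eq_zero] at h1
    exact h1
  have hmulΦ : ∀ x y i, Φ (x * y) i = Φ x i * Φ y i := by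
    intro x y i
    rw [hΦ, map_mul]
    rfl
  have hsym : ∀ S T : (Π i, End k (V i)), τ' (S * T) = τ' (T * S) := by
    intro S T
    have e1 : S * T = Φ (s S * s T) := by
      funext i
      rw [hmulΦ, hs', hs']
      rfl
    have e2 : T * S = Φ (s T * s S) := by
      funext i
      rw [hmulΦ, hs', hs']
      rfl
    rw [e1, e2, hτ', hτ', hτ]
  have hcomp : ∀ i, ∃ e : k, ∀ T : End k (V i),
      τ' (LinearMap.single k (fun i => End k (V i)) i T) = e * LinearMap.trace k (V i) T := by
    intro i
    refine end_sym (τ' ∘ₗ LinearMap.single k (fun i => End k (V i)) i) ?_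
    intro x y
    change τ' (Pi.single i (x * y)) = τ' (Pi.single i (y * x))
    rw [Pi.single_mul, Pi.single_mul, hsym]
  choose e he using hcomp
  refine ⟨e, fun x => ?_⟩
  rw [← hτ']
  have hsum : Φ x = ∑ i, LinearMap.single k (fun i => End k (V i)) i (Φ x i) := by
    exact (Finset.univ_sum_single (Φ x)).symm
  rw [hsum, map_sum]
  refine Finset.sum_congr rfl fun i _ => ?_
  rw [he, hΦ]

variable [Fintype k] {p : ℕ} [Fact p.Prime] [CharP k p]

/-- **Brauer's count**. -/
theorem card_regular (ρ : ∀ i, Representation k G (V i))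
    (hirr : ∀ i, IsSimpleRep (ρ i))
    (hscal : ∀ i (T : End k (V i)), (∀ g, T ∘ₗ ρ i g = ρ i g ∘ₗ T) → ∃ c : k, ∀ v, T v = c • v)
    (hne : ∀ i j, i ≠ j → ∀ φ : V i →ₗ[k] V j, (∀ g, φ ∘ₗ ρ i g = ρ j g ∘ₗ φ) → φ = 0)
    (hex : ∀ (M : Type u) [AddCommGroup M] [Module k M] [FiniteDimensional k M]
      (σ : Representation k G M), IsSimpleRep σ →
        ∃ i, ∃ φ : M →ₗ[k] V i, φ ≠ 0 ∧ ∀ g, φ ∘ₗ σ g = ρ i g ∘ₗ φ) :
    Nat.card {c : ConjClasses G // ∃ g : G, ConjClasses.mk g = c ∧ (orderOf g).Coprime p} =
      Fintype.card ι := by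
  classical
  have hp : p.Prime := Fact.out
  haveI : FiniteDimensional k k[G] := by
    have : Module.Finite k (G →₀ k) := inferInstance
    exact Module.Finite.equiv (MonoidAlgebra.coeffLinearEquiv k).symm
  have hsurj := surj ρ hirr hscal hne
  obtain ⟨n₀, hn₀⟩ := ker_nil ρ hex
  -- the exponent
  set q := Fintype.card k with hqdef
  obtain ⟨f, hp', hq'⟩ := FiniteField.card k p
  have hq : q = p ^ (f : ℕ) := hq'
  have hfpos : 0 < (f : ℕ) := f.pos
  obtain ⟨a, m, hm, hG⟩ := Nat.exists_eq_pow_mul_and_not_dvd (n := Fintype.card G) Fintype.card_ne_zero p hp.ne_one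
  have hmpos : 0 < m := by
    rcases Nat.eq_zero_or_pos m with h | h
    · subst h
      simp at hm
    · exact h
  have hcop : Nat.Coprime q m := by
    rw [hq]
    exact Nat.Coprime.pow_left _ ((Nat.Prime.coprime_iff_not_dvd hp).mpr hm)
  have hcopp : Nat.Coprime p m := (Nat.Prime.coprime_iff_not_dvd hp).mpr hm
  set φ := Nat.totient m with hφ
  have hφpos : 0 < φ := Nat.totient_pos.mpr hmpos
  set N := φ * (a + n₀ + 1) with hN
  have hNge : a + n₀ + 1 ≤ N := Nat.le_mul_of_pos_left _ hφpos
  set Q := q ^ N with hQ
  have hQ1 : Q ≡ 1 [MOD m] := by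
    have h1 : q ^ φ ≡ 1 [MOD m] := Nat.ModEq.pow_totient hcop
    have h2 := h1.pow (a + n₀ + 1)
    rwa [← pow_mul, one_pow] at h2
  have hQp : Q = p ^ ((f : ℕ) * N) := by
    rw [hQ, hq, ← pow_mul]
  have hQ2 : p ^ a ∣ Q := by
    rw [hQp]
    refine pow_dvd_pow _ ?_
    nlinarith
  have hq2 : 2 ≤ q := Fintype.one_lt_card
  have hQ3 : n₀ ≤ Q := by
    have h1 : N < 2 ^ N := Nat.lt_two_pow_self
    have h2 : 2 ^ N ≤ q ^ N := Nat.pow_le_pow_left hq2 N
    omega
  have hP1 : ∀ g : G, (orderOf g).Coprime p → g ^ Q = g := by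
    intro g hg
    have h1 : orderOf g ∣ p ^ a * m := hG ▸ orderOf_dvd_card
    have h2 : orderOf g ∣ m := (Nat.Coprime.pow_right a hg).dvd_of_dvd_mul_left h1
    have h3 : Q ≡ 1 [MOD orderOf g] := hQ1.of_dvd h2
    have h4 := pow_eq_pow_iff_modEq.mpr h3
    rwa [pow_one] at h4
  have hP2 : ∀ g : G, (orderOf (g ^ Q)).Coprime p := by
    intro g
    have h1 : (g ^ Q) ^ m = 1 := by
      rw [← pow_mul]
      refine orderOf_dvd_iff_pow_eq_one.mp (orderOf_dvd_card.trans ?_)
      rw [hG]
      exact Nat.mul_dvd_mul_right hQ2 m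
    have h2 := orderOf_dvd_of_pow_eq_one h1
    exact (Nat.Coprime.coprime_dvd_right h2 hcopp).symm
  -- traces
  let tr : ∀ i, G → k := fun i g => LinearMap.trace k (V i) (ρ i g)
  have htrQ : ∀ i g n, tr i (g ^ (q ^ n)) = tr i g := by
    intro i g n
    induction n with
    | zero => simp
    | succ n ih =>
      rw [pow_succ, pow_mul]
      change LinearMap.trace k (V i) (ρ i ((g ^ q ^ n) ^ q)) = _
      rw [map_pow]
      rw [trace_pow_q (ρ i (g ^ q ^ n))]
      exact ih
  have htrconj : ∀ i g g', IsConj g g' → tr i g = tr i g' := by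
    intro i g g' hc
    obtain ⟨c, rfl⟩ := isConj_iff.mp hc
    change LinearMap.trace k (V i) (ρ i g) = LinearMap.trace k (V i) (ρ i (c * g * c⁻¹))
    have e1 : ρ i (c * g * c⁻¹) = ρ i c * ρ i (g * c⁻¹) := by rw [← map_mul, mul_assoc]
    have e2 : ρ i (g * c⁻¹) * ρ i c = ρ i g := by rw [← map_mul]; simp
    rw [e1, LinearMap.trace_mul_comm, e2]
  let S := {c : ConjClasses G // ∃ g : G, ConjClasses.mk g = c ∧ (orderOf g).Coprime p}
  letI : Fintype S := Fintype.ofFinite S
  let rep : S → G := fun C => Classical.choose C.2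
  have hrep : ∀ C : S, ConjClasses.mk (rep C) = C.1 := fun C => (Classical.choose_spec C.2).1
  have hrep2 : ∀ C : S, (orderOf (rep C)).Coprime p := fun C => (Classical.choose_spec C.2).2
  have htrace : ∀ i (x : k[G]), LinearMap.trace k (V i) ((ρ i).asAlgebraHom x) = ∑ g, x.coeff g * tr i g := by
    intro i x
    rw [asAlg_eq, map_sum]
    refine Finset.sum_congr rfl fun g _ => ?_
    rw [map_smul, smul_eq_mul]
  -- first inequality
  have hle1 : Fintype.card ι ≤ Fintype.card S := by
    let L : (ι → k) →ₗ[k] (S → k) :=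
      { toFun := fun e C => ∑ i, e i * tr i (rep C)
        map_add' := by
          intro x y
          funext C
          simp [add_mul, Finset.sum_add_distrib]
        map_smul' := by
          intro c x
          funext C
          simp [Finset.mul_sum, mul_assoc] }
    have hinj : Function.Injective L := by
      rw [injective_iff_map_eq_zero]
      intro e he
      funext i₀
      -- vanishing on group elements
      have h1 : ∀ g : G, ∑ i, e i * tr i g = 0 := by
        intro g
        let C : S := ⟨ConjClasses.mk (g ^ Q), g ^ Q, rfl, hP2 g⟩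
        have h2 := congrFun he C
        change ∑ i, e i * tr i (rep C) = 0 at h2
        rw [← h2]
        refine Finset.sum_congr rfl fun i _ => ?_
        congr 1
        rw [← htrQ i g N]
        refine htrconj i _ _ ?_
        have := hrep C
        rw [ConjClasses.mk_eq_mk_iff_isConj] at this
        exact this.symm
      have h3 : ∀ x : k[G], ∑ i, e i * LinearMap.trace k (V i) ((ρ i).asAlgebraHom x) = 0 := by
        intro x
        simp only [htrace, Finset.mul_sum]
        rw [Finset.sum_comm]
        refine Finset.sum_eq_zero fun g _ => ?_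
        have := h1 g
        calc ∑ i, e i * (x.coeff g * tr i g) = x.coeff g * ∑ i, e i * tr i g := by
              rw [Finset.mul_sum]
              refine Finset.sum_congr rfl fun i _ => ?_
              ring
          _ = 0 := by rw [this, mul_zero]
      -- the trace one element
      haveI : Nontrivial (V i₀) := (hirr i₀).nontriv
      obtain ⟨v, hv⟩ := exists_ne (0 : V i₀)
      have hnot : v ∉ (⊥ : Submodule k (V i₀)) := by simpa using hv
      obtain ⟨ℓ, hℓ, -⟩ := Submodule.exists_le_ker_of_notMem hnot
      have hℓ' : ℓ v ≠ 0 := hℓ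
      let π : End k (V i₀) := ((ℓ v)⁻¹ • ℓ).smulRight v
      have hπ : LinearMap.trace k (V i₀) π = 1 := by
        rw [LinearMap.trace_smulRight]
        simp [hℓ']
      obtain ⟨x, hx⟩ := hsurj (Pi.single i₀ π)
      have h4 := h3 x
      rw [Finset.sum_eq_single i₀] at h4
      · rw [hx, Pi.single_eq_same, hπ, mul_one] at h4
        exact h4
      · intro j _ hj
        rw [hx, Pi.single_eq_of_ne hj, map_zero, mul_zero]
      · intro h
        exact absurd (Finset.mem_univ _) h
    have := LinearMap.finrank_le_finrank_of_injective hinj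
    simpa using this
  have hle2 : Fintype.card S ≤ Fintype.card ι := by
    let L : (S → k) →ₗ[k] (ι → k) :=
      { toFun := fun c i => ∑ C, c C * tr i (rep C)
        map_add' := by
          intro x y
          funext C
          simp [add_mul, Finset.sum_add_distrib]
        map_smul' := by
          intro c x
          funext C
          simp [Finset.mul_sum, mul_assoc] }
    have hinj : Function.Injective L := by
      rw [injective_iff_map_eq_zero]
      intro c hc
      funext D₀
      -- the functional
      let τ : k[G] →ₗ[k] k :=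
        { toFun := fun a => ∑ g : G, if ConjClasses.mk (g ^ Q) = D₀.1 then a.coeff g else 0
          map_add' := by
            intro a b
            rw [← Finset.sum_add_distrib]
            refine Finset.sum_congr rfl fun g _ => ?_
            split_ifs
            · simp [coeff_add]
            · simp
          map_smul' := by
            intro c a
            simp only [RingHom.id_apply, smul_eq_mul, Finset.mul_sum]
            refine Finset.sum_congr rfl fun g _ => ?_
            split_ifs
            · simp [coeff_smul]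
            · simp }
      have hτ : ∀ a, τ a = cs D₀.1 (a ^ Q) := by
        intro a
        have h1 := cs_pow (p := p) D₀.1 a ((f : ℕ) * N)
        rw [← hQp] at h1
        rw [h1]
        change (∑ g : G, if ConjClasses.mk (g ^ Q) = D₀.1 then a.coeff g else 0) = _
        refine Finset.sum_congr rfl fun g _ => ?_
        by_cases h : ConjClasses.mk (g ^ Q) = D₀.1
        · rw [if_pos h, if_pos h, hQ, FiniteField.pow_card_pow]
        · rw [if_neg h, if_neg h]
      have hτs : ∀ x y, τ (x * y) = τ (y * x) := by
        intro x y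
        rw [hτ, hτ, cs_pow_sym]
      have hτ0 : ∀ a, (∀ i, (ρ i).asAlgebraHom a = 0) → τ a = 0 := by
        intro a ha
        rw [hτ]
        have h1 := hn₀ a ha
        have h2 : a ^ Q = 0 := pow_eq_zero_of_le hQ3 h1
        rw [h2, map_zero]
      obtain ⟨e, he⟩ := sym_trace ρ hsurj τ hτs hτ0
      let a₀ : k[G] := ∑ C, single (rep C) (c C)
      have h1 : ∀ i, LinearMap.trace k (V i) ((ρ i).asAlgebraHom a₀) = 0 := by
        intro i
        have h2 := congrFun hc i
        change ∑ C, c C * tr i (rep C) = 0 at h2
        rw [← h2]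
        simp only [a₀, map_sum, asAlg_single, map_smul, smul_eq_mul]
        rfl
      have h2 : τ a₀ = 0 := by
        rw [he]
        exact Finset.sum_eq_zero fun i _ => by rw [h1, mul_zero]
      have h3 : τ a₀ = c D₀ := by
        simp only [a₀, map_sum]
        rw [Finset.sum_eq_single D₀]
        · change (∑ g : G, if ConjClasses.mk (g ^ Q) = D₀.1 then (single (rep D₀) (c D₀)).coeff g else 0) = _
          rw [Finset.sum_eq_single (rep D₀)]
          · rw [if_pos (by rw [hP1 _ (hrep2 D₀), hrep])]
            simp [coeff_single]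
          · intro g _ hg
            split_ifs
            · simp [coeff_single, Ne.symm hg]
            · rfl
          · intro h
            exact absurd (Finset.mem_univ _) h
        · intro C _ hC
          change (∑ g : G, if ConjClasses.mk (g ^ Q) = D₀.1 then (single (rep C) (c C)).coeff g else 0) = _
          refine Finset.sum_eq_zero fun g _ => ?_
          split_ifs with h4
          · by_cases hg : rep C = g
            · exfalso
              apply hC
              apply Subtype.ext
              rw [← h4, ← hg, hP1 _ (hrep2 C), hrep]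
            · simp [coeff_single, hg]
          · rfl
        · intro h
          exact absurd (Finset.mem_univ _) h
      rw [← h3, h2]
      rfl
    have := LinearMap.finrank_le_finrank_of_injective hinj
    simpa using this
  rw [Nat.card_eq_fintype_card]
  exact le_antisymm hle2 hle1

end Cfsg.Agent.Lib.KS71.BrD
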