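/-
Modular representations of a finite group with a split `BN`-pair (Curtis-Richen): Hecke operators on
the vectors fixed by `U` and common eigenvectors.
-/
import Mathlib

set_option autoImplicit false
set_option linter.unusedSectionVars false
set_option linter.unusedVariables false
set_option linter.style.haveILetI false

namespace Cfsg.Agent.Lib.KS71.CRa

open Module
open scoped Classical

/-- The data of a split `BN`-pair with its rank one subgroups. -/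
structure SD (p : ℕ) (G W ι F : Type*) [Group G] [Group W] [Field F] [Fintype F] where
  U : Subgroup G
  H : Subgroup G
  Um : Subgroup G
  N : Subgroup G
  l : W → ℕ
  s : ι → W
  τ : G → W
  x : ι → F → G
  y : ι → F → G
  n : ι → G
  hh : ι → Fˣ →* H
  Ui : ι → Subgroup G
  n₀ : G
  hU : IsPGroup p U
  hUm : IsPGroup p Um
  x_mem : ∀ i c, x i c ∈ U
  x_add : ∀ i c d, x i (c + d) = x i c * x i d
  y_mem : ∀ i c, y i c ∈ Um
  n_mem : ∀ i, n i ∈ N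
  n_x : ∀ i c, n i * x i c * (n i)⁻¹ = y i (-c)
  n_y : ∀ i c, n i * y i c * (n i)⁻¹ = x i (-c)
  n_eq : ∀ i, n i = x i 1 * y i (-1) * x i 1
  rel : ∀ i (c : Fˣ), x i c * n i = y i ((c⁻¹ : Fˣ) : F) * (hh i (-c) : G) * x i (-((c⁻¹ : Fˣ) : F))
  rel2 : ∀ i (c : Fˣ), y i c = x i ((c⁻¹ : Fˣ) : F) * (hh i (-(c⁻¹)) : G) * n i * x i ((c⁻¹ : Fˣ) : F)
  n_comm : ∀ i, ∀ h ∈ H, ∃ c : Fˣ, h * n i * h⁻¹ = (hh i c : G) * n i
  n_sq : ∀ i, n i * n i = (hh i (-1) : G)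
  Ui_le : ∀ i, Ui i ≤ U
  U_dec : ∀ i, ∀ u ∈ U, ∃ c, ∃ a ∈ Ui i, u = x i c * a
  Ui_x : ∀ i c, ∀ a ∈ Ui i, x i c * a * (x i c)⁻¹ ∈ Ui i
  Ui_n : ∀ i, ∀ a ∈ Ui i, n i * a * (n i)⁻¹ ∈ Ui i
  Ui_n' : ∀ i, ∀ a ∈ Ui i, (n i)⁻¹ * a * n i ∈ Ui i
  H_le_N : H ≤ N
  H_U : ∀ h ∈ H, ∀ u ∈ U, h * u * h⁻¹ ∈ U
  H_comm : ∀ h ∈ H, ∀ h' ∈ H, h * h' = h' * h
  N_H : ∀ g ∈ N, ∀ h ∈ H, g * h * g⁻¹ ∈ H
  U_H : ∀ u ∈ U, u ∈ H → u = 1
  H_pow : ∀ h ∈ H, h ^ Fintype.card F = h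
  τ_U_left : ∀ u ∈ U, ∀ g, τ (u * g) = τ g
  τ_U_right : ∀ u ∈ U, ∀ g, τ (g * u) = τ g
  τ_H_left : ∀ u ∈ H, ∀ g, τ (u * g) = τ g
  τ_N_mul : ∀ g ∈ N, ∀ g' ∈ N, τ (g * g') = τ g * τ g'
  τ_N_ker : ∀ g ∈ N, τ g = 1 → g ∈ H
  τ_n : ∀ i, τ (n i) = s i
  s_sq : ∀ i, s i * s i = 1
  l_left : ∀ i w, l w < l (s i * w) ∨ l (s i * w) < l w
  l_right : ∀ i w, l w < l (w * s i) ∨ l (w * s i) < l w
  l_desc : ∀ w, w ≠ 1 → ∃ i, l (w * s i) < l w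
  l_zero : ∀ w, l w = 0 → w = 1
  up_x : ∀ g ∈ N, ∀ i c, l (τ g) < l (s i * τ g) → g⁻¹ * x i c * g ∈ U
  up_y : ∀ g ∈ N, ∀ i c, l (τ g) < l (τ g * s i) → g * y i c * g⁻¹ ∈ Um
  dec : ∀ g, ∃ a ∈ Um, ∃ m ∈ N, ∃ b ∈ U, g = a * m * b
  n₀_N : n₀ ∈ N
  σ : ι → ι
  σ_inj : Function.Injective σ
  n₀_x : ∀ i c, ∃ c', n₀⁻¹ * x i c * n₀ = y (σ i) c'
  n₀_y : ∀ i c, ∃ c', n₀⁻¹ * y i c * n₀ = x (σ i) c'
  n₀_hh : ∀ i c, ∃ c', n₀ * (hh (σ i) c : G) * n₀⁻¹ = (hh i c' : G)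
  n₀_U : ∀ u ∈ U, n₀⁻¹ * u * n₀ ∈ Um
  n₀_Um : ∀ u ∈ Um, n₀ * u * n₀⁻¹ ∈ U

section basic

variable {p : ℕ} {G W ι F : Type*} [Group G] [Group W] [Field F] [Fintype F]
  (S : SD p G W ι F)

namespace SD

@[simp] lemma x_zero (i : ι) : S.x i 0 = 1 := by
  have h := S.x_add i 0 0
  rw [add_zero] at h
  exact (mul_eq_left.mp h.symm)

lemma x_neg (i : ι) (c : F) : S.x i (-c) = (S.x i c)⁻¹ := by
  apply eq_inv_of_mul_eq_one_left
  rw [← S.x_add, neg_add_cancel, x_zero]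

lemma y_def (i : ι) (c : F) : S.y i c = S.n i * S.x i (-c) * (S.n i)⁻¹ := by
  rw [S.n_x, neg_neg]

lemma y_add (i : ι) (c d : F) : S.y i (c + d) = S.y i c * S.y i d := by
  rw [y_def, y_def, y_def, neg_add, S.x_add]
  group

@[simp] lemma y_zero (i : ι) : S.y i 0 = 1 := by
  rw [y_def, neg_zero, x_zero]
  group

lemma y_neg (i : ι) (c : F) : S.y i (-c) = (S.y i c)⁻¹ := by
  apply eq_inv_of_mul_eq_one_left
  rw [← S.y_add, neg_add_cancel, y_zero]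

lemma Ui_y (i : ι) (c : F) {a : G} (ha : a ∈ S.Ui i) : S.y i c * a * (S.y i c)⁻¹ ∈ S.Ui i := by
  have h1 := S.Ui_n' i a ha
  have h2 := S.Ui_x i (-c) _ h1
  have h3 := S.Ui_n i _ h2
  have e : S.y i c * a * (S.y i c)⁻¹ =
      S.n i * (S.x i (-c) * ((S.n i)⁻¹ * a * S.n i) * (S.x i (-c))⁻¹) * (S.n i)⁻¹ := by
    rw [y_def]
    group
  rw [e]
  exact h3

lemma n_sq_mem (i : ι) : S.n i * S.n i ∈ S.H := by
  apply S.τ_N_ker _ (S.N.mul_mem (S.n_mem i) (S.n_mem i))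
  rw [S.τ_N_mul _ (S.n_mem i) _ (S.n_mem i), S.τ_n, S.s_sq]

lemma n_y' (i : ι) (c : F) : S.n i * S.y i c = S.x i (-c) * S.n i := by
  rw [← S.n_y]
  group

lemma n₀_H' {h : G} (hh : h ∈ S.H) : S.n₀⁻¹ * h * S.n₀ ∈ S.H := by
  have := S.N_H _ (S.N.inv_mem S.n₀_N) h hh
  rwa [inv_inv] at this

lemma n₀_H'' {h : G} (hh : h ∈ S.H) : S.n₀ * h * S.n₀⁻¹ ∈ S.H := S.N_H _ S.n₀_N h hh

end SD

variable {M : Type*} [AddCommGroup M] [Module F M] (ρ : Representation F G M)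

/-- The Hecke operators. -/
noncomputable def T (i : ι) (v : M) : M := ∑ c : F, ρ (S.x i c) (ρ (S.n i) v)

/-- Fixed by `U`. -/
def Fix (v : M) : Prop := ∀ u ∈ S.U, ρ u v = v

/-- Eigenvector of `H`. -/
def HE (μ : S.H →* Fˣ) (v : M) : Prop := ∀ h : S.H, ρ h v = ((μ h : Fˣ) : F) • v

/-- The eigenvalue of `T_i²`. -/
noncomputable def gam (μ : S.H →* Fˣ) (i : ι) : F := ∑ c : Fˣ, ((μ (S.hh i c) : Fˣ) : F)

variable {S ρ}

lemma T_add (i : ι) (v w : M) : T S ρ i (v + w) = T S ρ i v + T S ρ i w := by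
  simp only [T, map_add, Finset.sum_add_distrib]

lemma T_smul (i : ι) (c : F) (v : M) : T S ρ i (c • v) = c • T S ρ i v := by
  simp only [T, map_smul, Finset.smul_sum]

/-- The Hecke operator preserves the fixed vectors. -/
lemma T_fix {v : M} (hv : Fix S ρ v) (i : ι) : Fix S ρ (T S ρ i v) := by
  intro u hu
  obtain ⟨d, a, ha, rfl⟩ := S.U_dec i u hu
  simp only [T, map_sum]
  rw [← Equiv.sum_comp (Equiv.addLeft d) (fun c => ρ (S.x i c) (ρ (S.n i) v))]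
  refine Finset.sum_congr rfl fun c _ => ?_
  -- the rearrangement
  have ha1 : (S.x i c)⁻¹ * a * S.x i c ∈ S.Ui i := by
    have := S.Ui_x i (-c) a ha
    rwa [S.x_neg, inv_inv] at this
  have ha2 := S.Ui_n' i _ ha1
  have e : S.x i d * a * S.x i c * S.n i =
      S.x i (d + c) * S.n i * ((S.n i)⁻¹ * ((S.x i c)⁻¹ * a * S.x i c) * S.n i) := by
    rw [S.x_add]
    group
  have h1 : ρ (S.x i d * a) (ρ (S.x i c) (ρ (S.n i) v)) = ρ (S.x i d * a * S.x i c * S.n i) v := by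
    simp only [map_mul, Module.End.mul_apply]
  rw [h1, e, map_mul, Module.End.mul_apply, hv _ (S.Ui_le i ha2), map_mul, Module.End.mul_apply]
  rfl

/-- The sum over a finite field splits into the value at zero and a sum over the units. -/
lemma sum_field {A : Type*} [AddCommMonoid A] (f : F → A) : ∑ c : F, f c = f 0 + ∑ c : Fˣ, f c := by
  classical
  rw [← Finset.add_sum_erase Finset.univ f (Finset.mem_univ 0)]
  congr 1
  symm
  refine Finset.sum_bij (fun c _ => (c : F)) ?_ ?_ ?_ ?_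
  · intro c _
    simp
  · intro c _ d _ e
    exact Units.ext e
  · intro c hc
    have hc0 : c ≠ 0 := (Finset.mem_erase.mp hc).1
    exact ⟨Units.mk0 c hc0, Finset.mem_univ _, rfl⟩
  · intro c _
    rfl

/-- The Hecke operator on an eigenvector of `H` through the rank one relation. -/
lemma T_rel {v : M} (hv : Fix S ρ v) {μ : S.H →* Fˣ} (hμ : HE S ρ μ v) (i : ι) :
    T S ρ i v = ρ (S.n i) v +
      ∑ c : Fˣ, ((μ (S.hh i (-c)) : Fˣ) : F) • ρ (S.y i ((c⁻¹ : Fˣ) : F)) v := by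
  rw [T, sum_field, S.x_zero, map_one]
  congr 1
  refine Finset.sum_congr rfl fun c _ => ?_
  have e := S.rel i c
  have h1 : ρ (S.x i c) (ρ (S.n i) v) = ρ (S.x i c * S.n i) v := by
    simp only [map_mul, Module.End.mul_apply]
  rw [h1, e, map_mul, Module.End.mul_apply, hv _ (S.x_mem _ _), map_mul, Module.End.mul_apply, hμ, map_smul]

lemma gam_neg (μ : S.H →* Fˣ) (i : ι) : ∑ c : Fˣ, ((μ (S.hh i (-c)) : Fˣ) : F) = gam S μ i := by
  rw [gam]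
  exact Equiv.sum_comp (Equiv.neg Fˣ) (fun c => ((μ (S.hh i c) : Fˣ) : F))

/-- The quadratic relation. -/
lemma T_sq {p : ℕ} [CharP F p] {S : SD p G W ι F} {ρ : Representation F G M} [Fact p.Prime]
    {v : M} (hv : Fix S ρ v) {μ : S.H →* Fˣ} (hμ : HE S ρ μ v) (i : ι) :
    T S ρ i (T S ρ i v) = gam S μ i • T S ρ i v := by
  have hq0 : ((Fintype.card F : ℕ) : F) = 0 := by simp
  have h1 : ρ (S.n i) (T S ρ i v) = ρ (S.n i * S.n i) v +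
      ∑ c : Fˣ, ((μ (S.hh i (-c)) : Fˣ) : F) • ρ (S.x i (-((c⁻¹ : Fˣ) : F))) (ρ (S.n i) v) := by
    rw [T_rel hv hμ, map_add, map_sum, map_mul, Module.End.mul_apply]
    congr 1
    refine Finset.sum_congr rfl fun c _ => ?_
    rw [map_smul]
    congr 1
    have := S.n_y' i ((c⁻¹ : Fˣ) : F)
    have e1 : ρ (S.n i) (ρ (S.y i ((c⁻¹ : Fˣ) : F)) v) = ρ (S.n i * S.y i ((c⁻¹ : Fˣ) : F)) v := by
      simp only [map_mul, Module.End.mul_apply]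
    rw [e1, this, map_mul, Module.End.mul_apply]
  have h2 : ρ (S.n i * S.n i) v = ((μ ⟨_, S.n_sq_mem i⟩ : Fˣ) : F) • v := hμ ⟨_, S.n_sq_mem i⟩
  rw [h2] at h1
  have h3 : T S ρ i (T S ρ i v) = ∑ c : F, ρ (S.x i c) (ρ (S.n i) (T S ρ i v)) := rfl
  rw [h3]
  simp only [h1, map_add, map_smul, map_sum]
  rw [Finset.sum_add_distrib]
  have h4 : ∑ c : F, ((μ ⟨_, S.n_sq_mem i⟩ : Fˣ) : F) • ρ (S.x i c) v = 0 := by
    simp only [hv _ (S.x_mem i _)]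
    rw [Finset.sum_const, Finset.card_univ, ← Nat.cast_smul_eq_nsmul F, hq0, zero_smul]
  rw [h4, zero_add]
  rw [Finset.sum_comm]
  rw [← gam_neg, Finset.sum_smul]
  refine Finset.sum_congr rfl fun c _ => ?_
  rw [← Finset.smul_sum]
  congr 1
  rw [T, ← Equiv.sum_comp (Equiv.addRight (-((c⁻¹ : Fˣ) : F))) (fun d => ρ (S.x i d) (ρ (S.n i) v))]
  refine Finset.sum_congr rfl fun d _ => ?_
  simp only [Equiv.coe_addRight]
  rw [S.x_add, map_mul, Module.End.mul_apply]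

end basic

end Cfsg.Agent.Lib.KS71.CRa
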