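/-
Orbit sums on the cosets of `U`, and common eigenvectors of `H` and the Hecke operators.
-/
import Mathlib
import Cfsg.Agent.Lib.KS71.CRa

set_option autoImplicit false
set_option linter.unusedSectionVars false
set_option linter.unusedVariables false
set_option linter.style.haveILetI false

namespace Cfsg.Agent.Lib.KS71.CRb

open Module
open scoped Classical
open Cfsg.Agent.Lib.KS71.CRa

variable {p : ℕ} {G W ι F : Type*} [Group G] [Fintype G] [Group W] [Field F] [Fintype F]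
  {S : SD p G W ι F}
  {M : Type*} [AddCommGroup M] [Module F M] {ρ : Representation F G M}

variable (S) in
/-- The `U`-orbit of the coset `g U`. -/
noncomputable def O (g : G) : Finset (G ⧸ S.U) :=
  Finset.univ.filter fun a => ∃ u ∈ S.U, a = ((u * g : G) : G ⧸ S.U)

lemma mem_O {g : G} {a : G ⧸ S.U} : a ∈ O S g ↔ ∃ u ∈ S.U, a = ((u * g : G) : G ⧸ S.U) := by
  simp [O]

variable (S ρ) in
/-- Evaluation of a `U`-fixed vector on a coset. -/
noncomputable def ev (v : M) (a : G ⧸ S.U) : M := ρ a.out v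

lemma ev_mk {v : M} (hv : Fix S ρ v) (g : G) : ev S ρ v (g : G ⧸ S.U) = ρ g v := by
  obtain ⟨h, hh⟩ := QuotientGroup.mk_out_eq_mul S.U g
  rw [ev, hh, map_mul, Module.End.mul_apply, hv _ h.2]

lemma ev_smul {v : M} (hv : Fix S ρ v) (t : G) (a : G ⧸ S.U) : ev S ρ v (t • a) = ρ t (ev S ρ v a) := by
  obtain ⟨g, rfl⟩ := QuotientGroup.mk_surjective a
  have : t • (g : G ⧸ S.U) = ((t * g : G) : G ⧸ S.U) := rfl
  rw [this, ev_mk hv, ev_mk hv, map_mul, Module.End.mul_apply]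

variable (S ρ) in
/-- The orbit sum. -/
noncomputable def Th (g : G) (v : M) : M := ∑ a ∈ O S g, ev S ρ v a

lemma Th_one {v : M} (hv : Fix S ρ v) : Th S ρ 1 v = v := by
  have h : O S 1 = {((1 : G) : G ⧸ S.U)} := by
    ext a
    rw [mem_O, Finset.mem_singleton]
    constructor
    · rintro ⟨u, hu, rfl⟩
      rw [mul_one]
      exact (QuotientGroup.eq.mpr (by simpa using hu))
    · rintro rfl
      exact ⟨1, S.U.one_mem, by simp⟩
  rw [Th, h, Finset.sum_singleton, ev_mk hv, map_one]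
  rfl

lemma Th_left {v : M} (hv : Fix S ρ v) (g t : G) (ht : ∀ u ∈ S.U, t * u * t⁻¹ ∈ S.U)
    (ht' : ∀ u ∈ S.U, t⁻¹ * u * t ∈ S.U) : ρ t (Th S ρ g v) = Th S ρ (t * g) v := by
  simp only [Th, map_sum]
  refine Finset.sum_bij (fun a _ => t • a) ?_ ?_ ?_ ?_
  · intro a ha
    obtain ⟨u, hu, rfl⟩ := mem_O.mp ha
    refine mem_O.mpr ⟨t * u * t⁻¹, ht u hu, ?_⟩
    change ((t * (u * g) : G) : G ⧸ S.U) = _
    congr 1
    group
  · intro a _ b _ e
    exact MulAction.injective t e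
  · intro b hb
    obtain ⟨u, hu, rfl⟩ := mem_O.mp hb
    refine ⟨((t⁻¹ * u * t * g : G) : G ⧸ S.U), mem_O.mpr ⟨_, ht' u hu, rfl⟩, ?_⟩
    change ((t * (t⁻¹ * u * t * g) : G) : G ⧸ S.U) = _
    congr 1
    group
  · intro a _
    rw [ev_smul hv]

lemma O_mul_U (g : G) {u : G} (hu : u ∈ S.U) : O S (u * g) = O S g := by
  ext a
  rw [mem_O, mem_O]
  constructor
  · rintro ⟨c, hc, rfl⟩
    exact ⟨c * u, S.U.mul_mem hc hu, by rw [mul_assoc]⟩
  · rintro ⟨c, hc, rfl⟩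
    exact ⟨c * u⁻¹, S.U.mul_mem hc (S.U.inv_mem hu), by congr 1; group⟩

lemma Th_fix {v : M} (hv : Fix S ρ v) (g : G) : Fix S ρ (Th S ρ g v) := by
  intro u hu
  rw [Th_left hv g u
    (fun c hc => S.U.mul_mem (S.U.mul_mem hu hc) (S.U.inv_mem hu))
    (fun c hc => S.U.mul_mem (S.U.mul_mem (S.U.inv_mem hu) hc) hu), Th, O_mul_U g hu]
  rfl

lemma H_U' {h : G} (hh : h ∈ S.H) {u : G} (hu : u ∈ S.U) : h⁻¹ * u * h ∈ S.U := by
  have := S.H_U h⁻¹ (S.H.inv_mem hh) u hu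
  rwa [inv_inv] at this

lemma Th_right {v : M} (hv : Fix S ρ v) {μ : S.H →* Fˣ} (hμ : HE S ρ μ v) (g : G) (h : S.H) :
    Th S ρ (g * h) v = ((μ h : Fˣ) : F) • Th S ρ g v := by
  simp only [Th]
  rw [Finset.smul_sum]
  have hmk : ∀ x : G, ∀ c ∈ S.U, ((x * c * h : G) : G ⧸ S.U) = ((x * h : G) : G ⧸ S.U) := by
    intro x c hc
    apply QuotientGroup.eq.mpr
    have := H_U' h.2 hc
    have e : (x * c * h)⁻¹ * (x * h) = ((h : G)⁻¹ * c * h)⁻¹ := by group
    rw [e]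
    exact S.U.inv_mem this
  have hout : ∀ a : G ⧸ S.U, ∀ x : G, a = (x : G ⧸ S.U) →
      ((a.out * h : G) : G ⧸ S.U) = ((x * h : G) : G ⧸ S.U) := by
    rintro a x rfl
    obtain ⟨c, hc⟩ := QuotientGroup.mk_out_eq_mul S.U x
    rw [hc]
    exact hmk x c c.2
  symm
  refine Finset.sum_bij (fun a _ => ((a.out * h : G) : G ⧸ S.U)) ?_ ?_ ?_ ?_
  · intro a ha
    obtain ⟨u, hu, rfl⟩ := mem_O.mp ha
    refine mem_O.mpr ⟨u, hu, ?_⟩
    rw [hout _ _ rfl, mul_assoc]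
  · intro a _ b _ e
    have h1 := QuotientGroup.eq.mp e
    have h2 := S.H_U h h.2 _ h1
    have e2 : (h : G) * ((a.out * h)⁻¹ * (b.out * h)) * (h : G)⁻¹ = (a.out)⁻¹ * b.out := by group
    rw [e2] at h2
    have h3 : ((a.out : G) : G ⧸ S.U) = ((b.out : G) : G ⧸ S.U) := QuotientGroup.eq.mpr h2
    simpa using h3
  · intro b hb
    obtain ⟨u, hu, rfl⟩ := mem_O.mp hb
    refine ⟨((u * g : G) : G ⧸ S.U), mem_O.mpr ⟨u, hu, rfl⟩, ?_⟩
    rw [hout _ _ rfl, mul_assoc]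
  · intro a _
    have e : ev S ρ v ((a.out * h : G) : G ⧸ S.U) = ρ (a.out * h) v := ev_mk hv _
    rw [e, map_mul, Module.End.mul_apply, hμ, map_smul]
    rfl

/-- The product formula for a step going up. -/
lemma Th_step {v : M} (hv : Fix S ρ v) (i : ι) {g : G} (hg : g ∈ S.N)
    (hl : S.l (S.τ g) < S.l (S.s i * S.τ g)) : T S ρ i (Th S ρ g v) = Th S ρ (S.n i * g) v := by
  -- reduction to `U_i`
  have hred : ∀ u ∈ S.U, ∃ a ∈ S.Ui i, ((u * g : G) : G ⧸ S.U) = ((a * g : G) : G ⧸ S.U) := by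
    intro u hu
    obtain ⟨d, b, hb, e⟩ := S.U_dec i u⁻¹ (S.U.inv_mem hu)
    refine ⟨b⁻¹, (S.Ui i).inv_mem hb, ?_⟩
    have e1 : u = b⁻¹ * S.x i (-d) := by
      rw [S.x_neg, ← mul_inv_rev, ← e, inv_inv]
    apply QuotientGroup.eq.mpr
    have h2 := S.up_x g hg i (-d) hl
    have e2 : (u * g)⁻¹ * (b⁻¹ * g) = (g⁻¹ * S.x i (-d) * g)⁻¹ := by
      rw [e1]
      group
    rw [e2]
    exact S.U.inv_mem h2
  have e0 : T S ρ i (Th S ρ g v) =
      ∑ q ∈ (Finset.univ : Finset F) ×ˢ O S g, ev S ρ v ((S.x i q.1 * S.n i) • q.2) := by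
    rw [Finset.sum_product]
    simp only [T, Th, map_sum]
    refine Finset.sum_congr rfl fun c _ => Finset.sum_congr rfl fun a _ => ?_
    rw [ev_smul hv, map_mul, Module.End.mul_apply]
  rw [e0, Th]
  refine Finset.sum_bij (fun q _ => (S.x i q.1 * S.n i) • q.2) ?_ ?_ ?_ ?_
  · rintro ⟨c, a⟩ hq
    have ha : a ∈ O S g := (Finset.mem_product.mp hq).2
    obtain ⟨u, hu, rfl⟩ := mem_O.mp ha
    obtain ⟨b, hb, e⟩ := hred u hu
    change (S.x i c * S.n i) • ((u * g : G) : G ⧸ S.U) ∈ _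
    rw [e]
    refine mem_O.mpr ⟨S.x i c * (S.n i * b * (S.n i)⁻¹),
      S.U.mul_mem (S.x_mem _ _) (S.Ui_le i (S.Ui_n i b hb)), ?_⟩
    change ((S.x i c * S.n i * (b * g) : G) : G ⧸ S.U) = _
    congr 1
    group
  · rintro ⟨c, a⟩ hq ⟨c', a'⟩ hq' e
    have ha : a ∈ O S g := (Finset.mem_product.mp hq).2
    have ha' : a' ∈ O S g := (Finset.mem_product.mp hq').2
    obtain ⟨u, hu, rfl⟩ := mem_O.mp ha
    obtain ⟨u', hu', rfl⟩ := mem_O.mp ha'
    obtain ⟨b, hb, e1⟩ := hred u hu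
    obtain ⟨b', hb', e2⟩ := hred u' hu'
    simp only at e
    rw [e1, e2] at e
    have e3 : ((S.x i c * S.n i * (b * g) : G) : G ⧸ S.U) = ((S.x i c' * S.n i * (b' * g) : G) : G ⧸ S.U) := e
    have e4 := QuotientGroup.eq.mp e3
    -- the parameter is the same
    have hcc : c = c' := by
      by_contra hne
      have hne' : c' - c ≠ 0 := sub_ne_zero.mpr (Ne.symm hne)
      -- `y` carries the coset
      have e5 : S.x i c' = S.x i c * S.x i (c' - c) := by
        rw [← S.x_add]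
        congr 1
        ring
      let f : Fˣ := Units.mk0 _ (neg_ne_zero.mpr hne')
      have hy : S.y i (f : F) = (S.n i)⁻¹ * S.x i (c' - c) * S.n i := by
        have := S.n_y i (f : F)
        have e6 : S.x i (-(f : F)) = S.x i (c' - c) := by
          congr 1
          simp [f]
        rw [e6] at this
        rw [← this]
        group
      -- the left side
      have hb1 := S.Ui_y i (f : F) hb'
      have hw : ((S.y i (f : F) * g : G) : G ⧸ S.U) =
          (((S.y i (f : F) * b' * (S.y i (f : F))⁻¹)⁻¹ * b * g : G) : G ⧸ S.U) := by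
        apply QuotientGroup.eq.mpr
        have e7 : (S.y i (f : F) * g)⁻¹ * ((S.y i (f : F) * b' * (S.y i (f : F))⁻¹)⁻¹ * b * g) =
            (S.x i c' * S.n i * (b' * g))⁻¹ * (S.x i c * S.n i * (b * g)) := by
          rw [hy, e5]
          group
        rw [e7]
        have := S.U.inv_mem e4
        rwa [mul_inv_rev, inv_inv] at this
      -- compare the double cosets
      obtain ⟨c₀, hc₀m, hc₀⟩ : ∃ c₀ ∈ S.U, S.y i (f : F) * g =
          (S.y i (f : F) * b' * (S.y i (f : F))⁻¹)⁻¹ * b * g * c₀ := by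
        have := QuotientGroup.eq.mp hw
        refine ⟨_, S.U.inv_mem this, ?_⟩
        group
      have hτ1 : S.τ (S.y i (f : F) * g) = S.τ g := by
        rw [hc₀, S.τ_U_right _ hc₀m, mul_assoc, S.τ_U_left _ (S.U.inv_mem (S.Ui_le i hb1)),
          S.τ_U_left _ (S.Ui_le i hb)]
      have hτ2 : S.τ (S.y i (f : F) * g) = S.s i * S.τ g := by
        rw [S.rel2]
        have e8 : S.x i ((f⁻¹ : Fˣ) : F) * (S.hh i (-(f⁻¹)) : G) * S.n i * S.x i ((f⁻¹ : Fˣ) : F) * g =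
            S.x i ((f⁻¹ : Fˣ) : F) * ((S.hh i (-(f⁻¹)) : G) * ((S.n i * g) * (g⁻¹ * S.x i ((f⁻¹ : Fˣ) : F) * g))) := by
          group
        rw [e8, S.τ_U_left _ (S.x_mem _ _), S.τ_H_left _ (S.hh i _).2,
          S.τ_U_right _ (S.up_x g hg i _ hl), S.τ_N_mul _ (S.n_mem i) _ hg, S.τ_n]
      rw [hτ1] at hτ2
      rw [← hτ2] at hl
      exact lt_irrefl _ hl
    subst hcc
    have e9 : (S.x i c * S.n i) • ((b * g : G) : G ⧸ S.U) = (S.x i c * S.n i) • ((b' * g : G) : G ⧸ S.U) := e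
    have e10 := MulAction.injective _ e9
    have : ((u * g : G) : G ⧸ S.U) = ((u' * g : G) : G ⧸ S.U) := by rw [e1, e2, e10]
    simp only [Prod.mk.injEq, true_and]
    exact this
  · intro b hb
    obtain ⟨u, hu, rfl⟩ := mem_O.mp hb
    obtain ⟨c, a, ha, rfl⟩ := S.U_dec i u hu
    refine ⟨(c, (((S.n i)⁻¹ * a * S.n i * g : G) : G ⧸ S.U)), ?_, ?_⟩
    · refine Finset.mem_product.mpr ⟨Finset.mem_univ _, mem_O.mpr ⟨_, S.Ui_le i (S.Ui_n' i a ha), rfl⟩⟩
    · change ((S.x i c * S.n i * ((S.n i)⁻¹ * a * S.n i * g) : G) : G ⧸ S.U) = _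
      congr 1
      group
  · intro q _
    rfl

end Cfsg.Agent.Lib.KS71.CRb
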