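/-
Common eigenvectors of `H` and the Hecke operators on the vectors fixed by `U`.
-/
import Mathlib
import Cfsg.Agent.Lib.KS71.CRb

set_option autoImplicit false
set_option linter.unusedSectionVars false
set_option linter.unusedVariables false
set_option linter.style.haveILetI false

namespace Cfsg.Agent.Lib.KS71.CRc

open Module Polynomial
open scoped Classical
open Cfsg.Agent.Lib.KS71.CRa Cfsg.Agent.Lib.KS71.CRb

section eig

variable {F : Type*} [Field F] [Fintype F]

lemma prod_X_sub : ∏ c : F, (X - C c) = (X ^ Fintype.card F - X : F[X]) := by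
  have hq : 1 < Fintype.card F := Fintype.one_lt_card
  have hm : (X ^ Fintype.card F - X : F[X]).Monic := by
    refine monic_X_pow_sub ?_
    rw [degree_X]
    exact_mod_cast hq
  have hr := FiniteField.roots_X_pow_card_sub_X F
  have hd := FiniteField.X_pow_card_sub_X_natDegree_eq F hq
  have h := prod_multiset_X_sub_C_of_monic_of_roots_card_eq hm (by rw [hr, hd]; simp)
  rw [hr] at h
  rw [← h]
  rfl

lemma exists_eig {V : Type*} [AddCommGroup V] [Module F V] [Nontrivial V] (T : End F V)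
    (hT : T ^ Fintype.card F = T) : ∃ (c : F) (w : V), w ≠ 0 ∧ T w = c • w := by
  obtain ⟨v, hv⟩ := exists_ne (0 : V)
  have key : ∀ s : Finset F, aeval T (∏ c ∈ s, (X - C c)) v = 0 → ∃ (c : F) (w : V), w ≠ 0 ∧ T w = c • w := by
    intro s
    induction s using Finset.induction_on with
    | empty =>
      intro h
      simp at h
      exact absurd h hv
    | insert a s ha ih =>
      intro h
      rw [Finset.prod_insert ha, map_mul, Module.End.mul_apply] at h
      by_cases hw : aeval T (∏ c ∈ s, (X - C c)) v = 0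
      · exact ih hw
      · refine ⟨a, _, hw, ?_⟩
        simp only [map_sub, aeval_X, aeval_C, LinearMap.sub_apply] at h
        rw [sub_eq_zero] at h
        rw [h]
        rfl
  apply key Finset.univ
  rw [prod_X_sub]
  simp [hT]

lemma common_eig {M : Type*} [AddCommGroup M] [Module F M] [FiniteDimensional F M]
    (𝓕 : Set (End F M)) (hc : ∀ a ∈ 𝓕, ∀ b ∈ 𝓕, a * b = b * a)
    (hq : ∀ a ∈ 𝓕, a ^ Fintype.card F = a) :
    ∀ (n : ℕ) (V₀ : Submodule F M), finrank F V₀ = n → V₀ ≠ ⊥ → (∀ a ∈ 𝓕, ∀ v ∈ V₀, a v ∈ V₀) →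
      ∃ v ∈ V₀, v ≠ 0 ∧ ∀ a ∈ 𝓕, ∃ c : F, a v = c • v := by
  intro n
  induction n using Nat.strong_induction_on with
  | _ n ih =>
    intro V₀ hn hne hst
    by_cases hall : ∀ a ∈ 𝓕, ∃ c : F, ∀ v ∈ V₀, a v = c • v
    · obtain ⟨v, hv, hv0⟩ := (Submodule.ne_bot_iff V₀).mp hne
      refine ⟨v, hv, hv0, fun a ha => ?_⟩
      obtain ⟨c, hc'⟩ := hall a ha
      exact ⟨c, hc' v hv⟩
    · push Not at hall
      obtain ⟨a, ha, hnot⟩ := hall
      haveI : Nontrivial V₀ := Submodule.nontrivial_iff_ne_bot.mpr hne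
      let a' : End F V₀ := a.restrict (hst a ha)
      have hpow : ∀ m : ℕ, ∀ v : V₀, ((a' ^ m) v : M) = (a ^ m) v := by
        intro m
        induction m with
        | zero => intro v; rfl
        | succ m ihm =>
          intro v
          rw [pow_succ, pow_succ, Module.End.mul_apply, Module.End.mul_apply, ihm]
          rfl
      have ha' : a' ^ Fintype.card F = a' := by
        ext v
        rw [hpow, hq a ha]
        rfl
      obtain ⟨c, w, hw, hcw⟩ := exists_eig a' ha'
      let V₁ : Submodule F M := V₀ ⊓ LinearMap.ker (a - c • 1)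
      have hV₁ : V₁ ≠ ⊥ := by
        rw [Submodule.ne_bot_iff]
        refine ⟨w, ⟨w.2, ?_⟩, fun h => hw (Subtype.ext h)⟩
        have : a (w : M) = c • (w : M) := congrArg Subtype.val hcw
        simp [this]
      have hlt : V₁ < V₀ := by
        refine lt_of_le_of_ne inf_le_left ?_
        intro he
        obtain ⟨v, hv, hne'⟩ := hnot c
        apply hne'
        have : v ∈ V₁ := by rw [he]; exact hv
        have h2 : v ∈ LinearMap.ker (a - c • 1) := this.2
        simpa [sub_eq_zero] using h2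
      have hfin := Submodule.finrank_lt_finrank_of_lt hlt
      obtain ⟨v, hv, hv0, hvv⟩ := ih (finrank F V₁) (by rw [← hn]; exact hfin) V₁ rfl hV₁ (by
        intro b hb v hv
        refine ⟨hst b hb v hv.1, ?_⟩
        have h2 : v ∈ LinearMap.ker (a - c • 1) := hv.2
        have h3 : a v = c • v := by simpa [sub_eq_zero] using h2
        have h4 : a (b v) = b (a v) := congrArg (fun t : End F M => t v) (hc a ha b hb)
        simp [h4, h3, sub_eq_zero])
      exact ⟨v, hv.1, hv0, hvv⟩

end eig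

variable {p : ℕ} {G W ι F : Type*} [Group G] [Fintype G] [Group W] [Field F] [Fintype F]
  {S : SD p G W ι F}
  {M : Type*} [AddCommGroup M] [Module F M] {ρ : Representation F G M}

lemma inj_rho (g : G) {v : M} (h : ρ g v = 0) : v = 0 := by
  have h1 : ρ g⁻¹ (ρ g v) = v := by
    rw [← Module.End.mul_apply, ← map_mul, inv_mul_cancel, map_one]
    rfl
  rw [← h1, h, map_zero]

/-- A common eigenvector of `H` gives a character. -/
lemma mk_char {v : M} (hv : v ≠ 0) (h : ∀ g : S.H, ∃ c : F, ρ g v = c • v) :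
    ∃ μ : S.H →* Fˣ, HE S ρ μ v := by
  choose c hc using h
  have hne : ∀ g, c g ≠ 0 := by
    intro g h0
    have := hc g
    rw [h0, zero_smul] at this
    exact hv (inj_rho _ this)
  have hmul : ∀ a b : S.H, c (a * b) = c a * c b := by
    intro a b
    have h1 : ρ ((a : G) * b) v = (c a * c b) • v := by
      rw [map_mul, Module.End.mul_apply, hc, map_smul, hc, smul_smul, mul_comm]
    have h2 : (c (a * b) - c a * c b) • v = 0 := by
      rw [sub_smul, ← h1]
      have := hc (a * b)
      simp only [Subgroup.coe_mul] at this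
      rw [← this, sub_self]
    rcases smul_eq_zero.mp h2 with h3 | h3
    · exact sub_eq_zero.mp h3
    · exact absurd h3 hv
  refine ⟨MonoidHom.mk' (fun g => Units.mk0 (c g) (hne g)) (fun a b => Units.ext (hmul a b)), ?_⟩
  intro g
  exact hc g

/-- A nonzero representation has a nonzero vector fixed by `U`. -/
lemma exists_fixed [Fact p.Prime] [CharP F p] [FiniteDimensional F M] [Nontrivial M] :
    ∃ v : M, v ≠ 0 ∧ Fix S ρ v := by
  haveI : Finite M := Module.finite_of_finite F
  letI : MulAction S.U M :=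
    { smul := fun u v => ρ u v
      one_smul := fun v => by
        change ρ (1 : G) v = v
        rw [map_one]
        rfl
      mul_smul := fun a b v => by
        change ρ ((a : G) * b) v = ρ a (ρ b v)
        rw [map_mul]
        rfl }
  have hdvd : p ∣ Nat.card M := by
    obtain ⟨n, -, hn⟩ := FiniteField.card F p
    rw [Module.natCard_eq_pow_finrank (K := F), Nat.card_eq_fintype_card, hn]
    have hpos : 0 < finrank F M := finrank_pos
    exact Dvd.dvd.pow (dvd_pow_self p n.ne_zero) hpos.ne'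
  have h0 : (0 : M) ∈ MulAction.fixedPoints S.U M := by
    intro u
    change ρ u (0 : M) = 0
    rw [map_zero]
  obtain ⟨e, he, hne⟩ := S.hU.exists_fixed_point_of_prime_dvd_card_of_fixed_point M hdvd h0
  exact ⟨e, hne.symm, fun u hu => he ⟨u, hu⟩⟩

lemma Th_HE {x : M} (hx : Fix S ρ x) {μ : S.H →* Fˣ} (hμ : HE S ρ μ x) {g : G} (hg : g ∈ S.N)
    (h : S.H) : ∃ c : F, ρ h (Th S ρ g x) = c • Th S ρ g x := by
  have hmem : g⁻¹ * h * g ∈ S.H := by
    have := S.N_H g⁻¹ (S.N.inv_mem hg) h h.2
    rwa [inv_inv] at this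
  refine ⟨((μ ⟨_, hmem⟩ : Fˣ) : F), ?_⟩
  rw [Th_left hx g h (fun u hu => S.H_U h h.2 u hu) (fun u hu => H_U' h.2 hu)]
  have e : (h : G) * g = g * (g⁻¹ * h * g) := by group
  rw [e]
  exact Th_right hx hμ g ⟨_, hmem⟩

/-- **Common eigenvectors**. -/
theorem exists_CE [Fact p.Prime] [CharP F p] [FiniteDimensional F M] [Nontrivial M] :
    ∃ (μ : S.H →* Fˣ) (lam : ι → F) (v : M), v ≠ 0 ∧ Fix S ρ v ∧ HE S ρ μ v ∧ ∀ i, T S ρ i v = lam i • v := by
  -- a common eigenvector of `H` among the fixed vectors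
  let V₀ : Submodule F M :=
    { carrier := {v | Fix S ρ v}
      add_mem' := by
        intro a b ha hb u hu
        rw [map_add, ha u hu, hb u hu]
      zero_mem' := by
        intro u _
        rw [map_zero]
      smul_mem' := by
        intro c a ha u hu
        rw [map_smul, ha u hu] }
  obtain ⟨v₀, hv₀, hfv₀⟩ := exists_fixed (S := S) (ρ := ρ)
  obtain ⟨x, hxm, hx0, hxe⟩ := common_eig ((fun h : S.H => ρ h) '' Set.univ)
    (by
      rintro _ ⟨a, -, rfl⟩ _ ⟨b, -, rfl⟩
      simp only
      rw [← map_mul, ← map_mul, S.H_comm a a.2 b b.2])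
    (by
      rintro _ ⟨a, -, rfl⟩
      simp only
      rw [← map_pow, S.H_pow a a.2])
    _ V₀ rfl ((Submodule.ne_bot_iff V₀).mpr ⟨v₀, hfv₀, hv₀⟩)
    (by
      rintro _ ⟨a, -, rfl⟩ v hv u hu
      simp only
      have h1 : (a : G)⁻¹ * u * a ∈ S.U := H_U' a.2 hu
      have e : u * (a : G) = a * ((a : G)⁻¹ * u * a) := by group
      have h2 : ρ u (ρ a v) = ρ (u * a) v := by
        simp only [map_mul, Module.End.mul_apply]
      rw [h2, e, map_mul, Module.End.mul_apply, hv _ h1])
  have hfx : Fix S ρ x := hxm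
  obtain ⟨μ, hμ⟩ := mk_char (S := S) hx0 (fun h => hxe _ ⟨h, trivial, rfl⟩)
  -- a maximal orbit sum
  let 𝓢 : Finset G := Finset.univ.filter fun g => g ∈ S.N ∧ Th S ρ g x ≠ 0
  have h1mem : (1 : G) ∈ 𝓢 := by
    simp only [𝓢, Finset.mem_filter, Finset.mem_univ, true_and]
    refine ⟨S.N.one_mem, ?_⟩
    rw [Th_one hfx]
    exact hx0
  obtain ⟨g, hg, hmax⟩ := Finset.exists_max_image 𝓢 (fun g => S.l (S.τ g)) ⟨1, h1mem⟩
  simp only [𝓢, Finset.mem_filter, Finset.mem_univ, true_and] at hg
  obtain ⟨hgN, hy0⟩ := hg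
  set y := Th S ρ g x with hy
  have hfy : Fix S ρ y := Th_fix hfx g
  obtain ⟨μ', hμ'⟩ := mk_char (S := S) hy0 (fun h => Th_HE hfx hμ hgN h)
  have hτ1 : S.τ 1 = 1 := by
    have := S.τ_N_mul 1 S.N.one_mem 1 S.N.one_mem
    rw [mul_one] at this
    exact mul_eq_left.mp this.symm
  have hlam : ∀ i, ∃ c : F, T S ρ i y = c • y := by
    intro i
    rcases S.l_left i (S.τ g) with hup | hdown
    · refine ⟨0, ?_⟩
      rw [hy, Th_step hfx i hgN hup, zero_smul]
      by_contra hne
      have hm : S.n i * g ∈ 𝓢 := by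
        simp only [𝓢, Finset.mem_filter, Finset.mem_univ, true_and]
        exact ⟨S.N.mul_mem (S.n_mem i) hgN, hne⟩
      have := hmax _ hm
      rw [S.τ_N_mul _ (S.n_mem i) _ hgN, S.τ_n] at this
      omega
    · -- the shorter element
      have hinv : S.τ (S.n i)⁻¹ = S.s i := by
        have h1 := S.τ_N_mul _ (S.N.inv_mem (S.n_mem i)) _ (S.n_mem i)
        rw [inv_mul_cancel, hτ1, S.τ_n] at h1
        have h2 := S.s_sq i
        exact (mul_right_cancel (h1.symm.trans h2.symm))
      have hg'N : (S.n i)⁻¹ * g ∈ S.N := S.N.mul_mem (S.N.inv_mem (S.n_mem i)) hgN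
      have hτg' : S.τ ((S.n i)⁻¹ * g) = S.s i * S.τ g := by
        rw [S.τ_N_mul _ (S.N.inv_mem (S.n_mem i)) _ hgN, hinv]
      have hs2 : S.s i * S.τ ((S.n i)⁻¹ * g) = S.τ g := by
        rw [hτg', ← mul_assoc, S.s_sq, one_mul]
      have hup' : S.l (S.τ ((S.n i)⁻¹ * g)) < S.l (S.s i * S.τ ((S.n i)⁻¹ * g)) := by
        rw [hs2, hτg']
        exact hdown
      have hstep := Th_step hfx i hg'N hup'
      have e : S.n i * ((S.n i)⁻¹ * g) = g := by group
      rw [e] at hstep
      set y' := Th S ρ ((S.n i)⁻¹ * g) x with hy'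
      by_cases hy'0 : y' = 0
      · exfalso
        rw [hy'0] at hstep
        apply hy0
        rw [hy, ← hstep]
        simp [T]
      · obtain ⟨μ'', hμ''⟩ := mk_char (S := S) hy'0 (fun h => Th_HE hfx hμ hg'N h)
        have hfy' : Fix S ρ y' := Th_fix hfx _
        refine ⟨gam S μ'' i, ?_⟩
        rw [hy, ← hstep]
        exact T_sq hfy' hμ'' i
  choose lam hl using hlam
  exact ⟨μ', lam, y, hy0, hfy, hμ', hl⟩

/-- The eigenvalues of a Hecke operator. -/
lemma lam_values [Fact p.Prime] [CharP F p] {v : M} (hv0 : v ≠ 0) (hf : Fix S ρ v) {μ : S.H →* Fˣ}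
    (hμ : HE S ρ μ v) {i : ι} {c : F} (hc : T S ρ i v = c • v) : c = 0 ∨ c = gam S μ i := by
  have h1 := T_sq hf hμ i
  rw [hc, T_smul, hc, smul_smul, smul_smul, ← sub_eq_zero, ← sub_smul] at h1
  rcases smul_eq_zero.mp h1 with h2 | h2
  · have h3 : c * (c - gam S μ i) = 0 := by
      rw [mul_sub, mul_comm c (gam S μ i)]
      exact h2
    rcases mul_eq_zero.mp h3 with h4 | h4
    · exact Or.inl h4
    · exact Or.inr (sub_eq_zero.mp h4)
  · exact absurd h2 hv0

end Cfsg.Agent.Lib.KS71.CRc
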