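/-
The vanishing lemma and the simple modules of a group with a split `BN`-pair.
-/
import Mathlib
import Cfsg.Agent.Lib.KS71.CRc
import Cfsg.Agent.Lib.KS71.BrD

set_option autoImplicit false
set_option linter.unusedSectionVars false
set_option linter.unusedVariables false
set_option linter.style.haveILetI false

namespace Cfsg.Agent.Lib.KS71.CRd

open Module
open scoped Classical
open Cfsg.Agent.Lib.KS71.CRa Cfsg.Agent.Lib.KS71.CRb Cfsg.Agent.Lib.KS71.CRc
open Cfsg.Agent.Lib.KS71.BrC

variable {p : ℕ} {G W ι F : Type*} [Group G] [Fintype G] [Group W] [Field F] [Fintype F]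
  {S : SD p G W ι F}
  {M : Type*} [AddCommGroup M] [Module F M] {ρ : Representation F G M}

lemma τ_one : S.τ 1 = 1 := by
  have := S.τ_N_mul 1 S.N.one_mem 1 S.N.one_mem
  rw [mul_one] at this
  exact mul_eq_left.mp this.symm

lemma τ_n_inv (i : ι) : S.τ (S.n i)⁻¹ = S.s i := by
  have h1 := S.τ_N_mul _ (S.N.inv_mem (S.n_mem i)) _ (S.n_mem i)
  rw [inv_mul_cancel, τ_one, S.τ_n] at h1
  have h2 := S.s_sq i
  exact (mul_right_cancel (h1.symm.trans h2.symm))

/-- The vanishing lemma on `N`. -/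
lemma vanish_N {v₀ : M} (hf : Fix S ρ v₀) {μ : S.H →* Fˣ} (hμ : HE S ρ μ v₀) {lam : ι → F}
    (hT : ∀ i, T S ρ i v₀ = lam i • v₀) (f : M →ₗ[F] F) (hfU : ∀ a ∈ S.Um, ∀ x, f (ρ a x) = f x)
    (h0 : f v₀ = 0) : ∀ (k : ℕ), ∀ g ∈ S.N, S.l (S.τ g) = k → f (ρ g v₀) = 0 := by
  intro k
  induction k using Nat.strong_induction_on with
  | _ k ih =>
    intro g hg hk
    by_cases h1 : S.τ g = 1
    · have := hμ ⟨g, S.τ_N_ker g hg h1⟩
      simp only at this
      rw [this, map_smul, h0, smul_zero]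
    · obtain ⟨i, hi⟩ := S.l_desc _ h1
      have hg'N : g * (S.n i)⁻¹ ∈ S.N := S.N.mul_mem hg (S.N.inv_mem (S.n_mem i))
      have hτ : S.τ (g * (S.n i)⁻¹) = S.τ g * S.s i := by
        rw [S.τ_N_mul _ hg _ (S.N.inv_mem (S.n_mem i)), τ_n_inv]
      have hup : S.l (S.τ (g * (S.n i)⁻¹)) < S.l (S.τ (g * (S.n i)⁻¹) * S.s i) := by
        rw [hτ, mul_assoc, S.s_sq, mul_one]
        exact hi
      have hlt : S.l (S.τ (g * (S.n i)⁻¹)) < k := by
        rw [hτ, ← hk]
        exact hi
      have hI := ih _ hlt _ hg'N rfl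
      have hrel := T_rel hf hμ i
      rw [hT] at hrel
      have hn : ρ (S.n i) v₀ = lam i • v₀ -
          ∑ c : Fˣ, ((μ (S.hh i (-c)) : Fˣ) : F) • ρ (S.y i ((c⁻¹ : Fˣ) : F)) v₀ := by
        rw [hrel]
        abel
      have e : g = g * (S.n i)⁻¹ * S.n i := by group
      rw [e, map_mul, Module.End.mul_apply, hn, map_sub, map_sub, map_smul, map_smul, hI, smul_zero,
        zero_sub, map_sum, map_sum, neg_eq_zero]
      refine Finset.sum_eq_zero fun c _ => ?_
      rw [map_smul, map_smul]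
      have h2 := S.up_y _ hg'N i ((c⁻¹ : Fˣ) : F) hup
      have e2 : ρ (g * (S.n i)⁻¹) (ρ (S.y i ((c⁻¹ : Fˣ) : F)) v₀) =
          ρ (g * (S.n i)⁻¹ * S.y i ((c⁻¹ : Fˣ) : F) * (g * (S.n i)⁻¹)⁻¹) (ρ (g * (S.n i)⁻¹) v₀) := by
        simp only [← Module.End.mul_apply, ← map_mul]
        congr 2
        group
      rw [e2, hfU _ h2, hI, smul_zero]

/-- The vanishing lemma. -/
theorem vanish {v₀ : M} (hf : Fix S ρ v₀) {μ : S.H →* Fˣ} (hμ : HE S ρ μ v₀) {lam : ι → F}
    (hT : ∀ i, T S ρ i v₀ = lam i • v₀) (f : M →ₗ[F] F) (hfU : ∀ a ∈ S.Um, ∀ x, f (ρ a x) = f x)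
    (h0 : f v₀ = 0) (g : G) : f (ρ g v₀) = 0 := by
  obtain ⟨a, ha, m, hm, b, hb, rfl⟩ := S.dec g
  rw [map_mul, map_mul, Module.End.mul_apply, Module.End.mul_apply, hf _ hb, hfU _ ha]
  exact vanish_N hf hμ hT f hfU h0 _ m hm rfl

/-- The orbit of a nonzero vector spans a simple representation. -/
lemma span_orbit (hs : IsSimpleRep ρ) {v : M} (hv : v ≠ 0) :
    Submodule.span F (Set.range fun g => ρ g v) = ⊤ := by
  rcases hs.simple (Submodule.span F (Set.range fun g => ρ g v)) (by
    intro g x hx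
    induction hx using Submodule.span_induction with
    | mem x h =>
      obtain ⟨g', rfl⟩ := h
      refine Submodule.subset_span ⟨g * g', ?_⟩
      simp only [map_mul, Module.End.mul_apply]
    | zero => rw [map_zero]; exact Submodule.zero_mem _
    | add a b _ _ ha hb => rw [map_add]; exact Submodule.add_mem _ ha hb
    | smul c a _ ha => rw [map_smul]; exact Submodule.smul_mem _ _ ha) with h | h
  · exfalso
    apply hv
    have : v ∈ Submodule.span F (Set.range fun g => ρ g v) :=
      Submodule.subset_span ⟨1, by simp⟩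
    rw [h] at this
    exact this
  · exact h

/-- A functional vanishing on an orbit vanishes on a simple representation. -/
lemma eq_zero_of_orbit (hs : IsSimpleRep ρ) {v : M} (hv : v ≠ 0) (f : M →ₗ[F] F)
    (h : ∀ g, f (ρ g v) = 0) : f = 0 := by
  ext x
  have hx : x ∈ Submodule.span F (Set.range fun g => ρ g v) := by
    rw [span_orbit hs hv]
    trivial
  induction hx using Submodule.span_induction with
  | mem x h' =>
    obtain ⟨g', rfl⟩ := h'
    exact h g'
  | zero => simp
  | add a b _ _ ha hb => simp [ha, hb]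
  | smul c a _ ha => simp [ha]

/-- A nonzero vector fixed by a `p`-subgroup. -/
lemma exists_fixed_of_pgroup [Fact p.Prime] [CharP F p] [FiniteDimensional F M] [Nontrivial M]
    (P : Subgroup G) (hP : IsPGroup p P) : ∃ v : M, v ≠ 0 ∧ ∀ u ∈ P, ρ u v = v := by
  haveI : Finite M := Module.finite_of_finite F
  letI : MulAction P M :=
    { smul := fun u v => ρ u v
      one_smul := fun v => by
        change ρ (1 : G) v = v
        rw [map_one]
        rfl
      mul_smul := fun a b v => by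
        change ρ ((a : G) * b) v = ρ a (ρ b v)
        rw [map_mul]
        rfl }
  have hdvd : p ∣ Nat.card M := by
    obtain ⟨n, -, hn⟩ := FiniteField.card F p
    rw [Module.natCard_eq_pow_finrank (K := F), Nat.card_eq_fintype_card, hn]
    have hpos : 0 < finrank F M := finrank_pos
    exact Dvd.dvd.pow (dvd_pow_self p n.ne_zero) hpos.ne'
  have h0 : (0 : M) ∈ MulAction.fixedPoints P M := by
    intro u
    change ρ u (0 : M) = 0
    rw [map_zero]
  obtain ⟨e, he, hne⟩ := hP.exists_fixed_point_of_prime_dvd_card_of_fixed_point M hdvd h0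
  exact ⟨e, hne.symm, fun u hu => he ⟨u, hu⟩⟩

section dual

lemma dual_simple [FiniteDimensional F M] (hs : IsSimpleRep ρ) : IsSimpleRep ρ.dual := by
  haveI := hs.nontriv
  refine ⟨inferInstance, fun A hA => ?_⟩
  let B : Submodule F M := A.dualCoannihilator
  have hB : ∀ g, ∀ v ∈ B, ρ g v ∈ B := by
    intro g v hv
    rw [Submodule.mem_dualCoannihilator] at hv ⊢
    intro f hf
    have h1 := hv _ (hA g⁻¹ f hf)
    change f (ρ g⁻¹⁻¹ v) = 0 at h1
    rwa [inv_inv] at h1
  rcases hs.simple B hB with h | h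
  · right
    have h1 := Subspace.dualCoannihilator_dualAnnihilator_eq (W := A)
    rw [← h1]
    change B.dualAnnihilator = ⊤
    rw [h]
    simp
  · left
    have h1 := Subspace.dualCoannihilator_dualAnnihilator_eq (W := A)
    rw [← h1]
    change B.dualAnnihilator = ⊥
    rw [h]
    simp

end dual

/-- The fixed vectors of `U` in a simple representation form a line. -/
theorem fix_unique [Fact p.Prime] [CharP F p] [FiniteDimensional F M] (hs : IsSimpleRep ρ)
    {v v' : M} (hv : Fix S ρ v) (hv' : Fix S ρ v') (hv0 : v ≠ 0) : ∃ c : F, v' = c • v := by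
  haveI := hs.nontriv
  obtain ⟨μ, lam, f₀, hf₀0, hfix, hμ, hT⟩ := exists_CE (S := S) (ρ := ρ.dual)
  have hds := dual_simple hs
  let φ : M →ₗ[F] F := f₀ ∘ₗ ρ S.n₀⁻¹
  have key : ∀ x, Fix S ρ x → φ x = 0 → x = 0 := by
    intro x hx h0
    let z := ρ S.n₀⁻¹ x
    let Fz : Dual F M →ₗ[F] F := Dual.eval F M z
    have hz : ∀ a ∈ S.Um, ρ a z = z := by
      intro a ha
      have h1 := S.n₀_Um a ha
      have e : a * S.n₀⁻¹ = S.n₀⁻¹ * (S.n₀ * a * S.n₀⁻¹) := by group
      change ρ a (ρ S.n₀⁻¹ x) = ρ S.n₀⁻¹ x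
      rw [← Module.End.mul_apply, ← map_mul, e, map_mul, Module.End.mul_apply, hx _ h1]
    have hFz : Fz f₀ = 0 := h0
    have hall := vanish hfix hμ hT Fz (by
      intro a ha f
      change (ρ.dual a f) z = f z
      rw [Representation.dual_apply]
      change f (ρ a⁻¹ z) = f z
      rw [hz _ (S.Um.inv_mem ha)]) hFz
    have h3 := eq_zero_of_orbit hds hf₀0 Fz hall
    have h4 : z = 0 := by
      rw [← Module.forall_dual_apply_eq_zero_iff F]
      intro f
      exact congrArg (fun t : Dual F M →ₗ[F] F => t f) h3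
    exact inj_rho _ h4
  have hφ : φ v ≠ 0 := fun h => hv0 (key v hv h)
  refine ⟨φ v' / φ v, ?_⟩
  have h5 : v' - (φ v' / φ v) • v = 0 := by
    apply key
    · intro u hu
      rw [map_sub, map_smul, hv u hu, hv' u hu]
    · rw [map_sub, map_smul, smul_eq_mul, div_mul_cancel₀ _ hφ, sub_self]
  exact sub_eq_zero.mp h5

/-- Commuting endomorphisms of a simple representation are scalars. -/
theorem end_scalar [Fact p.Prime] [CharP F p] [FiniteDimensional F M] (S : SD p G W ι F) (hs : IsSimpleRep ρ)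
    (A : End F M) (hA : ∀ g, A ∘ₗ ρ g = ρ g ∘ₗ A) : ∃ c : F, ∀ v, A v = c • v := by
  haveI := hs.nontriv
  obtain ⟨v, hv0, hv⟩ := exists_fixed (S := S) (ρ := ρ)
  have hcomm : ∀ g x, A (ρ g x) = ρ g (A x) := fun g x => congrArg (fun t : M →ₗ[F] M => t x) (hA g)
  have hAv : Fix S ρ (A v) := by
    intro u hu
    rw [← hcomm, hv u hu]
  obtain ⟨c, hc⟩ := fix_unique hs hv hAv hv0
  refine ⟨c, ?_⟩
  have hall : LinearMap.ker (A - c • (1 : End F M)) = ⊤ := by
    rcases hs.simple (LinearMap.ker (A - c • (1 : End F M))) (by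
      intro g x hx
      rw [LinearMap.mem_ker] at hx ⊢
      simp only [LinearMap.sub_apply, LinearMap.smul_apply, Module.End.one_apply] at hx ⊢
      rw [hcomm, sub_eq_zero.mp hx, map_smul, sub_self]) with h | h
    · exfalso
      apply hv0
      have : v ∈ LinearMap.ker (A - c • (1 : End F M)) := by
        rw [LinearMap.mem_ker]
        simp [hc]
      rw [h] at this
      exact this
    · exact h
  intro x
  have : x ∈ LinearMap.ker (A - c • (1 : End F M)) := by
    rw [hall]
    trivial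
  rw [LinearMap.mem_ker] at this
  simpa [sub_eq_zero] using this

end Cfsg.Agent.Lib.KS71.CRd
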