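/-
Simple modules with the same data are isomorphic; simple quotients of cyclic modules; the abstract
count of the `p`-regular classes.
-/
import Mathlib
import Cfsg.Agent.Lib.KS71.CRd

set_option autoImplicit false
set_option linter.unusedSectionVars false
set_option linter.unusedVariables false
set_option linter.style.haveILetI false

namespace Cfsg.Agent.Lib.KS71.CRe

open Module
open scoped Classical
open Cfsg.Agent.Lib.KS71.CRa Cfsg.Agent.Lib.KS71.CRb Cfsg.Agent.Lib.KS71.CRc Cfsg.Agent.Lib.KS71.CRd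
open Cfsg.Agent.Lib.KS71.BrC

section hom

variable {p : ℕ} {G W ι F : Type*} [Group G] [Fintype G] [Group W] [Field F] [Fintype F]
  {S : SD p G W ι F}
  {M M' : Type*} [AddCommGroup M] [Module F M] [AddCommGroup M'] [Module F M']
  {ρ : Representation F G M} {ρ' : Representation F G M'}

/-- The product representation. -/
noncomputable def prodRep (ρ : Representation F G M) (ρ' : Representation F G M') :
    Representation F G (M × M') where
  toFun g := (ρ g).prodMap (ρ' g)
  map_one' := by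
    ext <;> simp
  map_mul' a b := by
    ext <;> simp

lemma prodRep_apply (g : G) (x : M) (x' : M') : prodRep ρ ρ' g (x, x') = (ρ g x, ρ' g x') := rfl

/-- Intertwiners commute with the Hecke operators. -/
lemma T_hom (π : M →ₗ[F] M') (hπ : ∀ g x, π (ρ g x) = ρ' g (π x)) (i : ι) (x : M) :
    π (T S ρ i x) = T S ρ' i (π x) := by
  simp only [T, map_sum, hπ]

/-- A nonzero functional invariant under `U⁻` does not vanish on a common eigenvector. -/
lemma exists_um [Fact p.Prime] [CharP F p] [FiniteDimensional F M] (hs : IsSimpleRep ρ)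
    {v : M} (hv0 : v ≠ 0) (hf : Fix S ρ v) {μ : S.H →* Fˣ} (hμ : HE S ρ μ v) {lam : ι → F}
    (hT : ∀ i, T S ρ i v = lam i • v) :
    ∃ f : M →ₗ[F] F, (∀ a ∈ S.Um, ∀ x, f (ρ a x) = f x) ∧ f v ≠ 0 := by
  haveI := hs.nontriv
  obtain ⟨f, hf0, hfx⟩ := exists_fixed_of_pgroup (ρ := ρ.dual) S.Um S.hUm
  have hinv : ∀ a ∈ S.Um, ∀ x, f (ρ a x) = f x := by
    intro a ha x
    have h1 := hfx a⁻¹ (S.Um.inv_mem ha)
    have h2 := congrArg (fun t : Dual F M => t x) h1
    change f (ρ a⁻¹⁻¹ x) = f x at h2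
    rwa [inv_inv] at h2
  refine ⟨f, hinv, fun h0 => hf0 ?_⟩
  exact eq_zero_of_orbit hs hv0 f (vanish hf hμ hT f hinv h0)

/-- Simple representations with the same data are related by a nonzero intertwiner. -/
theorem exists_hom [Fact p.Prime] [CharP F p] [FiniteDimensional F M] [FiniteDimensional F M']
    (hs : IsSimpleRep ρ) (hs' : IsSimpleRep ρ')
    {v : M} {v' : M'} (hv0 : v ≠ 0) (hv0' : v' ≠ 0) (hf : Fix S ρ v) (hf' : Fix S ρ' v')
    {μ : S.H →* Fˣ} (hμ : HE S ρ μ v) (hμ' : HE S ρ' μ v') {lam : ι → F}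
    (hT : ∀ i, T S ρ i v = lam i • v) (hT' : ∀ i, T S ρ' i v' = lam i • v') :
    ∃ φ : M →ₗ[F] M', φ ≠ 0 ∧ ∀ g, φ ∘ₗ ρ g = ρ' g ∘ₗ φ := by
  let σ := prodRep ρ ρ'
  let v₀ : M × M' := (v, v')
  obtain ⟨f, hfU, hfv⟩ := exists_um hs hv0 hf hμ hT
  obtain ⟨f', hfU', hfv'⟩ := exists_um hs' hv0' hf' hμ' hT'
  let Φ : M × M' →ₗ[F] F := (f v)⁻¹ • (f ∘ₗ LinearMap.fst F M M') - (f' v')⁻¹ • (f' ∘ₗ LinearMap.snd F M M')
  have hΦ : ∀ x x', Φ (x, x') = (f v)⁻¹ * f x - (f' v')⁻¹ * f' x' := by
    intro x x'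
    simp [Φ]
  have hfix : Fix S σ v₀ := by
    intro u hu
    change (ρ u v, ρ' u v') = (v, v')
    rw [hf u hu, hf' u hu]
  have hHE : HE S σ μ v₀ := by
    intro h
    change (ρ h v, ρ' h v') = _
    rw [hμ h, hμ' h]
    rfl
  have hTT : ∀ i, T S σ i v₀ = lam i • v₀ := by
    intro i
    apply Prod.ext
    · have := T_hom (S := S) (ρ := σ) (ρ' := ρ) (LinearMap.fst F M M') (fun g x => rfl) i v₀
      rw [LinearMap.fst_apply] at this
      rw [this]
      exact hT i
    · have := T_hom (S := S) (ρ := σ) (ρ' := ρ') (LinearMap.snd F M M') (fun g x => rfl) i v₀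
      rw [LinearMap.snd_apply] at this
      rw [this]
      exact hT' i
  have hΦ0 : Φ v₀ = 0 := by
    rw [hΦ, inv_mul_cancel₀ hfv, inv_mul_cancel₀ hfv', sub_self]
  have hΦU : ∀ a ∈ S.Um, ∀ x, Φ (σ a x) = Φ x := by
    rintro a ha ⟨x, x'⟩
    change Φ (ρ a x, ρ' a x') = _
    rw [hΦ, hΦ, hfU a ha, hfU' a ha]
  have hvan := vanish hfix hHE hTT Φ hΦU hΦ0
  let D : Submodule F (M × M') := Submodule.span F (Set.range fun g => σ g v₀)
  have hDst : ∀ g, ∀ x ∈ D, σ g x ∈ D := by
    intro g x hx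
    induction hx using Submodule.span_induction with
    | mem x h =>
      obtain ⟨g', rfl⟩ := h
      refine Submodule.subset_span ⟨g * g', ?_⟩
      simp only [map_mul, Module.End.mul_apply]
    | zero => rw [map_zero]; exact Submodule.zero_mem _
    | add a b _ _ ha hb => rw [map_add]; exact Submodule.add_mem _ ha hb
    | smul c a _ ha => rw [map_smul]; exact Submodule.smul_mem _ _ ha
  have hΦD : ∀ x ∈ D, Φ x = 0 := by
    intro x hx
    induction hx using Submodule.span_induction with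
    | mem x h =>
      obtain ⟨g', rfl⟩ := h
      exact hvan g'
    | zero => simp
    | add a b _ _ ha hb => simp [ha, hb]
    | smul c a _ ha => simp [ha]
  have hv₀D : v₀ ∈ D := Submodule.subset_span ⟨1, by simp⟩
  -- the section over the second factor is trivial
  have hD' : ∀ x', (0, x') ∈ D → x' = 0 := by
    let D' : Submodule F M' := D.comap (LinearMap.inr F M M')
    have hD's : D' = ⊥ := by
      rcases hs'.simple D' (by
        intro g x hx
        have h1 := hDst g _ hx
        have e : σ g (LinearMap.inr F M M' x) = LinearMap.inr F M M' (ρ' g x) := by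
          change (ρ g 0, ρ' g x) = _
          rw [map_zero]
          rfl
        rw [e] at h1
        exact h1) with h | h
      · exact h
      · exfalso
        have h1 : v' ∈ D' := by rw [h]; trivial
        have h2 : Φ (0, v') = 0 := hΦD _ h1
        rw [hΦ, map_zero, mul_zero, inv_mul_cancel₀ hfv', zero_sub] at h2
        exact one_ne_zero (neg_eq_zero.mp h2)
    intro x' hx'
    have : x' ∈ D' := hx'
    rw [hD's] at this
    exact this
  let pr : D →ₗ[F] M := LinearMap.fst F M M' ∘ₗ D.subtype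
  have hprinj : Function.Injective pr := by
    rw [injective_iff_map_eq_zero]
    rintro ⟨⟨x, x'⟩, hx⟩ h0
    have h1 : x = 0 := h0
    subst h1
    have := hD' x' hx
    subst this
    rfl
  have hprsurj : Function.Surjective pr := by
    have h1 : LinearMap.range pr = ⊤ := by
      rcases hs.simple (LinearMap.range pr) (by
        rintro g _ ⟨⟨⟨x, x'⟩, hx⟩, rfl⟩
        exact ⟨⟨_, hDst g _ hx⟩, rfl⟩) with h | h
      · exfalso
        apply hv0
        have : v ∈ LinearMap.range pr := ⟨⟨v₀, hv₀D⟩, rfl⟩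
        rw [h] at this
        exact this
      · exact h
    exact LinearMap.range_eq_top.mp h1
  let e : D ≃ₗ[F] M := LinearEquiv.ofBijective pr ⟨hprinj, hprsurj⟩
  have he : ∀ d : D, e.symm (pr d) = d := fun d => e.symm_apply_apply d
  let φ : M →ₗ[F] M' := LinearMap.snd F M M' ∘ₗ D.subtype ∘ₗ e.symm.toLinearMap
  refine ⟨φ, ?_, ?_⟩
  · intro h0
    have h1 : φ v = v' := by
      have := he ⟨v₀, hv₀D⟩
      have e2 : pr ⟨v₀, hv₀D⟩ = v := rfl
      rw [e2] at this
      change (e.symm v : M × M').2 = v'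
      rw [this]
    rw [h0] at h1
    exact hv0' h1.symm
  · intro g
    ext x
    simp only [LinearMap.comp_apply]
    -- `d` over `x`
    obtain ⟨d, rfl⟩ := hprsurj x
    have h1 : φ (pr d) = (d : M × M').2 := by
      change (e.symm (pr d) : M × M').2 = _
      rw [he]
    have h2 : ρ g (pr d) = pr ⟨σ g d, hDst g _ d.2⟩ := rfl
    rw [h2, h1]
    have h3 : φ (pr ⟨σ g d, hDst g _ d.2⟩) = (σ g (d : M × M')).2 := by
      change (e.symm (pr ⟨σ g d, hDst g _ d.2⟩) : M × M').2 = _
      rw [he]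
    rw [h3]
    rfl

end hom

section cyclic

variable {F G X : Type*} [Field F] [Group G] [AddCommGroup X] [Module F X]

/-- The cyclic submodule. -/
def cyc (ρ : Representation F G X) (z : X) : Submodule F X := Submodule.span F (Set.range fun g => ρ g z)

lemma cyc_st (ρ : Representation F G X) (z : X) (g : G) {x : X} (hx : x ∈ cyc ρ z) : ρ g x ∈ cyc ρ z := by
  induction hx using Submodule.span_induction with
  | mem x h =>
    obtain ⟨g', rfl⟩ := h
    refine Submodule.subset_span ⟨g * g', ?_⟩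
    simp only [map_mul, Module.End.mul_apply]
  | zero => rw [map_zero]; exact Submodule.zero_mem _
  | add a b _ _ ha hb => rw [map_add]; exact Submodule.add_mem _ ha hb
  | smul c a _ ha => rw [map_smul]; exact Submodule.smul_mem _ _ ha

lemma self_mem_cyc (ρ : Representation F G X) (z : X) : z ∈ cyc ρ z :=
  Submodule.subset_span ⟨1, by simp⟩

/-- The representation on the cyclic submodule. -/
def ρc (ρ : Representation F G X) (z : X) : Representation F G (cyc ρ z) where
  toFun g := (ρ g).restrict (fun _ hx => cyc_st ρ z g hx)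
  map_one' := by
    ext x
    simp
  map_mul' a b := by
    ext x
    simp

lemma ρc_coe (ρ : Representation F G X) (z : X) (g : G) (x : cyc ρ z) : ((ρc ρ z g x : cyc ρ z) : X) = ρ g x := rfl

/-- The quotient representation. -/
def qRep {Y : Type*} [AddCommGroup Y] [Module F Y] (σ : Representation F G Y) (R : Submodule F Y)
    (hR : ∀ g, ∀ x ∈ R, σ g x ∈ R) : Representation F G (Y ⧸ R) where
  toFun g := R.mapQ R (σ g) (fun x hx => hR g x hx)
  map_one' := by
    ext x
    simp
  map_mul' a b := by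
    ext x
    simp

lemma qRep_mk {Y : Type*} [AddCommGroup Y] [Module F Y] (σ : Representation F G Y) (R : Submodule F Y)
    (hR : ∀ g, ∀ x ∈ R, σ g x ∈ R) (g : G) (x : Y) :
    qRep σ R hR g (R.mkQ x) = R.mkQ (σ g x) := rfl

/-- A maximal invariant subspace missing the generator. -/
lemma exists_R [FiniteDimensional F X] (ρ : Representation F G X) (z : X) (hz : z ≠ 0) :
    ∃ R : Submodule F (cyc ρ z), (∀ g, ∀ x ∈ R, ρc ρ z g x ∈ R) ∧ (⟨z, self_mem_cyc ρ z⟩ : cyc ρ z) ∉ R ∧
      ∀ R' : Submodule F (cyc ρ z), (∀ g, ∀ x ∈ R', ρc ρ z g x ∈ R') → (⟨z, self_mem_cyc ρ z⟩ : cyc ρ z) ∉ R' →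
        R ≤ R' → R' = R := by
  let 𝒮 : Set (Submodule F (cyc ρ z)) :=
    {R | (∀ g, ∀ x ∈ R, ρc ρ z g x ∈ R) ∧ (⟨z, self_mem_cyc ρ z⟩ : cyc ρ z) ∉ R}
  have hne : 𝒮.Nonempty := by
    refine ⟨⊥, ?_, ?_⟩
    · intro g x hx
      have : x = 0 := hx
      rw [this, map_zero]
      exact Submodule.zero_mem _
    · intro h
      apply hz
      have : (⟨z, self_mem_cyc ρ z⟩ : cyc ρ z) = 0 := h
      exact congrArg Subtype.val this
  obtain ⟨R, hR, hmax⟩ := (wellFounded_gt (α := Submodule F (cyc ρ z))).has_min 𝒮 hne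
  refine ⟨R, hR.1, hR.2, fun R' h1 h2 h3 => ?_⟩
  by_contra hne'
  exact hmax R' ⟨h1, h2⟩ (lt_of_le_of_ne h3 (Ne.symm hne'))

lemma simple_q [FiniteDimensional F X] (ρ : Representation F G X) (z : X) (R : Submodule F (cyc ρ z))
    (hR : ∀ g, ∀ x ∈ R, ρc ρ z g x ∈ R) (hzR : (⟨z, self_mem_cyc ρ z⟩ : cyc ρ z) ∉ R)
    (hmax : ∀ R' : Submodule F (cyc ρ z), (∀ g, ∀ x ∈ R', ρc ρ z g x ∈ R') →
      (⟨z, self_mem_cyc ρ z⟩ : cyc ρ z) ∉ R' → R ≤ R' → R' = R) :
    IsSimpleRep (qRep (ρc ρ z) R hR) := by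
  have hq0 : R.mkQ (⟨z, self_mem_cyc ρ z⟩ : cyc ρ z) ≠ 0 := by
    intro h
    exact hzR ((Submodule.Quotient.mk_eq_zero R).mp h)
  refine ⟨⟨_, _, hq0⟩, fun A hA => ?_⟩
  let A' : Submodule F (cyc ρ z) := A.comap R.mkQ
  have hA' : ∀ g, ∀ x ∈ A', ρc ρ z g x ∈ A' := by
    intro g x hx
    change R.mkQ _ ∈ A
    rw [← qRep_mk (hR := hR)]
    exact hA g _ hx
  have hle : R ≤ A' := by
    intro x hx
    change R.mkQ x ∈ A
    have h0 : R.mkQ x = 0 := (Submodule.Quotient.mk_eq_zero R).mpr hx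
    rw [h0]
    exact A.zero_mem
  by_cases hz : (⟨z, self_mem_cyc ρ z⟩ : cyc ρ z) ∈ A'
  · right
    have htop : A' = ⊤ := by
      rw [eq_top_iff]
      rintro ⟨x, hx⟩ -
      induction hx using Submodule.span_induction with
      | mem x h =>
        obtain ⟨g', rfl⟩ := h
        exact hA' g' _ hz
      | zero => exact A'.zero_mem
      | add a b ha' hb' ha hb => exact A'.add_mem ha hb
      | smul c a ha' ha => exact A'.smul_mem c ha
    rw [eq_top_iff]
    intro q _
    obtain ⟨x, rfl⟩ := Submodule.mkQ_surjective R q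
    have : x ∈ A' := by rw [htop]; trivial
    exact this
  · left
    have h1 := hmax A' hA' hz hle
    rw [eq_bot_iff]
    intro q hq
    obtain ⟨x, rfl⟩ := Submodule.mkQ_surjective R q
    have : x ∈ A' := hq
    rw [h1] at this
    exact (Submodule.Quotient.mk_eq_zero R).mpr this

end cyclic

end Cfsg.Agent.Lib.KS71.CRe
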