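/-
The abstract count: the number of `p`-regular classes of a finite group with a split `BN`-pair is
the number of admissible data, once every admissible datum is realized by a function on the group.
-/
import Mathlib
import Cfsg.Agent.Lib.KS71.CRe

set_option autoImplicit false
set_option linter.unusedSectionVars false
set_option linter.unusedVariables false
set_option linter.style.haveILetI false

namespace Cfsg.Agent.Lib.KS71.CRf

open Module
open scoped Classical
open Cfsg.Agent.Lib.KS71.CRa Cfsg.Agent.Lib.KS71.CRb Cfsg.Agent.Lib.KS71.CRc Cfsg.Agent.Lib.KS71.CRd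
open Cfsg.Agent.Lib.KS71.BrC Cfsg.Agent.Lib.KS71.CRe

universe u

variable {p : ℕ} {G : Type u} [Group G] [Fintype G] {W ι : Type*} [Group W] {F : Type u} [Field F] [Fintype F]

/-- Left translation on functions. -/
def ρr : Representation F G (G → F) where
  toFun a := LinearMap.funLeft F F (fun g => a⁻¹ * g)
  map_one' := by
    ext f g
    simp [LinearMap.funLeft]
  map_mul' a b := by
    ext f g
    simp [LinearMap.funLeft, mul_assoc]

lemma ρr_apply (a : G) (f : G → F) (g : G) : (ρr a f) g = f (a⁻¹ * g) := rfl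

variable (S : SD p G W ι F)

/-- The admissible data. -/
def Dat : Type _ := {d : (S.H →* Fˣ) × (ι → Bool) // ∀ i, d.2 i = true → (d.1).comp (S.hh i) = 1}

/-- The eigenvalues of a datum. -/
noncomputable def lamOf (d : Dat S) (i : ι) : F := if d.1.2 i = true then 0 else gam S d.1.1 i

variable {S}

lemma gam_one {μ : S.H →* Fˣ} {i : ι} (h : μ.comp (S.hh i) = 1) : gam S μ i = -1 := by
  have h1 : ∀ c : Fˣ, ((μ (S.hh i c) : Fˣ) : F) = 1 := by
    intro c
    have := congrArg (fun t : Fˣ →* Fˣ => t c) h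
    simp only [MonoidHom.comp_apply, MonoidHom.one_apply] at this
    rw [this]
    rfl
  rw [gam]
  simp only [h1, Finset.sum_const, Finset.card_univ, Fintype.card_units, nsmul_eq_mul, mul_one]
  have hq : 1 ≤ Fintype.card F := Fintype.card_pos
  rw [Nat.cast_sub hq]
  simp

lemma gam_ne {μ : S.H →* Fˣ} {i : ι} (h : μ.comp (S.hh i) ≠ 1) : gam S μ i = 0 := by
  obtain ⟨c₀, hc₀⟩ : ∃ c₀, (μ.comp (S.hh i)) c₀ ≠ 1 := by
    by_contra hn
    push Not at hn
    exact h (MonoidHom.ext fun c => hn c)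
  have h1 : ((μ (S.hh i c₀) : Fˣ) : F) * gam S μ i = gam S μ i := by
    rw [gam, Finset.mul_sum]
    refine Fintype.sum_equiv (Equiv.mulLeft c₀) _ _ fun c => ?_
    simp only [Equiv.coe_mulLeft, map_mul, Units.val_mul]
  have h2 : (((μ (S.hh i c₀) : Fˣ) : F) - 1) * gam S μ i = 0 := by
    rw [sub_mul, h1, one_mul, sub_self]
  rcases mul_eq_zero.mp h2 with h3 | h3
  · exfalso
    apply hc₀
    apply Units.ext
    exact sub_eq_zero.mp h3
  · exact h3

variable [Fintype ι]

noncomputable instance : Fintype (Dat S) := by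
  unfold Dat
  exact Fintype.ofFinite _

/-- A family of simple representations parametrized by their data. -/
theorem main_aux [Fact p.Prime] [CharP F p] {D : Type*} [Fintype D] {V : D → Type u}
    [∀ d, AddCommGroup (V d)] [∀ d, Module F (V d)] [∀ d, FiniteDimensional F (V d)]
    (σ : ∀ d, Representation F G (V d)) (v : ∀ d, V d) (μ : D → (S.H →* Fˣ)) (lam : D → ι → F)
    (hsimple : ∀ d, IsSimpleRep (σ d)) (hv0 : ∀ d, v d ≠ 0) (hfix : ∀ d, Fix S (σ d) (v d))
    (hHE : ∀ d, HE S (σ d) (μ d) (v d)) (hTT : ∀ d i, T S (σ d) i (v d) = lam d i • v d)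
    (hinj : ∀ d d', μ d = μ d' → lam d = lam d' → d = d')
    (hsurj : ∀ (μ' : S.H →* Fˣ) (lam' : ι → F), (∀ i, lam' i = 0 ∨ lam' i = gam S μ' i) →
      ∃ d, μ d = μ' ∧ lam d = lam') :
    Nat.card {c : ConjClasses G // ∃ g : G, ConjClasses.mk g = c ∧ (orderOf g).Coprime p} =
      Fintype.card D := by
  refine Cfsg.Agent.Lib.KS71.BrD.card_regular (p := p) (k := F) (G := G) (ι := D) (V := V) σ hsimple
    (fun d A hA => end_scalar S (hsimple d) A hA) ?_ ?_
  · intro d d' hdd φ hφ
    by_contra hφ0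
    have hcomm : ∀ g x, φ (σ d g x) = σ d' g (φ x) :=
      fun g x => congrArg (fun t : V d →ₗ[F] V d' => t x) (hφ g)
    have hinj' : Function.Injective φ := by
      rcases (hsimple d).simple (LinearMap.ker φ) (by
        intro g x hx
        rw [LinearMap.mem_ker] at hx ⊢
        rw [hcomm, hx, map_zero]) with h | h
      · exact LinearMap.ker_eq_bot.mp h
      · exact absurd (LinearMap.ker_eq_top.mp h) hφ0
    set w := φ (v d) with hw
    have hw0 : w ≠ 0 := fun h => hv0 d (hinj' (by rw [← hw, h, map_zero]))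
    have hwf : Fix S (σ d') w := by
      intro u hu
      rw [hw, ← hcomm, hfix d u hu]
    obtain ⟨c, hc⟩ := fix_unique (hsimple d') (hfix d') hwf (hv0 d')
    have hμeq : μ d = μ d' := by
      ext h
      have h1 : σ d' h w = ((μ d h : Fˣ) : F) • w := by
        rw [hw, ← hcomm, hHE d h, map_smul]
      have h2 : σ d' h w = ((μ d' h : Fˣ) : F) • w := by
        rw [hc, map_smul, hHE d' h, smul_comm]
      rw [h1] at h2
      have h3 : (((μ d h : Fˣ) : F) - ((μ d' h : Fˣ) : F)) • w = 0 := by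
        rw [sub_smul, h2, sub_self]
      rcases smul_eq_zero.mp h3 with h4 | h4
      · exact sub_eq_zero.mp h4
      · exact absurd h4 hw0
    have hlameq : lam d = lam d' := by
      funext i
      have h1 : T S (σ d') i w = lam d i • w := by
        rw [hw, ← T_hom φ hcomm, hTT d i, map_smul]
      have h2 : T S (σ d') i w = lam d' i • w := by
        rw [hc, T_smul, hTT d' i, smul_comm]
      rw [h1] at h2
      have h3 : (lam d i - lam d' i) • w = 0 := by
        rw [sub_smul, h2, sub_self]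
      rcases smul_eq_zero.mp h3 with h4 | h4
      · exact sub_eq_zero.mp h4
      · exact absurd h4 hw0
    exact hdd (hinj d d' hμeq hlameq)
  · intro M _ _ _ σ' hσ'
    haveI := hσ'.nontriv
    obtain ⟨μ', lam', x, hx0, hxf, hxμ, hxT⟩ := exists_CE (S := S) (ρ := σ')
    obtain ⟨d, rfl, rfl⟩ := hsurj μ' lam' (fun i => lam_values hx0 hxf hxμ (hxT i))
    obtain ⟨φ, hφ0, hφ⟩ := exists_hom (S := S) hσ' (hsimple d) hx0 (hv0 d) hxf (hfix d) hxμ (hHE d)
      hxT (hTT d)
    exact ⟨d, φ, hφ0, hφ⟩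

/-- The data are recovered from the eigenvalues. -/
lemma lamOf_inj {d d' : Dat S} (h1 : d.1.1 = d'.1.1) (h2 : lamOf S d = lamOf S d') : d = d' := by
  have hne1 : (-1 : F) ≠ 0 := neg_ne_zero.mpr one_ne_zero
  apply Subtype.ext
  refine Prod.ext h1 (funext fun i => ?_)
  have hl := congrFun h2 i
  simp only [lamOf] at hl
  cases hb : d.1.2 i <;> cases hb' : d'.1.2 i
  · rfl
  · exfalso
    have := d'.2 i hb'
    rw [hb, hb'] at hl
    simp only [Bool.false_eq_true, if_false, if_true] at hl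
    rw [h1, gam_one this] at hl
    exact hne1 hl
  · exfalso
    have := d.2 i hb
    rw [hb, hb'] at hl
    simp only [Bool.false_eq_true, if_false, if_true] at hl
    rw [← h1, gam_one this] at hl
    exact hne1 hl.symm
  · rfl

lemma lamOf_surj (μ : S.H →* Fˣ) (lam : ι → F) (h : ∀ i, lam i = 0 ∨ lam i = gam S μ i) :
    ∃ d : Dat S, d.1.1 = μ ∧ lamOf S d = lam := by
  let b : ι → Bool := fun i => decide (lam i = 0 ∧ μ.comp (S.hh i) = 1)
  refine ⟨⟨(μ, b), fun i hi => (of_decide_eq_true hi).2⟩, rfl, funext fun i => ?_⟩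
  simp only [lamOf, b]
  by_cases h1 : lam i = 0 ∧ μ.comp (S.hh i) = 1
  · rw [if_pos (decide_eq_true h1)]
    exact h1.1.symm
  · rw [if_neg (by simpa using h1)]
    rcases h i with h2 | h2
    · have h3 : μ.comp (S.hh i) ≠ 1 := fun h => h1 ⟨h2, h⟩
      rw [h2, gam_ne h3]
    · exact h2.symm

/-- **The abstract count**. -/
theorem main [Fact p.Prime] [CharP F p]
    (hz : ∀ d : Dat S, ∃ z : G → F, z ≠ 0 ∧ Fix S ρr z ∧ HE S ρr d.1.1 z ∧ ∀ i, T S ρr i z = lamOf S d i • z) :
    Nat.card {c : ConjClasses G // ∃ g : G, ConjClasses.mk g = c ∧ (orderOf g).Coprime p} =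
      Fintype.card (Dat S) := by
  choose z hz0 hzf hzμ hzT using hz
  have hexR := fun d => exists_R (ρr (F := F) (G := G)) (z d) (hz0 d)
  choose R hR hzR hmax using hexR
  refine main_aux (S := S) (V := fun d => ↥(cyc (ρr (F := F) (G := G)) (z d)) ⧸ R d)
    (fun d => qRep (ρc (ρr (F := F) (G := G)) (z d)) (R d) (hR d))
    (fun d => (R d).mkQ ⟨z d, self_mem_cyc _ _⟩) (fun d => d.1.1) (fun d => lamOf S d)
    (fun d => simple_q (ρr (F := F) (G := G)) (z d) (R d) (hR d) (hzR d) (hmax d))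
    (fun d h => hzR d ((Submodule.Quotient.mk_eq_zero (R d)).mp h)) ?_ ?_ ?_
    (fun d d' h1 h2 => lamOf_inj h1 h2)
    (fun μ' lam' h => lamOf_surj μ' lam' h)
  · intro d u hu
    change (R d).mkQ (ρc (ρr (F := F) (G := G)) (z d) u ⟨z d, self_mem_cyc _ _⟩) = (R d).mkQ ⟨z d, self_mem_cyc _ _⟩
    congr 1
    exact Subtype.ext (hzf d u hu)
  · intro d h
    change (R d).mkQ (ρc (ρr (F := F) (G := G)) (z d) h ⟨z d, self_mem_cyc _ _⟩) = _
    have : ρc (ρr (F := F) (G := G)) (z d) h ⟨z d, self_mem_cyc _ _⟩ = ((d.1.1 h : Fˣ) : F) • (⟨z d, self_mem_cyc _ _⟩ : cyc (ρr (F := F) (G := G)) (z d)) :=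
      Subtype.ext (hzμ d h)
    rw [this, map_smul]
  · intro d i
    have h1 := T_hom (S := S) (ρ := ρc (ρr (F := F) (G := G)) (z d)) (ρ' := qRep (ρc (ρr (F := F) (G := G)) (z d)) (R d) (hR d)) (R d).mkQ (fun g x => rfl) i
      ⟨z d, self_mem_cyc _ _⟩
    have h2 := T_hom (S := S) (ρ := ρc (ρr (F := F) (G := G)) (z d)) (ρ' := (ρr (F := F) (G := G))) (cyc (ρr (F := F) (G := G)) (z d)).subtype (fun g x => rfl) i
      ⟨z d, self_mem_cyc _ _⟩
    have h3 : T S (ρc (ρr (F := F) (G := G)) (z d)) i ⟨z d, self_mem_cyc _ _⟩ =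
        lamOf S d i • (⟨z d, self_mem_cyc _ _⟩ : cyc (ρr (F := F) (G := G)) (z d)) := by
      apply Subtype.ext
      exact h2.trans (hzT d i)
    rw [h3, map_smul] at h1
    exact h1.symm

end Cfsg.Agent.Lib.KS71.CRf
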