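/-
The function on the big cell relative to a parabolic subgroup with a linear character: a common
eigenvector of `H` and the Hecke operators, realizing an admissible datum.
-/
import Mathlib
import Cfsg.Agent.Lib.KS71.CRf

set_option autoImplicit false
set_option linter.unusedSectionVars false
set_option linter.unusedVariables false
set_option linter.style.haveILetI false

namespace Cfsg.Agent.Lib.KS71.CRg

open Module
open scoped Classical
open Cfsg.Agent.Lib.KS71.CRa Cfsg.Agent.Lib.KS71.CRb Cfsg.Agent.Lib.KS71.CRc Cfsg.Agent.Lib.KS71.CRd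
open Cfsg.Agent.Lib.KS71.BrC Cfsg.Agent.Lib.KS71.CRe Cfsg.Agent.Lib.KS71.CRf

universe u

variable {p : ℕ} {G : Type u} [Group G] [Fintype G] {W ι : Type*} [Group W] {F : Type u} [Field F] [Fintype F]
  {S : SD p G W ι F} {P : Subgroup G}

/-- Elements of `p`-power order lie in the kernel of a linear character. -/
lemma ν_one [Fact p.Prime] [CharP F p] (ν : P →* Fˣ) (a : P) {k : ℕ} (ha : (a : G) ^ (p ^ k) = 1) : ν a = 1 := by
  have h1 : a ^ (p ^ k) = 1 := Subtype.ext (by simpa using ha)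
  have h2 : (ν a) ^ (p ^ k) = 1 := by rw [← map_pow, h1, map_one]
  have h3 : ((ν a : Fˣ) : F) ^ (p ^ k) = 1 := by
    rw [← Units.val_pow_eq_pow_val, h2, Units.val_one]
  have h4 : (((ν a : Fˣ) : F) - 1) ^ (p ^ k) = 0 := by
    rw [sub_pow_char_pow, h3, one_pow, sub_self]
  have h5 : ((ν a : Fˣ) : F) - 1 = 0 := pow_eq_zero_iff (pow_ne_zero _ (Fact.out : p.Prime).ne_zero) |>.mp h4
  exact Units.ext (sub_eq_zero.mp h5)

lemma ν_U [Fact p.Prime] [CharP F p] (ν : P →* Fˣ) (a : P) (ha : (a : G) ∈ S.U) : ν a = 1 := by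
  obtain ⟨k, hk⟩ := S.hU ⟨a, ha⟩
  exact ν_one ν a (k := k) (congrArg Subtype.val hk)

lemma ν_Um [Fact p.Prime] [CharP F p] (ν : P →* Fˣ) (a : P) (ha : (a : G) ∈ S.Um) : ν a = 1 := by
  obtain ⟨k, hk⟩ := S.hUm ⟨a, ha⟩
  exact ν_one ν a (k := k) (congrArg Subtype.val hk)

variable (S) in
/-- The function on the big cell. -/
noncomputable def zf (ν : P →* Fˣ) (g : G) : F :=
  if h : ∃ q : P, ∃ u ∈ S.U, g = u * S.n₀ * q then (((ν h.choose)⁻¹ : Fˣ) : F) else 0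

lemma zf_eq [Fact p.Prime] [CharP F p] (ν : P →* Fˣ) {u : G} (hu : u ∈ S.U) (q : P) :
    zf S ν (u * S.n₀ * q) = (((ν q)⁻¹ : Fˣ) : F) := by
  have h : ∃ q' : P, ∃ u' ∈ S.U, u * S.n₀ * (q : G) = u' * S.n₀ * q' := ⟨q, u, hu, rfl⟩
  rw [zf, dif_pos h]
  obtain ⟨u', hu', e⟩ := h.choose_spec
  set q' := h.choose
  -- comparison
  have hmem : S.n₀⁻¹ * (u'⁻¹ * u) * S.n₀ ∈ S.Um := S.n₀_U _ (S.U.mul_mem (S.U.inv_mem hu') hu)
  have e2 : ((q' * q⁻¹ : P) : G) = S.n₀⁻¹ * (u'⁻¹ * u) * S.n₀ := by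
    have : (q' : G) = S.n₀⁻¹ * (u'⁻¹ * u) * S.n₀ * q := by
      have e3 : (q' : G) = (u' * S.n₀)⁻¹ * (u' * S.n₀ * q') := by group
      rw [e3, ← e]
      group
    rw [Subgroup.coe_mul, this]
    simp
  have h1 := ν_Um (S := S) ν (q' * q⁻¹) (by rw [e2]; exact hmem)
  rw [map_mul, map_inv] at h1
  have h2 : ν q' = ν q := by
    have := mul_inv_eq_one.mp h1
    exact this
  rw [h2]

lemma zf_of_not (ν : P →* Fˣ) {g : G} (h : ¬ ∃ q : P, ∃ u ∈ S.U, g = u * S.n₀ * q) : zf S ν g = 0 := by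
  rw [zf, dif_neg h]

/-- The big cell. -/
def C₀ (S : SD p G W ι F) (P : Subgroup G) (g : G) : Prop := ∃ q : P, ∃ u ∈ S.U, g = u * S.n₀ * q

lemma C₀_U {g u : G} (hu : u ∈ S.U) (hg : C₀ S P g) : C₀ S P (u * g) := by
  obtain ⟨q, v, hv, rfl⟩ := hg
  exact ⟨q, u * v, S.U.mul_mem hu hv, by group⟩

lemma C₀_U_iff {g u : G} (hu : u ∈ S.U) : C₀ S P (u * g) ↔ C₀ S P g := by
  refine ⟨fun h => ?_, C₀_U hu⟩
  have := C₀_U (S.U.inv_mem hu) h
  simpa using this

lemma zf_U [Fact p.Prime] [CharP F p] (ν : P →* Fˣ) {u : G} (hu : u ∈ S.U) (g : G) :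
    zf S ν (u * g) = zf S ν g := by
  by_cases hg : C₀ S P g
  · obtain ⟨q, v, hv, rfl⟩ := hg
    have e : u * (v * S.n₀ * q) = (u * v) * S.n₀ * q := by group
    rw [e, zf_eq ν (S.U.mul_mem hu hv), zf_eq ν hv]
  · rw [zf_of_not ν hg, zf_of_not ν (fun h => hg ((C₀_U_iff hu).mp h))]

lemma zf_right [Fact p.Prime] [CharP F p] (ν : P →* Fˣ) (g : G) (q : P) :
    zf S ν (g * q) = (((ν q)⁻¹ : Fˣ) : F) * zf S ν g := by
  by_cases hg : C₀ S P g
  · obtain ⟨q', v, hv, rfl⟩ := hg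
    have e : v * S.n₀ * q' * q = v * S.n₀ * ((q' * q : P) : G) := by
      simp [mul_assoc]
    rw [e, zf_eq ν hv, zf_eq ν hv, map_mul, mul_inv_rev, Units.val_mul]
  · have h2 : ¬ C₀ S P (g * q) := by
      rintro ⟨q', v, hv, e⟩
      apply hg
      refine ⟨q' * q⁻¹, v, hv, ?_⟩
      have : g = g * q * (q : G)⁻¹ := by group
      rw [this, e]
      simp [mul_assoc]
    rw [zf_of_not ν hg, zf_of_not ν h2, mul_zero]

/-- Decomposition of `U` with `U_i` on the right. -/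
lemma zf_n₀ [Fact p.Prime] [CharP F p] (ν : P →* Fˣ) : zf S ν S.n₀ = 1 := by
  have := zf_eq (S := S) ν S.U.one_mem (1 : P)
  simpa using this

section main

variable [Fact p.Prime] [CharP F p] (d : Dat S) (ν : P →* Fˣ) (hUP : S.U ≤ P) (hHP : S.H ≤ P)
  (hν : ∀ h : S.H, ν ⟨S.n₀⁻¹ * h * S.n₀, hHP (S.n₀_H' h.2)⟩ = d.1.1 h)

include hUP in
lemma y_zf_cell {i : ι} (hJ : ∀ c, S.y (S.σ i) c ∈ P) (c : F) {g : G} (hg : C₀ S P g) :
    C₀ S P (S.y i c * g) ∧ zf S ν (S.y i c * g) = zf S ν g := by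
  obtain ⟨q, u, hu, rfl⟩ := hg
  obtain ⟨e, a, ha, rfl⟩ := S.U_dec i u hu
  obtain ⟨c', hc'⟩ := S.n₀_y i c
  obtain ⟨e', he'⟩ := S.n₀_x i e
  -- the element `m`
  have ha' : S.y i c * (S.x i e * a * (S.x i e)⁻¹) * (S.y i c)⁻¹ ∈ S.Ui i :=
    S.Ui_y i c (S.Ui_x i e a ha)
  have hq : S.x (S.σ i) c' * S.y (S.σ i) e' ∈ P :=
    P.mul_mem (hUP (S.x_mem _ c')) (hJ e')
  let m : P := ⟨_, hq⟩
  have hmq : ν m = 1 := by
    have h1 : ν m = ν ⟨S.x (S.σ i) c', hUP (S.x_mem _ c')⟩ * ν ⟨S.y (S.σ i) e', hJ e'⟩ := by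
      rw [← map_mul]
      rfl
    rw [h1, ν_U (S := S) ν _ (S.x_mem _ c'), ν_Um (S := S) ν _ (S.y_mem _ e'), one_mul]
  have e1 : S.y i c * (S.x i e * a * S.n₀ * q) =
      (S.y i c * (S.x i e * a * (S.x i e)⁻¹) * (S.y i c)⁻¹) * S.n₀ * ((m * q : P) : G) := by
    have e2 : ((m * q : P) : G) = (S.n₀⁻¹ * S.y i c * S.n₀) * (S.n₀⁻¹ * S.x i e * S.n₀) * q := by
      rw [hc', he']
      rfl
    rw [e2]
    group
  have hum := S.Ui_le i ha'
  have hu0 : S.x i e * a ∈ S.U := S.U.mul_mem (S.x_mem i e) (S.Ui_le i ha)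
  refine ⟨⟨m * q, _, hum, e1⟩, ?_⟩
  rw [e1, zf_eq ν hum, zf_eq ν hu0, map_mul, hmq, one_mul]

include hUP in
/-- Invariance under `y` for an index of the parabolic subgroup. -/
lemma y_zf {i : ι} (hJ : ∀ c, S.y (S.σ i) c ∈ P) (c : F) (g : G) : zf S ν (S.y i c * g) = zf S ν g := by
  by_cases hg : C₀ S P g
  · exact (y_zf_cell ν hUP hJ c hg).2
  · have h2 : ¬ C₀ S P (S.y i c * g) := by
      intro h
      have := (y_zf_cell ν hUP hJ (-c) h).1
      rw [S.y_neg, inv_mul_cancel_left] at this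
      exact hg this
    rw [zf_of_not ν hg, zf_of_not ν h2]

include hUP in
lemma zf_fix : Fix S ρr (zf S ν) := by
  intro u hu
  funext g
  rw [ρr_apply]
  exact zf_U ν (S.U.inv_mem hu) g

include hν in
lemma zf_HE : HE S ρr d.1.1 (zf S ν) := by
  intro h
  funext g
  rw [ρr_apply]
  change _ = ((d.1.1 h : Fˣ) : F) * _
  have hh : (h : G) ∈ S.H := h.2
  let m : P := ⟨S.n₀⁻¹ * h * S.n₀, hHP (S.n₀_H' h.2)⟩
  have hm : ν m = d.1.1 h := hν h
  have hmv : (m : G) = S.n₀⁻¹ * h * S.n₀ := rfl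
  by_cases hg : C₀ S P g
  · obtain ⟨q, u, hu, rfl⟩ := hg
    have h1 : (h : G)⁻¹ * u * h ∈ S.U := H_U' hh hu
    have e : (h : G)⁻¹ * (u * S.n₀ * q) = ((h : G)⁻¹ * u * h) * S.n₀ * ((m⁻¹ * q : P) : G) := by
      rw [Subgroup.coe_mul, Subgroup.coe_inv, hmv]
      group
    rw [e, zf_eq ν h1, zf_eq ν hu, map_mul, map_inv, hm, mul_inv_rev, inv_inv, Units.val_mul, mul_comm]
  · have h2 : ¬ C₀ S P ((h : G)⁻¹ * g) := by
      rintro ⟨q, u, hu, e⟩
      apply hg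
      refine ⟨m * q, (h : G) * u * (h : G)⁻¹, S.H_U h hh u hu, ?_⟩
      rw [Subgroup.coe_mul, hmv]
      have e4 : g = (h : G) * ((h : G)⁻¹ * g) := by group
      rw [e4, e]
      group
    rw [zf_of_not ν hg, zf_of_not ν h2, mul_zero]

include hUP in
/-- The Hecke operator kills the function for the indices of the parabolic subgroup. -/
lemma T_zf_J {i : ι} (hJ : ∀ c, S.y (S.σ i) c ∈ P) : T S ρr i (zf S ν) = 0 := by
  have h1 : ∀ a : G, a = S.x i 1 * S.y i (-1) * S.x i 1 → ∀ g, zf S ν (a⁻¹ * g) = zf S ν g := by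
    rintro a rfl g
    have e : (S.x i 1 * S.y i (-1) * S.x i 1)⁻¹ * g =
        (S.x i 1)⁻¹ * ((S.y i (-1))⁻¹ * ((S.x i 1)⁻¹ * g)) := by group
    rw [e, zf_U ν (S.U.inv_mem (S.x_mem i 1)), ← S.y_neg, y_zf ν hUP hJ, zf_U ν (S.U.inv_mem (S.x_mem i 1))]
  have h2 : ρr (S.n i) (zf S ν) = zf S ν := by
    funext g
    rw [ρr_apply]
    exact h1 _ (S.n_eq i) g
  have h3 : ∀ c, ρr (S.x i c) (zf S ν) = zf S ν := fun c => zf_fix ν hUP _ (S.x_mem i c)
  simp only [T, h2, h3]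
  rw [Finset.sum_const, Finset.card_univ, ← Nat.cast_smul_eq_nsmul F]
  simp

include hUP hHP hν in
/-- The Hecke operator for an index outside the parabolic subgroup. -/
lemma T_zf_out {i : ι} (hN : ∀ u ∈ S.U, ∀ q : P, (S.n i)⁻¹ * S.n₀ ≠ u * S.n₀ * q) :
    T S ρr i (zf S ν) = gam S d.1.1 i • zf S ν := by
  have hfix := zf_fix (S := S) ν hUP
  have hHE := zf_HE (S := S) d ν hHP hν
  have hTfix := T_fix hfix i
  have hTU : ∀ u ∈ S.U, ∀ g, T S ρr i (zf S ν) (u * g) = T S ρr i (zf S ν) g := by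
    intro u hu g
    have h1 := congrFun (hTfix u⁻¹ (S.U.inv_mem hu)) g
    rw [ρr_apply, inv_inv] at h1
    exact h1
  have hrel := T_rel hfix hHE i
  -- `y` on the base of the big cell
  have hy : ∀ (a : F) (q : P), zf S ν (S.y i a * (S.n₀ * q)) = zf S ν (S.n₀ * q) := by
    intro a q
    obtain ⟨c', hc'⟩ := S.n₀_y i a
    have hm : S.x (S.σ i) c' ∈ P := hUP (S.x_mem _ c')
    have e : S.y i a * (S.n₀ * q) = 1 * S.n₀ * ((⟨_, hm⟩ * q : P) : G) := by
      have e2 : ((⟨_, hm⟩ * q : P) : G) = (S.n₀⁻¹ * S.y i a * S.n₀) * q := by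
        rw [hc']
        rfl
      rw [e2]
      group
    have e3 : S.n₀ * (q : G) = 1 * S.n₀ * q := by group
    rw [e, e3, zf_eq ν S.U.one_mem, zf_eq ν S.U.one_mem, map_mul, ν_U (S := S) ν _ (S.x_mem _ c'), one_mul]
  funext g
  change _ = gam S d.1.1 i * zf S ν g
  by_cases hg : C₀ S P g
  · obtain ⟨q, u, hu, rfl⟩ := hg
    have e0 : u * S.n₀ * (q : G) = u * (S.n₀ * q) := by group
    rw [e0, hTU u hu, zf_U ν hu]
    rw [hrel]
    simp only [Pi.add_apply, Finset.sum_apply, Pi.smul_apply, ρr_apply, smul_eq_mul]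
    have h1 : zf S ν ((S.n i)⁻¹ * (S.n₀ * q)) = 0 := by
      have e1 : (S.n i)⁻¹ * (S.n₀ * q) = ((S.n i)⁻¹ * S.n₀) * q := by group
      rw [e1, zf_right, zf_of_not ν, mul_zero]
      rintro ⟨q', v, hv, e2⟩
      exact hN v hv q' e2
    rw [h1, zero_add, ← gam_neg, Finset.sum_mul]
    refine Finset.sum_congr rfl fun c _ => ?_
    rw [← S.y_neg, hy]
  · rw [zf_of_not ν hg, mul_zero]
    by_cases hall : ∀ c, ¬ C₀ S P ((S.n i)⁻¹ * ((S.x i c)⁻¹ * g))
    · rw [T, Finset.sum_apply]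
      refine Finset.sum_eq_zero fun c _ => ?_
      rw [ρr_apply, ρr_apply]
      exact zf_of_not ν (hall c)
    · push Not at hall
      obtain ⟨c₀, hc₀⟩ := hall
      obtain ⟨q, u, hu, e1⟩ := hc₀
      obtain ⟨e, a, ha, rfl⟩ := S.U_dec i u hu
      have hg' : g = S.x i c₀ * (S.n i * (S.x i e * a * S.n₀ * q)) := by
        rw [← e1]
        group
      by_cases he : e = 0
      · -- the point at infinity
        subst he
        rw [S.x_zero, one_mul] at hg'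
        rw [hg', hTU _ (S.x_mem i c₀)]
        rw [T, Finset.sum_apply]
        have hterm : ∀ c : F, (ρr (S.x i c) (ρr (S.n i) (zf S ν))) (S.n i * (a * S.n₀ * q)) =
            zf S ν (S.n₀ * q) := by
          intro c
          rw [ρr_apply, ρr_apply]
          have h2 : S.n i * S.y i c * (S.n i)⁻¹ = S.x i (-c) := S.n_y i c
          have e2 : (S.n i)⁻¹ * ((S.x i c)⁻¹ * (S.n i * (a * S.n₀ * q))) =
              (S.y i c * a * (S.y i c)⁻¹) * (S.y i c * (S.n₀ * q)) := by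
            rw [← S.x_neg, ← h2]
            group
          rw [e2, zf_U ν (S.Ui_le i (S.Ui_y i c ha)), hy]
        simp only [hterm]
        rw [Finset.sum_const, Finset.card_univ, ← Nat.cast_smul_eq_nsmul F]
        simp
      · -- inside the big cell
        exfalso
        apply hg
        rw [hg']
        apply C₀_U (S.x_mem i c₀)
        let f : Fˣ := Units.mk0 _ (neg_ne_zero.mpr he)
        have hf : ((f : Fˣ) : F) = -e := rfl
        set H₁ : G := (S.hh i (-(f⁻¹)) : G) with hH₁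
        have hH₁m : H₁ ∈ S.H := (S.hh i _).2
        set N₂ : G := S.n i * S.n i with hN₂
        have hN₂m : N₂ ∈ S.H := S.n_sq_mem i
        have hr := S.rel2 i f
        rw [hf] at hr
        have e5 : S.n i * S.x i e * (S.n i)⁻¹ = S.y i (-e) := S.n_x i e
        set t : F := ((f⁻¹ : Fˣ) : F) with ht
        have e6 : S.n i * S.x i t * (S.n i)⁻¹ = S.y i (-t) := S.n_x i t
        have e7 : S.n i * S.x i e = S.x i t * H₁ * S.y i (-t) * N₂ := by
          have e8 : S.n i * S.x i e = S.y i (-e) * S.n i := by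
            rw [← e5]
            group
          have hr' : S.y i (-e) = S.x i t * H₁ * S.n i * S.x i t := hr
          rw [e8, hr']
          have e9 : S.y i (-t) = S.n i * S.x i t * (S.n i)⁻¹ := e6.symm
          rw [e9, hN₂]
          group
        -- the conjugate of `a`
        have ha2 : N₂ * a * N₂⁻¹ ∈ S.Ui i := by
          have h3 := S.Ui_n i _ (S.Ui_n i a ha)
          have e10 : N₂ * a * N₂⁻¹ = S.n i * (S.n i * a * (S.n i)⁻¹) * (S.n i)⁻¹ := by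
            rw [hN₂]
            group
          rw [e10]
          exact h3
        have ha3 := S.Ui_y i (-t) ha2
        have hU₁ : H₁ * (S.y i (-t) * (N₂ * a * N₂⁻¹) * (S.y i (-t))⁻¹) * H₁⁻¹ ∈ S.U :=
          S.H_U _ hH₁m _ (S.Ui_le i ha3)
        obtain ⟨c', hc'⟩ := S.n₀_y i (-t)
        have hmem : (S.n₀⁻¹ * H₁ * S.n₀) * S.x (S.σ i) c' * (S.n₀⁻¹ * N₂ * S.n₀) ∈ P :=
          P.mul_mem (P.mul_mem (hHP (S.n₀_H' hH₁m)) (hUP (S.x_mem _ c'))) (hHP (S.n₀_H' hN₂m))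
        refine ⟨⟨_, hmem⟩ * q, S.x i t * (H₁ * (S.y i (-t) * (N₂ * a * N₂⁻¹) * (S.y i (-t))⁻¹) * H₁⁻¹),
          S.U.mul_mem (S.x_mem i t) hU₁, ?_⟩
        have e11 : ((⟨_, hmem⟩ * q : P) : G) =
            (S.n₀⁻¹ * H₁ * S.n₀) * (S.n₀⁻¹ * S.y i (-t) * S.n₀) * (S.n₀⁻¹ * N₂ * S.n₀) * q := by
          rw [hc']
          rfl
        rw [e11]
        have e12 : S.n i * (S.x i e * a * S.n₀ * q) = (S.n i * S.x i e) * a * S.n₀ * q := by group
        rw [e12, e7]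
        group

include hUP hHP hν in
/-- **The realization of a datum.** -/
theorem exists_z (hJ : ∀ i, d.1.2 i = true → ∀ c, S.y (S.σ i) c ∈ P)
    (hN : ∀ i, d.1.2 i = false → ∀ u ∈ S.U, ∀ q : P, (S.n i)⁻¹ * S.n₀ ≠ u * S.n₀ * q) :
    ∃ z : G → F, z ≠ 0 ∧ Fix S ρr z ∧ HE S ρr d.1.1 z ∧ ∀ i, T S ρr i z = lamOf S d i • z := by
  refine ⟨zf S ν, ?_, zf_fix ν hUP, zf_HE d ν hHP hν, fun i => ?_⟩
  · intro h
    have h1 := congrFun h S.n₀
    rw [zf_n₀] at h1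
    exact one_ne_zero h1
  · rw [lamOf]
    cases hb : d.1.2 i
    · simp only [Bool.false_eq_true, if_false]
      exact T_zf_out d ν hUP hHP hν (hN i hb)
    · simp only [if_true]
      rw [zero_smul]
      exact T_zf_J ν hUP (hJ i hb)

end main

end Cfsg.Agent.Lib.KS71.CRg
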