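/-
The parabolic subgroup attached to a set of simple reflections, and the extension of a character
of `H` to it.
-/
import Mathlib
import Cfsg.Agent.Lib.KS71.CRg

set_option autoImplicit false
set_option linter.unusedSectionVars false
set_option linter.unusedVariables false
set_option linter.style.haveILetI false

namespace Cfsg.Agent.Lib.KS71.CRh

open Module
open scoped Classical
open Cfsg.Agent.Lib.KS71.CRa Cfsg.Agent.Lib.KS71.CRb Cfsg.Agent.Lib.KS71.CRc Cfsg.Agent.Lib.KS71.CRd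
open Cfsg.Agent.Lib.KS71.BrC Cfsg.Agent.Lib.KS71.CRe Cfsg.Agent.Lib.KS71.CRf Cfsg.Agent.Lib.KS71.CRg

universe u

variable {p : ℕ} {G : Type u} [Group G] [Fintype G] {W ι : Type*} [Group W] {F : Type u} [Field F] [Fintype F]
  (S : SD p G W ι F) (J : ι → Prop)

/-- The group generated by `U` and the `n_t`. -/
def PpJ : Subgroup G := Subgroup.closure ((S.U : Set G) ∪ {g | ∃ i, J i ∧ g = S.n i})

/-- The group generated by the `n_t` and `h_t(c)`. -/
def NJ : Subgroup G := Subgroup.closure ({g | ∃ i, J i ∧ g = S.n i} ∪ {g | ∃ i c, J i ∧ g = (S.hh i c : G)})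

/-- The group generated by the `h_t(c)`. -/
def HJ : Subgroup G := Subgroup.closure {g | ∃ i c, J i ∧ g = (S.hh i c : G)}

variable {S J}

lemma U_le_PpJ : S.U ≤ PpJ S J := fun _ hu => Subgroup.subset_closure (Or.inl hu)

lemma n_mem_PpJ {i : ι} (hi : J i) : S.n i ∈ PpJ S J := Subgroup.subset_closure (Or.inr ⟨i, hi, rfl⟩)

lemma y_mem_PpJ {i : ι} (hi : J i) (c : F) : S.y i c ∈ PpJ S J := by
  rw [S.y_def]
  exact Subgroup.mul_mem _ (Subgroup.mul_mem _ (n_mem_PpJ hi) (U_le_PpJ (S.x_mem i _)))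
    (Subgroup.inv_mem _ (n_mem_PpJ hi))

lemma hh_mem_PpJ {i : ι} (hi : J i) (c : Fˣ) : (S.hh i c : G) ∈ PpJ S J := by
  have h := S.rel2 i (-(c⁻¹))
  have e : -(-(c⁻¹))⁻¹ = c := by simp
  rw [e] at h
  have e2 : (S.hh i c : G) =
      (S.x i (((-(c⁻¹))⁻¹ : Fˣ) : F))⁻¹ * S.y i ((-(c⁻¹) : Fˣ) : F) * (S.x i (((-(c⁻¹))⁻¹ : Fˣ) : F))⁻¹ * (S.n i)⁻¹ := by
    rw [h]
    group
  rw [e2]
  have hx := fun c' => U_le_PpJ (J := J) (S.x_mem i c')
  exact Subgroup.mul_mem _ (Subgroup.mul_mem _ (Subgroup.mul_mem _ (Subgroup.inv_mem _ (hx _)) (y_mem_PpJ hi _))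
    (Subgroup.inv_mem _ (hx _))) (Subgroup.inv_mem _ (n_mem_PpJ hi))

lemma NJ_le_N : NJ S J ≤ S.N := by
  rw [NJ, Subgroup.closure_le]
  rintro g (⟨i, -, rfl⟩ | ⟨i, c, -, rfl⟩)
  · exact S.n_mem i
  · exact S.H_le_N (S.hh i c).2

lemma n_mem_NJ {i : ι} (hi : J i) : S.n i ∈ NJ S J := Subgroup.subset_closure (Or.inl ⟨i, hi, rfl⟩)

lemma hh_mem_NJ {i : ι} (hi : J i) (c : Fˣ) : (S.hh i c : G) ∈ NJ S J :=
  Subgroup.subset_closure (Or.inr ⟨i, c, hi, rfl⟩)

/-- The left action of `n_t` on the double cosets. -/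
lemma n_form {i : ι} (hi : J i) {u m u' : G} (hu : u ∈ S.U) (hm : m ∈ NJ S J) (hu' : u' ∈ S.U) :
    ∃ v ∈ S.U, ∃ m' ∈ NJ S J, ∃ v' ∈ S.U, S.n i * (u * m * u') = v * m' * v' := by
  obtain ⟨e, a, ha, rfl⟩ := S.U_dec i u hu
  by_cases he : e = 0
  · subst he
    rw [S.x_zero, one_mul]
    refine ⟨S.n i * a * (S.n i)⁻¹, S.Ui_le i (S.Ui_n i a ha), S.n i * m,
      Subgroup.mul_mem _ (n_mem_NJ hi) hm, u', hu', by group⟩
  · let f : Fˣ := Units.mk0 _ (neg_ne_zero.mpr he)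
    have hf : ((f : Fˣ) : F) = -e := rfl
    set H₁ : G := (S.hh i (-(f⁻¹)) : G) with hH₁
    have hH₁m : H₁ ∈ S.H := (S.hh i _).2
    set N₂ : G := S.n i * S.n i with hN₂
    have hN₂m : N₂ ∈ S.H := S.n_sq_mem i
    have hr := S.rel2 i f
    rw [hf] at hr
    have e5 : S.n i * S.x i e * (S.n i)⁻¹ = S.y i (-e) := S.n_x i e
    set t : F := ((f⁻¹ : Fˣ) : F) with ht
    have e6 : S.n i * S.x i t * (S.n i)⁻¹ = S.y i (-t) := S.n_x i t
    have e7 : S.n i * S.x i e = S.x i t * H₁ * S.y i (-t) * N₂ := by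
      have e8 : S.n i * S.x i e = S.y i (-e) * S.n i := by
        rw [← e5]
        group
      have hr' : S.y i (-e) = S.x i t * H₁ * S.n i * S.x i t := hr
      rw [e8, hr']
      have e9 : S.y i (-t) = S.n i * S.x i t * (S.n i)⁻¹ := e6.symm
      rw [e9, hN₂]
      group
    have ha2 : N₂ * a * N₂⁻¹ ∈ S.Ui i := by
      have h3 := S.Ui_n i _ (S.Ui_n i a ha)
      have e10 : N₂ * a * N₂⁻¹ = S.n i * (S.n i * a * (S.n i)⁻¹) * (S.n i)⁻¹ := by
        rw [hN₂]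
        group
      rw [e10]
      exact h3
    have ha3 := S.Ui_y i (-t) ha2
    set a₁ : G := S.y i (-t) * (N₂ * a * N₂⁻¹) * (S.y i (-t))⁻¹ with ha₁
    have hN₂NJ : N₂ ∈ NJ S J := Subgroup.mul_mem _ (n_mem_NJ hi) (n_mem_NJ hi)
    set m₂ : G := N₂ * m with hm₂
    have hm₂m : m₂ ∈ NJ S J := Subgroup.mul_mem _ hN₂NJ hm
    have hm₂N : m₂ ∈ S.N := NJ_le_N hm₂m
    have hmain : S.n i * (S.x i e * a * m * u') = S.x i t * H₁ * a₁ * (S.y i (-t) * m₂) * u' := by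
      have : S.n i * (S.x i e * a * m * u') = (S.n i * S.x i e) * a * m * u' := by group
      rw [this, e7, ha₁, hm₂]
      group
    -- the element `y` past `m₂`
    have hyform : ∃ v ∈ S.U, ∃ m' ∈ NJ S J, ∃ v' ∈ S.U, S.y i (-t) * m₂ = v * m' * v' := by
      rcases S.l_left i (S.τ m₂) with hup | hdown
      · -- `y` becomes `x n x`
        have htne : -t ≠ 0 := neg_ne_zero.mpr (by rw [ht]; exact Units.ne_zero _)
        let f' : Fˣ := Units.mk0 _ htne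
        have hf' : ((f' : Fˣ) : F) = -t := rfl
        have hr2 := S.rel2 i f'
        rw [hf'] at hr2
        set t' : F := ((f'⁻¹ : Fˣ) : F) with ht'
        set H₂ : G := (S.hh i (-(f'⁻¹)) : G) with hH₂
        refine ⟨S.x i t', S.x_mem i t', H₂ * S.n i * m₂,
          Subgroup.mul_mem _ (Subgroup.mul_mem _ (hh_mem_NJ hi _) (n_mem_NJ hi)) hm₂m,
          m₂⁻¹ * S.x i t' * m₂, S.up_x m₂ hm₂N i t' hup, ?_⟩
        have hr3 : S.y i (-t) = S.x i t' * H₂ * S.n i * S.x i t' := hr2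
        rw [hr3]
        group
      · refine ⟨1, S.U.one_mem, m₂, hm₂m, m₂⁻¹ * S.y i (-t) * m₂, ?_, by group⟩
        -- the shorter element
        have hinv := τ_n_inv (S := S) i
        have hg'N : (S.n i)⁻¹ * m₂ ∈ S.N := S.N.mul_mem (S.N.inv_mem (S.n_mem i)) hm₂N
        have hτg' : S.τ ((S.n i)⁻¹ * m₂) = S.s i * S.τ m₂ := by
          rw [S.τ_N_mul _ (S.N.inv_mem (S.n_mem i)) _ hm₂N, hinv]
        have hs2 : S.s i * S.τ ((S.n i)⁻¹ * m₂) = S.τ m₂ := by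
          rw [hτg', ← mul_assoc, S.s_sq, one_mul]
        have hup' : S.l (S.τ ((S.n i)⁻¹ * m₂)) < S.l (S.s i * S.τ ((S.n i)⁻¹ * m₂)) := by
          rw [hs2, hτg']
          exact hdown
        have h4 := S.up_x _ hg'N i t hup'
        have e11 : m₂⁻¹ * S.y i (-t) * m₂ = ((S.n i)⁻¹ * m₂)⁻¹ * S.x i t * ((S.n i)⁻¹ * m₂) := by
          rw [← e6]
          group
        rw [e11]
        exact h4
    obtain ⟨v, hv, m', hm', v', hv', e12⟩ := hyform
    have hmem : H₁ * (a₁ * v) * H₁⁻¹ ∈ S.U :=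
      S.H_U _ hH₁m _ (S.U.mul_mem (S.Ui_le i ha3) hv)
    refine ⟨S.x i t * (H₁ * (a₁ * v) * H₁⁻¹), S.U.mul_mem (S.x_mem i t) hmem, H₁ * m',
      Subgroup.mul_mem _ (hh_mem_NJ hi _) hm', v' * u', S.U.mul_mem hv' hu', ?_⟩
    rw [hmain, e12]
    group

/-- The Bruhat form of the elements of `PpJ`. -/
lemma PpJ_form {g : G} (hg : g ∈ PpJ S J) :
    ∃ u ∈ S.U, ∃ m ∈ NJ S J, ∃ u' ∈ S.U, g = u * m * u' := by
  induction hg using Subgroup.closure_induction_left with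
  | one => exact ⟨1, S.U.one_mem, 1, Subgroup.one_mem _, 1, S.U.one_mem, by simp⟩
  | mul_left x hx y hy ih =>
    obtain ⟨u, hu, m, hm, u', hu', rfl⟩ := ih
    rcases hx with hx | ⟨i, hi, rfl⟩
    · exact ⟨x * u, S.U.mul_mem hx hu, m, hm, u', hu', by group⟩
    · exact n_form hi hu hm hu'
  | inv_mul_cancel x hx y hy ih =>
    obtain ⟨u, hu, m, hm, u', hu', rfl⟩ := ih
    rcases hx with hx | ⟨i, hi, rfl⟩
    · exact ⟨x⁻¹ * u, S.U.mul_mem (S.U.inv_mem hx) hu, m, hm, u', hu', by group⟩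
    · obtain ⟨v, hv, m', hm', v', hv', e⟩ := n_form hi hu hm hu'
      -- `n⁻¹ = n * (n²)⁻¹`... written with `N₂`
      have hN₂ := S.n_sq_mem i
      set N₂ := S.n i * S.n i with hN₂d
      have hN₂NJ : N₂ ∈ NJ S J := Subgroup.mul_mem _ (n_mem_NJ hi) (n_mem_NJ hi)
      have e1 : (S.n i)⁻¹ = N₂⁻¹ * S.n i := by
        rw [hN₂d]
        group
      refine ⟨N₂⁻¹ * v * N₂, H_U' hN₂ hv, N₂⁻¹ * m', Subgroup.mul_mem _ (Subgroup.inv_mem _ hN₂NJ) hm', v', hv', ?_⟩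
      rw [e1, mul_assoc, e]
      group

/-- The elements of `H` in `PpJ` lie in `NJ`. -/
lemma H_inf_PpJ {h : G} (hh : h ∈ S.H) (hg : h ∈ PpJ S J) : h ∈ NJ S J := by
  obtain ⟨u, hu, m, hm, u', hu', e⟩ := PpJ_form hg
  have hmN : m ∈ S.N := NJ_le_N hm
  have hτ : S.τ m = 1 := by
    have h1 : S.τ h = S.τ 1 := by
      have := S.τ_H_left h hh 1
      rwa [mul_one] at this
    rw [τ_one] at h1
    rw [e, S.τ_U_right _ hu', S.τ_U_left _ hu] at h1
    exact h1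
  have hmH := S.τ_N_ker m hmN hτ
  have h2 : m * u' * m⁻¹ ∈ S.U := S.H_U m hmH u' hu'
  have h3 : h * m⁻¹ = u * (m * u' * m⁻¹) := by
    rw [e]
    group
  have h4 : h * m⁻¹ = 1 := S.U_H _ (by rw [h3]; exact S.U.mul_mem hu h2) (S.H.mul_mem hh (S.H.inv_mem hmH))
  have h5 : h = m := mul_inv_eq_one.mp h4
  rw [h5]
  exact hm

/-- The form of the elements of `NJ`. -/
lemma NJ_form {m : G} (hm : m ∈ NJ S J) :
    ∃ l : List ι, (∀ t ∈ l, J t) ∧ ∃ h' ∈ HJ S J, m = (l.map S.n).prod * h' := by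
  -- conjugation of `H` by `n`
  have hconj : ∀ i, J i → ∀ h' ∈ HJ S J, (S.n i)⁻¹ * h' * S.n i ∈ HJ S J := by
    intro i hi h' hh'
    have hH : h' ∈ S.H := by
      have : HJ S J ≤ S.H := by
        rw [HJ, Subgroup.closure_le]
        rintro g ⟨i, c, -, rfl⟩
        exact (S.hh i c).2
      exact this hh'
    have hm' : (S.n i)⁻¹ * h' * S.n i ∈ S.H := by
      have := S.N_H (S.n i)⁻¹ (S.N.inv_mem (S.n_mem i)) h' hH
      rwa [inv_inv] at this
    obtain ⟨c, hc⟩ := S.n_comm i _ hm'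
    have e : (S.n i)⁻¹ * h' * S.n i = (S.hh i c : G) * h' := by
      have h1 : (S.n i)⁻¹ * h' * S.n i * S.n i * ((S.n i)⁻¹ * h' * S.n i)⁻¹ = (S.hh i c : G) * S.n i := hc
      have h2 : (S.hh i c : G) * h' = (S.n i)⁻¹ * h' * S.n i * S.n i * ((S.n i)⁻¹ * h' * S.n i)⁻¹ * (S.n i)⁻¹ * h' := by
        rw [h1]
        group
      rw [h2]
      group
    rw [e]
    exact Subgroup.mul_mem _ (Subgroup.subset_closure ⟨i, c, hi, rfl⟩) hh'
  induction hm using Subgroup.closure_induction_right with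
  | one => exact ⟨[], by simp, 1, Subgroup.one_mem _, by simp⟩
  | mul_right x y hy hx ih =>
    obtain ⟨l, hl, h', hh', rfl⟩ := ih
    rcases hx with ⟨i, hi, rfl⟩ | ⟨i, c, hi, rfl⟩
    · refine ⟨l ++ [i], ?_, (S.n i)⁻¹ * h' * S.n i, hconj i hi h' hh', ?_⟩
      · intro t ht
        rcases List.mem_append.mp ht with h1 | h1
        · exact hl t h1
        · rw [List.mem_singleton] at h1
          rw [h1]
          exact hi
      · simp only [List.map_append, List.map_cons, List.map_nil, List.prod_append, List.prod_cons,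
          List.prod_nil, mul_one]
        group
    · exact ⟨l, hl, h' * (S.hh i c : G), Subgroup.mul_mem _ hh' (Subgroup.subset_closure ⟨i, c, hi, rfl⟩),
        by group⟩
  | mul_inv_cancel x y hy hx ih =>
    obtain ⟨l, hl, h', hh', rfl⟩ := ih
    rcases hx with ⟨i, hi, rfl⟩ | ⟨i, c, hi, rfl⟩
    · -- `n⁻¹ = n * (h(-1))⁻¹`
      have hsq : (S.n i)⁻¹ = S.n i * ((S.hh i (-1) : G))⁻¹ := by
        rw [← S.n_sq]
        group
      refine ⟨l ++ [i], ?_, (S.n i)⁻¹ * h' * S.n i * ((S.hh i (-1) : G))⁻¹,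
        Subgroup.mul_mem _ (hconj i hi h' hh') (Subgroup.inv_mem _ (Subgroup.subset_closure ⟨i, -1, hi, rfl⟩)), ?_⟩
      · intro t ht
        rcases List.mem_append.mp ht with h1 | h1
        · exact hl t h1
        · rw [List.mem_singleton] at h1
          rw [h1]
          exact hi
      · simp only [List.map_append, List.map_cons, List.map_nil, List.prod_append, List.prod_cons,
          List.prod_nil, mul_one]
        rw [mul_assoc, mul_assoc, mul_assoc]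
        congr 1
        have : h' * (S.n i)⁻¹ = S.n i * ((S.n i)⁻¹ * h' * S.n i * ((S.hh i (-1) : G))⁻¹) := by
          rw [mul_assoc ((S.n i)⁻¹ * h'), ← mul_assoc (S.n i) ((S.n i)⁻¹ * h')]
          rw [mul_inv_cancel_left, ← hsq]
        rw [this]
        group
    · exact ⟨l, hl, h' * (S.hh i c : G)⁻¹,
        Subgroup.mul_mem _ hh' (Subgroup.inv_mem _ (Subgroup.subset_closure ⟨i, c, hi, rfl⟩)), by group⟩

/-- `H` normalizes `PpJ`. -/
lemma H_nor_PpJ {h : G} (hh : h ∈ S.H) {g : G} (hg : g ∈ PpJ S J) : h * g * h⁻¹ ∈ PpJ S J := by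
  induction hg using Subgroup.closure_induction with
  | mem x hx =>
    rcases hx with hx | ⟨i, hi, rfl⟩
    · exact U_le_PpJ (S.H_U h hh x hx)
    · obtain ⟨c, hc⟩ := S.n_comm i h hh
      rw [hc]
      exact Subgroup.mul_mem _ (hh_mem_PpJ hi c) (n_mem_PpJ hi)
  | one => simp [Subgroup.one_mem]
  | mul x y _ _ hx hy =>
    have e : h * (x * y) * h⁻¹ = (h * x * h⁻¹) * (h * y * h⁻¹) := by group
    rw [e]
    exact Subgroup.mul_mem _ hx hy
  | inv x _ hx =>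
    have e : h * x⁻¹ * h⁻¹ = (h * x * h⁻¹)⁻¹ := by group
    rw [e]
    exact Subgroup.inv_mem _ hx

/-- The parabolic subgroup `H · PpJ`. -/
def PJ (S : SD p G W ι F) (J : ι → Prop) : Subgroup G where
  carrier := {x | ∃ h ∈ S.H, ∃ g ∈ PpJ S J, x = h * g}
  one_mem' := ⟨1, S.H.one_mem, 1, Subgroup.one_mem _, by simp⟩
  mul_mem' := by
    rintro _ _ ⟨h, hh, g, hg, rfl⟩ ⟨h', hh', g', hg', rfl⟩
    refine ⟨h * h', S.H.mul_mem hh hh', h'⁻¹ * g * h' * g', ?_, by group⟩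
    refine Subgroup.mul_mem _ ?_ hg'
    have := H_nor_PpJ (S.H.inv_mem hh') hg
    rwa [inv_inv] at this
  inv_mem' := by
    rintro _ ⟨h, hh, g, hg, rfl⟩
    refine ⟨h⁻¹, S.H.inv_mem hh, h * g⁻¹ * h⁻¹, H_nor_PpJ hh (Subgroup.inv_mem _ hg), by group⟩

lemma PJ_le {Q : Subgroup G} (hU : S.U ≤ Q) (hH : S.H ≤ Q) (hn : ∀ t, J t → S.n t ∈ Q) : PJ S J ≤ Q := by
  rintro _ ⟨h, hh, g, hg, rfl⟩
  refine Q.mul_mem (hH hh) ?_
  have : PpJ S J ≤ Q := by
    rw [PpJ, Subgroup.closure_le]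
    rintro x (hx | ⟨i, hi, rfl⟩)
    · exact hU hx
    · exact hn i hi
  exact this hg

lemma U_le_PJ : S.U ≤ PJ S J := fun u hu => ⟨1, S.H.one_mem, u, U_le_PpJ hu, by simp⟩

lemma H_le_PJ : S.H ≤ PJ S J := fun h hh => ⟨h, hh, 1, Subgroup.one_mem _, by simp⟩

lemma y_mem_PJ {i : ι} (hi : J i) (c : F) : S.y i c ∈ PJ S J :=
  ⟨1, S.H.one_mem, _, y_mem_PpJ hi c, by simp⟩

/-- **Extension of a character.** -/
theorem exists_ν (μ : S.H →* Fˣ) (hμ : ∀ t, J t → μ.comp (S.hh t) = 1)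
    (hS : ∀ l : List ι, (∀ t ∈ l, J t) → ∀ hl : (l.map S.n).prod ∈ S.H, μ ⟨_, hl⟩ = 1) :
    ∃ ν : PJ S J →* Fˣ, ∀ h : S.H, ν ⟨h, H_le_PJ h.2⟩ = μ h := by
  -- `μ` is trivial on `HJ`
  have hHJ : ∀ g ∈ HJ S J, ∀ hg : g ∈ S.H, μ ⟨g, hg⟩ = 1 := by
    intro g hg
    induction hg using Subgroup.closure_induction with
    | mem x hx =>
      obtain ⟨i, c, hi, rfl⟩ := hx
      intro _
      have := congrArg (fun t : Fˣ →* Fˣ => t c) (hμ i hi)
      simpa using this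
    | one =>
      intro hg
      exact map_one μ
    | mul x y hx hy ihx ihy =>
      intro hg
      have hle : HJ S J ≤ S.H := by
        rw [HJ, Subgroup.closure_le]
        rintro g ⟨i, c, -, rfl⟩
        exact (S.hh i c).2
      have e : (⟨x * y, hg⟩ : S.H) = ⟨x, hle hx⟩ * ⟨y, hle hy⟩ := rfl
      rw [e, map_mul, ihx, ihy, one_mul]
    | inv x hx ih =>
      intro hg
      have hle : HJ S J ≤ S.H := by
        rw [HJ, Subgroup.closure_le]
        rintro g ⟨i, c, -, rfl⟩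
        exact (S.hh i c).2
      have e : (⟨x⁻¹, hg⟩ : S.H) = (⟨x, hle hx⟩ : S.H)⁻¹ := rfl
      rw [e, map_inv, ih, inv_one]
  have hle : HJ S J ≤ S.H := by
    rw [HJ, Subgroup.closure_le]
    rintro g ⟨i, c, -, rfl⟩
    exact (S.hh i c).2
  -- `μ` is trivial on `H ∩ PpJ`
  have htriv : ∀ h : S.H, (h : G) ∈ PpJ S J → μ h = 1 := by
    intro h hp
    obtain ⟨l, hl, h', hh', e⟩ := NJ_form (H_inf_PpJ h.2 hp)
    have hw : (l.map S.n).prod ∈ S.H := by
      have : (l.map S.n).prod = h * h'⁻¹ := by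
        rw [e]
        group
      rw [this]
      exact S.H.mul_mem h.2 (S.H.inv_mem (hle hh'))
    have e2 : h = ⟨_, hw⟩ * ⟨h', hle hh'⟩ := Subtype.ext e
    rw [e2, map_mul, hS l hl hw, hHJ _ hh', one_mul]
  -- the character
  have hspec : ∀ x : PJ S J, ∃ h : S.H, ∃ g ∈ PpJ S J, (x : G) = h * g := by
    rintro ⟨x, h, hh, g, hg, e⟩
    exact ⟨⟨h, hh⟩, g, hg, e⟩
  choose c hc hmem hce using hspec
  have hwd : ∀ (x : PJ S J) (h : S.H) (g : G), g ∈ PpJ S J → (x : G) = h * g → μ (c x) = μ h := by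
    intro x h g hg e
    have h1 : ((c x)⁻¹ * h : S.H).1 ∈ PpJ S J := by
      have e1 : (((c x)⁻¹ * h : S.H) : G) = hc x * g⁻¹ := by
        have h2 := hce x
        rw [e] at h2
        have : (c x : G)⁻¹ * h = hc x * g⁻¹ := by
          rw [eq_mul_inv_iff_mul_eq, mul_assoc, inv_mul_eq_iff_eq_mul, h2]
        exact this
      rw [e1]
      exact Subgroup.mul_mem _ (hmem x) (Subgroup.inv_mem _ hg)
    have h3 := htriv _ h1
    rw [map_mul, map_inv] at h3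
    exact (inv_mul_eq_one.mp h3)
  refine ⟨MonoidHom.mk' (fun x => μ (c x)) ?_, ?_⟩
  · intro x y
    have hy := H_nor_PpJ (S := S) (J := J) (S.H.inv_mem (c y).2) (hmem x)
    have e : ((x * y : PJ S J) : G) = ((c x * c y : S.H) : G) *
        (((c y : G)⁻¹ * hc x * ((c y : G)⁻¹)⁻¹) * hc y) := by
      have e1 : ((x * y : PJ S J) : G) = (x : G) * (y : G) := rfl
      rw [e1, hce x]
      nth_rewrite 1 [hce y]
      push_cast
      group
    rw [hwd _ (c x * c y) _ (Subgroup.mul_mem _ hy (hmem y)) e, map_mul]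
  · intro h
    have e : ((⟨h, H_le_PJ h.2⟩ : PJ S J) : G) = h * 1 := by simp
    exact hwd _ h 1 (Subgroup.one_mem _) e

end Cfsg.Agent.Lib.KS71.CRh
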