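/-
Iwahori-Hecke operators on the functions on a finite group with a length function.
The real family of parameters: the dimension of the centre is locally constant.
-/
import Mathlib

set_option autoImplicit false
set_option linter.unusedSectionVars false
set_option linter.unusedVariables false

namespace Cfsg.Agent.Lib.KS71.HeckeA

open Module
open scoped ComplexConjugate Topology

/-- A finite group with generators and a length function with the exchange property. -/
structure HData (W : Type*) [Group W] (ι : Type*) where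
  s : ι → W
  l : W → ℕ
  s_sq : ∀ i, s i * s i = 1
  l_one : l 1 = 0
  l_inv : ∀ w, l w⁻¹ = l w
  l_step : ∀ i w, l (s i * w) = l w + 1 ∨ l (s i * w) + 1 = l w
  desc : ∀ w, w ≠ 1 → ∃ i, l (s i * w) < l w
  exch : ∀ i j w, l w < l (s i * w) → l w < l (w * s j) → l (s i * w * s j) ≤ l w →
    s i * w = w * s j

variable {W : Type*} [Group W] {ι : Type*} (D : HData W ι)

namespace HData

lemma s_inv (i : ι) : (D.s i)⁻¹ = D.s i := by
  rw [inv_eq_iff_mul_eq_one]; exact D.s_sq i

lemma s_s (i : ι) (w : W) : D.s i * (D.s i * w) = w := by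
  rw [← mul_assoc, D.s_sq, one_mul]

lemma r_r (i : ι) (w : W) : w * D.s i * D.s i = w := by
  rw [mul_assoc, D.s_sq, mul_one]

lemma r_step (i : ι) (w : W) : D.l (w * D.s i) = D.l w + 1 ∨ D.l (w * D.s i) + 1 = D.l w := by
  have h := D.l_step i w⁻¹
  have e : D.s i * w⁻¹ = (w * D.s i)⁻¹ := by rw [mul_inv_rev, D.s_inv]
  rw [e, D.l_inv, D.l_inv] at h
  exact h

lemma l_s (i : ι) : D.l (D.s i) = 1 := by
  have h := D.l_step i 1
  rw [mul_one, D.l_one] at h
  omega

lemma l_eq_zero {w : W} (h : D.l w = 0) : w = 1 := by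
  by_contra hw
  obtain ⟨i, hi⟩ := D.desc w hw
  omega

/-- The left operator. -/
noncomputable def L (t : ℂ) (i : ι) : (W → ℂ) →ₗ[ℂ] (W → ℂ) where
  toFun v u := if D.l u < D.l (D.s i * u) then t * v (D.s i * u)
    else v (D.s i * u) + (t - 1) * v u
  map_add' v v' := by
    funext u
    simp only [Pi.add_apply]
    split_ifs <;> ring
  map_smul' c v := by
    funext u
    simp only [Pi.smul_apply, smul_eq_mul, RingHom.id_apply]
    split_ifs <;> ring

/-- The right operator. -/
noncomputable def R (t : ℂ) (i : ι) : (W → ℂ) →ₗ[ℂ] (W → ℂ) where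
  toFun v u := if D.l u < D.l (u * D.s i) then t * v (u * D.s i)
    else v (u * D.s i) + (t - 1) * v u
  map_add' v v' := by
    funext u
    simp only [Pi.add_apply]
    split_ifs <;> ring
  map_smul' c v := by
    funext u
    simp only [Pi.smul_apply, smul_eq_mul, RingHom.id_apply]
    split_ifs <;> ring

lemma L_apply (t : ℂ) (i : ι) (v : W → ℂ) (u : W) :
    D.L t i v u = if D.l u < D.l (D.s i * u) then t * v (D.s i * u)
      else v (D.s i * u) + (t - 1) * v u := rfl

lemma R_apply (t : ℂ) (i : ι) (v : W → ℂ) (u : W) :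
    D.R t i v u = if D.l u < D.l (u * D.s i) then t * v (u * D.s i)
      else v (u * D.s i) + (t - 1) * v u := rfl

/-- The inversion. -/
def iv : (W → ℂ) →ₗ[ℂ] (W → ℂ) where
  toFun v u := v u⁻¹
  map_add' _ _ := rfl
  map_smul' _ _ := rfl

lemma iv_apply (v : W → ℂ) (u : W) : iv v u = v u⁻¹ := rfl

lemma iv_iv (v : W → ℂ) : iv (iv v) = v := by
  funext u; simp [iv_apply]

lemma R_eq (t : ℂ) (i : ι) (v : W → ℂ) : D.R t i v = iv (D.L t i (iv v)) := by
  funext u
  have e : D.s i * u⁻¹ = (u * D.s i)⁻¹ := by rw [mul_inv_rev, D.s_inv]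
  rw [R_apply, iv_apply, L_apply, D.l_inv, e, D.l_inv, iv_apply, iv_apply, inv_inv, inv_inv]

lemma L_eq (t : ℂ) (i : ι) (v : W → ℂ) : D.L t i v = iv (D.R t i (iv v)) := by
  rw [R_eq, iv_iv, iv_iv]

/-- The left and right operators commute. -/
lemma L_R (t : ℂ) (i j : ι) (v : W → ℂ) : D.L t i (D.R t j v) = D.R t j (D.L t i v) := by
  funext u
  have e1 : D.s i * (u * D.s j) = D.s i * u * D.s j := by rw [mul_assoc]
  have hL := D.l_step i u
  have hR := D.r_step j u
  have hLR := D.l_step i (u * D.s j)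
  have hRL := D.r_step j (D.s i * u)
  rw [e1] at hLR
  simp only [L_apply, R_apply, e1]
  by_cases h1 : D.l u < D.l (D.s i * u) <;> by_cases h2 : D.l u < D.l (u * D.s j)
  · -- both up
    by_cases h3 : D.l (D.s i * u * D.s j) ≤ D.l u
    · have e := D.exch i j u h1 h2 h3
      have e4 : D.s i * u * D.s j = u := by rw [e]; exact D.r_r j u
      have h4 : ¬ D.l (D.s i * u) < D.l (D.s i * u * D.s j) := by rw [e4]; omega
      have h5 : ¬ D.l (u * D.s j) < D.l (D.s i * u * D.s j) := by rw [e4]; omega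
      have h4' : ¬ D.l (D.s i * u) < D.l u := by omega
      have h5' : ¬ D.l (u * D.s j) < D.l u := by omega
      simp only [h1, h2, h4', h5', if_true, if_false, e4]
      rw [e]
    · have h4 : D.l (D.s i * u) < D.l (D.s i * u * D.s j) := by omega
      have h5 : D.l (u * D.s j) < D.l (D.s i * u * D.s j) := by omega
      simp only [h1, h2, h4, h5, if_true]
  · -- left up, right down
    have h4 : ¬ D.l (D.s i * u) < D.l (D.s i * u * D.s j) := by omega
    have h5 : D.l (u * D.s j) < D.l (D.s i * u * D.s j) := by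
      by_contra h6
      have e5 : D.s i * u * D.s j * D.s j = D.s i * u := D.r_r j _
      have hh := D.r_step j (D.s i * u * D.s j)
      rw [e5] at hh
      omega
    simp only [h1, h2, h4, h5, if_true, if_false]
    ring
  · -- left down, right up
    have h4 : D.l (D.s i * u) < D.l (D.s i * u * D.s j) := by
      by_contra h6
      have e5 : D.s i * (D.s i * u * D.s j) = u * D.s j := by
        rw [← mul_assoc, ← mul_assoc, D.s_sq, one_mul]
      have hh := D.l_step i (D.s i * u * D.s j)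
      rw [e5] at hh
      omega
    have h5 : ¬ D.l (u * D.s j) < D.l (D.s i * u * D.s j) := by omega
    simp only [h1, h2, h4, h5, if_true, if_false]
    ring
  · -- both down
    by_cases h4 : D.l (D.s i * u) < D.l (D.s i * u * D.s j)
    · -- exchange applied to `s u`
      have e2 : D.s i * (D.s i * u) = u := D.s_s i u
      have h6 : D.l (D.s i * u) < D.l (D.s i * (D.s i * u)) := by rw [e2]; omega
      have h8 : D.l (D.s i * (D.s i * u) * D.s j) ≤ D.l (D.s i * u) := by rw [e2]; omega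
      have e := D.exch i j (D.s i * u) h6 h4 h8
      rw [e2] at e
      have e3 : u * D.s j = D.s i * u := by
        calc u * D.s j = (D.s i * u * D.s j) * D.s j := by rw [← e]
          _ = D.s i * u := D.r_r j _
      have h5 : D.l (u * D.s j) < D.l (D.s i * u * D.s j) := by rw [e3]; exact h4
      simp only [h1, h2, h4, h5, if_true, if_false]
      rw [e3]
    · have h5 : ¬ D.l (u * D.s j) < D.l (D.s i * u * D.s j) := by omega
      simp only [h1, h2, h4, h5, if_false]
      ring

/-- The quadratic relation. -/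
lemma L_L (t : ℂ) (i : ι) (v : W → ℂ) :
    D.L t i (D.L t i v) = (t - 1) • D.L t i v + t • v := by
  funext u
  have e2 : D.s i * (D.s i * u) = u := D.s_s i u
  have hL := D.l_step i u
  simp only [Pi.add_apply, Pi.smul_apply, smul_eq_mul, L_apply, e2]
  by_cases h1 : D.l u < D.l (D.s i * u)
  · have h2 : ¬ D.l (D.s i * u) < D.l u := by omega
    simp only [h1, h2, if_true, if_false]
    ring
  · have h2 : D.l (D.s i * u) < D.l u := by omega
    simp only [h1, h2, if_true, if_false]
    ring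

lemma R_R (t : ℂ) (i : ι) (v : W → ℂ) :
    D.R t i (D.R t i v) = (t - 1) • D.R t i v + t • v := by
  rw [R_eq, R_eq, iv_iv, L_L]
  funext u
  simp [iv_apply, iv_iv]

variable [DecidableEq W]

/-- The standard basis vectors. -/
def E (w : W) : W → ℂ := Pi.single w 1

lemma E_apply (w u : W) : E w u = if u = w then 1 else 0 := by
  simp [E, Pi.single_apply]

lemma s_ne (i : ι) (w : W) : D.s i * w ≠ w := by
  intro h
  have := D.l_step i w
  rw [h] at this
  omega

lemma r_ne (i : ι) (w : W) : w * D.s i ≠ w := by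
  intro h
  have := D.r_step i w
  rw [h] at this
  omega

lemma L_E (t : ℂ) (i : ι) {w : W} (h : D.l w < D.l (D.s i * w)) :
    D.L t i (E w) = E (D.s i * w) := by
  funext u
  rw [L_apply]
  by_cases hu : u = D.s i * w
  · subst hu
    have e2 := D.s_s i w
    have h2 : ¬ D.l (D.s i * w) < D.l (D.s i * (D.s i * w)) := by rw [e2]; omega
    rw [if_neg h2, e2, E_apply, E_apply, E_apply, if_pos rfl, if_neg (D.s_ne i w), if_pos rfl]
    ring
  · have h3 : D.s i * u ≠ w := by
      intro e; apply hu; rw [← e, D.s_s]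
    by_cases hw : u = w
    · subst hw
      rw [if_pos h, E_apply, E_apply, if_neg h3, if_neg hu]
      ring
    · rw [E_apply, E_apply, E_apply, if_neg h3, if_neg hw, if_neg hu]
      split_ifs <;> ring

lemma iv_E (w : W) : iv (E w) = E w⁻¹ := by
  funext u
  rw [iv_apply, E_apply, E_apply]
  simp only [inv_eq_iff_eq_inv]

lemma R_E (t : ℂ) (i : ι) {w : W} (h : D.l w < D.l (w * D.s i)) :
    D.R t i (E w) = E (w * D.s i) := by
  have e : D.s i * w⁻¹ = (w * D.s i)⁻¹ := by rw [mul_inv_rev, D.s_inv]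
  rw [R_eq, iv_E, L_E, iv_E, e, inv_inv]
  rw [e, D.l_inv, D.l_inv]
  exact h

/-- Commuting with the right operators. -/
def RC (t : ℂ) (X : (W → ℂ) →ₗ[ℂ] (W → ℂ)) : Prop := ∀ j v, X (D.R t j v) = D.R t j (X v)

lemma exists_desc_right {w : W} (h : w ≠ 1) : ∃ i, D.l (w * D.s i) < D.l w := by
  obtain ⟨i, hi⟩ := D.desc w⁻¹ (by simpa using h)
  have e : D.s i * w⁻¹ = (w * D.s i)⁻¹ := by rw [mul_inv_rev, D.s_inv]
  rw [e, D.l_inv, D.l_inv] at hi
  exact ⟨i, hi⟩

lemma RC_E {t : ℂ} {X : (W → ℂ) →ₗ[ℂ] (W → ℂ)} (hX : D.RC t X) (h0 : X (E 1) = 0) (w : W) :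
    X (E w) = 0 := by
  induction hn : D.l w using Nat.strong_induction_on generalizing w with
  | _ n ih =>
    by_cases hw : w = 1
    · rw [hw, h0]
    · obtain ⟨i, hi⟩ := D.exists_desc_right hw
      have e2 : w * D.s i * D.s i = w := D.r_r i w
      have h3 : D.l (w * D.s i) < D.l (w * D.s i * D.s i) := by rw [e2]; exact hi
      have h4 := D.R_E t i h3
      rw [e2] at h4
      rw [← h4, hX, ih _ (by omega) _ rfl, map_zero]

variable [Fintype W]

lemma eq_sum_E (v : W → ℂ) : v = ∑ w, v w • E w := by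
  funext u
  simp [Finset.sum_apply, E_apply]

lemma RC_eq {t : ℂ} {X Y : (W → ℂ) →ₗ[ℂ] (W → ℂ)} (hX : D.RC t X) (hY : D.RC t Y)
    (h0 : X (E 1) = Y (E 1)) : X = Y := by
  have h1 : D.RC t (X - Y) := by
    intro j v
    simp [hX j v, hY j v, map_sub]
  have h2 : ∀ w, (X - Y) (E w) = 0 :=
    D.RC_E h1 (by simp [h0])
  refine LinearMap.ext fun v => ?_
  have h3 : (X - Y) v = 0 := by
    rw [eq_sum_E v, map_sum]
    exact Finset.sum_eq_zero fun w _ => by rw [map_smul, h2, smul_zero]
  simpa [sub_eq_zero] using h3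

/-- The value of a word. -/
def wval : List ι → W
  | [] => 1
  | i :: l => D.s i * wval l

/-- The operator of a word. -/
noncomputable def Lw (t : ℂ) : List ι → (W → ℂ) →ₗ[ℂ] (W → ℂ)
  | [] => LinearMap.id
  | i :: l => D.L t i ∘ₗ Lw t l

omit [DecidableEq W] [Fintype W] in
lemma wval_cons (i : ι) (l : List ι) : D.wval (i :: l) = D.s i * D.wval l := rfl

omit [DecidableEq W] [Fintype W] in
lemma wval_len_le (l : List ι) : D.l (D.wval l) ≤ l.length := by
  induction l with
  | nil => simp [wval, D.l_one]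
  | cons i l ih =>
    have := D.l_step i (D.wval l)
    rw [wval_cons, List.length_cons]
    omega

omit [DecidableEq W] [Fintype W] in
lemma exists_word (w : W) : ∃ l : List ι, D.wval l = w ∧ D.l w = l.length := by
  induction hn : D.l w using Nat.strong_induction_on generalizing w with
  | _ n ih =>
    by_cases hw : w = 1
    · exact ⟨[], by rw [hw]; rfl, by rw [← hn, hw, D.l_one]; rfl⟩
    · obtain ⟨i, hi⟩ := D.desc w hw
      have h1 := D.l_step i w
      obtain ⟨l, hl, hl2⟩ := ih _ (by omega) (D.s i * w) rfl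
      refine ⟨i :: l, ?_, ?_⟩
      · rw [wval_cons, hl, D.s_s]
      · rw [List.length_cons, ← hl2]; omega

/-- A chosen reduced word. -/
noncomputable def word (w : W) : List ι := (D.exists_word w).choose

omit [DecidableEq W] [Fintype W] in
lemma wval_word (w : W) : D.wval (D.word w) = w := (D.exists_word w).choose_spec.1

omit [DecidableEq W] [Fintype W] in
lemma length_word (w : W) : D.l w = (D.word w).length := (D.exists_word w).choose_spec.2

lemma Lw_E (t : ℂ) (l : List ι) (h : D.l (D.wval l) = l.length) :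
    D.Lw t l (E 1) = E (D.wval l) := by
  induction l with
  | nil => rfl
  | cons i l ih =>
    rw [wval_cons, List.length_cons] at h
    have h1 := D.wval_len_le l
    have h2 := D.l_step i (D.wval l)
    have h3 : D.l (D.wval l) = l.length := by omega
    rw [Lw, LinearMap.comp_apply, ih h3, wval_cons, L_E]
    omega

omit [DecidableEq W] [Fintype W] in
lemma Lw_RC (t : ℂ) (l : List ι) : D.RC t (D.Lw t l) := by
  induction l with
  | nil => intro j v; rfl
  | cons i l ih =>
    intro j v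
    rw [Lw, LinearMap.comp_apply, LinearMap.comp_apply, ih, L_R]

/-- The standard basis element of the Hecke algebra, as a left operator. -/
noncomputable def T (t : ℂ) (w : W) : (W → ℂ) →ₗ[ℂ] (W → ℂ) := D.Lw t (D.word w)

omit [DecidableEq W] [Fintype W] in
lemma T_RC (t : ℂ) (w : W) : D.RC t (D.T t w) := D.Lw_RC t _

lemma T_E (t : ℂ) (w : W) : D.T t w (E 1) = E w := by
  have h := D.Lw_E t (D.word w) (by rw [D.wval_word]; exact D.length_word w)
  rw [D.wval_word] at h
  exact h

lemma T_one (t : ℂ) : D.T t (1 : W) = LinearMap.id :=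
  D.RC_eq (D.T_RC t 1) (fun _ _ => rfl) (by rw [T_E]; rfl)

omit [DecidableEq W] [Fintype W] in
lemma L_RC (t : ℂ) (i : ι) : D.RC t (D.L t i) := fun j v => D.L_R t i j v

omit [DecidableEq W] [Fintype W] in
lemma comp_RC {t : ℂ} {X Y : (W → ℂ) →ₗ[ℂ] (W → ℂ)} (hX : D.RC t X) (hY : D.RC t Y) :
    D.RC t (X ∘ₗ Y) := by
  intro j v
  rw [LinearMap.comp_apply, LinearMap.comp_apply, hY, hX]

lemma T_left (t : ℂ) (i : ι) {w : W} (h : D.l w < D.l (D.s i * w)) :
    D.T t (D.s i * w) = D.L t i ∘ₗ D.T t w :=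
  D.RC_eq (D.T_RC t _) (D.comp_RC (D.L_RC t i) (D.T_RC t w)) (by
    rw [T_E, LinearMap.comp_apply, T_E, D.L_E t i h])

lemma T_right (t : ℂ) (i : ι) {w : W} (h : D.l w < D.l (w * D.s i)) :
    D.T t (w * D.s i) = D.T t w ∘ₗ D.L t i :=
  D.RC_eq (D.T_RC t _) (D.comp_RC (D.T_RC t w) (D.L_RC t i)) (by
    have h1 : D.l 1 < D.l (D.s i * 1) := by rw [mul_one, D.l_s, D.l_one]; omega
    have h2 := D.L_E t i h1
    have h3 : D.l 1 < D.l (1 * D.s i) := by rw [one_mul, D.l_s, D.l_one]; omega
    have h4 := D.R_E t i h3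
    rw [one_mul] at h4
    rw [mul_one] at h2
    rw [T_E, LinearMap.comp_apply, h2, ← h4, D.T_RC t w, T_E, D.R_E t i h])

/-- The conjugate by inversion of `T`: right multiplication by `T (w⁻¹)`. -/
noncomputable def Tp (t : ℂ) (w : W) : (W → ℂ) →ₗ[ℂ] (W → ℂ) := iv ∘ₗ D.T t w ∘ₗ iv

lemma Tp_one (t : ℂ) : D.Tp t (1 : W) = LinearMap.id := by
  refine LinearMap.ext fun v => ?_
  simp only [Tp, T_one, LinearMap.comp_apply, LinearMap.id_apply]
  exact iv_iv v

lemma Tp_apply (t : ℂ) (w : W) (v : W → ℂ) : D.Tp t w v = iv (D.T t w (iv v)) := rfl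

lemma Tp_left (t : ℂ) (i : ι) {w : W} (h : D.l w < D.l (D.s i * w)) (v : W → ℂ) :
    D.Tp t (D.s i * w) v = D.R t i (D.Tp t w v) := by
  rw [D.Tp_apply, D.T_left t i h, LinearMap.comp_apply, D.L_eq, iv_iv, D.Tp_apply]

lemma Tp_L (t : ℂ) (i : ι) (w : W) (v : W → ℂ) : D.Tp t w (D.L t i v) = D.L t i (D.Tp t w v) := by
  rw [D.Tp_apply, D.Tp_apply, D.L_eq t i v, iv_iv, D.T_RC, D.R_eq, iv_iv]

/-- The `Z`-system, of which the centre is the kernel. -/
noncomputable def Sys [Fintype ι] (t : ℂ) : (W → ℂ) →ₗ[ℂ] (ι → W → ℂ) :=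
  LinearMap.pi fun i => D.L t i - D.R t i

/-- The centre. -/
noncomputable def Z [Fintype ι] (t : ℂ) : Submodule ℂ (W → ℂ) := LinearMap.ker (D.Sys t)

variable [Fintype ι]

omit [DecidableEq W] [Fintype W] in
lemma mem_Z {t : ℂ} {v : W → ℂ} : v ∈ D.Z t ↔ ∀ i, D.L t i v = D.R t i v := by
  rw [Z, LinearMap.mem_ker]
  constructor
  · intro h i
    have := congrFun h i
    simpa [Sys, sub_eq_zero] using this
  · intro h
    funext i
    simpa [Sys, sub_eq_zero] using h i

/-- The averaging operator. -/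
noncomputable def Phi (t : ℂ) : (W → ℂ) →ₗ[ℂ] (W → ℂ) :=
  ∑ w, ((t ^ D.l w)⁻¹) • (D.T t w ∘ₗ D.Tp t w)

lemma Phi_apply (t : ℂ) (v : W → ℂ) :
    D.Phi t v = ∑ w, ((t ^ D.l w)⁻¹) • D.T t w (D.Tp t w v) := by
  simp [Phi, LinearMap.sum_apply]

/-- The pairing `w ↔ s w`. -/
lemma pair_term {t : ℂ} (ht : t ≠ 0) (i : ι) {w : W} (h : D.l w < D.l (D.s i * w)) (v : W → ℂ) :
    (D.L t i - D.R t i) (((t ^ D.l w)⁻¹) • D.T t w (D.Tp t w v)) +
      (D.L t i - D.R t i) (((t ^ D.l (D.s i * w))⁻¹) • D.T t (D.s i * w) (D.Tp t (D.s i * w) v))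
      = 0 := by
  have h1 : D.l (D.s i * w) = D.l w + 1 := by
    have := D.l_step i w
    omega
  have h2 : D.T t (D.s i * w) (D.Tp t (D.s i * w) v) =
      D.L t i (D.R t i (D.T t w (D.Tp t w v))) := by
    rw [D.T_left t i h, LinearMap.comp_apply, D.Tp_left t i h, D.T_RC]
  rw [h1, h2]
  set y := D.T t w (D.Tp t w v)
  have h3 : D.L t i (D.L t i (D.R t i y)) = (t - 1) • D.L t i (D.R t i y) + t • D.R t i y :=
    D.L_L t i _
  have h4 : D.R t i (D.L t i (D.R t i y)) = (t - 1) • D.L t i (D.R t i y) + t • D.L t i y := by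
    rw [← D.L_R, D.R_R, map_add, map_smul, map_smul]
  simp only [LinearMap.sub_apply, map_smul, smul_sub, h3, h4, smul_add, smul_smul]
  have h5 : (t ^ (D.l w + 1))⁻¹ * t = (t ^ D.l w)⁻¹ := by
    rw [pow_succ]; field_simp
  rw [h5]
  abel

lemma range_Phi_le {t : ℂ} (ht : t ≠ 0) : LinearMap.range (D.Phi t) ≤ D.Z t := by
  rintro _ ⟨v, rfl⟩
  rw [mem_Z]
  intro i
  rw [← sub_eq_zero]
  have e : D.L t i (D.Phi t v) - D.R t i (D.Phi t v) = (D.L t i - D.R t i) (D.Phi t v) := rfl
  rw [e, Phi_apply, map_sum]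
  refine Finset.sum_involution (fun w _ => D.s i * w) ?_ ?_ ?_ ?_
  · intro w _
    by_cases h : D.l w < D.l (D.s i * w)
    · exact D.pair_term ht i h v
    · have h1 := D.l_step i w
      have e2 := D.s_s i w
      have h2 : D.l (D.s i * w) < D.l (D.s i * (D.s i * w)) := by rw [e2]; omega
      have := D.pair_term ht i h2 v
      rw [e2] at this
      rw [add_comm]
      exact this
  · intro w _ _ h
    exact D.s_ne i w h
  · intro w _
    exact Finset.mem_univ _
  · intro w _
    exact D.s_s i w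

/-- On central vectors the right action of `T w⁻¹` and the left action of `T w⁻¹` agree. -/
lemma Tp_of_mem_Z {t : ℂ} {v : W → ℂ} (hv : v ∈ D.Z t) (w : W) : D.Tp t w v = D.T t w⁻¹ v := by
  induction hn : D.l w using Nat.strong_induction_on generalizing w with
  | _ n ih =>
    by_cases hw : w = 1
    · rw [hw, inv_one, D.T_one, D.Tp_one]
    · obtain ⟨i, hi⟩ := D.desc w hw
      have e2 := D.s_s i w
      have h2 : D.l (D.s i * w) < D.l (D.s i * (D.s i * w)) := by rw [e2]; exact hi
      have h3 := D.Tp_left t i h2 v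
      rw [e2] at h3
      have h4 : D.l (D.s i * w)⁻¹ < D.l ((D.s i * w)⁻¹ * D.s i) := by
        have e : (D.s i * w)⁻¹ * D.s i = w⁻¹ := by
          rw [mul_inv_rev, D.s_inv, mul_assoc, D.s_sq, mul_one]
        rw [e, D.l_inv, D.l_inv]
        exact hi
      have h5 := D.T_right t i h4
      have e : (D.s i * w)⁻¹ * D.s i = w⁻¹ := by
        rw [mul_inv_rev, D.s_inv, mul_assoc, D.s_sq, mul_one]
      rw [e] at h5
      rw [h3, ih _ (by omega) _ rfl, ← D.T_RC, ← (D.mem_Z.mp hv i), h5, LinearMap.comp_apply]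

/-- The weighted Hermitian form. -/
noncomputable def ip (t : ℝ) (u v : W → ℂ) : ℂ :=
  ∑ w, ((t : ℂ) ^ D.l w) * u w * conj (v w)

lemma L_adj (t : ℝ) (i : ι) (u v : W → ℂ) :
    D.ip t (D.L (t : ℂ) i u) v = D.ip t u (D.L (t : ℂ) i v) := by
  rw [ip, ip, ← sub_eq_zero, ← Finset.sum_sub_distrib]
  have key : ∀ x : W, D.l x < D.l (D.s i * x) →
      ((t : ℂ) ^ D.l x * D.L (t : ℂ) i u x * conj (v x) -
          (t : ℂ) ^ D.l x * u x * conj (D.L (t : ℂ) i v x)) +
      ((t : ℂ) ^ D.l (D.s i * x) * D.L (t : ℂ) i u (D.s i * x) * conj (v (D.s i * x)) -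
          (t : ℂ) ^ D.l (D.s i * x) * u (D.s i * x) * conj (D.L (t : ℂ) i v (D.s i * x))) = 0 := by
    intro x hx
    have h1 : D.l (D.s i * x) = D.l x + 1 := by
      have := D.l_step i x
      omega
    have e2 := D.s_s i x
    have h2 : ¬ D.l (D.s i * x) < D.l (D.s i * (D.s i * x)) := by rw [e2]; omega
    have hA : ∀ y : W → ℂ, D.L (t : ℂ) i y x = t * y (D.s i * x) := fun y => by
      rw [L_apply, if_pos hx]
    have hB : ∀ y : W → ℂ, D.L (t : ℂ) i y (D.s i * x) = y x + (t - 1) * y (D.s i * x) := fun y => by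
      rw [L_apply, if_neg h2, e2]
    rw [hA, hA, hB, hB, h1]
    simp only [map_add, map_mul, map_sub, map_one, Complex.conj_ofReal, pow_succ]
    ring
  refine Finset.sum_involution (fun w _ => D.s i * w) ?_ ?_ ?_ ?_
  · intro w _
    by_cases h : D.l w < D.l (D.s i * w)
    · exact key w h
    · have h1 := D.l_step i w
      have e2 := D.s_s i w
      have h2 : D.l (D.s i * w) < D.l (D.s i * (D.s i * w)) := by rw [e2]; omega
      have := key _ h2
      rw [e2] at this
      rw [add_comm]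
      exact this
  · intro w _ _ h
    exact D.s_ne i w h
  · intro w _
    exact Finset.mem_univ _
  · intro w _
    exact D.s_s i w

lemma T_adj (t : ℝ) (w : W) (u v : W → ℂ) :
    D.ip t (D.T (t : ℂ) w u) v = D.ip t u (D.T (t : ℂ) w⁻¹ v) := by
  induction hn : D.l w using Nat.strong_induction_on generalizing w v with
  | _ n ih =>
    by_cases hw : w = 1
    · rw [hw, inv_one, T_one]; rfl
    · obtain ⟨i, hi⟩ := D.desc w hw
      have e2 := D.s_s i w
      have h2 : D.l (D.s i * w) < D.l (D.s i * (D.s i * w)) := by rw [e2]; exact hi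
      have h3 := D.T_left (t : ℂ) i h2
      rw [e2] at h3
      have e : (D.s i * w)⁻¹ * D.s i = w⁻¹ := by
        rw [mul_inv_rev, D.s_inv, mul_assoc, D.s_sq, mul_one]
      have h4 : D.l (D.s i * w)⁻¹ < D.l ((D.s i * w)⁻¹ * D.s i) := by
        rw [e, D.l_inv, D.l_inv]
        exact hi
      have h5 := D.T_right (t : ℂ) i h4
      rw [e] at h5
      rw [h3, LinearMap.comp_apply, L_adj, ih _ (by omega) _ _ rfl, h5, LinearMap.comp_apply]

/-- The norm square. -/
noncomputable def nsq (t : ℝ) (u : W → ℂ) : ℝ := ∑ w, t ^ D.l w * ‖u w‖ ^ 2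

lemma ip_self (t : ℝ) (u : W → ℂ) : D.ip t u u = (D.nsq t u : ℂ) := by
  rw [ip, nsq, Complex.ofReal_sum]
  refine Finset.sum_congr rfl fun w _ => ?_
  rw [mul_assoc, Complex.mul_conj, Complex.normSq_eq_norm_sq]
  push_cast
  ring

lemma nsq_nonneg {t : ℝ} (ht : 0 < t) (u : W → ℂ) : 0 ≤ D.nsq t u :=
  Finset.sum_nonneg fun w _ => by positivity

lemma eq_zero_of_nsq {t : ℝ} (ht : 0 < t) {u : W → ℂ} (h : D.nsq t u = 0) : u = 0 := by
  funext w
  have h1 := (Finset.sum_eq_zero_iff_of_nonneg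
    (fun w _ => by positivity : ∀ w ∈ Finset.univ, 0 ≤ t ^ D.l w * ‖u w‖ ^ 2)).mp h w
    (Finset.mem_univ w)
  have h2 : t ^ D.l w ≠ 0 := by positivity
  have h3 : ‖u w‖ ^ 2 = 0 := by
    rcases mul_eq_zero.mp h1 with h4 | h4
    · exact absurd h4 h2
    · exact h4
  simpa using h3

lemma ip_sum_left (t : ℝ) {α : Type*} (A : Finset α) (y : α → W → ℂ) (v : W → ℂ) :
    D.ip t (∑ a ∈ A, y a) v = ∑ a ∈ A, D.ip t (y a) v := by
  simp only [ip, Finset.sum_apply, Finset.mul_sum, Finset.sum_mul]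
  rw [Finset.sum_comm]

lemma ip_smul_left (t : ℝ) (c : ℂ) (y v : W → ℂ) : D.ip t (c • y) v = c * D.ip t y v := by
  simp only [ip, Pi.smul_apply, smul_eq_mul, Finset.mul_sum]
  refine Finset.sum_congr rfl fun w _ => ?_
  ring

lemma ip_zero_left (t : ℝ) (v : W → ℂ) : D.ip t 0 v = 0 := by
  simp [ip]

/-- The averaging operator is injective on the centre. -/
lemma eq_zero_of_Phi {t : ℝ} (ht : 0 < t) {v : W → ℂ} (hv : v ∈ D.Z (t : ℂ))
    (h0 : D.Phi (t : ℂ) v = 0) : v = 0 := by
  have h1 : D.ip t (D.Phi (t : ℂ) v) v =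
      ((∑ w, (t ^ D.l w)⁻¹ * D.nsq t (D.Tp (t : ℂ) w v) : ℝ) : ℂ) := by
    rw [Phi_apply, ip_sum_left, Complex.ofReal_sum]
    refine Finset.sum_congr rfl fun w _ => ?_
    have h2 := D.T_adj t w (D.Tp (t : ℂ) w v) v
    have h3 := D.Tp_of_mem_Z hv w
    rw [← h3, ip_self] at h2
    rw [ip_smul_left, h2]
    push_cast
    rfl
  rw [h0, ip_zero_left] at h1
  have h2 : (∑ w, (t ^ D.l w)⁻¹ * D.nsq t (D.Tp (t : ℂ) w v) : ℝ) = 0 := by
    exact_mod_cast h1.symm
  have h3 := (Finset.sum_eq_zero_iff_of_nonneg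
    (fun w _ => mul_nonneg (by positivity) (D.nsq_nonneg ht _))).mp h2 1 (Finset.mem_univ _)
  rw [D.Tp_one, D.l_one, pow_zero, inv_one, one_mul] at h3
  exact D.eq_zero_of_nsq ht h3

/-- The centre is the range of the averaging operator. -/
lemma range_Phi {t : ℝ} (ht : 0 < t) : LinearMap.range (D.Phi (t : ℂ)) = D.Z (t : ℂ) := by
  have ht' : (t : ℂ) ≠ 0 := by exact_mod_cast ht.ne'
  refine le_antisymm (D.range_Phi_le ht') ?_
  have hmaps : ∀ v ∈ D.Z (t : ℂ), D.Phi (t : ℂ) v ∈ D.Z (t : ℂ) := fun v _ =>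
    D.range_Phi_le ht' ⟨v, rfl⟩
  let P : ↥(D.Z (t : ℂ)) →ₗ[ℂ] ↥(D.Z (t : ℂ)) := (D.Phi (t : ℂ)).restrict hmaps
  have hinj : Function.Injective P := by
    rw [injective_iff_map_eq_zero]
    intro v hv
    have h1 : D.Phi (t : ℂ) (v : W → ℂ) = 0 := by
      have := congrArg (fun x : ↥(D.Z (t : ℂ)) => (x : W → ℂ)) hv
      simpa [P] using this
    exact Subtype.ext (D.eq_zero_of_Phi ht v.2 h1)
  have hsurj : Function.Surjective P := LinearMap.injective_iff_surjective.mp hinj
  intro v hv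
  obtain ⟨x, hx⟩ := hsurj ⟨v, hv⟩
  refine ⟨x, ?_⟩
  have := congrArg (fun x : ↥(D.Z (t : ℂ)) => (x : W → ℂ)) hx
  simpa [P] using this

/-- The rank of a family of linear maps is lower semicontinuous. -/
lemma eventually_finrank_range_le {α V V' : Type*} [TopologicalSpace α]
    [AddCommGroup V] [Module ℂ V] [FiniteDimensional ℂ V]
    [NormedAddCommGroup V'] [NormedSpace ℂ V'] [FiniteDimensional ℂ V']
    (M : α → V →ₗ[ℂ] V') (a : α) (h : ∀ v, ContinuousAt (fun x => M x v) a) :
    ∀ᶠ x in 𝓝 a, finrank ℂ (LinearMap.range (M a)) ≤ finrank ℂ (LinearMap.range (M x)) := by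
  classical
  let b := Module.finBasis ℂ (LinearMap.range (M a))
  have hb : ∀ k, ∃ u, M a u = (b k : V') := fun k => (b k).2
  choose u hu using hb
  have hli : LinearIndependent ℂ (fun k => M a (u k)) := by
    have h1 : LinearIndependent ℂ (fun k => ((b k : ↥(LinearMap.range (M a))) : V')) :=
      b.linearIndependent.map' (LinearMap.range (M a)).subtype (Submodule.ker_subtype _)
    simpa [hu] using h1
  have hev := hli.eventually
  have htend : Filter.Tendsto (fun x => fun k => M x (u k)) (𝓝 a) (𝓝 fun k => M a (u k)) :=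
    tendsto_pi_nhds.mpr fun k => (h (u k)).tendsto
  filter_upwards [htend.eventually hev] with x hx
  have h1 : finrank ℂ (Submodule.span ℂ (Set.range fun k => M x (u k))) =
      Fintype.card (Fin (finrank ℂ (LinearMap.range (M a)))) :=
    finrank_span_eq_card hx
  have h2 : Submodule.span ℂ (Set.range fun k => M x (u k)) ≤ LinearMap.range (M x) := by
    rw [Submodule.span_le]
    rintro _ ⟨k, rfl⟩
    exact ⟨u k, rfl⟩
  have h3 := Submodule.finrank_mono h2
  rw [h1, Fintype.card_fin] at h3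
  exact h3

/-- Continuity of the operators in the parameter. -/
lemma cont_L (i : ι) {g : ℝ → W → ℂ} {a : ℝ} (hg : ContinuousAt g a) :
    ContinuousAt (fun t : ℝ => D.L (t : ℂ) i (g t)) a := by
  refine continuousAt_pi.mpr fun u => ?_
  have h1 : ∀ y : W, ContinuousAt (fun t => g t y) a := fun y => continuousAt_pi.mp hg y
  have h2 : ContinuousAt (fun t : ℝ => (t : ℂ)) a := Complex.continuous_ofReal.continuousAt
  simp only [L_apply]
  split_ifs
  · exact h2.mul (h1 _)
  · exact (h1 _).add ((h2.sub continuousAt_const).mul (h1 _))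

lemma cont_iv {g : ℝ → W → ℂ} {a : ℝ} (hg : ContinuousAt g a) :
    ContinuousAt (fun t : ℝ => iv (g t)) a := by
  refine continuousAt_pi.mpr fun u => ?_
  exact continuousAt_pi.mp hg u⁻¹

lemma cont_R (i : ι) {g : ℝ → W → ℂ} {a : ℝ} (hg : ContinuousAt g a) :
    ContinuousAt (fun t : ℝ => D.R (t : ℂ) i (g t)) a := by
  simp only [R_eq]
  exact cont_iv (D.cont_L i (cont_iv hg))

lemma cont_Lw (l : List ι) {g : ℝ → W → ℂ} {a : ℝ} (hg : ContinuousAt g a) :
    ContinuousAt (fun t : ℝ => D.Lw (t : ℂ) l (g t)) a := by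
  induction l with
  | nil => exact hg
  | cons i l ih => exact D.cont_L i ih

lemma cont_T (w : W) {g : ℝ → W → ℂ} {a : ℝ} (hg : ContinuousAt g a) :
    ContinuousAt (fun t : ℝ => D.T (t : ℂ) w (g t)) a := D.cont_Lw _ hg

lemma cont_Tp (w : W) {g : ℝ → W → ℂ} {a : ℝ} (hg : ContinuousAt g a) :
    ContinuousAt (fun t : ℝ => D.Tp (t : ℂ) w (g t)) a :=
  cont_iv (D.cont_T w (cont_iv hg))

lemma cont_Phi {a : ℝ} (ha : a ≠ 0) (v : W → ℂ) :
    ContinuousAt (fun t : ℝ => D.Phi (t : ℂ) v) a := by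
  simp only [Phi_apply]
  refine tendsto_finsetSum _ fun w _ => ?_
  refine ContinuousAt.smul (f := fun t : ℝ => (((t : ℂ) ^ D.l w)⁻¹ : ℂ)) ?_
    (D.cont_T w (D.cont_Tp w continuousAt_const))
  refine ContinuousAt.inv₀ ?_ ?_
  · exact (Complex.continuous_ofReal.continuousAt).pow _
  · exact pow_ne_zero _ (by exact_mod_cast ha)

lemma cont_Sys (v : W → ℂ) (a : ℝ) : ContinuousAt (fun t : ℝ => D.Sys (t : ℂ) v) a := by
  refine continuousAt_pi.mpr fun i => ?_
  have : (fun t : ℝ => D.Sys (t : ℂ) v i) =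
      fun t : ℝ => D.L (t : ℂ) i v - D.R (t : ℂ) i v := by
    funext t
    simp [Sys]
  rw [this]
  exact (D.cont_L i continuousAt_const).sub (D.cont_R i continuousAt_const)

/-- Local constancy. -/
lemma eventually_finrank_Z {a : ℝ} (ha : 0 < a) :
    ∀ᶠ t : ℝ in 𝓝 a, finrank ℂ (D.Z (t : ℂ)) = finrank ℂ (D.Z (a : ℂ)) := by
  have h1 := eventually_finrank_range_le (fun t : ℝ => D.Phi (t : ℂ)) a
    (fun v => D.cont_Phi ha.ne' v)
  have h2 := eventually_finrank_range_le (fun t : ℝ => D.Sys (t : ℂ)) a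
    (fun v => D.cont_Sys v a)
  filter_upwards [h1, h2, lt_mem_nhds ha] with t h3 h4 ht
  have h5 := LinearMap.finrank_range_add_finrank_ker (D.Sys (t : ℂ))
  have h6 := LinearMap.finrank_range_add_finrank_ker (D.Sys (a : ℂ))
  rw [D.range_Phi ha] at h3
  have e1 : finrank ℂ (LinearMap.ker (D.Sys (t : ℂ))) = finrank ℂ (D.Z (t : ℂ)) := rfl
  have e2 : finrank ℂ (LinearMap.ker (D.Sys (a : ℂ))) = finrank ℂ (D.Z (a : ℂ)) := rfl
  have h7 : finrank ℂ (LinearMap.range (D.Phi (t : ℂ))) = finrank ℂ (D.Z (t : ℂ)) := by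
    rw [D.range_Phi ht]
  omega

/-- The dimension of the centre is constant on the positive reals. -/
lemma finrank_Z_eq {a b : ℝ} (ha : 0 < a) (hb : 0 < b) :
    finrank ℂ (D.Z (a : ℂ)) = finrank ℂ (D.Z (b : ℂ)) := by
  have hc : ContinuousOn (fun t : ℝ => finrank ℂ (D.Z (t : ℂ))) (Set.Ioi 0) := by
    intro x hx
    refine ContinuousAt.continuousWithinAt ?_
    have h1 := D.eventually_finrank_Z hx
    exact (continuousAt_const (y := finrank ℂ (D.Z (x : ℂ)))).congr (by
      filter_upwards [h1] with t ht using ht.symm)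
  exact isPreconnected_Ioi.constant hc ha hb

/-- At parameter one, the centre consists of the class functions. -/
lemma mem_Z_one {v : W → ℂ} : v ∈ D.Z ((1 : ℝ) : ℂ) ↔ ∀ x y : W, v (y * x * y⁻¹) = v x := by
  rw [mem_Z]
  have hL : ∀ i u, D.L ((1 : ℝ) : ℂ) i v u = v (D.s i * u) := by
    intro i u
    rw [L_apply]
    push_cast
    split_ifs <;> ring
  have hR : ∀ i u, D.R ((1 : ℝ) : ℂ) i v u = v (u * D.s i) := by
    intro i u
    rw [R_apply]
    push_cast
    split_ifs <;> ring
  constructor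
  · intro h
    have h1 : ∀ i u, v (D.s i * u) = v (u * D.s i) := fun i u => by
      have := congrFun (h i) u
      rwa [hL, hR] at this
    have h2 : ∀ a u, v (a * u) = v (u * a) := by
      intro a
      induction hn : D.l a using Nat.strong_induction_on generalizing a with
      | _ n ih =>
        intro u
        by_cases ha : a = 1
        · rw [ha, one_mul, mul_one]
        · obtain ⟨i, hi⟩ := D.desc a ha
          have e := D.s_s i a
          have h3 := ih _ (by omega) (D.s i * a) rfl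
          calc v (a * u) = v (D.s i * (D.s i * a * u)) := by
                rw [← mul_assoc, e]
            _ = v (D.s i * a * u * D.s i) := h1 _ _
            _ = v (D.s i * a * (u * D.s i)) := by rw [mul_assoc]
            _ = v (u * D.s i * (D.s i * a)) := h3 _
            _ = v (u * a) := by rw [mul_assoc, e]
    intro x y
    rw [h2 (y * x) y⁻¹]
    simp [mul_assoc]
  · intro h i
    funext u
    rw [hL, hR]
    have := h (u * D.s i) (D.s i)
    have e : D.s i * (u * D.s i) * (D.s i)⁻¹ = D.s i * u := by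
      rw [D.s_inv, mul_assoc, mul_assoc, D.s_sq, mul_one]
    rwa [e] at this

/-- At parameter one, the dimension of the centre is the number of conjugacy classes. -/
lemma finrank_Z_one : finrank ℂ (D.Z ((1 : ℝ) : ℂ)) = Nat.card (ConjClasses W) := by
  classical
  let f : (ConjClasses W → ℂ) →ₗ[ℂ] (W → ℂ) :=
    { toFun := fun φ u => φ (ConjClasses.mk u)
      map_add' := fun _ _ => rfl
      map_smul' := fun _ _ => rfl }
  have hinj : Function.Injective f := by
    intro φ ψ h
    funext c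
    obtain ⟨u, rfl⟩ := ConjClasses.mk_surjective c
    exact congrFun h u
  have hrange : LinearMap.range f = D.Z ((1 : ℝ) : ℂ) := by
    ext v
    rw [D.mem_Z_one]
    constructor
    · rintro ⟨φ, rfl⟩ x y
      change φ (ConjClasses.mk (y * x * y⁻¹)) = φ (ConjClasses.mk x)
      rw [ConjClasses.mk_eq_mk_iff_isConj.mpr]
      exact (isConj_iff.mpr ⟨y, rfl⟩).symm
    · intro h
      have h1 : ∀ x y, IsConj x y → v x = v y := by
        intro x y hxy
        obtain ⟨c, rfl⟩ := isConj_iff.mp hxy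
        exact (h x c).symm
      refine ⟨fun c => Quotient.liftOn c v (fun a b hab => h1 a b hab), ?_⟩
      rfl
  rw [← hrange, LinearMap.finrank_range_of_inj hinj, Module.finrank_fintype_fun_eq_card,
    Nat.card_eq_fintype_card]

end HData

end Cfsg.Agent.Lib.KS71.HeckeA
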