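/-
The Iwahori-Hecke algebra of a finite group with a `B`-double coset decomposition: the operators
of `HeckeA` at parameter `q` are realized by summation over double cosets.
-/
import Mathlib
import Cfsg.Agent.Lib.KS71.HeckeA

set_option autoImplicit false
set_option linter.unusedSectionVars false
set_option linter.unusedVariables false

namespace Cfsg.Agent.Lib.KS71.HeckeB

open Module
open Cfsg.Agent.Lib.KS71.HeckeA Cfsg.Agent.Lib.KS71.HeckeA.HData
open scoped ComplexConjugate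

/-- A map from a finite group to `W`, with double coset fibres, in the shape of a BN-pair with
parameter `q`. -/
structure GData {W ι : Type*} [Group W] (D : HData W ι) (G : Type*) [Group G] (B : Subgroup G)
    (q : ℕ) where
  q_pos : 0 < q
  tau : G → W
  tau_left : ∀ b ∈ B, ∀ g, tau (b * g) = tau g
  tau_right : ∀ b ∈ B, ∀ g, tau (g * b) = tau g
  tau_eq : ∀ g g', tau g = tau g' → ∃ b ∈ B, ∃ c ∈ B, g = b * g' * c
  tau_one : ∀ g, tau g = 1 ↔ g ∈ B
  tau_inv : ∀ g, tau g⁻¹ = (tau g)⁻¹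
  tau_surj : Function.Surjective tau
  card_fib : ∀ w, Nat.card {g // tau g = w} = q ^ D.l w * Nat.card B
  mul_up : ∀ i x g, tau x = D.s i → D.l (tau g) < D.l (D.s i * tau g) →
    tau (x * g) = D.s i * tau g
  mul_two : ∀ i x g, tau x = D.s i → tau (x * g) = D.s i * tau g ∨ tau (x * g) = tau g

variable {W ι : Type*} [Group W] [Fintype W] [DecidableEq W] [Fintype ι]
  {D : HData W ι} {G : Type*} [Group G] [Fintype G] {B : Subgroup G} [Fintype B] {q : ℕ}
  (A : GData D G B q)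

namespace GData

/-- A double coset. -/
noncomputable def fib (w : W) : Finset G := Finset.univ.filter fun x => A.tau x = w

lemma mem_fib {w : W} {x : G} : x ∈ A.fib w ↔ A.tau x = w := by
  simp [fib]

lemma card_fib' (w : W) : (A.fib w).card = q ^ D.l w * Nat.card B := by
  rw [← A.card_fib w, Nat.card_eq_fintype_card, Fintype.card_subtype]
  rfl

omit [Fintype W] [DecidableEq W] [Fintype ι] [Fintype B] in
lemma bb_ne (B : Subgroup G) : (Nat.card B : ℂ) ≠ 0 := by
  exact_mod_cast Nat.card_pos.ne'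

lemma card_fib_s (i : ι) : (A.fib (D.s i)).card = q * Nat.card B := by
  rw [A.card_fib', D.l_s, pow_one]

lemma tau_inv_s {i : ι} {x : G} (h : A.tau x = D.s i) : A.tau x⁻¹ = D.s i := by
  rw [A.tau_inv, h, D.s_inv]

lemma sum_fib_left (w : W) {b : G} (hb : b ∈ B) (ψ : G → ℂ) :
    ∑ x ∈ A.fib w, ψ (b * x) = ∑ x ∈ A.fib w, ψ x := by
  refine Finset.sum_nbij' (fun x => b * x) (fun x => b⁻¹ * x) ?_ ?_ ?_ ?_ ?_
  · intro x hx
    rw [mem_fib] at hx ⊢
    rw [A.tau_left b hb, hx]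
  · intro x hx
    rw [mem_fib] at hx ⊢
    rw [A.tau_left _ (B.inv_mem hb), hx]
  · intro x _; simp
  · intro x _; simp
  · intro x _; rfl

lemma sum_fib_right (w : W) {b : G} (hb : b ∈ B) (ψ : G → ℂ) :
    ∑ x ∈ A.fib w, ψ (x * b) = ∑ x ∈ A.fib w, ψ x := by
  refine Finset.sum_nbij' (fun x => x * b) (fun x => x * b⁻¹) ?_ ?_ ?_ ?_ ?_
  · intro x hx
    rw [mem_fib] at hx ⊢
    rw [A.tau_right b hb, hx]
  · intro x hx
    rw [mem_fib] at hx ⊢
    rw [A.tau_right _ (B.inv_mem hb), hx]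
  · intro x _; simp
  · intro x _; simp
  · intro x _; rfl

lemma sum_fib_inv (i : ι) (ψ : G → ℂ) :
    ∑ x ∈ A.fib (D.s i), ψ x⁻¹ = ∑ x ∈ A.fib (D.s i), ψ x := by
  refine Finset.sum_nbij' (fun x => x⁻¹) (fun x => x⁻¹) ?_ ?_ ?_ ?_ ?_
  · intro x hx
    rw [mem_fib] at hx ⊢
    exact A.tau_inv_s hx
  · intro x hx
    rw [mem_fib] at hx ⊢
    exact A.tau_inv_s hx
  · intro x _; simp
  · intro x _; simp
  · intro x _; rfl

/-- `s` raises the length. -/
lemma sum_up (i : ι) (v : W → ℂ) (g : G) (h : D.l (A.tau g) < D.l (D.s i * A.tau g)) :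
    ∑ x ∈ A.fib (D.s i), v (A.tau (x⁻¹ * g)) = q * Nat.card B * v (D.s i * A.tau g) := by
  have h1 : ∀ x ∈ A.fib (D.s i), v (A.tau (x⁻¹ * g)) = v (D.s i * A.tau g) := by
    intro x hx
    rw [A.mem_fib] at hx
    rw [A.mul_up i x⁻¹ g (A.tau_inv_s hx) h]
  rw [Finset.sum_congr rfl h1, Finset.sum_const, A.card_fib_s, nsmul_eq_mul]
  push_cast
  ring

/-- The number of `x` with `tau (x⁻¹ g)` short is `|B|`. -/
lemma count_eq (i : ι) (g : G) (h : ¬ D.l (A.tau g) < D.l (D.s i * A.tau g)) :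
    ((A.fib (D.s i)).filter fun x => A.tau (x⁻¹ * g) = D.s i * A.tau g).card = Nat.card B := by
  classical
  set u := A.tau g with hu
  have hstep := D.l_step i u
  have hlu : D.l u = D.l (D.s i * u) + 1 := by omega
  -- constancy on the double coset
  have hconst : ∀ g' ∈ A.fib u, ((A.fib (D.s i)).filter fun x => A.tau (x⁻¹ * g') = D.s i * u).card
      = ((A.fib (D.s i)).filter fun x => A.tau (x⁻¹ * g) = D.s i * u).card := by
    intro g' hg'
    rw [A.mem_fib] at hg'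
    obtain ⟨b, hb, c, hc, rfl⟩ := A.tau_eq g' g (by rw [hg'])
    refine Finset.card_nbij' (fun x => b⁻¹ * x) (fun x => b * x) ?_ ?_ ?_ ?_
    · intro x hx
      simp only [Finset.coe_filter, A.mem_fib, Set.mem_ofPred_eq] at hx ⊢
      refine ⟨by rw [A.tau_left _ (B.inv_mem hb), hx.1], ?_⟩
      have e : (b⁻¹ * x)⁻¹ * g = x⁻¹ * (b * g * c) * c⁻¹ := by group
      rw [e, A.tau_right _ (B.inv_mem hc), hx.2]
    · intro x hx
      simp only [Finset.coe_filter, A.mem_fib, Set.mem_ofPred_eq] at hx ⊢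
      refine ⟨by rw [A.tau_left _ hb, hx.1], ?_⟩
      have e : (b * x)⁻¹ * (b * g * c) = x⁻¹ * g * c := by group
      rw [e, A.tau_right _ hc, hx.2]
    · intro x _; simp
    · intro x _; simp
  -- double counting
  have hcount : ∑ g' ∈ A.fib u, ((A.fib (D.s i)).filter fun x => A.tau (x⁻¹ * g') = D.s i * u).card
      = (A.fib (D.s i)).card * (A.fib (D.s i * u)).card := by
    have hx1 : ∀ x ∈ A.fib (D.s i),
        (∑ g' ∈ A.fib u, if A.tau (x⁻¹ * g') = D.s i * u then 1 else 0) = (A.fib (D.s i * u)).card := by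
      intro x hx
      rw [A.mem_fib] at hx
      rw [← Finset.card_filter]
      refine Finset.card_nbij' (fun g' => x⁻¹ * g') (fun y => x * y) ?_ ?_ ?_ ?_
      · intro g' hg'
        simp only [Finset.coe_filter, A.mem_fib, Set.mem_ofPred_eq, Finset.mem_coe] at hg' ⊢
        exact hg'.2
      · intro y hy
        simp only [Finset.coe_filter, A.mem_fib, Set.mem_ofPred_eq, Finset.mem_coe] at hy ⊢
        have h2 : D.l (A.tau y) < D.l (D.s i * A.tau y) := by
          rw [hy, D.s_s]; omega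
        have h3 := A.mul_up i x y hx h2
        rw [hy, D.s_s] at h3
        refine ⟨h3, ?_⟩
        rw [inv_mul_cancel_left, hy]
      · intro g' _; simp
      · intro y _; simp
    simp only [Finset.card_filter]
    rw [Finset.sum_comm, Finset.sum_congr rfl hx1, Finset.sum_const, smul_eq_mul]
  rw [Finset.sum_congr rfl hconst, Finset.sum_const, smul_eq_mul, A.card_fib', A.card_fib_s,
    A.card_fib'] at hcount
  have hq := A.q_pos
  have hB : 0 < Nat.card B := Nat.card_pos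
  have hpos : 0 < q ^ D.l u * Nat.card B := by positivity
  refine Nat.eq_of_mul_eq_mul_left hpos ?_
  rw [hcount, hlu, pow_succ]
  ring

/-- `s` lowers the length. -/
lemma sum_down (i : ι) (v : W → ℂ) (g : G) (h : ¬ D.l (A.tau g) < D.l (D.s i * A.tau g)) :
    ∑ x ∈ A.fib (D.s i), v (A.tau (x⁻¹ * g)) =
      Nat.card B * v (D.s i * A.tau g) + ((q : ℂ) - 1) * Nat.card B * v (A.tau g) := by
  classical
  rw [← Finset.sum_filter_add_sum_filter_not (A.fib (D.s i))
    (fun x => A.tau (x⁻¹ * g) = D.s i * A.tau g)]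
  have h1 : ∀ x ∈ (A.fib (D.s i)).filter (fun x => A.tau (x⁻¹ * g) = D.s i * A.tau g),
      v (A.tau (x⁻¹ * g)) = v (D.s i * A.tau g) := by
    intro x hx
    rw [(Finset.mem_filter.mp hx).2]
  have h2 : ∀ x ∈ (A.fib (D.s i)).filter (fun x => ¬ A.tau (x⁻¹ * g) = D.s i * A.tau g),
      v (A.tau (x⁻¹ * g)) = v (A.tau g) := by
    intro x hx
    obtain ⟨hx1, hx2⟩ := Finset.mem_filter.mp hx
    rw [A.mem_fib] at hx1
    rcases A.mul_two i x⁻¹ g (A.tau_inv_s hx1) with h3 | h3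
    · exact absurd h3 hx2
    · rw [h3]
  rw [Finset.sum_congr rfl h1, Finset.sum_congr rfl h2, Finset.sum_const, Finset.sum_const,
    A.count_eq i g h]
  have h3 := Finset.card_filter_add_card_filter_not (s := A.fib (D.s i))
    (fun x => A.tau (x⁻¹ * g) = D.s i * A.tau g)
  rw [A.count_eq i g h, A.card_fib_s] at h3
  have h4 : (((A.fib (D.s i)).filter
      (fun x => ¬ A.tau (x⁻¹ * g) = D.s i * A.tau g)).card : ℂ) = ((q : ℂ) - 1) * Nat.card B := by
    have h5 : ((Nat.card B + ((A.fib (D.s i)).filter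
      (fun x => ¬ A.tau (x⁻¹ * g) = D.s i * A.tau g)).card : ℕ) : ℂ) = ((q * Nat.card B : ℕ) : ℂ) := by
      rw [h3]
    push_cast at h5
    linear_combination h5
  rw [nsmul_eq_mul, nsmul_eq_mul, h4]

/-- Summation over `B s B` on the left is the left Hecke operator. -/
theorem conv_L (i : ι) (v : W → ℂ) (g : G) :
    (Nat.card B : ℂ)⁻¹ * ∑ x ∈ A.fib (D.s i), v (A.tau (x⁻¹ * g)) =
      D.L (q : ℂ) i v (A.tau g) := by
  have hB := bb_ne B
  rw [HData.L_apply]
  by_cases h : D.l (A.tau g) < D.l (D.s i * A.tau g)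
  · rw [if_pos h, A.sum_up i v g h]
    field_simp
  · rw [if_neg h, A.sum_down i v g h]
    field_simp

/-- Summation over `B s B` on the right is the right Hecke operator. -/
theorem conv_R (i : ι) (v : W → ℂ) (g : G) :
    (Nat.card B : ℂ)⁻¹ * ∑ x ∈ A.fib (D.s i), v (A.tau (g * x)) =
      D.R (q : ℂ) i v (A.tau g) := by
  have h1 := A.conv_L i (iv v) g⁻¹
  rw [D.R_eq, iv_apply, ← A.tau_inv, ← h1]
  congr 1
  refine Finset.sum_congr rfl fun x _ => ?_
  rw [iv_apply, ← A.tau_inv]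
  simp

/-- A representative. -/
noncomputable def rep (u : W) : G := Function.surjInv A.tau_surj u

lemma tau_rep (u : W) : A.tau (A.rep u) = u := Function.surjInv_eq A.tau_surj u

/-- Summation over a double coset, as an operator on functions on `W`. -/
noncomputable def Cop (w : W) : (W → ℂ) →ₗ[ℂ] (W → ℂ) where
  toFun v u := (Nat.card B : ℂ)⁻¹ * ∑ x ∈ A.fib w, v (A.tau (x⁻¹ * A.rep u))
  map_add' v v' := by
    funext u
    simp only [Pi.add_apply, Finset.sum_add_distrib, mul_add]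
  map_smul' c v := by
    funext u
    simp only [Pi.smul_apply, smul_eq_mul, RingHom.id_apply, Finset.mul_sum]
    refine Finset.sum_congr rfl fun x _ => ?_
    ring

lemma Cop_tau (w : W) (v : W → ℂ) (g : G) :
    A.Cop w v (A.tau g) = (Nat.card B : ℂ)⁻¹ * ∑ x ∈ A.fib w, v (A.tau (x⁻¹ * g)) := by
  change (Nat.card B : ℂ)⁻¹ * ∑ x ∈ A.fib w, v (A.tau (x⁻¹ * A.rep (A.tau g))) = _
  obtain ⟨b, hb, c, hc, e⟩ := A.tau_eq g (A.rep (A.tau g)) (A.tau_rep _).symm
  obtain ⟨r, hr⟩ : ∃ r, r = A.rep (A.tau g) := ⟨_, rfl⟩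
  rw [← hr] at e ⊢
  congr 1
  rw [← A.sum_fib_left w (B.inv_mem hb)]
  refine Finset.sum_congr rfl fun x _ => ?_
  have e2 : x⁻¹ * g = (b⁻¹ * x)⁻¹ * r * c := by rw [e]; group
  rw [e2, A.tau_right c hc]

lemma Cop_RC (w : W) : D.RC (q : ℂ) (A.Cop w) := by
  intro j v
  funext u
  rw [← A.tau_rep u]
  set g := A.rep u
  rw [A.Cop_tau, ← A.conv_R, Finset.mul_sum, Finset.mul_sum]
  simp only [A.Cop_tau, ← A.conv_R, Finset.mul_sum]
  rw [Finset.sum_comm]
  refine Finset.sum_congr rfl fun x _ => Finset.sum_congr rfl fun y _ => ?_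
  rw [mul_assoc]

lemma Cop_E (w : W) : A.Cop w (E 1) = E w := by
  classical
  funext u
  rw [← A.tau_rep u]
  set g := A.rep u
  rw [A.Cop_tau]
  simp only [E_apply]
  rw [Finset.sum_boole]
  by_cases h : A.tau g = w
  · rw [if_pos h]
    have h1 : ((A.fib w).filter fun x => A.tau (x⁻¹ * g) = 1).card = Nat.card B := by
      rw [Nat.card_eq_fintype_card, ← Finset.card_univ]
      symm
      refine Finset.card_bij (fun (b : B) _ => g * (b : G)⁻¹) ?_ ?_ ?_
      · intro b _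
        simp only [Finset.mem_filter, A.mem_fib]
        refine ⟨by rw [A.tau_right _ (B.inv_mem b.2), h], ?_⟩
        rw [A.tau_one]
        simp
      · intro b _ c _ e
        exact Subtype.ext (by simpa using e)
      · intro x hx
        simp only [Finset.mem_filter, A.mem_fib, A.tau_one] at hx
        refine ⟨⟨x⁻¹ * g, hx.2⟩, Finset.mem_univ _, ?_⟩
        simp
    rw [h1]
    exact inv_mul_cancel₀ (bb_ne B)
  · rw [if_neg h]
    have h1 : ((A.fib w).filter fun x => A.tau (x⁻¹ * g) = 1) = ∅ := by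
      rw [Finset.filter_eq_empty_iff]
      intro x hx hx2
      rw [A.mem_fib] at hx
      rw [A.tau_one] at hx2
      apply h
      have := A.tau_right _ hx2 x
      rw [mul_inv_cancel_left] at this
      rw [this, hx]
    rw [h1]
    simp

theorem T_eq (w : W) : D.T (q : ℂ) w = A.Cop w :=
  D.RC_eq (D.T_RC _ w) (A.Cop_RC w) (by rw [T_E, A.Cop_E])

theorem T_formula (w : W) (v : W → ℂ) (g : G) :
    D.T (q : ℂ) w v (A.tau g) = (Nat.card B : ℂ)⁻¹ * ∑ x ∈ A.fib w, v (A.tau (x⁻¹ * g)) := by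
  rw [A.T_eq, A.Cop_tau]

theorem Tp_formula (w : W) (v : W → ℂ) (g : G) :
    D.Tp (q : ℂ) w v (A.tau g) = (Nat.card B : ℂ)⁻¹ * ∑ x ∈ A.fib w, v (A.tau (g * x)) := by
  rw [D.Tp_apply, iv_apply, ← A.tau_inv, A.T_formula]
  congr 1
  refine Finset.sum_congr rfl fun x _ => ?_
  rw [iv_apply, ← A.tau_inv]
  simp

/-- Averaging a function over `B`. -/
noncomputable def avg : (G → ℂ) →ₗ[ℂ] (W → ℂ) where
  toFun F u := (Nat.card B : ℂ)⁻¹ * ∑ b : B, F ((b : G) * A.rep u)
  map_add' F F' := by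
    funext u
    simp only [Pi.add_apply, Finset.sum_add_distrib, mul_add]
  map_smul' c F := by
    funext u
    simp only [Pi.smul_apply, smul_eq_mul, RingHom.id_apply, Finset.mul_sum]
    refine Finset.sum_congr rfl fun x _ => ?_
    ring

lemma avg_tau {F : G → ℂ} (hF : ∀ g h, F (h * g * h⁻¹) = F g) (g : G) :
    A.avg F (A.tau g) = (Nat.card B : ℂ)⁻¹ * ∑ b : B, F ((b : G) * g) := by
  change (Nat.card B : ℂ)⁻¹ * ∑ b : B, F ((b : G) * A.rep (A.tau g)) = _
  obtain ⟨b₁, hb₁, c, hc, e⟩ := A.tau_eq g (A.rep (A.tau g)) (A.tau_rep _).symm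
  obtain ⟨r, hr⟩ : ∃ r, r = A.rep (A.tau g) := ⟨_, rfl⟩
  rw [← hr] at e ⊢
  congr 1
  let b₁' : B := ⟨b₁, hb₁⟩
  let c' : B := ⟨c, hc⟩
  refine (Fintype.sum_equiv ((Equiv.mulLeft c').trans (Equiv.mulRight b₁')) _ _ ?_).symm
  intro b
  have e2 : ((c' * b * b₁' : B) : G) * r = c * ((b : G) * g) * c⁻¹ := by
    rw [e]
    simp only [Subgroup.coe_mul, b₁', c']
    group
  simp only [Equiv.trans_apply, Equiv.coe_mulLeft, Equiv.coe_mulRight]
  rw [e2, hF]

/-- The average of a class function is central. -/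
theorem avg_mem_Z {F : G → ℂ} (hF : ∀ g h, F (h * g * h⁻¹) = F g) : A.avg F ∈ D.Z (q : ℂ) := by
  rw [mem_Z]
  intro i
  funext u
  rw [← A.tau_rep u]
  set g := A.rep u
  rw [← A.conv_L, ← A.conv_R]
  congr 1
  simp only [A.avg_tau hF, ← Finset.mul_sum]
  congr 1
  rw [Finset.sum_comm, Finset.sum_comm (s := A.fib (D.s i))]
  refine Finset.sum_congr rfl fun b _ => ?_
  have h1 : ∑ x ∈ A.fib (D.s i), F ((b : G) * (x⁻¹ * g)) = ∑ x ∈ A.fib (D.s i), F (x * g) := by
    rw [A.sum_fib_inv i (fun x => F ((b : G) * (x * g)))]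
    simpa only [mul_assoc] using A.sum_fib_left (D.s i) b.2 (fun x => F (x * g))
  have h2 : ∑ x ∈ A.fib (D.s i), F ((b : G) * (g * x)) = ∑ x ∈ A.fib (D.s i), F (x * g) := by
    rw [← A.sum_fib_right _ b.2 (fun x => F (x * g))]
    refine Finset.sum_congr rfl fun x _ => ?_
    have := hF ((b : G) * (g * x)) x
    rw [← this]
    congr 1
    group
  rw [h1, h2]

/-- Averaging over `B` of a right `B`-invariant function on a double coset. -/
lemma sum_fib_avg {ψ : G → ℂ} (hψ : ∀ x, ∀ c ∈ B, ψ (x * c) = ψ x) {y : G} :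
    (Nat.card B : ℂ) * ∑ x ∈ A.fib (A.tau y), ψ x =
      (A.fib (A.tau y)).card * ∑ b : B, ψ ((b : G) * y) := by
  have h1 : ∀ x ∈ A.fib (A.tau y), ∑ b : B, ψ ((b : G) * x) = ∑ b : B, ψ ((b : G) * y) := by
    intro x hx
    rw [A.mem_fib] at hx
    obtain ⟨b₁, hb₁, c, hc, rfl⟩ := A.tau_eq x y hx
    let b₁' : B := ⟨b₁, hb₁⟩
    refine Fintype.sum_equiv (Equiv.mulRight b₁') _ _ ?_
    intro b
    have e2 : (b : G) * (b₁ * y * c) = ((b : G) * b₁ * y) * c := by group
    rw [e2, hψ _ c hc]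
    simp [b₁', mul_assoc]
  have h2 : ∑ x ∈ A.fib (A.tau y), ∑ b : B, ψ ((b : G) * x) =
      (Nat.card B : ℂ) * ∑ x ∈ A.fib (A.tau y), ψ x := by
    rw [Finset.sum_comm]
    have : ∀ b : B, ∑ x ∈ A.fib (A.tau y), ψ ((b : G) * x) = ∑ x ∈ A.fib (A.tau y), ψ x :=
      fun b => A.sum_fib_left _ b.2 ψ
    simp only [this, Finset.sum_const, Finset.card_univ, nsmul_eq_mul, Nat.card_eq_fintype_card]
  rw [← h2, Finset.sum_congr rfl h1, Finset.sum_const, nsmul_eq_mul]

/-- The class function attached to a function on `W`. -/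
noncomputable def FF (v : W → ℂ) (g : G) : ℂ := ∑ y : G, v (A.tau (y⁻¹ * g * y))

lemma FF_class (v : W → ℂ) (g h : G) : A.FF v (h * g * h⁻¹) = A.FF v g := by
  unfold FF
  refine Fintype.sum_equiv (Equiv.mulLeft h⁻¹) _ _ ?_
  intro y
  congr 2
  simp only [Equiv.coe_mulLeft]
  group

theorem Phi_eq (v : W → ℂ) : D.Phi (q : ℂ) v = (Nat.card B : ℂ)⁻¹ • A.avg (A.FF v) := by
  funext u
  rw [← A.tau_rep u]
  set g := A.rep u
  rw [Phi_apply, Pi.smul_apply, smul_eq_mul, A.avg_tau (A.FF_class v), Finset.sum_apply]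
  have hq : (q : ℂ) ≠ 0 := by exact_mod_cast A.q_pos.ne'
  have hB := bb_ne B
  have h1 : ∀ w : W, ((((q : ℂ) ^ D.l w)⁻¹) • D.T (q : ℂ) w (D.Tp (q : ℂ) w v)) (A.tau g) =
      (Nat.card B : ℂ)⁻¹ * ((Nat.card B : ℂ)⁻¹ *
        ∑ y ∈ A.fib w, ∑ b : B, v (A.tau (y⁻¹ * ((b : G) * g) * y))) := by
    intro w
    rw [Pi.smul_apply, smul_eq_mul, A.T_formula]
    simp only [A.Tp_formula, ← Finset.mul_sum]
    rw [Finset.sum_comm]
    have h2 : ∀ y ∈ A.fib w, ∑ x ∈ A.fib w, v (A.tau (x⁻¹ * g * y)) =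
        (q : ℂ) ^ D.l w * ∑ b : B, v (A.tau (y⁻¹ * ((b : G) * g) * y)) := by
      intro y hy
      rw [A.mem_fib] at hy
      subst hy
      have h3 := A.sum_fib_avg (ψ := fun x => v (A.tau (x⁻¹ * g * y))) (y := y) (by
        intro x c hc
        have e : (x * c)⁻¹ * g * y = c⁻¹ * (x⁻¹ * g * y) := by group
        simp only [e, A.tau_left _ (B.inv_mem hc)])
      rw [A.card_fib'] at h3
      push_cast at h3
      have h4 : ∑ b : B, v (A.tau (((b : G) * y)⁻¹ * g * y)) =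
          ∑ b : B, v (A.tau (y⁻¹ * ((b : G) * g) * y)) := by
        refine Fintype.sum_equiv (Equiv.inv B) _ _ ?_
        intro b
        congr 2
        simp only [Equiv.inv_apply, Subgroup.coe_inv]
        group
      rw [← h4]
      apply mul_left_cancel₀ hB
      rw [h3]
      ring
    rw [Finset.sum_congr rfl h2, ← Finset.mul_sum]
    field_simp
  rw [Finset.sum_congr rfl fun w _ => h1 w, ← Finset.mul_sum, ← Finset.mul_sum]
  congr 2
  simp only [FF]
  rw [Finset.sum_comm (s := Finset.univ (α := B))]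
  exact Finset.sum_fiberwise _ _ _

/-- The centre at parameter `q` consists of the averages of class functions. -/
theorem exists_of_mem_Z {v : W → ℂ} (hv : v ∈ D.Z (q : ℂ)) :
    ∃ F : G → ℂ, (∀ g h, F (h * g * h⁻¹) = F g) ∧ v = A.avg F := by
  have hq : (0 : ℝ) < q := by exact_mod_cast A.q_pos
  have h1 := D.range_Phi hq
  rw [Complex.ofReal_natCast] at h1
  rw [← h1] at hv
  obtain ⟨v', rfl⟩ := hv
  refine ⟨(Nat.card B : ℂ)⁻¹ • A.FF v', fun g h => ?_, ?_⟩
  · simp only [Pi.smul_apply]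
    rw [A.FF_class]
  · rw [A.Phi_eq, map_smul]

end GData

end Cfsg.Agent.Lib.KS71.HeckeB
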