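/-
The number of irreducible constituents of the permutation character on the cosets of `B` is the
number of conjugacy classes of `W`.
-/
import Mathlib
import Cfsg.Agent.Lib.KS71.HeckeB
import Cfsg.Agent.Lib.Char.Complete
import Cfsg.Agent.Lib.Char.Central
import Cfsg.Agent.Lib.Char.Clifford
import Cfsg.Agent.Lib.Char.PermChar
import Cfsg.Agent.Lib.Char.Orbital
import Cfsg.Agent.Lib.Blk89.Basic
import Cfsg.Prelude.Def_ParabolicCharacters

set_option autoImplicit false
set_option linter.unusedSectionVars false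
set_option linter.unusedVariables false

namespace Cfsg.Agent.Lib.KS71.HeckeC

open Module Cfsg
open Cfsg.Agent.Lib.KS71.HeckeA Cfsg.Agent.Lib.KS71.HeckeA.HData
open Cfsg.Agent.Lib.KS71.HeckeB Cfsg.Agent.Lib.KS71.HeckeB.GData
open Cfsg.Agent.Lib.Char.Basic Cfsg.Agent.Lib.Char.Ortho Cfsg.Agent.Lib.Char.Complete
open scoped ComplexConjugate

section Orth

variable {G : Type*} [Group G] [Fintype G]

/-- Generalized orthogonality. -/
theorem gen_orth {χ ψ : G → ℂ} (hχ : IsIrrCharacter G χ) (hψ : IsIrrCharacter G ψ) (z : G) :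
    ∑ y : G, ψ y⁻¹ * χ (y * z) = ((Nat.card G : ℂ) * classInner χ ψ / χ 1) * χ z := by
  have hχ0 := hχ
  obtain ⟨n, ρ, hρ, rfl⟩ := hχ
  haveI := hρ
  have hcl : ∀ g h : G, ψ (h * g * h⁻¹)⁻¹ = ψ g⁻¹ := by
    intro g h
    have e : (h * g * h⁻¹)⁻¹ = h * g⁻¹ * h⁻¹ := by group
    rw [e]
    exact isClassFunction_of_isIrrCharacter hψ _ _
  have h1 := Cfsg.Agent.Lib.Char.Central.classOp_eq_smul ρ (a := fun g => ψ g⁻¹) hcl
  have h2 : Cfsg.Agent.Lib.Char.Central.classOp ρ (fun g => ψ g⁻¹) * ρ z =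
      ∑ g : G, ψ g⁻¹ • ρ (g * z) := by
    simp only [Cfsg.Agent.Lib.Char.Central.classOp, Finset.sum_mul, smul_mul_assoc, map_mul]
  have h3 := congrArg (fun T => LinearMap.trace ℂ (Fin n → ℂ) (T * ρ z)) h1
  simp only [h2, smul_mul_assoc, one_mul, map_smul, map_sum, smul_eq_mul] at h3
  have h4 : ∑ g : G, ψ g⁻¹ * ρ.character g = (Nat.card G : ℂ) * classInner ρ.character ψ := by
    rw [classInner_def, ← mul_assoc, mul_inv_cancel₀ card_ne_zero_complex, one_mul]
    refine Finset.sum_congr rfl fun g _ => ?_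
    rw [char_inv_eq_conj (isCharacter_of_isIrrCharacter hψ), mul_comm]
  rw [Representation.char_one]
  rw [h4] at h3
  exact h3

lemma class_mul_comm {χ : G → ℂ} (hχ : IsClassFunction G χ) (a b : G) : χ (a * b) = χ (b * a) := by
  have := hχ (a * b) b
  rw [← this]
  congr 1
  group

end Orth

variable {W ι : Type*} [Group W] [Fintype W] [DecidableEq W] [Fintype ι]
  {D : HData W ι} {G : Type*} [Group G] [Fintype G] {B : Subgroup G} [Fintype B] {q : ℕ}
  (A : GData D G B q)

/-- The multiplicity of the principal character of `B` in the restriction. -/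
noncomputable def mm (B : Subgroup G) [Fintype B] (χ : G → ℂ) : ℂ :=
  (Nat.card B : ℂ)⁻¹ * ∑ b : B, χ (b : G)

include A in
lemma tau_left_avg {χ : G → ℂ} (hχ : IsClassFunction G χ) {b : G} (hb : b ∈ B) (g : G) :
    A.avg χ (A.tau (b * g)) = A.avg χ (A.tau g) := by
  rw [A.tau_left b hb]

/-- The pairing of an average with an irreducible character. -/
theorem pair_avg {χ ψ : G → ℂ} (hχ : IsIrrCharacter G χ) (hψ : IsIrrCharacter G ψ) :
    ∑ g : G, A.avg χ (A.tau g) * ψ g⁻¹ =
      ((Nat.card G : ℂ) * classInner χ ψ / χ 1) * mm B χ := by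
  have hχc := isClassFunction_of_isIrrCharacter hχ
  simp only [A.avg_tau hχc, mm, Finset.mul_sum, Finset.sum_mul]
  rw [Finset.sum_comm]
  refine Finset.sum_congr rfl fun b _ => ?_
  have h1 := gen_orth hχ hψ (b : G)
  have h2 : ∑ g : G, (Nat.card B : ℂ)⁻¹ * χ ((b : G) * g) * ψ g⁻¹ =
      (Nat.card B : ℂ)⁻¹ * ∑ g : G, ψ g⁻¹ * χ (g * (b : G)) := by
    rw [Finset.mul_sum]
    refine Finset.sum_congr rfl fun g _ => ?_
    rw [class_mul_comm hχc (b : G) g]
    ring
  rw [h2, h1]
  ring

/-- If the multiplicity vanishes, so does the average. -/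
theorem avg_eq_zero {χ : G → ℂ} (hχ : IsIrrCharacter G χ) (h0 : mm B χ = 0) : A.avg χ = 0 := by
  have hχc := isClassFunction_of_isIrrCharacter hχ
  have hχ' := isCharacter_of_isIrrCharacter hχ
  -- conjugate of the average
  have h1 : ∀ g : G, conj (A.avg χ (A.tau g)) =
      (Nat.card B : ℂ)⁻¹ * ∑ c : B, χ (g⁻¹ * (c : G)) := by
    intro g
    rw [A.avg_tau hχc, map_mul, map_inv₀, map_natCast, map_sum]
    congr 1
    refine Fintype.sum_equiv (Equiv.inv B) _ _ ?_
    intro c
    rw [← char_inv_eq_conj hχ', Equiv.inv_apply, Subgroup.coe_inv]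
    congr 1
    group
  have h2 := pair_avg A hχ hχ
  rw [h0, mul_zero] at h2
  have h3 : ∑ g : G, A.avg χ (A.tau g) * conj (A.avg χ (A.tau g)) = 0 := by
    simp only [h1, Finset.mul_sum]
    rw [Finset.sum_comm]
    refine Finset.sum_eq_zero fun c _ => ?_
    have h4 : ∑ g : G, A.avg χ (A.tau g) * ((Nat.card B : ℂ)⁻¹ * χ (g⁻¹ * (c : G))) =
        (Nat.card B : ℂ)⁻¹ * ∑ g : G, A.avg χ (A.tau g) * χ g⁻¹ := by
      rw [Finset.mul_sum]
      refine Fintype.sum_equiv (Equiv.mulLeft (c : G)⁻¹) _ _ ?_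
      intro g
      simp only [Equiv.coe_mulLeft]
      rw [A.tau_left _ (B.inv_mem c.2)]
      have e : ((c : G)⁻¹ * g)⁻¹ = g⁻¹ * (c : G) := by group
      rw [e]
      ring
    rw [h4, h2, mul_zero]
  have h5 : ∑ g : G, ‖A.avg χ (A.tau g)‖ ^ 2 = 0 := by
    have h6 : ((∑ g : G, ‖A.avg χ (A.tau g)‖ ^ 2 : ℝ) : ℂ) = 0 := by
      rw [← h3, Complex.ofReal_sum]
      refine Finset.sum_congr rfl fun g _ => ?_
      rw [Complex.mul_conj, Complex.normSq_eq_norm_sq]
    exact_mod_cast h6
  funext u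
  obtain ⟨g, rfl⟩ := A.tau_surj u
  have h7 := (Finset.sum_eq_zero_iff_of_nonneg (fun g _ => by positivity)).mp h5 g (Finset.mem_univ _)
  simpa using h7

/-- Independence of the averages. -/
theorem linearIndependent_avg [Fintype (IrrCharacter G)] :
    LinearIndependent ℂ (fun χ : {χ : IrrCharacter G // mm B (χ : G → ℂ) ≠ 0} =>
      A.avg ((χ : IrrCharacter G) : G → ℂ)) := by
  classical
  rw [Fintype.linearIndependent_iff]
  intro a ha ψ
  have h1 : ∀ g : G, ∑ χ : {χ : IrrCharacter G // mm B (χ : G → ℂ) ≠ 0},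
      a χ * A.avg ((χ : IrrCharacter G) : G → ℂ) (A.tau g) = 0 := by
    intro g
    have := congrFun ha (A.tau g)
    simpa [Finset.sum_apply] using this
  have h2 : ∑ g : G, (∑ χ : {χ : IrrCharacter G // mm B (χ : G → ℂ) ≠ 0},
      a χ * A.avg ((χ : IrrCharacter G) : G → ℂ) (A.tau g)) * ((ψ : IrrCharacter G) : G → ℂ) g⁻¹ = 0 := by
    simp [h1]
  simp only [Finset.sum_mul] at h2
  rw [Finset.sum_comm] at h2
  have h3 : ∀ χ : {χ : IrrCharacter G // mm B (χ : G → ℂ) ≠ 0},
      ∑ g : G, a χ * A.avg ((χ : IrrCharacter G) : G → ℂ) (A.tau g) * ((ψ : IrrCharacter G) : G → ℂ) g⁻¹ =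
      a χ * (((Nat.card G : ℂ) * classInner ((χ : IrrCharacter G) : G → ℂ) ((ψ : IrrCharacter G) : G → ℂ) /
        ((χ : IrrCharacter G) : G → ℂ) 1) * mm B ((χ : IrrCharacter G) : G → ℂ)) := by
    intro χ
    rw [← pair_avg A (χ : IrrCharacter G).2 (ψ : IrrCharacter G).2, Finset.mul_sum]
    refine Finset.sum_congr rfl fun g _ => ?_
    ring
  simp only [h3] at h2
  rw [Finset.sum_eq_single ψ] at h2
  · rw [classInner_self_of_isIrr (ψ : IrrCharacter G).2, mul_one] at h2
    have h4 := irr_one_ne_zero (ψ : IrrCharacter G).2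
    have h5 : (Nat.card G : ℂ) ≠ 0 := card_ne_zero_complex
    have h6 := ψ.2
    rcases mul_eq_zero.mp h2 with h7 | h7
    · exact h7
    · exfalso
      rcases mul_eq_zero.mp h7 with h8 | h8
      · rw [div_eq_zero_iff] at h8
        rcases h8 with h8 | h8
        · exact h5 h8
        · exact h4 h8
      · exact h6 h8
  · intro χ _ hne
    have h4 : ((χ : IrrCharacter G) : G → ℂ) ≠ ((ψ : IrrCharacter G) : G → ℂ) := by
      intro e
      exact hne (Subtype.ext (Subtype.ext e))
    rw [classInner_eq_zero_of_isIrr_of_ne (χ : IrrCharacter G).2 (ψ : IrrCharacter G).2 h4]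
    simp
  · intro h
    exact absurd (Finset.mem_univ _) h

/-- The centre is spanned by the averages of the constituents. -/
theorem Z_eq_span [Fintype (IrrCharacter G)] :
    D.Z (q : ℂ) = Submodule.span ℂ (Set.range
      (fun χ : {χ : IrrCharacter G // mm B (χ : G → ℂ) ≠ 0} =>
        A.avg ((χ : IrrCharacter G) : G → ℂ))) := by
  apply le_antisymm
  · intro v hv
    obtain ⟨F, hF, rfl⟩ := A.exists_of_mem_Z hv
    have hF' : IsClassFunction G F := hF
    rw [classFunction_eq_sum hF', map_sum]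
    refine Submodule.sum_mem _ fun χ _ => ?_
    rw [map_smul]
    refine Submodule.smul_mem _ _ ?_
    by_cases h0 : mm B (χ : G → ℂ) = 0
    · rw [avg_eq_zero A χ.2 h0]
      exact Submodule.zero_mem _
    · exact Submodule.subset_span ⟨⟨χ, h0⟩, rfl⟩
  · rw [Submodule.span_le]
    rintro _ ⟨χ, rfl⟩
    exact A.avg_mem_Z (isClassFunction_of_isIrrCharacter (χ : IrrCharacter G).2)

include A in
/-- The number of constituents is the dimension of the centre. -/
theorem card_mm_ne_zero :
    Nat.card {χ : IrrCharacter G // mm B (χ : G → ℂ) ≠ 0} = Nat.card (ConjClasses W) := by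
  classical
  have := finite_irrCharacter (G := G)
  letI : Fintype (IrrCharacter G) := Fintype.ofFinite _
  have h1 := finrank_span_eq_card (linearIndependent_avg A)
  rw [← Z_eq_span A] at h1
  have hq : (0 : ℝ) < q := by exact_mod_cast A.q_pos
  have h2 := D.finrank_Z_eq hq one_pos
  rw [D.finrank_Z_one, Complex.ofReal_natCast, h1] at h2
  rw [← h2, Nat.card_eq_fintype_card]

/-- The inner product of the permutation character with a class function. -/
lemma classInner_fixedPoint (B : Subgroup G) [Fintype B] {χ : G → ℂ} (hχ : IsClassFunction G χ) :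
    classInner (fixedPointCharacter B) χ = conj (mm B χ) := by
  classical
  have h1 : fixedPointCharacter B =
      Cfsg.indFun (MulAction.stabilizer G ((1 : G) : G ⧸ B)) (fun _ => 1) := by
    funext g
    haveI : Finite (G ⧸ B) := inferInstance
    exact Cfsg.Agent.Lib.Char.PermChar.card_fixedBy_eq_indFun (G ⧸ B) ((1 : G) : G ⧸ B) g
  have key : ∀ (S : Subgroup G) [Fintype S], S = B →
      classInner (Cfsg.indFun S (fun _ => 1)) χ = conj (mm B χ) := by
    intro S _ hS
    subst hS
    rw [Cfsg.Agent.Lib.Char.Induced.classInner_indFun_left S _ χ hχ, mm,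
      Cfsg.Agent.Lib.Char.Induced.classInner_subgroup_eq, map_mul, map_inv₀, map_natCast, map_sum]
    congr 1
    refine Finset.sum_congr rfl fun h _ => ?_
    rw [one_mul]
  rw [h1]
  exact key _ (MulAction.stabilizer_quotient B)

include A in
/-- **The number of irreducible constituents of `1_B^G` is the number of conjugacy classes of `W`.** -/
theorem card_constituents :
    Nat.card {χ : IrrCharacter G // ∃ φ : G → ℂ, IsCharacter G φ ∧
      fixedPointCharacter B = (χ : G → ℂ) + φ} = Nat.card (ConjClasses W) := by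
  classical
  rw [← card_mm_ne_zero A]
  refine Nat.card_congr (Equiv.subtypeEquivRight fun χ => ?_)
  have hcl := isClassFunction_of_isIrrCharacter χ.2
  have hπ : IsCharacter G (fixedPointCharacter B) := by
    haveI : Fintype (G ⧸ B) := Fintype.ofFinite _
    exact Cfsg.Agent.Lib.Char.Orbital.isCharacter_permChar (Ω := G ⧸ B)
  have h1 := classInner_fixedPoint B hcl
  constructor
  · rintro ⟨φ, hφ, e⟩ h0
    rw [h0, map_zero] at h1
    rw [e, classInner_add_left, classInner_self_of_isIrr χ.2] at h1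
    obtain ⟨n, hn⟩ := exists_nat_classInner hφ (isCharacter_of_isIrrCharacter χ.2)
    rw [hn] at h1
    have : ((n + 1 : ℕ) : ℂ) = 0 := by
      push_cast
      linear_combination h1 
    have h2 : n + 1 = 0 := by exact_mod_cast this
    omega
  · intro h0
    have h2 : classInner (fixedPointCharacter B) (χ : G → ℂ) ≠ 0 := by
      rw [h1]
      simpa using h0
    refine ⟨fixedPointCharacter B - χ,
      Cfsg.Agent.Lib.Char.Clifford.isCharacter_sub_of_classInner_ne_zero hπ χ.2 h2, ?_⟩
    abel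

end Cfsg.Agent.Lib.KS71.HeckeC
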