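/-
The number of irreducible constituents of the permutation character on the Borel subgroup of a
Chevalley group is the number of conjugacy classes of the Weyl group.
-/
import Mathlib
import Cfsg.Agent.Lib.KS71.HeckeC
import Cfsg.Agent.Lib.KS71.StUnip

set_option autoImplicit false
set_option linter.unusedSectionVars false
set_option linter.unusedVariables false

namespace Cfsg.Agent.Lib.KS71.HeckeD

open Cfsg Cfsg.Lie Cfsg.Lie.ChevalleyDatum
open Cfsg.Agent.Lib.Chev.Tables Cfsg.Agent.Lib.Chev.Tables2 Cfsg.Agent.Lib.Chev.Tables3 Cfsg.Agent.Lib.Chev.Raise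
open Cfsg.Agent.Lib.Chev.Basic Cfsg.Agent.Lib.Chev.AxBasic Cfsg.Agent.Lib.Chev.Torus
open Cfsg.Agent.Lib.Chev.Products Cfsg.Agent.Lib.Chev.Products2 Cfsg.Agent.Lib.Chev.Mono1
open Cfsg.Agent.Lib.Chev.Mono2 Cfsg.Agent.Lib.Chev.Mono3 Cfsg.Agent.Lib.Chev.Bn
open Cfsg.Agent.Lib.Chev.Order1 Cfsg.Agent.Lib.Chev.Order2 Cfsg.Agent.Lib.Chev.Parab
open Cfsg.Agent.Lib.KS71.StWeyl Cfsg.Agent.Lib.KS71.StCell Cfsg.Agent.Lib.KS71.StUnip
open Cfsg.Agent.Lib.KS71.HeckeA Cfsg.Agent.Lib.KS71.HeckeB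

variable {D : ChevalleyDatum} {F : Type*} [Field F]
variable (h : Tab D) (h2 : Tab2 D) (ax : Ax D F)

include h2 ax in
lemma Nw_wP {k : ℕ} (hk : k < D.rank) : Nw D (wP h k) = 1 := by
  classical
  rw [Nw, Finset.card_eq_one]
  refine ⟨sr h hk, ?_⟩
  ext r
  simp only [Finset.mem_filter, Finset.mem_univ, true_and, Finset.mem_singleton]
  constructor
  · rintro ⟨h1, h3⟩
    by_contra hne
    apply h3
    rw [wP_of_lt h hk]
    have h4 : (r : ℕ) ≠ D.simple k := fun e => hne (Fin.ext e)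
    change D.IsPosRoot (wF h k hk r : ℕ)
    rw [wF_val]
    exact isPos_reflect h h2 hk h1 h4
  · rintro rfl
    refine ⟨sr_isPos h hk, ?_⟩
    rw [wP_sr]
    intro h3
    exact (isPos_negF_iff h _).mp h3 (sr_isPos h hk)

include h2 ax in
lemma Nw_up {x : Equiv.Perm (Fin D.nroots)} (hx : x ∈ Wp h (Set.Iio D.rank)) {k : ℕ} (hk : k < D.rank)
    (hp : D.IsPosRoot (x (sr h hk))) : Nw D (x * wP h k) = Nw D x + 1 := by
  have hpos : PosOn h x {k} := by
    intro k' hk' hm
    have e : k' = k := hm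
    subst e
    exact hp
  have hJ : ∀ j ∈ ({k} : Set ℕ), j < D.rank := by
    intro j hj
    have e : j = k := hj
    rwa [e]
  rw [Nw_mul h hJ hx (wP_mem_Wp h (Set.mem_singleton k)) hpos, Nw_wP h h2 ax hk]

include h2 ax in
lemma Nw_step {x : Equiv.Perm (Fin D.nroots)} (hx : x ∈ Wp h (Set.Iio D.rank)) {k : ℕ} (hk : k < D.rank) :
    Nw D (x * wP h k) = Nw D x + 1 ∨ Nw D (x * wP h k) + 1 = Nw D x := by
  by_cases hp : D.IsPosRoot (x (sr h hk))
  · exact Or.inl (Nw_up h h2 ax hx hk hp)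
  · right
    have hy : x * wP h k ∈ Wp h (Set.Iio D.rank) := Subgroup.mul_mem _ hx (wP_mem_W h hk)
    have h3 : D.IsPosRoot ((x * wP h k) (sr h hk)) := by
      rw [Equiv.Perm.mul_apply, wP_sr, W_neg h h2 ax hx]
      exact (isPos_negF_iff h _).mpr hp
    have h4 := Nw_up h h2 ax hy hk h3
    rw [mul_assoc, wP_mul_self, mul_one] at h4
    omega

omit h2 ax in
lemma wP_inv_eq' (k : ℕ) : (wP h k)⁻¹ = wP h k := inv_eq_of_mul_eq_one_left (wP_mul_self h k)

include h2 ax in
lemma Nw_step_left {x : Equiv.Perm (Fin D.nroots)} (hx : x ∈ Wp h (Set.Iio D.rank)) {k : ℕ} (hk : k < D.rank) :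
    Nw D (wP h k * x) = Nw D x + 1 ∨ Nw D (wP h k * x) + 1 = Nw D x := by
  have hxi : x⁻¹ ∈ Wp h (Set.Iio D.rank) := Subgroup.inv_mem _ hx
  have e1 : Nw D (wP h k * x) = Nw D (x⁻¹ * wP h k) := by
    have hm : wP h k * x ∈ Wp h (Set.Iio D.rank) := Subgroup.mul_mem _ (wP_mem_W h hk) hx
    rw [← Nw_inv h h2 ax hm, mul_inv_rev, wP_inv_eq']
  have e2 := Nw_inv h h2 ax hx
  have := Nw_step h h2 ax hxi hk
  rw [e1]
  rwa [e2] at this

/-- The length data of the Weyl group. -/
noncomputable def hdata (h : Tab D) (h2 : Tab2 D) (ax : Ax D F) :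
    HData ↥(Wp h (Set.Iio D.rank)) (Fin D.rank) where
  s i := ⟨wP h i, wP_mem_W h i.2⟩
  l w := Nw D w.1
  s_sq i := Subtype.ext (wP_mul_self h i)
  l_one := by
    classical
    simp only [Subgroup.coe_one]
    rw [Nw, Finset.card_eq_zero, Finset.filter_eq_empty_iff]
    intro r _ h3
    exact h3.2 (by simpa using h3.1)
  l_inv w := Nw_inv h h2 ax w.2
  l_step i w := Nw_step_left h h2 ax w.2 i.2
  desc := by
    intro w hw
    by_contra hno
    push Not at hno
    apply hw
    have hw1 : (w : Equiv.Perm (Fin D.nroots))⁻¹ ∈ Wp h (Set.Iio D.rank) :=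
      Subgroup.inv_mem _ w.2
    have hp : PosOn h (w : Equiv.Perm (Fin D.nroots))⁻¹ (Set.Iio D.rank) := by
      intro k hk _
      by_contra hn
      have h3 := Nw_mul_wP_lt h h2 ax hw1 hk hn
      have h4 := hno ⟨k, hk⟩
      have h5 : wP h k * (w : Equiv.Perm (Fin D.nroots)) ∈ Wp h (Set.Iio D.rank) :=
        Subgroup.mul_mem _ (wP_mem_W h hk) w.2
      have e1 : Nw D ((w : Equiv.Perm (Fin D.nroots))⁻¹ * wP h k) =
          Nw D (wP h k * (w : Equiv.Perm (Fin D.nroots))) := by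
        rw [← Nw_inv h h2 ax h5, mul_inv_rev, wP_inv_eq']
      rw [e1, Nw_inv h h2 ax w.2] at h3
      have h6 : Nw D (w : Equiv.Perm (Fin D.nroots)) ≤ Nw D (wP h k * (w : Equiv.Perm (Fin D.nroots))) := h4
      omega
    have h3 := eq_one_of_PosOn h h2 ax (J := Set.Iio D.rank) (fun j hj => hj) hw1 hp
    apply Subtype.ext
    simpa using h3
  exch := by
    intro i j w h3 h4 h5
    have hi := i.2
    have hj := j.2
    change Nw D w.1 < Nw D (wP h i * w.1) at h3
    change Nw D w.1 < Nw D (w.1 * wP h j) at h4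
    change Nw D (wP h i * w.1 * wP h j) ≤ Nw D w.1 at h5
    have hp1 : D.IsPosRoot (w.1 (sr h hj)) := by
      by_contra hn
      have := Nw_mul_wP_lt h h2 ax w.2 hj hn
      omega
    have hy : wP h i * w.1 ∈ Wp h (Set.Iio D.rank) := Subgroup.mul_mem _ (wP_mem_W h hi) w.2
    have hp2 : ¬ D.IsPosRoot ((wP h i * w.1) (sr h hj)) := by
      intro hp
      have := Nw_up h h2 ax hy hj hp
      omega
    have e1 : w.1 (sr h hj) = sr h hi := by
      by_contra hne
      apply hp2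
      rw [Equiv.Perm.mul_apply, wP_of_lt h hi]
      have h6 : ((w.1 (sr h hj) : Fin D.nroots) : ℕ) ≠ D.simple i := fun e => hne (Fin.ext e)
      change D.IsPosRoot (wF h i hi (w.1 (sr h hj)) : ℕ)
      rw [wF_val]
      exact isPos_reflect h h2 hi hp1 h6
    have e2 := conj_wP h h2 ax w.2 hj hi e1
    apply Subtype.ext
    change wP h i * w.1 = w.1 * wP h j
    rw [← e2]
    group

variable [Fintype F]

include h h2 ax in
lemma tau_eq_aux {g g' : ↥(D.group F)} (e : tau h h2 ax g = tau h h2 ax g') :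
    ∃ b ∈ BG D F, ∃ c ∈ BG D F, g = b * g' * c := by
  obtain ⟨m, hm, hg', e'⟩ := tau_spec h h2 ax g'
  have hg : (g : GL D.Idx F) ∈ cell D F m := mem_cell_of_tau_eq h h2 ax hm (by rw [e, e'])
  obtain ⟨b₁, hb₁, b₂, hb₂, e1⟩ := mem_cell.mp hg
  obtain ⟨b₃, hb₃, b₄, hb₄, e3⟩ := mem_cell.mp hg'
  have hB := borel_le_group h ax
  refine ⟨⟨b₁ * b₃⁻¹, hB (Subgroup.mul_mem _ hb₁ (Subgroup.inv_mem _ hb₃))⟩,
    mem_BG.mpr (Subgroup.mul_mem _ hb₁ (Subgroup.inv_mem _ hb₃)),
    ⟨b₄⁻¹ * b₂, hB (Subgroup.mul_mem _ (Subgroup.inv_mem _ hb₄) hb₂)⟩,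
    mem_BG.mpr (Subgroup.mul_mem _ (Subgroup.inv_mem _ hb₄) hb₂), ?_⟩
  apply Subtype.ext
  change (g : GL D.Idx F) = b₁ * b₃⁻¹ * (g' : GL D.Idx F) * (b₄⁻¹ * b₂)
  rw [e1, e3]
  group

/-- The group data of a Chevalley group. -/
noncomputable def gdata (h : Tab D) (h2 : Tab2 D) (ax : Ax D F) :
    GData (hdata h h2 ax) ↥(D.group F) (BG D F) (Fintype.card F) where
  q_pos := Fintype.card_pos
  tau g := ⟨tau h h2 ax g, tau_mem h h2 ax g⟩
  tau_left b hb g := Subtype.ext (tau_mul_left h h2 ax hb g)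
  tau_right b hb g := Subtype.ext (tau_mul_right h h2 ax hb g)
  tau_eq g g' e := tau_eq_aux h h2 ax (congrArg Subtype.val e)
  tau_one g := by
    constructor
    · intro e
      exact mem_BG_of_tau h h2 ax (congrArg Subtype.val e)
    · intro hg
      exact Subtype.ext (tau_of_mem_BG h h2 ax hg)
  tau_inv g := Subtype.ext (StCell.tau_inv h h2 ax g)
  tau_surj := by
    rintro ⟨w, hw⟩
    obtain ⟨l, hl, rfl⟩ := (mem_Wp_iff h).mp hw
    exact ⟨nwG h h2 ax (fun i hi => hl i hi), Subtype.ext (tau_nwG h h2 ax _)⟩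
  card_fib w := by
    have h1 := card_tau_eq h h2 ax (F := F) w.2
    rw [card_BG h ax]
    change _ = Fintype.card F ^ Nw D w.1 * _
    rw [← h1]
    refine Nat.card_congr (Equiv.subtypeEquivRight fun g => ?_)
    rw [Subtype.ext_iff]
  mul_up := by
    intro i x g hx hl
    have hi := i.2
    have hx' : tau h h2 ax x = wP h i := congrArg Subtype.val hx
    change Nw D (tau h h2 ax g) < Nw D (wP h i * tau h h2 ax g) at hl
    apply Subtype.ext
    change tau h h2 ax (x * g) = wP h i * tau h h2 ax g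
    have hJ : ∀ j ∈ ({(i : ℕ)} : Set ℕ), j < D.rank := by
      intro j hj
      have e : j = i := hj
      rw [e]
      exact hi
    have hg1 : (tau h h2 ax g)⁻¹ ∈ Wp h (Set.Iio D.rank) := Subgroup.inv_mem _ (tau_mem h h2 ax g)
    have hP : PosOn h (tau h h2 ax g⁻¹) {(i : ℕ)} := by
      intro k hk hm
      have e : k = i := hm
      subst e
      rw [StCell.tau_inv]
      by_contra hn
      have h3 := Nw_mul_wP_lt h h2 ax hg1 hk hn
      have h5 : wP h i * tau h h2 ax g ∈ Wp h (Set.Iio D.rank) :=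
        Subgroup.mul_mem _ (wP_mem_W h hk) (tau_mem h h2 ax g)
      have e1 : Nw D ((tau h h2 ax g)⁻¹ * wP h i) = Nw D (wP h i * tau h h2 ax g) := by
        rw [← Nw_inv h h2 ax h5, mul_inv_rev, wP_inv_eq']
      rw [e1, Nw_inv h h2 ax (tau_mem h h2 ax g)] at h3
      omega
    have hM : tau h h2 ax x⁻¹ ∈ Wp h {(i : ℕ)} := by
      rw [StCell.tau_inv, hx', wP_inv_eq']
      exact wP_mem_Wp h (Set.mem_singleton _)
    have h3 := tau_mul_PosOn h h2 ax hJ hP hM
    have e : x * g = (g⁻¹ * x⁻¹)⁻¹ := by group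
    rw [e, StCell.tau_inv, h3, StCell.tau_inv, StCell.tau_inv, hx', mul_inv_rev, inv_inv, inv_inv]
  mul_two := by
    intro i x g hx
    have hi := i.2
    have hx' : tau h h2 ax x = wP h i := congrArg Subtype.val hx
    have hl : ∀ k ∈ [(i : ℕ)], k < D.rank := by
      intro k hk
      have e : k = i := by simpa using hk
      rw [e]
      exact hi
    have hs : tau h h2 ax (nwG h h2 ax hl) = wP h i := by
      rw [tau_nwG]
      simp [wPw]
    obtain ⟨b, hb, c, hc, rfl⟩ := tau_eq_aux h h2 ax (hx'.trans hs.symm)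
    have hsv : ((nwG h h2 ax hl : ↥(D.group F)) : GL D.Idx F) = sG ax i := by
      simp [nwG, nw]
    have h3 := tau_sG_mul h h2 ax hi hsv (c * g)
    rw [tau_mul_left h h2 ax hc] at h3
    have e : b * nwG h h2 ax hl * c * g = b * (nwG h h2 ax hl * (c * g)) := by group
    change (⟨tau h h2 ax _, _⟩ : ↥(Wp h (Set.Iio D.rank))) = _ ∨ (⟨tau h h2 ax _, _⟩ : ↥(Wp h (Set.Iio D.rank))) = _
    simp only [Subtype.ext_iff]
    change tau h h2 ax _ = wP h i * tau h h2 ax g ∨ tau h h2 ax _ = tau h h2 ax g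
    rw [e, tau_mul_left h h2 ax hb]
    exact h3

include h h2 ax in
/-- The constituents of the permutation character on `B`. -/
theorem card_constituents :
    Nat.card {χ : IrrCharacter ↥(D.group F) // ∃ φ : ↥(D.group F) → ℂ,
      IsCharacter ↥(D.group F) φ ∧ fixedPointCharacter (BG D F) = (χ : ↥(D.group F) → ℂ) + φ} =
      Nat.card (ConjClasses ↥(Wp h (Set.Iio D.rank))) := by
  classical
  letI : Fintype ↥(D.group F) := Fintype.ofFinite _
  letI : Fintype ↥(BG D F) := Fintype.ofFinite _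
  letI : Fintype ↥(Wp h (Set.Iio D.rank)) := Fintype.ofFinite _
  exact Cfsg.Agent.Lib.KS71.HeckeC.card_constituents (gdata h h2 ax)

/-- Isomorphic groups have the same number of conjugacy classes. -/
lemma card_conjClasses_congr {G H : Type*} [Group G] [Group H] (f : G ≃* H) :
    Nat.card (ConjClasses G) = Nat.card (ConjClasses H) := by
  refine Nat.card_congr
    { toFun := ConjClasses.map f.toMonoidHom
      invFun := ConjClasses.map f.symm.toMonoidHom
      left_inv := ?_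
      right_inv := ?_ }
  · intro c
    obtain ⟨a, rfl⟩ := ConjClasses.mk_surjective c
    change ConjClasses.mk (f.symm (f a)) = _
    rw [f.symm_apply_apply]
  · intro c
    obtain ⟨a, rfl⟩ := ConjClasses.mk_surjective c
    change ConjClasses.mk (f (f.symm a)) = _
    rw [f.apply_symm_apply]

include h2 ax in
/-- The Weyl group of root permutations and any quotient of `N` by `H` have the same number of
classes. -/
lemma card_conj_weyl {Q : Type*} [Group Q] (φ : ↥(D.monomialSubgroup F) →* Q)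
    (hs : Function.Surjective φ)
    (hk : φ.ker = (D.diagonalSubgroup F).subgroupOf (D.monomialSubgroup F)) :
    Nat.card (ConjClasses ↥(Wp h (Set.Iio D.rank))) = Nat.card (ConjClasses Q) := by
  let π : ↥(D.monomialSubgroup F) →* ↥(Wp h (Set.Iio D.rank)) :=
    (piN h h2 ax).codRestrict _ (piN_mem_Wp h h2 ax)
  have hπs : Function.Surjective π := by
    rintro ⟨w, hw⟩
    obtain ⟨l, hl, rfl⟩ := (mem_Wp_iff h).mp hw
    refine ⟨⟨nw D ax l, nw_mem_monomial_aux h h2 ax (fun i hi => hl i hi)⟩, ?_⟩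
    apply Subtype.ext
    exact piN_nw h h2 ax (fun i hi => hl i hi)
  have hπk : π.ker = φ.ker := by
    rw [hk]
    ext g
    rw [MonoidHom.mem_ker, Subgroup.mem_subgroupOf, ← piN_eq_one_iff h h2 ax g, Subtype.ext_iff]
    rfl
  have e1 := QuotientGroup.quotientKerEquivOfSurjective π hπs
  have e2 := QuotientGroup.quotientKerEquivOfSurjective φ hs
  have e3 := QuotientGroup.quotientMulEquivOfEq hπk
  exact card_conjClasses_congr (e1.symm.trans (e3.trans e2))

end Cfsg.Agent.Lib.KS71.HeckeD
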