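/-
The data of a split `BN`-pair of a Chevalley group in which the longest element of the Weyl group
acts as `-1`.
-/
import Mathlib
import Cfsg.Agent.Lib.KS71.CRh
import Cfsg.Agent.Lib.KS71.HeckeD
import Cfsg.Agent.Lib.Chev.SL2Chev

set_option autoImplicit false
set_option linter.unusedSectionVars false
set_option linter.unusedVariables false
set_option linter.style.haveILetI false

namespace Cfsg.Agent.Lib.KS71.CRi

open Cfsg Cfsg.Lie Cfsg.Lie.ChevalleyDatum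
open Cfsg.Agent.Lib.Chev.Tables Cfsg.Agent.Lib.Chev.Tables2 Cfsg.Agent.Lib.Chev.Tables3 Cfsg.Agent.Lib.Chev.Raise
open Cfsg.Agent.Lib.Chev.Basic Cfsg.Agent.Lib.Chev.AxBasic Cfsg.Agent.Lib.Chev.Torus
open Cfsg.Agent.Lib.Chev.Products Cfsg.Agent.Lib.Chev.Products2 Cfsg.Agent.Lib.Chev.Mono1
open Cfsg.Agent.Lib.Chev.Mono2 Cfsg.Agent.Lib.Chev.Mono3 Cfsg.Agent.Lib.Chev.Bn
open Cfsg.Agent.Lib.Chev.Order1 Cfsg.Agent.Lib.Chev.Order2 Cfsg.Agent.Lib.Chev.Parab
open Cfsg.Agent.Lib.KS71.StWeyl Cfsg.Agent.Lib.KS71.StCell Cfsg.Agent.Lib.KS71.StUnip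
open Cfsg.Agent.Lib.Chev.SL2 Cfsg.Agent.Lib.Chev.SL2Chev Cfsg.Agent.Lib.KS71.HeckeD
open Cfsg.Agent.Lib.KS71.CRa

variable {D : ChevalleyDatum} {F : Type*} [Field F]
variable (h : Tab D) (h2 : Tab2 D) (ax : Ax D F)

section rank1

variable {i : ℕ} (hi : i < D.rank)

include h h2 hi in
lemma g_n_x (c : F) : sG ax i * xG ax (D.simple i) c * (sG ax i)⁻¹ = xG ax (D.neg (D.simple i)) (-c) := by
  have := (rel_simple h h2 ax hi).1 1 c one_ne_zero
  simpa [sG] using this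

include h h2 hi in
lemma g_n_y (c : F) : sG ax i * xG ax (D.neg (D.simple i)) c * (sG ax i)⁻¹ = xG ax (D.simple i) (-c) := by
  have := (rel_simple h h2 ax hi).2 1 c one_ne_zero
  simpa [sG] using this

omit [Field F] in
lemma g_n_eq {F : Type*} [Field F] (ax : Ax D F) (i : ℕ) :
    sG ax i = xG ax (D.simple i) 1 * xG ax (D.neg (D.simple i)) (-1) * xG ax (D.simple i) 1 := by
  simp [sG, nG]

include h h2 hi in
lemma g_rel2 {a : F} (ha : a ≠ 0) :
    xG ax (D.neg (D.simple i)) a =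
      xG ax (D.simple i) a⁻¹ * hG ax (D.simple i) (-a⁻¹) * sG ax i * xG ax (D.simple i) a⁻¹ := by
  have R := rankOneRel h h2 ax (h.simple_lt i hi)
  have hi0 : -a⁻¹ ≠ 0 := neg_ne_zero.mpr (inv_ne_zero ha)
  have h1 := R.Y_eq hi0
  have h3 := R.W_eq (-a⁻¹)
  have e1 : -(-a⁻¹)⁻¹ = a := by simp
  have e2 : -(-a⁻¹) = a⁻¹ := by simp
  rw [e1, e2, h3] at h1
  refine h1.trans ?_
  change xG ax (D.simple i) a⁻¹ * (hG ax (D.simple i) (-a⁻¹) * sG ax i) * xG ax (D.simple i) a⁻¹ = _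
  group

include h h2 hi in
lemma g_rel {a : F} (ha : a ≠ 0) :
    xG ax (D.simple i) a * sG ax i =
      xG ax (D.neg (D.simple i)) a⁻¹ * hG ax (D.simple i) (-a) * xG ax (D.simple i) (-a⁻¹) := by
  have R := rankOneRel h h2 ax (h.simple_lt i hi)
  have hn : -a ≠ 0 := neg_ne_zero.mpr ha
  have h1 := g_rel2 h h2 ax hi (inv_ne_zero ha)
  rw [inv_inv] at h1
  have h3 := R.X_mul_H hn a
  have e3 : a / (-a) ^ 2 = a⁻¹ := by
    field_simp
  rw [e3] at h3
  change xG ax (D.simple i) a * hG ax (D.simple i) (-a) =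
    hG ax (D.simple i) (-a) * xG ax (D.simple i) a⁻¹ at h3
  have h4 : sG ax i * hG ax (D.simple i) (-a) = (hG ax (D.simple i) (-a))⁻¹ * sG ax i := by
    have h5 := R.W_mul_H one_ne_zero hn
    have h6 := R.W_eq (1 / (-a))
    have h7 := R.H_inv hn
    change sG ax i * hG ax (D.simple i) (-a) = nG ax (D.simple i) (1 / (-a)) at h5
    change nG ax (D.simple i) (1 / (-a)) = hG ax (D.simple i) (1 / (-a)) * sG ax i at h6
    change (hG ax (D.simple i) (-a))⁻¹ = hG ax (D.simple i) (-a)⁻¹ at h7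
    rw [h5, h6, h7, one_div]
  have e4 : -a⁻¹ = (-a)⁻¹ := by simp
  have e5 : xG ax (D.simple i) (-a⁻¹) = (xG ax (D.simple i) a⁻¹)⁻¹ := by
    rw [xG_inv]
  rw [e5, h1]
  set A := xG ax (D.simple i) a with hA
  set B := xG ax (D.simple i) a⁻¹ with hB
  set H' := hG ax (D.simple i) (-a) with hH'
  set S := sG ax i with hS
  calc A * S = A * H' * (H'⁻¹ * S) := by group
    _ = A * H' * (S * H') := by rw [h4]
    _ = A * H' * S * (H' * B) * B⁻¹ := by group
    _ = A * H' * S * (A * H') * B⁻¹ := by rw [← h3]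
    _ = A * H' * S * A * H' * B⁻¹ := by group

include h h2 hi in
lemma g_n_sq : sG ax i * sG ax i = hG ax (D.simple i) (-1) :=
  (rankOneRel h h2 ax (h.simple_lt i hi)).W_one_sq

include h h2 in
lemma g_hG_mul {r : ℕ} (hr : r < D.nroots) {a b : F} (ha : a ≠ 0) (hb : b ≠ 0) :
    hG ax r a * hG ax r b = hG ax r (a * b) :=
  (rankOneRel h h2 ax hr).H_mul a b ha hb

include h h2 in
lemma g_hG_one {r : ℕ} (hr : r < D.nroots) : hG ax r (1 : F) = 1 :=
  (rankOneRel h h2 ax hr).H_one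

include h h2 hi in
lemma g_n_comm {a : GL D.Idx F} (ha : a ∈ D.diagonalSubgroup F) :
    ∃ c : Fˣ, a * sG ax i * a⁻¹ = hG ax (D.simple i) c * sG ax i := by
  obtain ⟨y, rfl⟩ := exists_tor_of_mem ax h ha
  have H := isNor_tor h ax y
  have e := H.conj_nG h ax ⟨D.simple i, h.simple_lt i hi⟩ (one_ne_zero (α := F))
  refine ⟨chi D y (D.simple i), ?_⟩
  simp only [Equiv.Perm.coe_one, id_eq, mul_one] at e
  have e2 := nG_eq_hG_mul ax (D.simple i) (chi D y (D.simple i) : F)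
  rw [e2] at e
  exact e

end rank1

section radical

/-- The radical of the rank one parabolic. -/
abbrev Rad (D : ChevalleyDatum) (F : Type*) [Field F] (i : ℕ) : Subgroup (GL D.Idx F) :=
  D.unipotentRadical F {i}

variable {i : ℕ} (hi : i < D.rank)

include h h2 ax in
lemma Rad_le_U : Rad D F i ≤ D.posUnipotent F := radical_le_U h h2 ax {i}

include h h2 ax hi in
lemma Rad_conj {g : GL D.Idx F} (hg : g ∈ D.parabolicSubgroup F {i}) {a : GL D.Idx F} (ha : a ∈ Rad D F i) :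
    g * a * g⁻¹ ∈ Rad D F i := by
  have := parabolic_le_normalizer h h2 ax {i} hg
  rw [Subgroup.mem_normalizer_iff] at this
  exact (this a).mp ha

include h h2 ax hi in
lemma x_mem_parabolic (c : F) : xG ax (D.simple i) c ∈ D.parabolicSubgroup F {i} := by
  apply borel_le_parabolic h h2 ax
  apply (le_sup_left : D.posUnipotent F ≤ D.borelSubgroup F)
  rw [posUnipotent_eq ax]
  exact xG_mem_rootClosure ax (simple_isPos h hi) c

include h h2 ax hi in
lemma n_mem_parabolic : sG ax i ∈ D.parabolicSubgroup F {i} :=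
  simple_mem_parabolic h h2 ax hi rfl

include h h2 ax hi in
lemma pos_mem_Rad {r : ℕ} (hr : D.IsPosRoot r) (hne : r ≠ D.simple i) (t : F) : xG ax r t ∈ Rad D F i := by
  rw [Rad, unipotentRadical_eq h h2 ax]
  refine xG_mem_rootClosure ax ⟨hr, ?_⟩ t
  intro hn
  have hr0 := hr.1
  have h1 := (inRootSub_iff h hr0).mp hn
  have h0 : ∀ j, j < D.rank → j ≠ i → coef D r j = 0 := fun j hj hji => h1 j hj hji
  have h4 := h2.support r hr0 i hi h0
  have h5 : coef D r i = 1 := by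
    have := (isPosRoot_iff h hr0).mp hr i hi
    omega
  apply hne
  apply eq_of_coef_eq h hr0 (h.simple_lt i hi)
  intro j hj
  rw [h.coef_simple i hi j hj]
  by_cases hji : j = i
  · subst hji
    simp [h5]
  · simp [hji, h0 j hj hji]

include h h2 ax hi in
lemma U_dec {u : GL D.Idx F} (hu : u ∈ D.posUnipotent F) :
    ∃ c, ∃ a ∈ Rad D F i, u = xG ax (D.simple i) c * a := by
  rw [posUnipotent_eq ax] at hu
  refine rootClosure_induction ax (Q := fun u => ∃ c, ∃ a ∈ Rad D F i, u = xG ax (D.simple i) c * a)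
    ?_ ?_ ?_ hu
  · exact ⟨0, 1, Subgroup.one_mem _, by simp⟩
  · intro r t hr
    by_cases he : r = D.simple i
    · subst he
      exact ⟨t, 1, Subgroup.one_mem _, by simp⟩
    · exact ⟨0, _, pos_mem_Rad h h2 ax hi hr he t, by simp⟩
  · rintro _ _ ⟨c, a, ha, rfl⟩ ⟨c', a', ha', rfl⟩
    have hm := Rad_conj h h2 ax hi (x_mem_parabolic h h2 ax hi (-c')) ha
    rw [← xG_inv] at hm
    rw [inv_inv] at hm
    refine ⟨c + c', _, Subgroup.mul_mem _ hm ha', ?_⟩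
    rw [← xG_add]
    group

end radical

section monomial

variable {g : GL D.Idx F} (hg : g ∈ D.monomialSubgroup F)

include h h2 ax in
lemma up_x {π : Equiv.Perm (Fin D.nroots)} {c : Fin D.nroots → Fˣ} (H : IsNor h ax g π c)
    (hπ : π ∈ Wp h (Set.Iio D.rank)) {i : ℕ} (hi : i < D.rank) (hl : Nw D π < Nw D (wP h i * π)) (t : F) :
    g⁻¹ * xG ax (D.simple i) t * g ∈ D.posUnipotent F := by
  have hg1 : π⁻¹ ∈ Wp h (Set.Iio D.rank) := Subgroup.inv_mem _ hπ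
  have hp : D.IsPosRoot (π⁻¹ (sr h hi)) := by
    by_contra hn
    have h3 := Nw_mul_wP_lt h h2 ax hg1 hi hn
    have h5 : wP h i * π ∈ Wp h (Set.Iio D.rank) := Subgroup.mul_mem _ (wP_mem_W h hi) hπ
    have e1 : Nw D (π⁻¹ * wP h i) = Nw D (wP h i * π) := by
      rw [← Nw_inv h h2 ax h5, mul_inv_rev, wP_inv_eq' h i]
    rw [e1, Nw_inv h h2 ax hπ] at h3
    omega
  have e := H.inv.conj (sr h hi) t
  rw [inv_inv] at e
  rw [posUnipotent_eq ax]
  change g⁻¹ * xG ax (sr h hi) t * g ∈ _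
  rw [e]
  exact xG_mem_rootClosure ax hp _

include h h2 ax in
lemma up_y {π : Equiv.Perm (Fin D.nroots)} {c : Fin D.nroots → Fˣ} (H : IsNor h ax g π c)
    (hπ : π ∈ Wp h (Set.Iio D.rank)) {i : ℕ} (hi : i < D.rank) (hl : Nw D π < Nw D (π * wP h i)) (t : F) :
    g * xG ax (D.neg (D.simple i)) t * g⁻¹ ∈ D.negUnipotent F := by
  have hp : D.IsPosRoot (π (sr h hi)) := by
    by_contra hn
    have h3 := Nw_mul_wP_lt h h2 ax hπ hi hn
    omega
  have e := H.conj (negF h (sr h hi)) t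
  rw [H.neg] at e
  rw [negUnipotent_eq ax]
  change g * xG ax (negF h (sr h hi)) t * g⁻¹ ∈ _
  rw [e]
  exact xG_mem_rootClosure ax ((isNegRoot_neg h (π (sr h hi)).isLt).mpr hp) _

end monomial

include h h2 ax in
lemma H_le_mono : D.diagonalSubgroup F ≤ D.monomialSubgroup F := le_sup_left

section longest

variable (h3 : Tab3 D)

omit [Field F] in
include h in
lemma negF_negF' (s : Fin D.nroots) : negF h (negF h s) = s :=
  Fin.ext (h.neg_neg s s.isLt)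

include h2 ax h3 in
lemma w0_neg {s : Fin D.nroots} (hs : D.IsPosRoot s) : D.IsNegRoot (wPw h (w0Of D.nroots) s) := by
  rw [wPw_val h h3.w0_lt]
  exact isNeg_w0 h h2 ax h3 hs

include h3 in
lemma w0_mem : wPw h (w0Of D.nroots) ∈ Wp h (Set.Iio D.rank) :=
  (mem_Wp_iff h).mpr ⟨_, fun i hi => h3.w0_lt i hi, rfl⟩

include h h2 h3 in
lemma n0_conj_U {u : GL D.Idx F} (hu : u ∈ D.posUnipotent F) :
    (nw D ax (w0Of D.nroots))⁻¹ * u * nw D ax (w0Of D.nroots) ∈ D.negUnipotent F := by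
  rw [posUnipotent_eq ax] at hu
  obtain ⟨c, H⟩ := exists_isNor_nw h h2 ax (F := F) h3.w0_lt
  have := conj_mem_of_gen ax (P := D.IsPosRoot) (K := D.negUnipotent F) (g := (nw D ax (w0Of D.nroots))⁻¹)
    (fun r t hr => by
      have e := H.inv.conj ⟨r, hr.1⟩ t
      simp only at e
      rw [inv_inv] at e ⊢
      rw [e, negUnipotent_eq ax]
      apply xG_mem_rootClosure ax
      set s := (wPw h (w0Of D.nroots))⁻¹ ⟨r, hr.1⟩ with hs
      by_contra hn
      have hp : D.IsPosRoot s := by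
        by_contra hnp
        exact hn ((not_isPos_iff h s.isLt).mp hnp)
      have h5 := w0_neg h h2 ax h3 hp
      have e2 : wPw h (w0Of D.nroots) s = ⟨r, hr.1⟩ := by simp [hs]
      rw [e2] at h5
      exact not_isNeg_of_isPos h hr h5) hu
  rwa [inv_inv] at this

include h h2 h3 in
lemma n0_conj_V {u : GL D.Idx F} (hu : u ∈ D.negUnipotent F) :
    nw D ax (w0Of D.nroots) * u * (nw D ax (w0Of D.nroots))⁻¹ ∈ D.posUnipotent F := by
  rw [negUnipotent_eq ax] at hu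
  obtain ⟨c, H⟩ := exists_isNor_nw h h2 ax (F := F) h3.w0_lt
  refine conj_mem_of_gen ax (P := D.IsNegRoot) (K := D.posUnipotent F) (g := nw D ax (w0Of D.nroots))
    (fun r t hr => ?_) hu
  have e := H.conj ⟨r, hr.1⟩ t
  simp only at e
  rw [e, posUnipotent_eq ax]
  apply xG_mem_rootClosure ax
  have hp : D.IsPosRoot (negF h ⟨r, hr.1⟩) := (isPosRoot_neg h hr.1).mpr hr
  have h5 := w0_neg h h2 ax h3 hp
  rw [H.neg] at h5
  by_contra hn
  have h6 := (not_isPos_iff h (Fin.isLt _)).mp hn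
  have h7 : D.IsPosRoot (negF h (wPw h (w0Of D.nroots) ⟨r, hr.1⟩)) := (isPosRoot_neg h (Fin.isLt _)).mpr h6
  exact not_isNeg_of_isPos h h7 h5

include h h2 ax h3 in
lemma g_dec (g : ↥(D.group F)) :
    ∃ a ∈ D.negUnipotent F, ∃ m ∈ D.monomialSubgroup F, ∃ b ∈ D.posUnipotent F, (g : GL D.Idx F) = a * m * b := by
  set n₀ := nw D ax (w0Of D.nroots) with hn₀
  have hn₀m : n₀ ∈ D.monomialSubgroup F := nw_mem_monomial_aux h h2 ax h3.w0_lt
  have hg : n₀ * (g : GL D.Idx F) ∈ D.group F :=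
    Subgroup.mul_mem _ (monomial_le_group h ax hn₀m) g.2
  obtain ⟨m, hm, hc⟩ := bruhat_exists h h2 ax hg
  obtain ⟨b₁, hb₁, b₂, hb₂, e⟩ := mem_cell.mp hc
  obtain ⟨u₁, hu₁, a₁, ha₁, rfl⟩ := (mem_borel_iff ax h).mp hb₁
  obtain ⟨u₂, hu₂, a₂, ha₂, rfl⟩ := (mem_borel_iff ax h).mp hb₂
  refine ⟨n₀⁻¹ * u₁ * n₀, n0_conj_U h h2 ax h3 hu₁, n₀⁻¹ * a₁ * m * a₂,
    Subgroup.mul_mem _ (Subgroup.mul_mem _ (Subgroup.mul_mem _ (Subgroup.inv_mem _ hn₀m)
      (H_le_mono h h2 ax ha₁)) hm) (H_le_mono h h2 ax ha₂), a₂⁻¹ * u₂ * a₂, ?_, ?_⟩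
  · have := diagonal_conj_U ax h (Subgroup.inv_mem _ ha₂) hu₂
    simpa using this
  · have e2 : (g : GL D.Idx F) = n₀⁻¹ * (n₀ * g) := by group
    rw [e2, e]
    group

include h h2 in
/-- The relation of `h_{-p}` and `h_p`. -/
lemma hG_neg_simple {i : ℕ} (hi : i < D.rank) {t : F} (ht : t ≠ 0) :
    hG ax (D.neg (D.simple i)) t = hG ax (D.simple i) t⁻¹ := by
  have R := rankOneRel h h2 ax (h.simple_lt i hi)
  have h1 : (-1 : F) ≠ 0 := neg_ne_zero.mpr one_ne_zero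
  have e := R.W_mul_W (s := -t⁻¹) (s' := 1) (neg_ne_zero.mpr (inv_ne_zero ht)) one_ne_zero
  change nG ax (D.simple i) (-t⁻¹) * nG ax (D.simple i) 1 = hG ax (D.simple i) _ at e
  simp only [hG]
  rw [nG_neg_simple h h2 ax hi ht, nG_neg_simple h h2 ax hi h1]
  simp only [inv_neg, inv_one, neg_neg]
  simp only [div_one, neg_neg] at e
  rw [e]
  rfl

variable {σ : ℕ → ℕ} (hσl : ∀ i, i < D.rank → σ i < D.rank) (hσ2 : ∀ i, i < D.rank → σ (σ i) = i)
  (hσ : ∀ i (hi : i < D.rank), wPw h (w0Of D.nroots) (sr h hi) = negF h (sr h (hσl i hi)))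

include hσ2 hσ h2 ax h3 in
lemma w0_inv_sr {i : ℕ} (hi : i < D.rank) :
    (wPw h (w0Of D.nroots))⁻¹ (sr h hi) = negF h (sr h (hσl i hi)) := by
  rw [Equiv.Perm.inv_eq_iff_eq, W_neg h h2 ax (w0_mem h h3), hσ, negF_negF' h]
  have := hσ2 i hi
  apply Fin.ext
  simp [sr, this]

include hσ2 hσ h2 h3 in
lemma n0_conj_x {i : ℕ} (hi : i < D.rank) (t : F) :
    ∃ c', (nw D ax (w0Of D.nroots))⁻¹ * xG ax (D.simple i) t * nw D ax (w0Of D.nroots) =
      xG ax (D.neg (D.simple (σ i))) c' := by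
  obtain ⟨c, H⟩ := exists_isNor_nw h h2 ax (F := F) h3.w0_lt
  have e := H.inv.conj (sr h hi) t
  rw [inv_inv, w0_inv_sr h h2 ax h3 hσl hσ2 hσ hi] at e
  exact ⟨_, e⟩

include hσ2 hσ h2 h3 in
lemma n0_conj_y {i : ℕ} (hi : i < D.rank) (t : F) :
    ∃ c', (nw D ax (w0Of D.nroots))⁻¹ * xG ax (D.neg (D.simple i)) t * nw D ax (w0Of D.nroots) =
      xG ax (D.simple (σ i)) c' := by
  obtain ⟨c, H⟩ := exists_isNor_nw h h2 ax (F := F) h3.w0_lt
  have e := H.inv.conj (negF h (sr h hi)) t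
  rw [inv_inv, W_neg h h2 ax (Subgroup.inv_mem _ (w0_mem h h3)), w0_inv_sr h h2 ax h3 hσl hσ2 hσ hi,
    negF_negF' h] at e
  exact ⟨_, e⟩

include hσ h2 h3 in
lemma n0_conj_hh {i : ℕ} (hi : i < D.rank) (hs : σ i < D.rank) (hss : σ (σ i) = i) (t : Fˣ) :
    ∃ c' : Fˣ, nw D ax (w0Of D.nroots) * hG ax (D.simple (σ i)) (t : F) * (nw D ax (w0Of D.nroots))⁻¹ =
      hG ax (D.simple i) (c' : F) := by
  obtain ⟨c, H⟩ := exists_isNor_nw h h2 ax (F := F) h3.w0_lt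
  have e := H.conj_hG h ax (sr h hs) t.ne_zero
  have e1 : wPw h (w0Of D.nroots) (sr h hs) = negF h (sr h hi) := by
    rw [hσ]
    congr 1
    apply Fin.ext
    simp [sr, hss]
  rw [e1] at e
  change _ * hG ax (D.simple (σ i)) (t : F) * _ = hG ax (D.neg (D.simple i)) _ * (hG ax (D.neg (D.simple i)) _)⁻¹ at e
  have hc0 : ((c (sr h hs) : Fˣ) : F) ≠ 0 := (c (sr h hs)).ne_zero
  rw [hG_neg_simple h h2 ax hi (mul_ne_zero hc0 t.ne_zero), hG_neg_simple h h2 ax hi hc0] at e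
  refine ⟨t⁻¹, e.trans ?_⟩
  have R := g_hG_mul h h2 ax (h.simple_lt i hi) (Units.ne_zero t⁻¹) (inv_ne_zero hc0)
  have e3 : (((c (sr h hs) : Fˣ) : F) * (t : F))⁻¹ = ((t⁻¹ : Fˣ) : F) * ((c (sr h hs) : Fˣ) : F)⁻¹ := by
    rw [Units.val_inv_eq_inv_val, mul_inv, mul_comm]
  rw [e3, ← R]
  group

end longest

end Cfsg.Agent.Lib.KS71.CRi
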