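/-
The split `BN`-pair data of a Chevalley group in which the longest element of the Weyl group acts
as `-1`.
-/
import Mathlib
import Cfsg.Agent.Lib.KS71.CRi

set_option autoImplicit false
set_option linter.unusedSectionVars false
set_option linter.unusedVariables false
set_option linter.style.haveILetI false

namespace Cfsg.Agent.Lib.KS71.CRj

open Cfsg Cfsg.Lie Cfsg.Lie.ChevalleyDatum
open Cfsg.Agent.Lib.Chev.Tables Cfsg.Agent.Lib.Chev.Tables2 Cfsg.Agent.Lib.Chev.Tables3 Cfsg.Agent.Lib.Chev.Raise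
open Cfsg.Agent.Lib.Chev.Basic Cfsg.Agent.Lib.Chev.AxBasic Cfsg.Agent.Lib.Chev.Torus
open Cfsg.Agent.Lib.Chev.Products Cfsg.Agent.Lib.Chev.Products2 Cfsg.Agent.Lib.Chev.Mono1
open Cfsg.Agent.Lib.Chev.Mono2 Cfsg.Agent.Lib.Chev.Mono3 Cfsg.Agent.Lib.Chev.Bn
open Cfsg.Agent.Lib.Chev.Order1 Cfsg.Agent.Lib.Chev.Order2 Cfsg.Agent.Lib.Chev.Parab
open Cfsg.Agent.Lib.KS71.StWeyl Cfsg.Agent.Lib.KS71.StCell Cfsg.Agent.Lib.KS71.StUnip
open Cfsg.Agent.Lib.Chev.SL2 Cfsg.Agent.Lib.Chev.SL2Chev Cfsg.Agent.Lib.KS71.HeckeD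
open Cfsg.Agent.Lib.KS71.CRa Cfsg.Agent.Lib.KS71.CRi

variable {D : ChevalleyDatum} {F : Type*} [Field F]
variable (h : Tab D) (h2 : Tab2 D) (ax : Ax D F)

/-- The torus elements attached to a fundamental root. -/
noncomputable def hhom (h : Tab D) (h2 : Tab2 D) (ax : Ax D F) (i : Fin D.rank) :
    Fˣ →* ((D.diagonalSubgroup F).subgroupOf (D.group F)) where
  toFun c := ⟨⟨hG ax (D.simple i) c, hG_mem_group h ax (h.simple_lt i i.2) _⟩,
    Subgroup.mem_subgroupOf.mpr (hG_mem_diagonal ax (h.simple_lt i i.2) c.ne_zero)⟩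
  map_one' := Subtype.ext (Subtype.ext (g_hG_one h h2 ax (h.simple_lt i i.2)))
  map_mul' a b := Subtype.ext (Subtype.ext (by
    have := g_hG_mul h h2 ax (h.simple_lt i i.2) a.ne_zero b.ne_zero
    simpa using this.symm))

lemma tau_eq_of_isNor {g : ↥(D.group F)} (hg : (g : GL D.Idx F) ∈ D.monomialSubgroup F)
    {π : Equiv.Perm (Fin D.nroots)} {c : Fin D.nroots → Fˣ} (H : IsNor h ax g π c) : tau h h2 ax g = π := by
  rw [tau_eq_of_cell h h2 ax hg (self_mem_cell _)]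
  exact piN_of_isNor h h2 ax (g := ⟨g, hg⟩) H

lemma tau_mul_N {g g' : ↥(D.group F)} (hg : (g : GL D.Idx F) ∈ D.monomialSubgroup F)
    (hg' : (g' : GL D.Idx F) ∈ D.monomialSubgroup F) : tau h h2 ax (g * g') = tau h h2 ax g * tau h h2 ax g' := by
  have hm : ((g * g' : ↥(D.group F)) : GL D.Idx F) ∈ D.monomialSubgroup F := Subgroup.mul_mem _ hg hg'
  rw [tau_eq_of_cell h h2 ax hg (self_mem_cell _), tau_eq_of_cell h h2 ax hg' (self_mem_cell _),
    tau_eq_of_cell h h2 ax hm (self_mem_cell _), ← map_mul]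
  rfl

lemma tau_sG {i : ℕ} (hi : i < D.rank) {g : ↥(D.group F)} (hg : (g : GL D.Idx F) = sG ax i) :
    tau h h2 ax g = wP h i := by
  have hl : ∀ k ∈ [i], k < D.rank := by
    intro k hk
    have e : k = i := by simpa using hk
    rw [e]
    exact hi
  have e : nw D ax [i] = sG ax i := by simp [nw]
  have := tau_eq_wPw h h2 ax hl (g := g) (by rw [e, hg]; exact self_mem_cell _)
  rw [this]
  simp [wPw]

include h2 ax in
lemma exists_desc {w : Equiv.Perm (Fin D.nroots)} (hw : w ∈ Wp h (Set.Iio D.rank)) (hne : w ≠ 1) :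
    ∃ i, ∃ hi : i < D.rank, Nw D (w * wP h i) < Nw D w := by
  by_contra hno
  push Not at hno
  apply hne
  refine eq_one_of_PosOn h h2 ax (J := Set.Iio D.rank) (fun j hj => hj) hw ?_
  intro k hk _
  by_contra hn
  have := Nw_mul_wP_lt h h2 ax hw hk hn
  have := hno k hk
  omega

include h h2 in
lemma n_mem_mono {i : ℕ} (hi : i < D.rank) : sG ax i ∈ D.monomialSubgroup F := by
  have := nw_mem_monomial_aux h h2 ax (F := F) (l := [i]) (by simpa using hi)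
  simpa [nw] using this

variable [Fintype F]

include h h2 ax in
lemma pg_U (p : ℕ) [hp : Fact p.Prime] [CharP F p] : IsPGroup p ((D.posUnipotent F).subgroupOf (D.group F)) := by
  have e := Subgroup.subgroupOfEquivOfLe (U_le_group h ax)
  obtain ⟨n, -, hn⟩ := FiniteField.card F p
  apply IsPGroup.of_card (n := n * (D.nroots / 2))
  rw [Nat.card_congr e.toEquiv, card_U ax h h2, hn, pow_mul]

/-- The data. -/
noncomputable def sd (p : ℕ) [hp : Fact p.Prime] [CharP F p] (h : Tab D) (h2 : Tab2 D) (ax : Ax D F)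
    (h3 : Tab3 D) (σ : ℕ → ℕ) (hσl : ∀ i, i < D.rank → σ i < D.rank) (hσ2 : ∀ i, i < D.rank → σ (σ i) = i)
    (hσ : ∀ i (hi : i < D.rank), wPw h (w0Of D.nroots) (sr h hi) = negF h (sr h (hσl i hi))) :
    SD p ↥(D.group F) ↥(Wp h (Set.Iio D.rank)) (Fin D.rank) F where
  U := (D.posUnipotent F).subgroupOf (D.group F)
  H := (D.diagonalSubgroup F).subgroupOf (D.group F)
  Um := (D.negUnipotent F).subgroupOf (D.group F)
  N := (D.monomialSubgroup F).subgroupOf (D.group F)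
  l w := Nw D w.1
  s i := ⟨wP h i, wP_mem_W h i.2⟩
  τ g := ⟨tau h h2 ax g, tau_mem h h2 ax g⟩
  x i c := ⟨xG ax (D.simple i) c, xG_mem_group ax (h.simple_lt i i.2) c⟩
  y i c := ⟨xG ax (D.neg (D.simple i)) c, xG_mem_group ax (h.neg_lt _ (h.simple_lt i i.2)) c⟩
  n i := ⟨sG ax i, nG_mem_group h ax (h.simple_lt i i.2) 1⟩
  hh := hhom h h2 ax
  Ui i := (Rad D F i).subgroupOf (D.group F)
  n₀ := ⟨nw D ax (w0Of D.nroots), monomial_le_group h ax (nw_mem_monomial_aux h h2 ax h3.w0_lt)⟩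
  hU := pg_U h h2 ax p
  hUm := by
    rintro ⟨g, hg⟩
    have hg' := Subgroup.mem_subgroupOf.mp hg
    set n₀' : ↥(D.group F) := ⟨nw D ax (w0Of D.nroots), monomial_le_group h ax (nw_mem_monomial_aux h h2 ax h3.w0_lt)⟩ with hn₀'
    have hm : n₀' * g * n₀'⁻¹ ∈ (D.posUnipotent F).subgroupOf (D.group F) :=
      Subgroup.mem_subgroupOf.mpr (n0_conj_V h h2 ax h3 hg')
    obtain ⟨k, hk⟩ := pg_U h h2 ax p ⟨_, hm⟩
    refine ⟨k, Subtype.ext ?_⟩
    have h4 := congrArg Subtype.val hk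
    change (n₀' * g * n₀'⁻¹) ^ p ^ k = 1 at h4
    rw [conj_pow, mul_inv_eq_one, mul_eq_left] at h4
    exact h4
  x_mem i c := Subgroup.mem_subgroupOf.mpr (by
    rw [posUnipotent_eq ax]
    exact xG_mem_rootClosure ax (simple_isPos h i.2) c)
  x_add i c d := Subtype.ext (xG_add ax _ c d).symm
  y_mem i c := Subgroup.mem_subgroupOf.mpr (by
    rw [negUnipotent_eq ax]
    exact xG_mem_rootClosure ax ((isNegRoot_neg h (h.simple_lt i i.2)).mpr (simple_isPos h i.2)) c)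
  n_mem i := Subgroup.mem_subgroupOf.mpr (n_mem_mono h h2 ax i.2)
  n_x i c := Subtype.ext (g_n_x h h2 ax i.2 c)
  n_y i c := Subtype.ext (g_n_y h h2 ax i.2 c)
  n_eq i := Subtype.ext (g_n_eq ax i)
  rel i c := Subtype.ext (by
    have := g_rel h h2 ax i.2 c.ne_zero
    have e1 : ((c⁻¹ : Fˣ) : F) = (c : F)⁻¹ := Units.val_inv_eq_inv_val c
    have e2 : ((-c : Fˣ) : F) = -(c : F) := Units.val_neg c
    change xG ax (D.simple i) (c : F) * sG ax i = xG ax (D.neg (D.simple i)) ((c⁻¹ : Fˣ) : F) *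
      hG ax (D.simple i) ((-c : Fˣ) : F) * xG ax (D.simple i) (-((c⁻¹ : Fˣ) : F))
    rw [e1, e2]
    exact this)
  rel2 i c := Subtype.ext (by
    have := g_rel2 h h2 ax i.2 c.ne_zero
    have e1 : ((c⁻¹ : Fˣ) : F) = (c : F)⁻¹ := Units.val_inv_eq_inv_val c
    have e2 : ((-(c⁻¹) : Fˣ) : F) = -(c : F)⁻¹ := by rw [Units.val_neg, e1]
    change xG ax (D.neg (D.simple i)) (c : F) = xG ax (D.simple i) ((c⁻¹ : Fˣ) : F) *
      hG ax (D.simple i) ((-(c⁻¹) : Fˣ) : F) * sG ax i * xG ax (D.simple i) ((c⁻¹ : Fˣ) : F)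
    rw [e1, e2]
    exact this)
  n_comm i a ha := by
    obtain ⟨c, hc⟩ := g_n_comm h h2 ax i.2 (Subgroup.mem_subgroupOf.mp ha)
    exact ⟨c, Subtype.ext hc⟩
  n_sq i := Subtype.ext (by
    have := g_n_sq h h2 ax i.2
    have e2 : ((-1 : Fˣ) : F) = -1 := by simp
    change sG ax i * sG ax i = hG ax (D.simple i) ((-1 : Fˣ) : F)
    rw [e2]
    exact this)
  Ui_le i := fun u hu => Subgroup.mem_subgroupOf.mpr (Rad_le_U h h2 ax (Subgroup.mem_subgroupOf.mp hu))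
  U_dec i u hu := by
    obtain ⟨c, a, ha, e⟩ := U_dec h h2 ax i.2 (Subgroup.mem_subgroupOf.mp hu)
    have hag : a ∈ D.group F := by
      have e2 : a = (xG ax (D.simple i) c)⁻¹ * (u : GL D.Idx F) := by rw [e]; group
      rw [e2]
      exact Subgroup.mul_mem _ (Subgroup.inv_mem _ (xG_mem_group ax (h.simple_lt i i.2) c)) u.2
    exact ⟨c, ⟨a, hag⟩, Subgroup.mem_subgroupOf.mpr ha, Subtype.ext e⟩
  Ui_x i c a ha := Subgroup.mem_subgroupOf.mpr
    (Rad_conj h h2 ax i.2 (x_mem_parabolic h h2 ax i.2 c) (Subgroup.mem_subgroupOf.mp ha))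
  Ui_n i a ha := Subgroup.mem_subgroupOf.mpr
    (Rad_conj h h2 ax i.2 (n_mem_parabolic h h2 ax i.2) (Subgroup.mem_subgroupOf.mp ha))
  Ui_n' i a ha := Subgroup.mem_subgroupOf.mpr (by
    have := Rad_conj h h2 ax i.2 (Subgroup.inv_mem _ (n_mem_parabolic h h2 ax i.2)) (Subgroup.mem_subgroupOf.mp ha)
    rwa [inv_inv] at this)
  H_le_N := fun a ha => Subgroup.mem_subgroupOf.mpr (H_le_mono h h2 ax (Subgroup.mem_subgroupOf.mp ha))
  H_U a ha u hu := Subgroup.mem_subgroupOf.mpr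
    (diagonal_conj_U ax h (Subgroup.mem_subgroupOf.mp ha) (Subgroup.mem_subgroupOf.mp hu))
  H_comm a ha b hb := Subtype.ext
    (diagonal_comm ax h (Subgroup.mem_subgroupOf.mp ha) (Subgroup.mem_subgroupOf.mp hb))
  N_H g hg a ha := Subgroup.mem_subgroupOf.mpr (by
    obtain ⟨π, c, H⟩ := exists_isNor h h2 ax (Subgroup.mem_subgroupOf.mp hg)
    exact H.conj_mem_H h ax (Subgroup.mem_subgroupOf.mp ha))
  U_H u hu hu' := by
    have : (u : GL D.Idx F) ∈ D.posUnipotent F ⊓ D.diagonalSubgroup F :=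
      ⟨Subgroup.mem_subgroupOf.mp hu, Subgroup.mem_subgroupOf.mp hu'⟩
    rw [U_inf_H ax h, Subgroup.mem_bot] at this
    exact Subtype.ext this
  H_pow a ha := Subtype.ext (by
    obtain ⟨y, hy⟩ := exists_tor_of_mem ax h (Subgroup.mem_subgroupOf.mp ha)
    change (a : GL D.Idx F) ^ Fintype.card F = a
    rw [hy]
    have e : (tor D y : GL D.Idx F) ^ Fintype.card F = tor D (y ^ Fintype.card F) :=
      (map_pow (torHom D (F := F)) y _).symm
    rw [e]
    congr 1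
    funext k
    apply Units.ext
    simp [FiniteField.pow_card])
  τ_U_left u hu g := Subtype.ext (tau_mul_left h h2 ax
    (mem_BG.mpr ((le_sup_left : D.posUnipotent F ≤ D.borelSubgroup F) (Subgroup.mem_subgroupOf.mp hu))) g)
  τ_U_right u hu g := Subtype.ext (tau_mul_right h h2 ax
    (mem_BG.mpr ((le_sup_left : D.posUnipotent F ≤ D.borelSubgroup F) (Subgroup.mem_subgroupOf.mp hu))) g)
  τ_H_left u hu g := Subtype.ext (tau_mul_left h h2 ax
    (mem_BG.mpr ((le_sup_right : D.diagonalSubgroup F ≤ D.borelSubgroup F) (Subgroup.mem_subgroupOf.mp hu))) g)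
  τ_N_mul g hg g' hg' := Subtype.ext (tau_mul_N h h2 ax (Subgroup.mem_subgroupOf.mp hg) (Subgroup.mem_subgroupOf.mp hg'))
  τ_N_ker g hg e := Subgroup.mem_subgroupOf.mpr (by
    have h4 : (g : GL D.Idx F) ∈ D.borelSubgroup F :=
      mem_BG.mp (mem_BG_of_tau h h2 ax (congrArg Subtype.val e))
    have h5 : (g : GL D.Idx F) ∈ D.borelSubgroup F ⊓ D.monomialSubgroup F := ⟨h4, Subgroup.mem_subgroupOf.mp hg⟩
    rwa [borel_inf_monomial h h2 ax] at h5)
  τ_n i := Subtype.ext (tau_sG h h2 ax i.2 rfl)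
  s_sq i := Subtype.ext (wP_mul_self h i)
  l_left i w := by
    have := Nw_step_left h h2 ax w.2 i.2
    change Nw D w.1 < Nw D (wP h i * w.1) ∨ Nw D (wP h i * w.1) < Nw D w.1
    omega
  l_right i w := by
    have := Nw_step h h2 ax w.2 i.2
    change Nw D w.1 < Nw D (w.1 * wP h i) ∨ Nw D (w.1 * wP h i) < Nw D w.1
    omega
  l_desc w hw := by
    obtain ⟨i, hi, e⟩ := exists_desc h h2 ax w.2 (fun e => hw (Subtype.ext e))
    exact ⟨⟨i, hi⟩, e⟩
  l_zero w e := Subtype.ext (eq_one_of_Nw_eq_zero h h2 ax w.2 e)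
  up_x g hg i c hl := Subgroup.mem_subgroupOf.mpr (by
    have hg' := Subgroup.mem_subgroupOf.mp hg
    obtain ⟨π, cc, H⟩ := exists_isNor h h2 ax hg'
    have e := tau_eq_of_isNor h h2 ax hg' H
    have hπ : π ∈ Wp h (Set.Iio D.rank) := e ▸ tau_mem h h2 ax g
    refine up_x h h2 ax H hπ i.2 ?_ c
    change Nw D (tau h h2 ax g) < Nw D (wP h i * tau h h2 ax g) at hl
    rwa [e] at hl)
  up_y g hg i c hl := Subgroup.mem_subgroupOf.mpr (by
    have hg' := Subgroup.mem_subgroupOf.mp hg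
    obtain ⟨π, cc, H⟩ := exists_isNor h h2 ax hg'
    have e := tau_eq_of_isNor h h2 ax hg' H
    have hπ : π ∈ Wp h (Set.Iio D.rank) := e ▸ tau_mem h h2 ax g
    refine up_y h h2 ax H hπ i.2 ?_ c
    change Nw D (tau h h2 ax g) < Nw D (tau h h2 ax g * wP h i) at hl
    rwa [e] at hl)
  dec g := by
    obtain ⟨a, ha, m, hm, b, hb, e⟩ := g_dec h h2 ax h3 g
    exact ⟨⟨a, V_le_group h ax ha⟩, Subgroup.mem_subgroupOf.mpr ha, ⟨m, monomial_le_group h ax hm⟩,
      Subgroup.mem_subgroupOf.mpr hm, ⟨b, U_le_group h ax hb⟩, Subgroup.mem_subgroupOf.mpr hb, Subtype.ext e⟩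
  n₀_N := Subgroup.mem_subgroupOf.mpr (nw_mem_monomial_aux h h2 ax h3.w0_lt)
  σ i := ⟨σ i, hσl i i.2⟩
  σ_inj a b e := by
    have e1 : σ a = σ b := congrArg Fin.val e
    apply Fin.ext
    rw [← hσ2 a a.2, e1, hσ2 b b.2]
  n₀_x i c := by
    obtain ⟨c', hc⟩ := n0_conj_x h h2 ax h3 hσl hσ2 hσ i.2 c
    exact ⟨c', Subtype.ext hc⟩
  n₀_y i c := by
    obtain ⟨c', hc⟩ := n0_conj_y h h2 ax h3 hσl hσ2 hσ i.2 c
    exact ⟨c', Subtype.ext hc⟩
  n₀_hh i c := by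
    obtain ⟨c', hc⟩ := n0_conj_hh h h2 ax h3 hσl hσ i.2 (hσl i i.2) (hσ2 i i.2) c
    exact ⟨c', Subtype.ext hc⟩
  n₀_U u hu := Subgroup.mem_subgroupOf.mpr (n0_conj_U h h2 ax h3 (Subgroup.mem_subgroupOf.mp hu))
  n₀_Um u hu := Subgroup.mem_subgroupOf.mpr (n0_conj_V h h2 ax h3 (Subgroup.mem_subgroupOf.mp hu))

end Cfsg.Agent.Lib.KS71.CRj
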