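/-
The number of admissible data when the group `H` is a product of copies of the multiplicative group
through the maps `h_t`.
-/
import Mathlib
import Cfsg.Agent.Lib.KS71.CRf

set_option autoImplicit false
set_option linter.unusedSectionVars false
set_option linter.unusedVariables false
set_option linter.style.haveILetI false

namespace Cfsg.Agent.Lib.KS71.CRk

open scoped Classical
open Cfsg.Agent.Lib.KS71.CRa Cfsg.Agent.Lib.KS71.CRf

universe u

section count

variable (F : Type*) [Field F] [Fintype F]

lemma card_hom : Nat.card (Fˣ →* Fˣ) = Fintype.card F - 1 := by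
  obtain ⟨g, hg⟩ := IsCyclic.exists_generator (α := Fˣ)
  have hord : orderOf g = Nat.card Fˣ := orderOf_eq_card_of_forall_mem_zpowers hg
  have e : (Fˣ →* Fˣ) ≃ Fˣ := Equiv.ofBijective (fun χ : Fˣ →* Fˣ => χ g) ⟨by
    intro χ χ' he
    ext x
    obtain ⟨k, rfl⟩ := Subgroup.mem_zpowers_iff.mp (hg x)
    have he' : χ g = χ' g := he
    simp [map_zpow, he'], by
    intro t
    have hdvd : orderOf t ∣ orderOf g := by
      rw [hord]
      exact orderOf_dvd_natCard t
    exact ⟨monoidHomOfForallMemZpowers hg hdvd, monoidHomOfForallMemZpowers_apply_gen hg hdvd⟩⟩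
  rw [Nat.card_congr e, Nat.card_eq_fintype_card, Fintype.card_units]

/-- The local data. -/
abbrev XX : Type _ := {x : (Fˣ →* Fˣ) × Bool // x.2 = true → x.1 = 1}

lemma card_XX : Nat.card (XX F) = Fintype.card F := by
  have e : XX F ≃ Option (Fˣ →* Fˣ) :=
    { toFun := fun x => if x.1.2 = true then none else some x.1.1
      invFun := fun o => match o with
        | none => ⟨(1, true), fun _ => rfl⟩
        | some χ => ⟨(χ, false), fun h => by simp at h⟩
      left_inv := by
        rintro ⟨⟨χ, b⟩, hb⟩
        cases b with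
        | true =>
          have : χ = 1 := hb rfl
          subst this
          simp
        | false => simp
      right_inv := by
        intro o
        cases o <;> simp }
  rw [Nat.card_congr e, Finite.card_option, card_hom]
  have : 1 ≤ Fintype.card F := Fintype.card_pos
  omega

end count

variable {p : ℕ} {G : Type u} [Group G] [Fintype G] {W ι : Type*} [Group W] {F : Type u} [Field F] [Fintype F]
  {S : SD p G W ι F} [Fintype ι]

/-- A hom from a product. -/
noncomputable def piHom (f : ι → (Fˣ →* Fˣ)) : (ι → Fˣ) →* Fˣ where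
  toFun c := ∏ i, f i (c i)
  map_one' := by simp
  map_mul' a b := by
    simp [Finset.prod_mul_distrib]

lemma piHom_single (f : ι → (Fˣ →* Fˣ)) (i : ι) (t : Fˣ) : piHom f (Pi.mulSingle i t) = f i t := by
  change ∏ k, f k ((Pi.mulSingle i t : ι → Fˣ) k) = _
  rw [Finset.prod_eq_single i]
  · simp
  · intro k _ hk
    simp [Pi.mulSingle_eq_of_ne hk]
  · simp

/-- A character of a product is determined by its factors. -/
lemma eq_prod_single {A : Type*} [CommGroup A] (χ : (ι → Fˣ) →* A) (c : ι → Fˣ) :
    χ c = ∏ i, χ (Pi.mulSingle i (c i)) := by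
  rw [← map_prod]
  congr 1
  exact (Finset.univ_prod_mulSingle c).symm

/-- The data in terms of the factors. -/
noncomputable def datEquiv (Ψ : (ι → Fˣ) ≃* S.H) (hΨ : ∀ i t, Ψ (Pi.mulSingle i t) = S.hh i t) :
    Dat S ≃ (ι → XX F) where
  toFun d i := ⟨(d.1.1.comp (S.hh i), d.1.2 i), d.2 i⟩
  invFun f := ⟨((piHom fun i => (f i).1.1).comp Ψ.symm.toMonoidHom, fun i => (f i).1.2), by
    intro i hi
    have h1 : (f i).1.1 = 1 := (f i).2 hi
    ext t
    simp only [MonoidHom.comp_apply, MulEquiv.coe_toMonoidHom, MonoidHom.one_apply, Units.val_one]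
    rw [← hΨ, MulEquiv.symm_apply_apply, piHom_single, h1]
    simp⟩
  left_inv := by
    rintro ⟨⟨μ, b⟩, hd⟩
    apply Subtype.ext
    simp only
    refine Prod.ext ?_ rfl
    ext h
    simp only [MonoidHom.comp_apply, MulEquiv.coe_toMonoidHom]
    obtain ⟨c, rfl⟩ := Ψ.surjective h
    rw [MulEquiv.symm_apply_apply]
    have e := eq_prod_single (μ.comp Ψ.toMonoidHom) c
    simp only [MonoidHom.comp_apply, MulEquiv.coe_toMonoidHom] at e
    rw [e]
    change ((∏ i, μ (S.hh i (c i)) : Fˣ) : F) = _
    congr 1
    refine Finset.prod_congr rfl fun i _ => ?_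
    rw [hΨ]
  right_inv := by
    intro f
    funext i
    apply Subtype.ext
    simp only
    refine Prod.ext ?_ rfl
    ext t
    simp only [MonoidHom.comp_apply, MulEquiv.coe_toMonoidHom]
    rw [← hΨ, MulEquiv.symm_apply_apply, piHom_single]

theorem card_dat (Ψ : (ι → Fˣ) ≃* S.H) (hΨ : ∀ i t, Ψ (Pi.mulSingle i t) = S.hh i t) :
    Fintype.card (Dat S) = Fintype.card F ^ Fintype.card ι := by
  rw [← Nat.card_eq_fintype_card, Nat.card_congr (datEquiv Ψ hΨ), Nat.card_fun, card_XX, Nat.card_eq_fintype_card (α := ι)]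

end Cfsg.Agent.Lib.KS71.CRk
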