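/-
A word in the `n_t`, `t ∈ J`, lying in `H`, lies in the torus generated by the `h_t(c)`, `t ∈ J`.
-/
import Mathlib
import Cfsg.Agent.Lib.KS71.CRi
import Cfsg.Agent.Lib.Chev.Diag

set_option autoImplicit false
set_option linter.unusedSectionVars false
set_option linter.unusedVariables false
set_option linter.style.haveILetI false

namespace Cfsg.Agent.Lib.KS71.CRo

open Cfsg Cfsg.Lie Cfsg.Lie.ChevalleyDatum
open Cfsg.Agent.Lib.Chev.Tables Cfsg.Agent.Lib.Chev.Tables2 Cfsg.Agent.Lib.Chev.Tables3 Cfsg.Agent.Lib.Chev.Raise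
open Cfsg.Agent.Lib.Chev.Basic Cfsg.Agent.Lib.Chev.AxBasic Cfsg.Agent.Lib.Chev.Torus
open Cfsg.Agent.Lib.Chev.Products Cfsg.Agent.Lib.Chev.Products2 Cfsg.Agent.Lib.Chev.Mono1
open Cfsg.Agent.Lib.Chev.Mono2 Cfsg.Agent.Lib.Chev.Mono3 Cfsg.Agent.Lib.Chev.Bn
open Cfsg.Agent.Lib.Chev.Order1 Cfsg.Agent.Lib.Chev.Order2 Cfsg.Agent.Lib.Chev.Parab
open Cfsg.Agent.Lib.Chev.Diag Cfsg.Agent.Lib.KS71.CRi

variable {D : ChevalleyDatum} {F : Type*} [Field F]
variable (h : Tab D) (h2 : Tab2 D) (ax : Ax D F)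

/-- The torus of a set of fundamental roots. -/
def Ht (ax : Ax D F) (J : Set ℕ) : Subgroup (GL D.Idx F) :=
  Subgroup.closure {g | ∃ t ∈ J, t < D.rank ∧ ∃ c : Fˣ, g = hG ax (D.simple t) (c : F)}

variable {J : Set ℕ}

lemma hG_mem_Ht {t : ℕ} (ht : t ∈ J) (hr : t < D.rank) (c : Fˣ) : hG ax (D.simple t) (c : F) ∈ Ht ax J :=
  Subgroup.subset_closure ⟨t, ht, hr, c, rfl⟩

include h h2 in
lemma tor_psi_mem_Ht (c : ℕ → Fˣ) (hc : ∀ i, i < D.rank → i ∉ J → c i = 1) :
    tor D (psi D c) ∈ Ht ax J := by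
  have key : ∀ L : List ℕ, (∀ i ∈ L, i < D.rank) →
      tor D ((L.map fun i => hW D (D.simple i) (c i)).prod) ∈ Ht ax J := by
    intro L
    induction L with
    | nil =>
      intro _
      simp only [List.map_nil, List.prod_nil, tor_one]
      exact Subgroup.one_mem _
    | cons a L ih =>
      intro hL
      have ha := hL a (List.mem_cons_self)
      simp only [List.map_cons, List.prod_cons]
      rw [tor_mul, ← hG_eq_tor ax h (h.simple_lt a ha)]
      refine Subgroup.mul_mem _ ?_ (ih (fun i hi => hL i (List.mem_cons_of_mem _ hi)))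
      by_cases haJ : a ∈ J
      · exact hG_mem_Ht ax haJ ha _
      · rw [hc a ha haJ, Units.val_one, g_hG_one h h2 ax (h.simple_lt a ha)]
        exact Subgroup.one_mem _
  exact key _ (fun i hi => List.mem_range.mp hi)

include h h2 in
lemma hG_root_mem_Ht {r : ℕ} (hr : r < D.nroots) (hJ : ∀ m, m < D.rank → m ∉ J → coef D r m = 0) (u : Fˣ) :
    hG ax r (u : F) ∈ Ht ax J := by
  rw [hG_eq_tor_psi h h2 ax hr]
  apply tor_psi_mem_Ht h h2 ax
  intro i hi hiJ
  have h3 := h.coroot_sign r hr i hi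
  rw [hJ i hi hiJ] at h3
  have h4 : (D.coroot.getD r #[]).getD i 0 = 0 := by
    rw [← Int.sign_eq_zero_iff_zero, h3]
    rfl
  rw [h4, zpow_zero]

include h h2 in
lemma sG_conj_Ht {t : ℕ} (ht : t ∈ J) (hr : t < D.rank) {a : GL D.Idx F} (ha : a ∈ Ht ax J) :
    sG ax t * a * (sG ax t)⁻¹ ∈ Ht ax J := by
  induction ha using Subgroup.closure_induction with
  | mem x hx =>
    obtain ⟨k, hk, hkr, c, rfl⟩ := hx
    obtain ⟨c₀, H⟩ := exists_isNor_sG h ax h2 (F := F) hr
    have hs : D.simple k < D.nroots := h.simple_lt k hkr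
    have e := H.conj_hG h ax ⟨D.simple k, hs⟩ (c.ne_zero)
    simp only at e
    rw [e]
    have hco : ∀ m, m < D.rank → m ∉ J → coef D ((wF h t hr ⟨D.simple k, hs⟩ : Fin D.nroots) : ℕ) m = 0 := by
      intro m hm hmJ
      rw [wF_val, h.coef_reflect t hr _ hs m hm]
      have h1 : m ≠ t := fun e => hmJ (e ▸ ht)
      have h3 : k ≠ m := fun e => hmJ (e ▸ hk)
      rw [if_neg h1, h.coef_simple k hkr m hm, if_neg (Ne.symm h3)]
      simp
    have e1 := hG_root_mem_Ht h h2 ax (wF h t hr ⟨D.simple k, hs⟩).isLt hco (c₀ ⟨D.simple k, hs⟩ * c)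
    have e2 := hG_root_mem_Ht h h2 ax (wF h t hr ⟨D.simple k, hs⟩).isLt hco (c₀ ⟨D.simple k, hs⟩)
    simp only [Units.val_mul] at e1
    exact Subgroup.mul_mem _ e1 (Subgroup.inv_mem _ e2)
  | one => simp [Subgroup.one_mem]
  | mul x y _ _ hx hy =>
    have e : sG ax t * (x * y) * (sG ax t)⁻¹ = (sG ax t * x * (sG ax t)⁻¹) * (sG ax t * y * (sG ax t)⁻¹) := by group
    rw [e]
    exact Subgroup.mul_mem _ hx hy
  | inv x _ hx =>
    have e : sG ax t * x⁻¹ * (sG ax t)⁻¹ = (sG ax t * x * (sG ax t)⁻¹)⁻¹ := by group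
    rw [e]
    exact Subgroup.inv_mem _ hx

include h h2 in
lemma sG_sq_mem_Ht {t : ℕ} (ht : t ∈ J) (hr : t < D.rank) : sG ax t * sG ax t ∈ Ht ax J := by
  rw [g_n_sq h h2 ax hr]
  have := hG_mem_Ht ax ht hr (-1 : Fˣ)
  simpa using this

include h h2 in
/-- The exchange argument, with the torus of `J`. -/
lemma exchange_J {v : List ℕ} (hv : ∀ i ∈ v, i ∈ J ∧ i < D.rank) {i : ℕ} (hiJ : i ∈ J) (hi : i < D.rank)
    (hneg : ¬ D.IsPosRoot (wPw h v ⟨D.simple i, h.simple_lt i hi⟩)) :
    ∃ a ∈ Ht ax J, ∃ v', (∀ i ∈ v', i ∈ J ∧ i < D.rank) ∧ v'.length + 1 = v.length ∧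
      nw D ax v * sG ax i = a * nw D ax v' := by
  induction v with
  | nil =>
    exact absurd (simple_isPos h hi) (by simpa using hneg)
  | cons j v ih =>
    obtain ⟨hjJ, hj⟩ := hv j (by simp)
    have hv' : ∀ i ∈ v, i ∈ J ∧ i < D.rank := fun k hk => hv k (by simp [hk])
    have hv'' : ∀ i ∈ v, i < D.rank := fun k hk => (hv' k hk).2
    set β := wPw h v ⟨D.simple i, h.simple_lt i hi⟩ with hβ
    by_cases hpos : D.IsPosRoot β
    · have hβj : (β : ℕ) = D.simple j := by
        by_contra hne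
        apply hneg
        rw [wPw_cons, Equiv.Perm.mul_apply, wP_of_lt h hj, ← hβ]
        exact isPos_reflect h h2 hj hpos hne
      obtain ⟨c, hc⟩ := exists_isNor_nw h h2 ax (F := F) hv''
      have e := hc.conj_nG h ax ⟨D.simple i, h.simple_lt i hi⟩ (one_ne_zero (α := F))
      rw [← hβ, hβj, mul_one] at e
      simp only at e
      set b := hG ax (D.simple j) (c ⟨D.simple i, h.simple_lt i hi⟩ : F) with hb
      have e' : nG ax (D.simple j) (c ⟨D.simple i, h.simple_lt i hi⟩ : F) = b * sG ax j := nG_eq_hG_mul ax _ _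
      have hbm : b ∈ Ht ax J := hG_mem_Ht ax hjJ hj _
      have e2 : nw D ax v * sG ax i = b * sG ax j * nw D ax v := by
        have : nw D ax v * sG ax i * (nw D ax v)⁻¹ = b * sG ax j := e.trans e'
        calc nw D ax v * sG ax i = (nw D ax v * sG ax i * (nw D ax v)⁻¹) * nw D ax v := by group
          _ = b * sG ax j * nw D ax v := by rw [this]
      refine ⟨(sG ax j * b * (sG ax j)⁻¹) * (sG ax j * sG ax j), ?_, v, hv', by simp, ?_⟩
      · exact Subgroup.mul_mem _ (sG_conj_Ht h h2 ax hjJ hj hbm) (sG_sq_mem_Ht h h2 ax hjJ hj)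
      · rw [nw_cons, mul_assoc, e2]
        group
    · obtain ⟨a, ha, v', hv'2, hlen, e⟩ := ih hv' hpos
      refine ⟨sG ax j * a * (sG ax j)⁻¹, sG_conj_Ht h h2 ax hjJ hj ha, j :: v', ?_, by simp [hlen], ?_⟩
      · intro k hk
        rcases List.mem_cons.mp hk with rfl | hk
        · exact ⟨hjJ, hj⟩
        · exact hv'2 k hk
      · rw [nw_cons, nw_cons, mul_assoc, e]
        group

include h in
lemma Ht_le : Ht ax J ≤ D.diagonalSubgroup F := by
  rw [Ht, Subgroup.closure_le]
  rintro g ⟨t, -, hr, c, rfl⟩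
  exact hG_mem_diagonal ax (h.simple_lt t hr) c.ne_zero

include h h2 in
lemma mem_Ht_of_pos_aux (k : ℕ) : ∀ (a : GL D.Idx F) (l : List ℕ), l.length ≤ k →
    a ∈ Ht ax J → (∀ i ∈ l, i ∈ J ∧ i < D.rank) →
    (∀ s : Fin D.nroots, D.IsPosRoot s → D.IsPosRoot (wPw h l s)) → a * nw D ax l ∈ Ht ax J := by
  induction k with
  | zero =>
    intro a l hl ha _ _
    have : l = [] := List.length_eq_zero_iff.mp (by omega)
    subst this
    simpa using ha
  | succ k ih =>
    intro a l hlen ha hl hpos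
    rcases List.eq_nil_or_concat l with rfl | ⟨l', i, rfl⟩
    · simpa using ha
    · obtain ⟨hiJ, hi⟩ := hl i (by simp)
      have hl' : ∀ j ∈ l', j ∈ J ∧ j < D.rank := fun j hj => hl j (by simp [hj])
      have hl'' : ∀ j ∈ l', j < D.rank := fun j hj => (hl' j hj).2
      have hneg : ¬ D.IsPosRoot (wPw h l' ⟨D.simple i, h.simple_lt i hi⟩) := by
        intro hp
        have hn := hpos ⟨D.simple i, h.simple_lt i hi⟩ (simple_isPos h hi)
        obtain ⟨c, hc⟩ := exists_isNor_nw h h2 ax (F := F) hl''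
        simp only [List.concat_eq_append] at hn
        rw [wPw_append, Equiv.Perm.mul_apply] at hn
        have e : wPw h [i] ⟨D.simple i, h.simple_lt i hi⟩ = negF h ⟨D.simple i, h.simple_lt i hi⟩ := by
          apply Fin.ext
          simp only [wPw, List.map_cons, List.map_nil, List.prod_cons, List.prod_nil, mul_one,
            wP_of_lt h hi, wF_val, negF]
          exact reflect_simple h hi
        rw [e, hc.neg] at hn
        simp only [negF] at hn
        have h3 := (isPosRoot_neg h (wPw h l' ⟨D.simple i, h.simple_lt i hi⟩).isLt).mp hn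
        exact not_isNeg_of_isPos h hp h3
      obtain ⟨b, hb, v', hv', hlen', e⟩ := exchange_J h h2 ax hl' hiJ hi hneg
      have e2 : a * nw D ax (l'.concat i) = (a * b) * nw D ax v' := by
        simp only [List.concat_eq_append]
        rw [nw_append]
        have : nw D ax [i] = sG ax i := by simp [nw]
        rw [this, mul_assoc, e, ← mul_assoc]
      rw [e2]
      apply ih (a * b) v' _ (Subgroup.mul_mem _ ha hb) hv'
      · intro s hs
        have hkey : wPw h v' = wPw h (l'.concat i) := by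
          have hab : a * b ∈ D.diagonalSubgroup F := Ht_le h ax (Subgroup.mul_mem _ ha hb)
          have haH : a ∈ D.diagonalSubgroup F := Ht_le h ax ha
          obtain ⟨c1, hc1⟩ := isNor_mul_nw h h2 ax hab (l := v') (fun j hj => (hv' j hj).2)
          obtain ⟨c2, hc2⟩ := isNor_mul_nw h h2 ax haH (l := l'.concat i) (fun j hj => (hl j hj).2)
          rw [e2] at hc2
          exact (IsNor.unique h ax h2 hc1 hc2).1
        rw [hkey]
        exact hpos s hs
      · simp only [List.concat_eq_append, List.length_append, List.length_cons, List.length_nil,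
          zero_add] at hlen
        omega

include h h2 in
/-- **A word in `H` lies in the torus of its letters.** -/
theorem word_mem_Ht {l : List ℕ} (hl : ∀ i ∈ l, i ∈ J ∧ i < D.rank) (hm : nw D ax l ∈ D.diagonalSubgroup F) :
    nw D ax l ∈ Ht ax J := by
  have h1 := mem_Ht_of_pos_aux (J := J) h h2 ax _ 1 l le_rfl (Subgroup.one_mem _) hl ?_
  · simpa using h1
  · obtain ⟨c, hc⟩ := exists_isNor_nw h h2 ax (F := F) (l := l) (fun j hj => (hl j hj).2)
    obtain ⟨y, hy⟩ := exists_tor_of_mem ax h hm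
    rw [hy] at hc
    have := (IsNor.unique h ax h2 hc (isNor_tor h ax y)).1
    rw [this]
    intro s hs
    simpa using hs

end Cfsg.Agent.Lib.KS71.CRo
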