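/-
The number of semisimple classes of a Chevalley group whose torus is a product of copies of the
multiplicative group.
-/
import Mathlib
import Cfsg.Agent.Lib.KS71.CRj
import Cfsg.Agent.Lib.KS71.CRk
import Cfsg.Agent.Lib.KS71.CRo

set_option autoImplicit false
set_option linter.unusedSectionVars false
set_option linter.unusedVariables false
set_option linter.style.haveILetI false

namespace Cfsg.Agent.Lib.KS71.CRm

open Cfsg Cfsg.Lie Cfsg.Lie.ChevalleyDatum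
open Cfsg.Agent.Lib.Chev.Tables Cfsg.Agent.Lib.Chev.Tables2 Cfsg.Agent.Lib.Chev.Tables3 Cfsg.Agent.Lib.Chev.Raise
open Cfsg.Agent.Lib.Chev.Basic Cfsg.Agent.Lib.Chev.AxBasic Cfsg.Agent.Lib.Chev.Torus
open Cfsg.Agent.Lib.Chev.Products Cfsg.Agent.Lib.Chev.Products2 Cfsg.Agent.Lib.Chev.Mono1
open Cfsg.Agent.Lib.Chev.Mono2 Cfsg.Agent.Lib.Chev.Mono3 Cfsg.Agent.Lib.Chev.Bn
open Cfsg.Agent.Lib.Chev.Order1 Cfsg.Agent.Lib.Chev.Order2 Cfsg.Agent.Lib.Chev.Parab
open Cfsg.Agent.Lib.KS71.StWeyl Cfsg.Agent.Lib.KS71.StCell Cfsg.Agent.Lib.KS71.StUnip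
open Cfsg.Agent.Lib.Chev.Diag
open Cfsg.Agent.Lib.KS71.CRa Cfsg.Agent.Lib.KS71.CRh Cfsg.Agent.Lib.KS71.CRi Cfsg.Agent.Lib.KS71.CRj
open Cfsg.Agent.Lib.KS71.CRk Cfsg.Agent.Lib.KS71.CRo

universe u

variable {D : ChevalleyDatum} {F : Type u} [Field F]
variable (h : Tab D) (h2 : Tab2 D) (ax : Ax D F)

section abstract

variable {p : ℕ} {G : Type u} [Group G] [Fintype G] {W ι : Type*} [Group W] [Fintype F]
  [Fact p.Prime] [CharP F p] [Fintype ι]

/-- The count from the parametrization of `H` and the parabolic subgroups. -/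
theorem abstract_count (S : SD p G W ι F) (Ψ : (ι → Fˣ) ≃* S.H)
    (hΨ : ∀ i t, Ψ (@Pi.mulSingle _ (fun _ => Fˣ) _ (fun a b => Classical.propDecidable (a = b)) i t) = S.hh i t)
    (hS : ∀ (J : ι → Prop) (μ : S.H →* Fˣ), (∀ t, J t → μ.comp (S.hh t) = 1) → ∀ l : List ι, (∀ t ∈ l, J t) →
      ∀ hl : (l.map S.n).prod ∈ S.H, μ ⟨_, hl⟩ = 1)
    (hN : ∀ (J : ι → Prop) (i : ι), ¬ J (S.σ i) → ∀ u ∈ S.U, ∀ q : PJ S J, (S.n i)⁻¹ * S.n₀ ≠ u * S.n₀ * q) :
    Nat.card {c : ConjClasses G // ∃ g : G, ConjClasses.mk g = c ∧ (orderOf g).Coprime p} =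
      Fintype.card F ^ Fintype.card ι := by
  rw [← Cfsg.Agent.Lib.KS71.CRk.card_dat Ψ hΨ]
  refine Cfsg.Agent.Lib.KS71.CRf.main (S := S) ?_
  intro d
  set J : ι → Prop := fun t => ∃ i, S.σ i = t ∧ d.1.2 i = true with hJ
  let cH : S.H →* S.H :=
    { toFun := fun h => ⟨S.n₀ * h * S.n₀⁻¹, S.n₀_H'' h.2⟩
      map_one' := by
        apply Subtype.ext
        simp
      map_mul' := by
        intro a b
        apply Subtype.ext
        simp only [Subgroup.coe_mul]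
        group }
  have hμ : ∀ t, J t → (d.1.1.comp cH).comp (S.hh t) = 1 := by
    rintro t ⟨i, rfl, hi⟩
    have h5 := d.2 i hi
    ext c
    obtain ⟨c', hc'⟩ := S.n₀_hh i c
    have e : cH (S.hh (S.σ i) c) = S.hh i c' := Subtype.ext hc'
    have h6 := congrArg (fun χ : Fˣ →* Fˣ => χ c') h5
    simp only [MonoidHom.comp_apply, MonoidHom.one_apply] at h6
    simp [e, h6]
  obtain ⟨ν, hν⟩ := exists_ν (S := S) (J := J) (d.1.1.comp cH) hμ (hS J _ hμ)
  refine Cfsg.Agent.Lib.KS71.CRg.exists_z (S := S) (P := PJ S J) d ν U_le_PJ H_le_PJ ?_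
    (fun i hi c => y_mem_PJ (S := S) (J := J) (i := S.σ i) ⟨i, rfl, hi⟩ c) ?_
  · intro x
    have h5 := hν ⟨S.n₀⁻¹ * x * S.n₀, S.n₀_H' x.2⟩
    refine h5.trans ?_
    simp only [MonoidHom.comp_apply]
    congr 1
    apply Subtype.ext
    change S.n₀ * (S.n₀⁻¹ * x * S.n₀) * S.n₀⁻¹ = x
    group
  · intro i hb u hu q
    apply hN J i _ u hu q
    rintro ⟨i', e, hi'⟩
    have : i' = i := S.σ_inj e
    rw [this, hb] at hi'
    exact Bool.false_ne_true hi'

end abstract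

include h h2 ax in
/-- The element `h_i(t)` in terms of the parameters. -/
lemma phiH_single [DecidableEq (Fin D.rank)] {i : Fin D.rank} (t : Fˣ) :
    phiH D (Pi.mulSingle i t : Fin D.rank → Fˣ) = hG ax (D.simple i) (t : F) := by
  rw [hG_eq_tor ax h (h.simple_lt i i.2)]
  change tor D (psi D (extU D (Pi.mulSingle i t))) = _
  apply tor_eq_of_chi
  intro s hs
  rw [chi_psi h h2 _ hs, chi_hW h _ _ hs, pair_simple h2 i.2, Finset.prod_eq_single (i : ℕ)]
  · simp [extU]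
  · intro k hk hki
    have hk' := Finset.mem_range.mp hk
    have e : extU D (Pi.mulSingle i t : Fin D.rank → Fˣ) k = 1 := by
      simp only [extU]
      change (if h : k < D.rank then (Pi.mulSingle i t : Fin D.rank → Fˣ) ⟨k, h⟩ else 1) = 1
      rw [dif_pos hk']
      apply Pi.mulSingle_eq_of_ne
      intro e
      exact hki (congrArg Fin.val e)
    rw [e, one_zpow]
  · intro hn
    exact absurd (Finset.mem_range.mpr i.2) hn

variable [Fintype F] (p : ℕ) [hp : Fact p.Prime] [CharP F p]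
  (h3 : Tab3 D) (σ : ℕ → ℕ) (hσl : ∀ i, i < D.rank → σ i < D.rank) (hσ2 : ∀ i, i < D.rank → σ (σ i) = i)
  (hσ : ∀ i (hi : i < D.rank), wPw h (w0Of D.nroots) (sr h hi) = negF h (sr h (hσl i hi)))

/-- The parametrization of `H`, as a homomorphism. -/
noncomputable def psiF : (Fin D.rank → Fˣ) →* (sd p h h2 ax h3 σ hσl hσ2 hσ).H where
  toFun c := ⟨⟨phiH D c, diagonal_le_group h ax (tor_psi_mem h h2 ax _)⟩,
    Subgroup.mem_subgroupOf.mpr (tor_psi_mem h h2 ax _)⟩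
  map_one' := Subtype.ext (Subtype.ext (map_one (phiH D)))
  map_mul' a b := Subtype.ext (Subtype.ext (map_mul (phiH D) a b))

variable (hker : ∀ c : Fin D.rank → Fˣ, phiH D c = (1 : GL D.Idx F) → c = 1)

include hker in
lemma psiF_bij : Function.Bijective (psiF h h2 ax p h3 σ hσl hσ2 hσ) := by
  constructor
  · intro a b e
    have e1 : phiH D a = (phiH D b : GL D.Idx F) :=
      congrArg (fun x : (sd p h h2 ax h3 σ hσl hσ2 hσ).H => ((x : ↥(D.group F)) : GL D.Idx F)) e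
    have e2 : phiH D (a * b⁻¹) = (1 : GL D.Idx F) := by
      rw [map_mul, map_inv, e1, mul_inv_cancel]
    have e3 := hker _ e2
    exact mul_inv_eq_one.mp e3
  · rintro ⟨⟨a, ha⟩, ham⟩
    have h5 : a ∈ D.diagonalSubgroup F := Subgroup.mem_subgroupOf.mp ham
    rw [← phiH_range h h2 ax] at h5
    obtain ⟨c, rfl⟩ := h5
    exact ⟨c, rfl⟩

/-- The parametrization of `H`. -/
noncomputable def Psi : (Fin D.rank → Fˣ) ≃* (sd p h h2 ax h3 σ hσl hσ2 hσ).H :=
  MulEquiv.ofBijective (psiF h h2 ax p h3 σ hσl hσ2 hσ) (psiF_bij h h2 ax p h3 σ hσl hσ2 hσ hker)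

lemma Psi_single [inst : DecidableEq (Fin D.rank)] (i : Fin D.rank) (t : Fˣ) :
    Psi h h2 ax p h3 σ hσl hσ2 hσ hker (Pi.mulSingle i t) = (sd p h h2 ax h3 σ hσl hσ2 hσ).hh i t :=
  Subtype.ext (Subtype.ext (phiH_single h h2 ax t))

lemma prod_n_val (l : List (Fin D.rank)) :
    (((l.map (sd p h h2 ax h3 σ hσl hσ2 hσ).n).prod : ↥(D.group F)) : GL D.Idx F) = nw D ax (l.map Fin.val) := by
  induction l with
  | nil => rfl
  | cons i l ih =>
    simp only [List.map_cons, List.prod_cons, Subgroup.coe_mul]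
    rw [ih, nw_cons]
    rfl

/-- The values of a character on `H` on a word in the `n_t`. -/
lemma char_word (μ : (sd p h h2 ax h3 σ hσl hσ2 hσ).H →* Fˣ) (J : Fin D.rank → Prop)
    (hμ : ∀ t, J t → μ.comp ((sd p h h2 ax h3 σ hσl hσ2 hσ).hh t) = 1)
    (l : List (Fin D.rank)) (hl : ∀ t ∈ l, J t) (hm : (l.map (sd p h h2 ax h3 σ hσl hσ2 hσ).n).prod ∈ (sd p h h2 ax h3 σ hσl hσ2 hσ).H) :
    μ ⟨_, hm⟩ = 1 := by
  set J' : Set ℕ := {t | ∃ ht : t < D.rank, J ⟨t, ht⟩} with hJ'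
  have key : ∀ a ∈ Ht ax J', ∀ (ha : a ∈ D.group F) (ha' : (⟨a, ha⟩ : ↥(D.group F)) ∈ (sd p h h2 ax h3 σ hσl hσ2 hσ).H),
      μ ⟨_, ha'⟩ = 1 := by
    intro a ha
    induction ha using Subgroup.closure_induction with
    | mem x hx =>
      obtain ⟨t, ⟨htr, htJ⟩, -, c, rfl⟩ := hx
      intro h5 h6
      have h7 := congrArg (fun χ : Fˣ →* Fˣ => χ c) (hμ ⟨t, htr⟩ htJ)
      simp only [MonoidHom.comp_apply, MonoidHom.one_apply] at h7
      have h8 := congrArg Units.val h7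
      simp only [Units.val_one] at h8
      exact Units.ext h8
    | one =>
      intro h5 h6
      exact map_one μ
    | mul x y hx hy ihx ihy =>
      intro h5 h6
      have hxg : x ∈ D.group F := diagonal_le_group h ax (Ht_le h ax hx)
      have hyg : y ∈ D.group F := diagonal_le_group h ax (Ht_le h ax hy)
      have hxH : (⟨x, hxg⟩ : ↥(D.group F)) ∈ (sd p h h2 ax h3 σ hσl hσ2 hσ).H :=
        Subgroup.mem_subgroupOf.mpr (Ht_le h ax hx)
      have hyH : (⟨y, hyg⟩ : ↥(D.group F)) ∈ (sd p h h2 ax h3 σ hσl hσ2 hσ).H :=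
        Subgroup.mem_subgroupOf.mpr (Ht_le h ax hy)
      have e : (⟨⟨x * y, h5⟩, h6⟩ : (sd p h h2 ax h3 σ hσl hσ2 hσ).H) = ⟨⟨x, hxg⟩, hxH⟩ * ⟨⟨y, hyg⟩, hyH⟩ := rfl
      rw [e, map_mul, ihx, ihy, one_mul]
    | inv x hx ih =>
      intro h5 h6
      have hxg : x ∈ D.group F := diagonal_le_group h ax (Ht_le h ax hx)
      have hxH : (⟨x, hxg⟩ : ↥(D.group F)) ∈ (sd p h h2 ax h3 σ hσl hσ2 hσ).H :=
        Subgroup.mem_subgroupOf.mpr (Ht_le h ax hx)
      have e : (⟨⟨x⁻¹, h5⟩, h6⟩ : (sd p h h2 ax h3 σ hσl hσ2 hσ).H) = (⟨⟨x, hxg⟩, hxH⟩)⁻¹ := rfl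
      rw [e, map_inv, ih, inv_one]
  have hv := prod_n_val h h2 ax p h3 σ hσl hσ2 hσ l
  have hmd : nw D ax (l.map Fin.val) ∈ D.diagonalSubgroup F := by
    rw [← hv]
    exact Subgroup.mem_subgroupOf.mp hm
  have hmt : nw D ax (l.map Fin.val) ∈ Ht ax J' := by
    apply word_mem_Ht h h2 ax _ hmd
    intro t ht
    obtain ⟨t', ht', rfl⟩ := List.mem_map.mp ht
    exact ⟨⟨t'.2, hl t' ht'⟩, t'.2⟩
  rw [← hv] at hmt
  exact key _ hmt _ hm

include h3 hσ hσ2 in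
/-- The big cell and the parabolic. -/
lemma hN_aux [Fintype ↥(D.group F)] (J : Fin D.rank → Prop) {i : Fin D.rank}
    (hi : ¬ J ((sd p h h2 ax h3 σ hσl hσ2 hσ).σ i)) {u : ↥(D.group F)}
    (hu : u ∈ (sd p h h2 ax h3 σ hσl hσ2 hσ).U) (q : PJ (sd p h h2 ax h3 σ hσl hσ2 hσ) J) :
    ((sd p h h2 ax h3 σ hσl hσ2 hσ).n i)⁻¹ * (sd p h h2 ax h3 σ hσl hσ2 hσ).n₀ ≠
      u * (sd p h h2 ax h3 σ hσl hσ2 hσ).n₀ * q := by
  classical
  intro e
  set J' : Set ℕ := {t | ∃ ht : t < D.rank, J ⟨t, ht⟩} with hJ'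
  have hJ'lt : ∀ j ∈ J', j < D.rank := fun j hj => hj.1
  have hs : σ i < D.rank := hσl i i.2
  have hiJ' : σ i ∉ J' := by
    rintro ⟨_, h5⟩
    exact hi h5
  have hle : PJ (sd p h h2 ax h3 σ hσl hσ2 hσ) J ≤ (D.parabolicSubgroup F J').subgroupOf (D.group F) := by
    apply PJ_le
    · intro a ha
      exact Subgroup.mem_subgroupOf.mpr (borel_le_parabolic h h2 ax J'
        ((le_sup_left : D.posUnipotent F ≤ D.borelSubgroup F) (Subgroup.mem_subgroupOf.mp ha)))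
    · intro a ha
      exact Subgroup.mem_subgroupOf.mpr (borel_le_parabolic h h2 ax J'
        ((le_sup_right : D.diagonalSubgroup F ≤ D.borelSubgroup F) (Subgroup.mem_subgroupOf.mp ha)))
    · intro t ht
      exact Subgroup.mem_subgroupOf.mpr (simple_mem_parabolic h h2 ax t.2 ⟨t.2, ht⟩)
  have hq := Subgroup.mem_subgroupOf.mp (hle q.2)
  set n₀ : ↥(D.group F) := (sd p h h2 ax h3 σ hσl hσ2 hσ).n₀ with hn₀
  obtain ⟨v, hv, ev⟩ := tau_mul_right_parabolic h h2 ax hq n₀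
  have hn₀m : (n₀ : GL D.Idx F) ∈ D.monomialSubgroup F := nw_mem_monomial_aux h h2 ax h3.w0_lt
  have hw : tau h h2 ax n₀ = wPw h (w0Of D.nroots) := tau_nwG h h2 ax h3.w0_lt
  have hnm : (((sd p h h2 ax h3 σ hσl hσ2 hσ).n i : ↥(D.group F)) : GL D.Idx F) ∈ D.monomialSubgroup F := n_mem_mono h h2 ax i.2
  have hτn : tau h h2 ax ((sd p h h2 ax h3 σ hσl hσ2 hσ).n i) = wP h i := tau_sG h h2 ax i.2 rfl
  have e1 : tau h h2 ax (((sd p h h2 ax h3 σ hσl hσ2 hσ).n i)⁻¹ * n₀) = wP h i * wPw h (w0Of D.nroots) := by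
    rw [tau_mul_N h h2 ax (Subgroup.inv_mem _ hnm) hn₀m, StCell.tau_inv, hτn, hw, HeckeD.wP_inv_eq' h]
  have e2 : tau h h2 ax (u * n₀ * q) = wPw h (w0Of D.nroots) * v := by
    have hu' : u ∈ BG D F :=
      mem_BG.mpr ((le_sup_left : D.posUnipotent F ≤ D.borelSubgroup F) (Subgroup.mem_subgroupOf.mp hu))
    rw [mul_assoc, tau_mul_left h h2 ax hu', ev, hw]
  rw [e, e2] at e1
  -- evaluation at the fundamental root
  set w := wPw h (w0Of D.nroots) with hwd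
  have hwW : w ∈ Wp h (Set.Iio D.rank) := w0_mem h h3
  have hss : σ (σ i) = i := hσ2 i i.2
  have hv1 : v (sr h hs) = negF h (sr h hs) := by
    have h5 := congrArg (fun x : Equiv.Perm (Fin D.nroots) => x (sr h hs)) e1
    simp only [Equiv.Perm.mul_apply] at h5
    have h6 : w (sr h hs) = negF h (sr h i.2) := by
      rw [hσ]
      congr 1
      apply Fin.ext
      simp [sr, hss]
    rw [h6] at h5
    have hwP : wP h i ∈ Wp h (Set.Iio D.rank) := wP_mem_W h i.2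
    rw [W_neg h h2 ax hwP, wP_sr, negF_negF' h] at h5
    have h7 : w (negF h (sr h hs)) = sr h i.2 := by
      rw [W_neg h h2 ax hwW, h6, negF_negF' h]
    rw [← h7] at h5
    exact w.injective h5
  have hco := coef_of_mem_Wp h hJ'lt hv (sr h hs) hs hiJ'
  rw [hv1] at hco
  change coef D (D.neg (D.simple (σ i))) (σ i) = coef D (D.simple (σ i)) (σ i) at hco
  rw [h.coef_neg _ (h.simple_lt _ hs) _ hs, h.coef_simple _ hs _ hs, if_pos rfl] at hco
  omega

include h h2 ax h3 hσ hσ2 hker in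
/-- **The count**. -/
theorem count : Nat.card {c : ConjClasses ↥(D.group F) // ∃ g : ↥(D.group F), ConjClasses.mk g = c ∧ (orderOf g).Coprime p} =
    Fintype.card F ^ D.rank := by
  letI : Fintype ↥(D.group F) := Fintype.ofFinite _
  have := abstract_count (sd p h h2 ax h3 σ hσl hσ2 hσ) (Psi h h2 ax p h3 σ hσl hσ2 hσ hker)
    (Psi_single (inst := fun a b => Classical.propDecidable (a = b)) h h2 ax p h3 σ hσl hσ2 hσ hker)
    (fun J μ hμ l hl hm => char_word h h2 ax p h3 σ hσl hσ2 hσ μ J hμ l hl hm)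
    (fun J i hi u hu q => hN_aux h h2 ax p h3 σ hσl hσ2 hσ J hi hu q)
  rwa [Fintype.card_fin] at this

end Cfsg.Agent.Lib.KS71.CRm
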