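/-
The tables for the longest element of the Weyl group, and the count of semisimple classes.
-/
import Mathlib
import Cfsg.Agent.Lib.KS71.CRm
import Cfsg.Agent.Lib.Lie.AxOf

set_option autoImplicit false
set_option linter.unusedSectionVars false
set_option linter.unusedVariables false
set_option linter.style.haveILetI false

namespace Cfsg.Agent.Lib.KS71.CRn

open Cfsg Cfsg.Lie Cfsg.Lie.ChevalleyDatum
open Cfsg.Agent.Lib.Chev.Tables Cfsg.Agent.Lib.Chev.Tables2 Cfsg.Agent.Lib.Chev.Tables3 Cfsg.Agent.Lib.Chev.Raise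
open Cfsg.Agent.Lib.Chev.Basic Cfsg.Agent.Lib.Chev.AxBasic Cfsg.Agent.Lib.Chev.Torus
open Cfsg.Agent.Lib.Chev.Products Cfsg.Agent.Lib.Chev.Products2 Cfsg.Agent.Lib.Chev.Mono1
open Cfsg.Agent.Lib.Chev.Mono2 Cfsg.Agent.Lib.Chev.Mono3 Cfsg.Agent.Lib.Chev.Bn
open Cfsg.Agent.Lib.Chev.Order1 Cfsg.Agent.Lib.Chev.Order2 Cfsg.Agent.Lib.Chev.Parab
open Cfsg.Agent.Lib.KS71.StWeyl
open Cfsg.Agent.Lib.Chev.Diag
open Cfsg.Agent.Lib.KS71.CRm

universe u

variable {D : ChevalleyDatum} {F : Type u} [Field F]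

/-- The kernel of the parametrization from a Smith normal form. -/
lemma ker_of_smith [Fintype F] (h : Tab D) (h2 : Tab2 D) (ax : Ax D F) {d : List ℕ} (hs : SmithData D d)
    (hg : ∀ i : Fin D.rank, (Nat.card Fˣ).gcd (d.getD i.val 1) = 1) (c : Fin D.rank → Fˣ)
    (hc : phiH D c = (1 : GL D.Idx F)) : c = 1 := by
  obtain ⟨U, U', V, V', h3, h4, h5, h6⟩ := hs
  have hk := card_ker_mact (G := Fˣ) (d := fun i : Fin D.rank => d.getD i.val 1) h3 h4 h5 h6
  have h1 : Nat.card (mact (cartanM D) (G := Fˣ)).ker = 1 := by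
    rw [hk]
    exact Finset.prod_eq_one fun i _ => hg i
  have hm : c ∈ (mact (cartanM D) (G := Fˣ)).ker :=
    (mem_phiH_ker h h2 ax c).mp (MonoidHom.mem_ker.mpr hc)
  rw [Subgroup.eq_bot_of_card_eq _ h1, Subgroup.mem_bot] at hm
  exact hm

/-- The check for the longest element. -/
def sigChk (D : ChevalleyDatum) (L : List ℕ) : Bool :=
  allBelow D.rank fun k =>
    decide (L.getD k 0 < D.rank) && (L.getD (L.getD k 0) 0 == k) &&
      (wWord D (w0Of D.nroots) (D.simple k) == D.neg (D.simple (L.getD k 0)))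

lemma hsig_of_chk (h : Tab D) {L : List ℕ} (hc : sigChk D L = true) {k : ℕ} (hk : k < D.rank) :
    L.getD k 0 < D.rank ∧ L.getD (L.getD k 0) 0 = k ∧
      wWord D (w0Of D.nroots) (D.simple k) = D.neg (D.simple (L.getD k 0)) := by
  have h5 := allBelow_spec hc k hk
  simp only [Bool.and_eq_true, beq_iff_eq, decide_eq_true_eq] at h5
  exact ⟨h5.1.1, h5.1.2, h5.2⟩

/-- The count from the tables. -/
theorem count_of_chk [Fintype F] (p : ℕ) [Fact p.Prime] [CharP F p] {L : List ℕ} {d : List ℕ}
    (hD : D ∈ [chevG2, chevB2, chevD4, chevF4, chevE6, chevE7, chevE8]) (hc : sigChk D L = true)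
    (hs : SmithData D d) (hg : ∀ i : Fin D.rank, (Nat.card Fˣ).gcd (d.getD i.val 1) = 1) :
    Nat.card {c : ConjClasses ↥(D.group F) // ∃ g : ↥(D.group F), ConjClasses.mk g = c ∧ (orderOf g).Coprime p} =
      Fintype.card F ^ D.rank := by
  have h : Tab D := tab_of_mem hD
  have h2 : Tab2 D := tab2_of_mem hD
  have ax : Ax D F := Cfsg.Agent.Lib.Lie.AxOf.ax_of_mem (F := F) hD
  have h3 : Tab3 D := tab3_of_mem hD
  refine count h h2 ax p h3 (fun k => L.getD k 0) (fun k hk => (hsig_of_chk h hc hk).1)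
    (fun k hk => (hsig_of_chk h hc hk).2.1) ?_ (ker_of_smith h h2 ax hs hg)
  intro k hk
  apply Fin.ext
  rw [wPw_val h h3.w0_lt]
  exact (hsig_of_chk h hc hk).2.2

set_option maxRecDepth 100000
set_option maxHeartbeats 0

theorem sigG2 : sigChk chevG2 [0, 1] = true := by decide +kernel
theorem sigF4 : sigChk chevF4 [0, 1, 2, 3] = true := by decide +kernel
theorem sigE8 : sigChk chevE8 [0, 1, 2, 3, 4, 5, 6, 7] = true := by decide +kernel
theorem sigB2 : sigChk chevB2 [0, 1] = true := by decide +kernel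
theorem sigD4 : sigChk chevD4 [0, 1, 2, 3] = true := by decide +kernel
theorem sigE7 : sigChk chevE7 [0, 1, 2, 3, 4, 5, 6] = true := by decide +kernel
theorem sigE6 : sigChk chevE6 [5, 1, 4, 3, 2, 0] = true := by decide +kernel

/-- The count for the types `G₂`, `F₄`, `E₈`. -/
theorem count_GFE [Fintype F] (p : ℕ) [Fact p.Prime] [CharP F p] (hD : D ∈ [chevG2, chevF4, chevE8]) :
    Nat.card {c : ConjClasses ↥(D.group F) // ∃ g : ↥(D.group F), ConjClasses.mk g = c ∧ (orderOf g).Coprime p} =
      Fintype.card F ^ D.rank := by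
  have one : ∀ n : ℕ, n.gcd 1 = 1 := Nat.gcd_one_right
  simp only [List.mem_cons, List.not_mem_nil, or_false] at hD
  rcases hD with rfl | rfl | rfl
  · refine count_of_chk p (by simp) sigG2 smithG2 fun i => ?_
    rw [(by decide +revert : [1, 1].getD i.val 1 = 1), one]
  · refine count_of_chk p (by simp) sigF4 smithF4 fun i => ?_
    rw [(by decide +revert : [1, 1, 1, 1].getD i.val 1 = 1), one]
  · refine count_of_chk p (by simp) sigE8 smithE8 fun i => ?_
    rw [(by decide +revert : [1, 1, 1, 1, 1, 1, 1, 1].getD i.val 1 = 1), one]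

/-- The order of the multiplicative group in characteristic two is odd. -/
lemma odd_card_two [Fintype F] [CharP F 2] : Odd (Nat.card Fˣ) := by
  classical
  rw [Nat.card_eq_fintype_card, Fintype.card_units]
  have h5 : Fintype.card F % 2 = 0 := FiniteField.even_card_of_char_two (ringChar.eq F 2)
  have h6 : 1 < Fintype.card F := Fintype.one_lt_card
  exact Nat.odd_iff.mpr (by omega)

/-- The count for the types `B₂`, `D₄`, `E₇` in characteristic two. -/
theorem count_BDE [Fintype F] [CharP F 2] (hD : D ∈ [chevB2, chevD4, chevE7]) :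
    Nat.card {c : ConjClasses ↥(D.group F) // ∃ g : ↥(D.group F), ConjClasses.mk g = c ∧ Odd (orderOf g)} =
      Fintype.card F ^ D.rank := by
  have e : Nat.card {c : ConjClasses ↥(D.group F) // ∃ g : ↥(D.group F), ConjClasses.mk g = c ∧ Odd (orderOf g)} =
      Nat.card {c : ConjClasses ↥(D.group F) // ∃ g : ↥(D.group F), ConjClasses.mk g = c ∧ (orderOf g).Coprime 2} := by
    refine Nat.card_congr (Equiv.subtypeEquivRight fun c => ?_)
    simp only [Nat.coprime_two_right]
  rw [e]
  have hg : ∀ n : ℕ, n = 1 ∨ n = 2 → (Nat.card Fˣ).gcd n = 1 := by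
    rintro n (rfl | rfl)
    · exact Nat.gcd_one_right _
    · exact Nat.coprime_two_right.mpr odd_card_two
  simp only [List.mem_cons, List.not_mem_nil, or_false] at hD
  rcases hD with rfl | rfl | rfl
  · exact count_of_chk 2 (by simp) sigB2 smithB2 fun i => hg _ (by decide +revert)
  · exact count_of_chk 2 (by simp) sigD4 smithD4 fun i => hg _ (by decide +revert)
  · exact count_of_chk 2 (by simp) sigE7 smithE7 fun i => hg _ (by decide +revert)

/-- The count for the type `E₆` when the centre is trivial. -/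
theorem count_E6 [Fintype F] (p : ℕ) [Fact p.Prime] [CharP F p] (hq : Fintype.card F % 3 ≠ 1) :
    Nat.card {c : ConjClasses ↥(chevE6.group F) // ∃ g : ↥(chevE6.group F), ConjClasses.mk g = c ∧ (orderOf g).Coprime p} =
      Fintype.card F ^ 6 := by
  have hg : ∀ n : ℕ, n = 1 ∨ n = 3 → (Nat.card Fˣ).gcd n = 1 := by
    classical
    rintro n (rfl | rfl)
    · exact Nat.gcd_one_right _
    · rw [Nat.card_eq_fintype_card, Fintype.card_units]
      have h6 : 1 < Fintype.card F := Fintype.one_lt_card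
      rw [Nat.Coprime.gcd_eq_one]
      apply Nat.Coprime.symm
      rw [Nat.Prime.coprime_iff_not_dvd Nat.prime_three]
      omega
  exact count_of_chk p (D := chevE6) (by simp) sigE6 smithE6 fun i => hg _ (by decide +revert)

end Cfsg.Agent.Lib.KS71.CRn
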