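/-
The minuscule module of dimension 27 for the Chevalley datum of type `E₆`: the identities for the root matrices.
-/
import Mathlib
import Cfsg.Agent.Lib.KS71.E6a

set_option autoImplicit false
set_option linter.unusedSectionVars false
set_option linter.unusedVariables false

namespace Cfsg.Agent.Lib.KS71.E6b

open scoped Matrix
open Cfsg Cfsg.Lie Cfsg.Lie.ChevalleyDatum Cfsg.Agent.Lib.Chev.Tables Cfsg.Agent.Lib.KS71.E6a

/-- The source of a row. -/
def sf (r : ℕ) (i : Fin 27) : Fin 27 := ⟨srcN r i, srcN_lt r i⟩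

/-- The matrix of a root vector. -/
def eM (r : ℕ) : Matrix (Fin 27) (Fin 27) ℤ := fun i j => if sf r i = j then sgnN r i else 0

/-- A diagonal matrix. -/
def dM (a : ℕ → ℤ) : Matrix (Fin 27) (Fin 27) ℤ := fun i j => if i = j then a i else 0

/-- The matrix of a fundamental coroot. -/
def hM (k : ℕ) : Matrix (Fin 27) (Fin 27) ℤ := dM fun i => wtN i k

/-- The matrix of a coroot. -/
def hS (r : ℕ) : Matrix (Fin 27) (Fin 27) ℤ := dM fun i => hSN r i

lemma eM_mul (r : ℕ) (A : Matrix (Fin 27) (Fin 27) ℤ) (i j : Fin 27) : (eM r * A) i j = sgnN r i * A (sf r i) j := by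
  rw [Matrix.mul_apply, Finset.sum_eq_single (sf r i)]
  · simp [eM]
  · intro k _ hk
    simp [eM, Ne.symm hk]
  · simp

lemma mul_eM (r : ℕ) (A : Matrix (Fin 27) (Fin 27) ℤ) (i j : Fin 27) (hA : ∀ k, k ≠ i → A i k = 0) :
    (A * eM r) i j = A i i * eM r i j := by
  rw [Matrix.mul_apply, Finset.sum_eq_single i]
  · intro k _ hk
    rw [hA k hk, zero_mul]
  · simp

lemma dM_mul (a : ℕ → ℤ) (A : Matrix (Fin 27) (Fin 27) ℤ) (i j : Fin 27) : (dM a * A) i j = a i * A i j := by
  rw [Matrix.mul_apply, Finset.sum_eq_single i]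
  · simp [dM]
  · intro k _ hk
    simp [dM, Ne.symm hk]
  · simp

lemma mul_dM (a : ℕ → ℤ) (A : Matrix (Fin 27) (Fin 27) ℤ) (i j : Fin 27) : (A * dM a) i j = A i j * a j := by
  rw [Matrix.mul_apply, Finset.sum_eq_single j]
  · simp [dM]
  · intro k _ hk
    simp [dM, hk]
  · simp

lemma eM_apply (r : ℕ) (i j : Fin 27) : eM r i j = if srcN r i = j then sgnN r i else 0 := by
  simp only [eM, sf, Fin.ext_iff]

/-- A consequence of the tables. -/
lemma root_chk {r : ℕ} (hr : r < 72) : chkRoot r = true := chkRoot_all hr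

lemma root_sq {r : ℕ} (hr : r < 72) : eM r * eM r = 0 := by
  have h := root_chk hr
  simp only [chkRoot, Bool.and_eq_true] at h
  have h1 := allBelow_spec h.1.1.1.1
  ext i j
  rw [eM_mul, eM_apply, Matrix.zero_apply]
  have h2 := of_decide_eq_true (h1 i i.isLt)
  show sgnN r i * (if srcN r (srcN r i) = j then sgnN r (srcN r i) else 0) = 0
  split_ifs
  · exact h2
  · simp

lemma root_h {r : ℕ} (hr : r < 72) {k : ℕ} (hk : k < 6) :
    eM r * hM k = hM k * eM r - chevE6.cartan k r • eM r := by
  have h := root_chk hr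
  simp only [chkRoot, Bool.and_eq_true] at h
  have h1 := allBelow_spec (allBelow_spec h.1.1.1.2 k hk)
  ext i j
  have h2 := of_decide_eq_true (h1 i i.isLt)
  rw [Matrix.sub_apply, Matrix.smul_apply, hM, eM_mul, dM_mul, eM_apply, smul_eq_mul, dM]
  by_cases e : srcN r i = j
  · have e' : sf r i = j := Fin.ext e
    simp only [e', e, if_true]
    rw [← e'] at *
    show sgnN r i * wtN (srcN r i) k = wtN i k * sgnN r i - chevE6.cartan k r * sgnN r i
    linear_combination h2
  · have e' : sf r i ≠ j := fun e2 => e (congrArg Fin.val e2)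
    simp [e, e']

lemma root_neg {r : ℕ} (hr : r < 72) : eM r * eM (chevE6.neg r) = eM (chevE6.neg r) * eM r + hS r := by
  have h := root_chk hr
  simp only [chkRoot, Bool.and_eq_true] at h
  have h1 := allBelow_spec h.1.1.2
  ext i j
  have h2 := vanL_spec (h1 i i.isLt) j
  rw [Matrix.add_apply, eM_mul, eM_mul, eM_apply, eM_apply, hS, dM]
  simp only [List.map, List.sum_cons, List.sum_nil, add_zero] at h2
  have e1 : (i = j) = ((i : ℕ) = (j : ℕ)) := by simp [Fin.ext_iff]
  simp only [e1]
  show sgnN r i * (if srcN (chevE6.neg r) (srcN r i) = j then sgnN (chevE6.neg r) (srcN r i) else 0) =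
    sgnN (chevE6.neg r) i * (if srcN r (srcN (chevE6.neg r) i) = j then sgnN r (srcN (chevE6.neg r) i) else 0) +
      if (i : ℕ) = j then hSN r i else 0
  split_ifs at h2 ⊢ <;> linarith

lemma root_he {r : ℕ} (hr : r < 72) : hS r * eM r = eM r := by
  have h := root_chk hr
  simp only [chkRoot, Bool.and_eq_true] at h
  have h1 := allBelow_spec h.1.2
  ext i j
  have h2 := of_decide_eq_true (h1 i i.isLt)
  rw [hS, dM_mul, eM_apply]
  split_ifs
  · exact h2
  · simp


lemma chkComm_spec {r s : ℕ} (h : chkComm r s = true) : eM r * eM s = eM s * eM r := by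
  have h1 := allBelow_spec h
  ext i j
  have h2 := vanL_spec (h1 i i.isLt) j
  rw [eM_mul, eM_mul, eM_apply, eM_apply]
  simp only [List.map, List.sum_cons, List.sum_nil, add_zero] at h2
  show sgnN r i * (if srcN s (srcN r i) = j then sgnN s (srcN r i) else 0) =
    sgnN s i * (if srcN r (srcN s i) = j then sgnN r (srcN s i) else 0)
  split_ifs at h2 ⊢ <;> linarith

lemma chkCh_spec {r s u : ℕ} {M : ℤ} (h : chkCh r s u M = true) :
    eM r * eM s = eM s * eM r + M • eM u ∧ eM u * eM r = 0 := by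
  have h1 := allBelow_spec h
  constructor
  · ext i j
    have h0 := h1 i i.isLt
    simp only [Bool.and_eq_true] at h0
    have h2 := vanL_spec h0.1 j
    rw [Matrix.add_apply, Matrix.smul_apply, eM_mul, eM_mul, eM_apply, eM_apply, eM_apply, smul_eq_mul]
    simp only [List.map, List.sum_cons, List.sum_nil, add_zero] at h2
    show sgnN r i * (if srcN s (srcN r i) = j then sgnN s (srcN r i) else 0) =
      sgnN s i * (if srcN r (srcN s i) = j then sgnN r (srcN s i) else 0) +
        M * (if srcN u i = j then sgnN u i else 0)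
    split_ifs at h2 ⊢ <;> linarith
  · ext i j
    have h0 := h1 i i.isLt
    simp only [Bool.and_eq_true] at h0
    have h3 := of_decide_eq_true h0.2
    rw [eM_mul, eM_apply, Matrix.zero_apply]
    show sgnN u i * (if srcN r (srcN u i) = j then sgnN r (srcN u i) else 0) = 0
    split_ifs
    · exact h3
    · simp

/-- The commutation relations for a pair which is not a pair of opposite roots. -/
lemma root_pair {r s : ℕ} (hr : r < 72) (hs : s < 72) (h1 : s ≠ r) (h2 : s ≠ chevE6.neg r) :
    (chF r s = [] ∧ eM r * eM s = eM s * eM r) ∨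
    ∃ (e : ℕ × Array (ℕ × ℤ)) (u : ℕ) (M : ℤ), chF r s = [e] ∧ e.2.toList = [(u, M)] ∧ u < 72 ∧
      eM r * eM s = eM s * eM r + M • eM u ∧ eM u * eM r = 0 := by
  have h := root_chk hr
  simp only [chkRoot, Bool.and_eq_true] at h
  have h3 := allBelow_spec h.2 s hs
  rw [chkPair, if_neg (by simp [h1, h2])] at h3
  split at h3
  · rename_i he
    exact Or.inl ⟨he, chkComm_spec h3⟩
  · rename_i e he
    split at h3
    · rename_i u M hl
      simp only [Bool.and_eq_true] at h3
      exact Or.inr ⟨e, u, M, he, hl, of_decide_eq_true h3.1, chkCh_spec h3.2⟩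
    · exact absurd h3 (by simp)
  · exact absurd h3 (by simp)

lemma chainCoeff_nil {r s : ℕ} (h : chF r s = []) (u : ℕ) : chevE6.chainCoeff r s u = [] := by
  have e : chevE6.chainCoeff r s u = (chF r s).flatMap fun e =>
      ((e.2.toList.zipIdx).filter (fun q => q.1.1 = u)).map fun q => (q.2 + 1, q.1.2) := rfl
  rw [e, h]
  rfl

lemma chainCoeff_one {r s : ℕ} {e : ℕ × Array (ℕ × ℤ)} {u₀ : ℕ} {M : ℤ} (h : chF r s = [e]) (he : e.2.toList = [(u₀, M)]) (u : ℕ) :
    chevE6.chainCoeff r s u = if u₀ = u then [(1, M)] else [] := by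
  have e1 : chevE6.chainCoeff r s u = (chF r s).flatMap fun e =>
      ((e.2.toList.zipIdx).filter (fun q => q.1.1 = u)).map fun q => (q.2 + 1, q.1.2) := rfl
  rw [e1, h, List.flatMap_singleton, he]
  by_cases e2 : u₀ = u
  · simp [e2]
  · simp [e2]

end Cfsg.Agent.Lib.KS71.E6b
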