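/-
The minuscule module of dimension 27 for the Chevalley datum of type `E₆`: the root elements, the correspondence with the
adjoint action and the invariance of the cubic form.
-/
import Mathlib
import Cfsg.Agent.Lib.KS71.E6b

set_option autoImplicit false
set_option linter.unusedSectionVars false
set_option linter.unusedVariables false

namespace Cfsg.Agent.Lib.KS71.E6c

open scoped Matrix MatrixGroups
open Cfsg Cfsg.Lie Cfsg.Lie.ChevalleyDatum Cfsg.Agent.Lib.Chev.Tables Cfsg.Agent.Lib.KS71.E6a Cfsg.Agent.Lib.KS71.E6b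

variable (E : Type*) [Field E]

/-- The reduction of integer matrices. -/
noncomputable abbrev cE : Matrix (Fin 27) (Fin 27) ℤ →+* Matrix (Fin 27) (Fin 27) E := (Int.castRingHom E).mapMatrix

/-- The root matrices over a field. -/
noncomputable def eE (r : ℕ) : Matrix (Fin 27) (Fin 27) E := cE E (eM r)

noncomputable def hE (k : ℕ) : Matrix (Fin 27) (Fin 27) E := cE E (hM k)

noncomputable def hSE (r : ℕ) : Matrix (Fin 27) (Fin 27) E := cE E (hS r)

/-- The matrices of the basis of the Lie algebra. -/
noncomputable def Xm : chevE6.Idx → Matrix (Fin 27) (Fin 27) E := Sum.elim (fun k => hE E k) (fun s => eE E s)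

/-- The matrix attached to a column. -/
noncomputable def linX (x : Matrix chevE6.Idx chevE6.Idx E) (col : chevE6.Idx) : Matrix (Fin 27) (Fin 27) E :=
  ∑ row, x row col • Xm E row

variable {E}

lemma eE_sq {r : ℕ} (hr : r < 72) : eE E r * eE E r = 0 := by
  rw [eE, ← map_mul, root_sq hr, map_zero]

lemma cE_zsmul (a : ℤ) (A : Matrix (Fin 27) (Fin 27) ℤ) : cE E (a • A) = (a : E) • cE E A := by
  ext i j
  rw [Matrix.smul_apply]
  simp only [RingHom.mapMatrix_apply, Matrix.map_apply, Matrix.smul_apply, smul_eq_mul, map_mul]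
  rfl

lemma eE_h {r : ℕ} (hr : r < 72) {k : ℕ} (hk : k < 6) :
    eE E r * hE E k = hE E k * eE E r - (chevE6.cartan k r : E) • eE E r := by
  rw [eE, hE, ← map_mul, root_h hr hk, map_sub, map_mul, cE_zsmul]

lemma eE_neg {r : ℕ} (hr : r < 72) : eE E r * eE E (chevE6.neg r) = eE E (chevE6.neg r) * eE E r + hSE E r := by
  rw [eE, eE, hSE, ← map_mul, root_neg hr, map_add, map_mul]

lemma hSE_e {r : ℕ} (hr : r < 72) : hSE E r * eE E r = eE E r := by
  rw [eE, hSE, ← map_mul, root_he hr]

lemma hS_eq (r : ℕ) : hS r = ∑ k : Fin 6, ((chevE6.coroot.getD r #[]).getD k 0) • hM k := by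
  ext i j
  rw [Matrix.sum_apply]
  simp only [Matrix.smul_apply, hS, hM, dM, smul_eq_mul]
  by_cases e : i = j
  · simp only [e, if_true]
    rw [hSN, sumRec_eq, ← Fin.sum_univ_eq_sum_range (fun k => (chevE6.coroot.getD r #[]).getD k 0 * wtN j k)]
  · simp [e]

lemma hSE_eq (r : ℕ) : hSE E r = ∑ k : Fin 6, (((chevE6.coroot.getD r #[]).getD k 0 : ℤ) : E) • hE E k := by
  rw [hSE, hS_eq, map_sum]
  refine Finset.sum_congr rfl fun k _ => ?_
  rw [cE_zsmul, hE]

/-! ### The columns -/

lemma linX_inl (r : Fin chevE6.nroots) (t : E) (i : Fin chevE6.rank) :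
    linX E (chevE6.xMat E r t) (Sum.inl i) = hE E i - (((chevE6.cartanSR.getD i.val #[]).getD r.val 0 : ℤ) : E) • (t • eE E r) := by
  rw [linX, Fintype.sum_sum_type]
  simp only [xMat, Matrix.of_apply, Xm, Sum.elim_inl, Sum.elim_inr, ite_smul, zero_smul, one_smul]
  rw [Finset.sum_ite_eq' Finset.univ i, Finset.sum_ite_eq' Finset.univ r, if_pos (Finset.mem_univ _), if_pos (Finset.mem_univ _)]
  rw [neg_mul, neg_smul, mul_smul, sub_eq_add_neg]

lemma linX_self (r : Fin chevE6.nroots) (t : E) :
    linX E (chevE6.xMat E r t) (Sum.inr r) = eE E r := by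
  rw [linX, Fintype.sum_sum_type]
  simp only [xMat, Matrix.of_apply, Xm, Sum.elim_inl, Sum.elim_inr, if_true, ite_smul, zero_smul, one_smul,
    Finset.sum_const_zero, zero_add]
  rw [Finset.sum_ite_eq' Finset.univ r, if_pos (Finset.mem_univ _)]

lemma linX_neg (r s : Fin chevE6.nroots) (t : E) (h1 : s ≠ r) (h2 : s.val = chevE6.negIdx.getD r.val 0) :
    linX E (chevE6.xMat E r t) (Sum.inr s) = eE E s + t • hSE E r - (t ^ 2) • eE E r := by
  rw [linX, Fintype.sum_sum_type]
  simp only [xMat, Matrix.of_apply, Xm, Sum.elim_inl, Sum.elim_inr, h1, h2, if_false, if_true]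
  have e1 : ∑ x : Fin chevE6.rank, ((((chevE6.coroot.getD r.val #[]).getD x.val 0 : ℤ) : E) * t) • hE E x = t • hSE E r := by
    rw [hSE_eq, Finset.smul_sum]
    refine Finset.sum_congr rfl fun k _ => ?_
    rw [smul_smul, mul_comm]
  have e2 : ∑ x : Fin chevE6.nroots, (if x = s then (1 : E) else if x = r then -(t ^ 2) else 0) • eE E x = eE E s - t ^ 2 • eE E r := by
    have e3 : ∀ x : Fin chevE6.nroots, (if x = s then (1 : E) else if x = r then -(t ^ 2) else 0) • eE E x =
        (if x = s then eE E x else 0) + (if x = r then -(t ^ 2) • eE E x else 0) := by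
      intro x
      by_cases e4 : x = s
      · subst e4
        simp [h1]
      · by_cases e5 : x = r
        · subst e5
          simp [e4]
        · simp [e4, e5]
    simp only [e3]
    rw [Finset.sum_add_distrib, Finset.sum_ite_eq' Finset.univ s, Finset.sum_ite_eq' Finset.univ r, if_pos (Finset.mem_univ _),
      if_pos (Finset.mem_univ _), neg_smul, sub_eq_add_neg]
  rw [e1, e2, h2]
  abel

lemma linX_nil (r s : Fin chevE6.nroots) (t : E) (h1 : s ≠ r) (h2 : s.val ≠ chevE6.negIdx.getD r.val 0)
    (h : chF r s = []) : linX E (chevE6.xMat E r t) (Sum.inr s) = eE E s := by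
  rw [linX, Fintype.sum_sum_type]
  simp only [xMat, Matrix.of_apply, Xm, Sum.elim_inl, Sum.elim_inr, h1, h2, if_false, chainCoeff_nil h]
  simp only [List.map_nil, List.sum_nil, add_zero, zero_smul, Finset.sum_const_zero, zero_add, ite_smul, one_smul]
  rw [Finset.sum_ite_eq' Finset.univ s, if_pos (Finset.mem_univ _)]

lemma linX_one (r s : Fin chevE6.nroots) (t : E) (h1 : s ≠ r) (h2 : s.val ≠ chevE6.negIdx.getD r.val 0)
    {e : ℕ × Array (ℕ × ℤ)} {u₀ : ℕ} (hu₀ : u₀ < 72) {M : ℤ} (h : chF r s = [e]) (he : e.2.toList = [(u₀, M)]) :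
    linX E (chevE6.xMat E r t) (Sum.inr s) = eE E s + ((M : E) * t) • eE E u₀ := by
  rw [linX, Fintype.sum_sum_type]
  simp only [xMat, Matrix.of_apply, Xm, Sum.elim_inl, Sum.elim_inr, h1, h2, if_false, chainCoeff_one h he]
  simp only [zero_smul, Finset.sum_const_zero, zero_add, add_smul, ite_smul, one_smul]
  rw [Finset.sum_add_distrib, Finset.sum_ite_eq' Finset.univ s, if_pos (Finset.mem_univ _)]
  congr 1
  rw [Finset.sum_eq_single (⟨u₀, hu₀⟩ : Fin chevE6.nroots)]
  · simp
  · intro b _ hb
    have : u₀ ≠ b.val := fun e2 => hb (Fin.ext e2.symm)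
    simp [this]
  · simp

/-- The main relation: the root element of the minuscule module induces the adjoint root element. -/
theorem lift_rel (r : Fin chevE6.nroots) (t : E) (col : chevE6.Idx) :
    (1 + t • eE E r) * Xm E col = linX E (chevE6.xMat E r t) col * (1 + t • eE E r) := by
  have hr : (r : ℕ) < 72 := r.isLt
  have hsq := eE_sq (E := E) hr
  rcases col with i | s
  · have hi : (i : ℕ) < 6 := i.isLt
    rw [linX_inl]
    have h1 := eE_h (E := E) hr hi
    show (1 + t • eE E r) * hE E i = _
    simp only [add_mul, mul_add, sub_mul, one_mul, mul_one, smul_mul_assoc, mul_smul_comm, h1, hsq]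
    have e : ((chevE6.cartanSR.getD i.val #[]).getD r.val 0 : ℤ) = chevE6.cartan i r := rfl
    rw [e]
    module
  · by_cases h1 : s = r
    · subst h1
      rw [linX_self]
      show (1 + t • eE E s) * eE E s = _
      simp only [add_mul, mul_add, one_mul, mul_one, smul_mul_assoc, mul_smul_comm]
    · by_cases h2 : s.val = chevE6.negIdx.getD r.val 0
      · rw [linX_neg r s t h1 h2]
        have e0 : (s : ℕ) = chevE6.neg r := h2
        have e1 := eE_neg (E := E) hr
        rw [← e0] at e1
        have e2 := hSE_e (E := E) hr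
        show (1 + t • eE E r) * eE E s = _
        simp only [add_mul, mul_add, sub_mul, one_mul, mul_one, smul_mul_assoc, mul_smul_comm, e1, e2, hsq]
        module
      · have hs : (s : ℕ) < 72 := s.isLt
        have h1' : (s : ℕ) ≠ r := fun e => h1 (Fin.ext e)
        have h2' : (s : ℕ) ≠ chevE6.neg r := h2
        rcases root_pair hr hs h1' h2' with ⟨h3, h4⟩ | ⟨e, u, M, h3, h4, hu, h5, h6⟩
        · rw [linX_nil r s t h1 h2 h3]
          have e1 : eE E r * eE E s = eE E s * eE E r := by
            rw [eE, eE, ← map_mul, h4, map_mul]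
          show (1 + t • eE E r) * eE E s = _
          simp only [add_mul, mul_add, one_mul, mul_one, smul_mul_assoc, mul_smul_comm, e1]
        · rw [linX_one r s t h1 h2 hu h3 h4]
          have e1 : eE E r * eE E s = eE E s * eE E r + (M : E) • eE E u := by
            rw [eE, eE, eE, ← map_mul, h5, map_add, map_mul, cE_zsmul]
          have e2 : eE E u * eE E r = 0 := by
            rw [eE, eE, ← map_mul, h6, map_zero]
          show (1 + t • eE E r) * eE E s = _
          simp only [add_mul, mul_add, one_mul, mul_one, smul_mul_assoc, mul_smul_comm, e1, e2, smul_add, smul_zero]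
          module

end Cfsg.Agent.Lib.KS71.E6c
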