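/-
The minuscule module of dimension 27 for the Chevalley datum of type `E₆`: the cubic form and the correspondence
between the adjoint group and the group acting on the module.
-/
import Mathlib
import Cfsg.Agent.Lib.KS71.E6c
import Cfsg.Agent.Lib.KS71.ChevFix

set_option autoImplicit false
set_option linter.unusedSectionVars false
set_option linter.unusedVariables false

namespace Cfsg.Agent.Lib.KS71.E6d

open scoped Matrix MatrixGroups
open Cfsg Cfsg.Lie Cfsg.Lie.ChevalleyDatum Cfsg.Agent.Lib.Chev.Tables Cfsg.Agent.Lib.KS71.E6a Cfsg.Agent.Lib.KS71.E6b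
open Cfsg.Agent.Lib.KS71.E6c

variable {E : Type*} [Field E]

/-- A coordinate. -/
def vv (v : Fin 27 → E) (i : ℕ) : E := v (Fin.ofNat 27 i)

/-- The cubic form. -/
def Nc (v : Fin 27 → E) : E := (triT.map fun a => (a.2.2.2 : E) * (vv v a.1 * vv v a.2.1 * vv v a.2.2.1)).sum

/-- A monomial. -/
def mon (w : ℕ → E) (p : ℕ × ℕ × ℕ) : E := w p.1 * w p.2.1 * w p.2.2

lemma mon_srt (w : ℕ → E) (i j k : ℕ) : mon w (srt3 i j k) = w i * w j * w k := by
  unfold srt3
  split_ifs <;> simp only [mon] <;> ring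

section group

variable {R : Type*} [CommRing R]

lemma sum_filter_key (L : List (ℤ × (ℕ × ℕ × ℕ))) (f : ℕ × ℕ × ℕ → R) (S : Finset (ℕ × ℕ × ℕ)) (hS : ∀ x ∈ L, x.2 ∈ S) :
    (L.map fun y => (y.1 : R) * f y.2).sum = ∑ k ∈ S, ((((L.filter fun y => y.2 = k).map fun y => y.1).sum : ℤ) : R) * f k := by
  induction L with
  | nil => simp
  | cons a L ih =>
    have ih' := ih fun x hx => hS x (List.mem_cons_of_mem _ hx)
    have ha := hS a List.mem_cons_self
    simp only [List.map_cons, List.sum_cons, ih']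
    have e : ∀ k, ((((a :: L).filter fun y => y.2 = k).map fun y => y.1).sum : ℤ) =
        (if a.2 = k then a.1 else 0) + ((L.filter fun y => y.2 = k).map fun y => y.1).sum := by
      intro k
      by_cases hk : a.2 = k
      · simp [List.filter_cons, hk]
      · simp [List.filter_cons, hk]
    simp only [e, Int.cast_add, add_mul]
    rw [Finset.sum_add_distrib]
    congr 1
    rw [Finset.sum_eq_single a.2]
    · simp
    · intro b _ hb
      simp [Ne.symm hb]
    · intro hn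
      exact absurd ha hn

lemma sum_group (L : List (ℤ × (ℕ × ℕ × ℕ))) (f : ℕ × ℕ × ℕ → R)
    (h : ∀ x ∈ L, ((L.filter fun y => y.2 = x.2).map fun y => y.1).sum = 0) :
    (L.map fun y => (y.1 : R) * f y.2).sum = 0 := by
  classical
  rw [sum_filter_key L f ((L.map fun y => y.2).toFinset) (fun x hx => List.mem_toFinset.mpr (List.mem_map.mpr ⟨x, hx, rfl⟩))]
  apply Finset.sum_eq_zero
  intro k hk
  obtain ⟨x, hx, rfl⟩ := List.mem_map.mp (List.mem_toFinset.mp hk)
  rw [h x hx]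
  simp

lemma sum_filter_ne (L : List (ℤ × (ℕ × ℕ × ℕ))) (f : ℕ × ℕ × ℕ → R) :
    ((L.filter fun x => x.1 ≠ 0).map fun y => (y.1 : R) * f y.2).sum = (L.map fun y => (y.1 : R) * f y.2).sum := by
  induction L with
  | nil => simp
  | cons a L ih =>
    by_cases h : a.1 = 0
    · rw [List.filter_cons, if_neg (by simp [h])]
      simp only [List.map_cons, List.sum_cons, h, Int.cast_zero, zero_mul, zero_add]
      exact ih
    · rw [List.filter_cons, if_pos (by simpa using h)]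
      simp only [List.map_cons, List.sum_cons]
      rw [ih]

lemma vanG_sum {L : List (ℤ × (ℕ × ℕ × ℕ))} (h : vanG L = true) (f : ℕ × ℕ × ℕ → R) :
    (L.map fun y => (y.1 : R) * f y.2).sum = 0 := by
  rw [← sum_filter_ne]
  apply sum_group
  simp only [vanG, List.all_eq_true, decide_eq_true_eq] at h
  exact h

end group

lemma cub_expand (r : ℕ) (T : List (ℕ × ℕ × ℕ × ℤ)) (w v : ℕ → E) (t : E)
    (hw : ∀ a ∈ T, w a.1 = v a.1 + t * ((sgnN r a.1 : E) * v (srcN r a.1)) ∧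
      w a.2.1 = v a.2.1 + t * ((sgnN r a.2.1 : E) * v (srcN r a.2.1)) ∧
      w a.2.2.1 = v a.2.2.1 + t * ((sgnN r a.2.2.1 : E) * v (srcN r a.2.2.1))) :
    (T.map fun a => (a.2.2.2 : E) * (w a.1 * w a.2.1 * w a.2.2.1)).sum =
      (T.map fun a => (a.2.2.2 : E) * (v a.1 * v a.2.1 * v a.2.2.1)).sum +
      t * ((T.flatMap (L1 r)).map fun y => (y.1 : E) * mon v y.2).sum +
      t ^ 2 * ((T.flatMap (L2 r)).map fun y => (y.1 : E) * mon v y.2).sum +
      t ^ 3 * ((T.flatMap (L3 r)).map fun y => (y.1 : E) * mon v y.2).sum := by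
  induction T with
  | nil => simp
  | cons a T ih =>
    have ih' := ih fun b hb => hw b (List.mem_cons_of_mem _ hb)
    obtain ⟨h1, h2, h3⟩ := hw a List.mem_cons_self
    simp only [List.map_cons, List.sum_cons, List.flatMap_cons, List.map_append, List.sum_append, ih']
    rw [h1, h2, h3]
    simp only [L1, L2, L3, List.map_cons, List.map_nil, List.sum_cons, List.sum_nil, mon_srt]
    push_cast
    ring

lemma vv_lt (v : Fin 27 → E) {i : ℕ} (hi : i < 27) : vv v i = v ⟨i, hi⟩ := by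
  unfold vv
  congr 1
  apply Fin.ext
  simp [Nat.mod_eq_of_lt hi]

lemma vv_src (v : Fin 27 → E) (r : ℕ) (i : Fin 27) : vv v (srcN r i) = v (sf r i) := vv_lt v (srcN_lt r i)

lemma eE_apply (r : ℕ) (i j : Fin 27) : eE E r i j = if sf r i = j then (sgnN r i : E) else 0 := by
  show ((eM r i j : ℤ) : E) = _
  rw [eM]
  split_ifs <;> simp

lemma eE_mulVec (r : ℕ) (v : Fin 27 → E) (i : Fin 27) : (eE E r *ᵥ v) i = (sgnN r i : E) * v (sf r i) := by
  rw [Matrix.mulVec, dotProduct, Finset.sum_eq_single (sf r i)]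
  · rw [eE_apply, if_pos rfl]
  · intro k _ hk
    rw [eE_apply, if_neg (Ne.symm hk), zero_mul]
  · simp

lemma tri_lt {a : ℕ × ℕ × ℕ × ℤ} (ha : a ∈ triT) : a.1 < 27 ∧ a.2.1 < 27 ∧ a.2.2.1 < 27 := by
  have h := chkTri_true
  simp only [chkTri, List.all_eq_true, Bool.and_eq_true, decide_eq_true_eq] at h
  obtain ⟨⟨⟨h1, h2⟩, h3⟩, -⟩ := h a ha
  exact ⟨h1, h2, h3⟩

lemma tri_wt {a : ℕ × ℕ × ℕ × ℤ} (ha : a ∈ triT) {k : ℕ} (hk : k < 6) : wtN a.1 k + wtN a.2.1 k + wtN a.2.2.1 k = 0 := by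
  have h := chkTri_true
  simp only [chkTri, List.all_eq_true, Bool.and_eq_true] at h
  exact of_decide_eq_true (allBelow_spec (h a ha).2 k hk)

/-- The root elements preserve the cubic form. -/
theorem Nc_root {r : ℕ} (hr : r < 72) (t : E) (v : Fin 27 → E) : Nc ((1 + t • eE E r) *ᵥ v) = Nc v := by
  have hchk := chkCub_all hr
  simp only [chkCub, Bool.and_eq_true] at hchk
  obtain ⟨⟨c1, c2⟩, c3⟩ := hchk
  have hw : ∀ i, i < 27 → vv ((1 + t • eE E r) *ᵥ v) i = vv v i + t * ((sgnN r i : E) * vv v (srcN r i)) := by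
    intro i hi
    rw [vv_lt _ hi, vv_lt _ hi, Matrix.add_mulVec, Matrix.one_mulVec, Matrix.smul_mulVec, Pi.add_apply, Pi.smul_apply,
      eE_mulVec, smul_eq_mul]
    rw [vv_src v r ⟨i, hi⟩]
  rw [Nc, Nc, cub_expand r triT _ (vv v) t (fun a ha => by
    obtain ⟨h1, h2, h3⟩ := tri_lt ha
    exact ⟨hw _ h1, hw _ h2, hw _ h3⟩), vanG_sum c1, vanG_sum c2, vanG_sum c3]
  ring

/-- The test vector. -/
lemma Nc_test : Nc (fun i : Fin 27 => ((bT i : ℤ) : E)) = 1 := by
  have e1 : ∀ a ∈ triT, (a.2.2.2 : E) * (vv (fun i : Fin 27 => ((bT i : ℤ) : E)) a.1 * vv (fun i : Fin 27 => ((bT i : ℤ) : E)) a.2.1 *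
      vv (fun i : Fin 27 => ((bT i : ℤ) : E)) a.2.2.1) = ((a.2.2.2 * (bT a.1 * bT a.2.1 * bT a.2.2.1) : ℤ) : E) := by
    intro a ha
    obtain ⟨h1, h2, h3⟩ := tri_lt ha
    rw [vv_lt _ h1, vv_lt _ h2, vv_lt _ h3]
    push_cast
    rfl
  rw [Nc, List.map_congr_left e1]
  have e2 := congrArg (fun z : ℤ => (z : E)) bT_sum
  simp only [Int.cast_one] at e2
  rw [← e2]
  rw [Int.cast_list_sum, List.map_map]
  rfl

lemma Nc_scalar (s : E) (v : Fin 27 → E) : Nc (s • v) = s ^ 3 * Nc v := by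
  rw [Nc, Nc, ← List.sum_map_mul_left]
  congr 1
  apply List.map_congr_left
  intro a _
  simp only [vv, Pi.smul_apply, smul_eq_mul]
  ring

end Cfsg.Agent.Lib.KS71.E6d
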