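/-
The minuscule module of dimension 27 for the Chevalley datum of type `E₆`: the correspondence between the adjoint group
and the group acting on the module.
-/
import Mathlib
import Cfsg.Agent.Lib.KS71.E6d

set_option autoImplicit false
set_option linter.unusedSectionVars false
set_option linter.unusedVariables false

namespace Cfsg.Agent.Lib.KS71.E6e

open scoped Matrix MatrixGroups
open Cfsg Cfsg.Lie Cfsg.Lie.ChevalleyDatum Cfsg.Agent.Lib.Chev.Tables Cfsg.Agent.Lib.KS71.E6a Cfsg.Agent.Lib.KS71.E6b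
open Cfsg.Agent.Lib.KS71.E6c Cfsg.Agent.Lib.KS71.E6d

variable {E : Type*} [Field E]

lemma linX_mul (a b : Matrix chevE6.Idx chevE6.Idx E) (col : chevE6.Idx) :
    linX E (a * b) col = ∑ row, b row col • linX E a row := by
  simp only [linX, Matrix.mul_apply, Finset.sum_smul, Finset.smul_sum, smul_smul]
  rw [Finset.sum_comm]
  refine Finset.sum_congr rfl fun x _ => Finset.sum_congr rfl fun y _ => ?_
  rw [mul_comm]

lemma linX_one' (col : chevE6.Idx) : linX E (1 : Matrix chevE6.Idx chevE6.Idx E) col = Xm E col := by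
  rw [linX, Finset.sum_eq_single col]
  · simp
  · intro b _ hb
    simp [Matrix.one_apply, hb]
  · simp

/-- The correspondence. -/
def Rs (E : Type*) [Field E] : Subgroup (GL chevE6.Idx E × GL (Fin 27) E) where
  carrier := {p | (∀ col, (p.2 : Matrix (Fin 27) (Fin 27) E) * Xm E col = linX E (p.1 : Matrix chevE6.Idx chevE6.Idx E) col * (p.2 : Matrix (Fin 27) (Fin 27) E)) ∧
    ∀ v, Nc ((p.2 : Matrix (Fin 27) (Fin 27) E) *ᵥ v) = Nc v}
  mul_mem' := by
    rintro ⟨x, y⟩ ⟨x', y'⟩ ⟨h1, h2⟩ ⟨h3, h4⟩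
    refine ⟨fun col => ?_, fun v => ?_⟩
    · simp only [Prod.mk_mul_mk, Units.val_mul] at *
      rw [linX_mul, mul_assoc, h3, ← mul_assoc, linX, Finset.mul_sum, Finset.sum_mul, Finset.sum_mul]
      refine Finset.sum_congr rfl fun row _ => ?_
      rw [mul_smul_comm, h1, smul_mul_assoc, smul_mul_assoc, mul_assoc]
    · simp only [Prod.mk_mul_mk, Units.val_mul] at *
      rw [← Matrix.mulVec_mulVec, h2, h4]
  one_mem' := by
    refine ⟨fun col => ?_, fun v => ?_⟩
    · simp only [Prod.fst_one, Prod.snd_one, Units.val_one, one_mul, mul_one]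
      rw [linX_one']
    · simp
  inv_mem' := by
    rintro ⟨x, y⟩ ⟨h1, h2⟩
    refine ⟨fun col => ?_, fun v => ?_⟩
    · simp only [Prod.fst_inv, Prod.snd_inv] at *
      have e1 : (y : Matrix (Fin 27) (Fin 27) E) * linX E ((x⁻¹ : GL chevE6.Idx E) : Matrix chevE6.Idx chevE6.Idx E) col =
          Xm E col * (y : Matrix (Fin 27) (Fin 27) E) := by
        calc (y : Matrix (Fin 27) (Fin 27) E) * linX E ((x⁻¹ : GL chevE6.Idx E) : Matrix chevE6.Idx chevE6.Idx E) col
            = ∑ row, ((x⁻¹ : GL chevE6.Idx E) : Matrix chevE6.Idx chevE6.Idx E) row col • (linX E (x : Matrix chevE6.Idx chevE6.Idx E) row * (y : Matrix (Fin 27) (Fin 27) E)) := by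
              rw [linX, Finset.mul_sum]
              refine Finset.sum_congr rfl fun row _ => ?_
              rw [mul_smul_comm, h1]
          _ = (∑ row, ((x⁻¹ : GL chevE6.Idx E) : Matrix chevE6.Idx chevE6.Idx E) row col • linX E (x : Matrix chevE6.Idx chevE6.Idx E) row) * (y : Matrix (Fin 27) (Fin 27) E) := by
              rw [Finset.sum_mul]
              refine Finset.sum_congr rfl fun row _ => ?_
              rw [smul_mul_assoc]
          _ = linX E ((x : Matrix chevE6.Idx chevE6.Idx E) * ((x⁻¹ : GL chevE6.Idx E) : Matrix chevE6.Idx chevE6.Idx E)) col * (y : Matrix (Fin 27) (Fin 27) E) := by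
              rw [linX_mul]
          _ = _ := by
              rw [Units.mul_inv, linX_one']
      have e2 : linX E ((x⁻¹ : GL chevE6.Idx E) : Matrix chevE6.Idx chevE6.Idx E) col =
          ((y⁻¹ : GL (Fin 27) E) : Matrix (Fin 27) (Fin 27) E) * Xm E col * (y : Matrix (Fin 27) (Fin 27) E) := by
        rw [mul_assoc, ← e1, ← mul_assoc, Units.inv_mul, one_mul]
      rw [e2, mul_assoc, Units.mul_inv, mul_one]
    · simp only [Prod.snd_inv] at *
      rw [← h2 (((y⁻¹ : GL (Fin 27) E) : Matrix (Fin 27) (Fin 27) E) *ᵥ v), Matrix.mulVec_mulVec, Units.mul_inv, Matrix.one_mulVec]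

lemma Rs_rel {p : GL chevE6.Idx E × GL (Fin 27) E} (h : p ∈ Rs E) (col : chevE6.Idx) :
    (p.2 : Matrix (Fin 27) (Fin 27) E) * Xm E col = linX E (p.1 : Matrix chevE6.Idx chevE6.Idx E) col * (p.2 : Matrix (Fin 27) (Fin 27) E) := h.1 col

/-- The root elements on the module. -/
noncomputable def xL (r : Fin chevE6.nroots) (t : E) : GL (Fin 27) E where
  val := 1 + t • eE E r
  inv := 1 + (-t) • eE E r
  val_inv := by
    have hr : (r : ℕ) < 72 := r.isLt
    simp only [add_mul, mul_add, one_mul, mul_one, smul_mul_assoc, mul_smul_comm, eE_sq hr]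
    simp
  inv_val := by
    have hr : (r : ℕ) < 72 := r.isLt
    simp only [add_mul, mul_add, one_mul, mul_one, smul_mul_assoc, mul_smul_comm, eE_sq hr]
    simp

lemma xL_val (r : Fin chevE6.nroots) (t : E) : ((xL r t : GL (Fin 27) E) : Matrix (Fin 27) (Fin 27) E) = 1 + t • eE E r := rfl

/-- The generators. -/
lemma lift_gen {g : GL chevE6.Idx E} {r : Fin chevE6.nroots} {t : E} (hg : (g : Matrix chevE6.Idx chevE6.Idx E) = chevE6.xMat E r t) :
    (g, xL r t) ∈ Rs E := by
  refine ⟨fun col => ?_, fun v => ?_⟩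
  · simp only [xL_val, hg]
    exact lift_rel r t col
  · simp only [xL_val]
    exact Nc_root r.isLt t v

/-- Every element of the group has a lift. -/
theorem exists_lift {g : GL chevE6.Idx E} (hg : g ∈ chevE6.group E) : ∃ y, (g, y) ∈ Rs E := by
  have hle : chevE6.group E ≤ (Rs E).map (MonoidHom.fst _ _) := by
    rw [group, Subgroup.closure_le]
    rintro g ⟨r, t, hg⟩
    exact ⟨(g, xL r t), lift_gen hg, rfl⟩
  obtain ⟨⟨a, y⟩, hp, rfl⟩ := hle hg
  exact ⟨y, hp⟩

/-! ### The field automorphisms -/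

/-- The entrywise map on the module. -/
noncomputable abbrev mapY (σ : E →+* E) : GL (Fin 27) E →* GL (Fin 27) E := Matrix.GeneralLinearGroup.map σ

lemma map_cE (σ : E →+* E) (A : Matrix (Fin 27) (Fin 27) ℤ) : (cE E A).map σ = cE E A := by
  ext i j
  simp [Matrix.map_apply]

lemma map_Xm (σ : E →+* E) (col : chevE6.Idx) : (Xm E col).map σ = Xm E col := by
  rcases col with k | s
  · exact map_cE σ _
  · exact map_cE σ _

lemma map_linX (σ : E →+* E) (x : Matrix chevE6.Idx chevE6.Idx E) (col : chevE6.Idx) :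
    (linX E x col).map σ = linX E (x.map σ) col := by
  rw [linX, linX]
  ext i j
  simp only [Matrix.map_apply, Matrix.sum_apply, Matrix.smul_apply, smul_eq_mul, map_sum, map_mul]
  refine Finset.sum_congr rfl fun row _ => ?_
  congr 1
  exact congrFun (congrFun (map_Xm σ row) i) j

lemma map_Nc (σ : E →+* E) (v : Fin 27 → E) : Nc (fun i => σ (v i)) = σ (Nc v) := by
  rw [Nc, Nc, map_list_sum, List.map_map]
  congr 1
  apply List.map_congr_left
  intro a _
  simp [vv]

/-- The correspondence is stable by the field automorphisms. -/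
theorem Rs_map (σ : E ≃+* E) {p : GL chevE6.Idx E × GL (Fin 27) E} (h : p ∈ Rs E) :
    (Matrix.GeneralLinearGroup.map (σ : E →+* E) p.1, mapY (σ : E →+* E) p.2) ∈ Rs E := by
  refine ⟨fun col => ?_, fun v => ?_⟩
  · have h1 := congrArg (fun M : Matrix (Fin 27) (Fin 27) E => M.map (σ : E →+* E)) (h.1 col)
    beta_reduce at h1
    have e : ∀ A B : Matrix (Fin 27) (Fin 27) E, (A * B).map (σ : E →+* E) = A.map (σ : E →+* E) * B.map (σ : E →+* E) :=
      fun A B => Matrix.map_mul
    rw [e, e, map_Xm, map_linX] at h1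
    exact h1
  · have hv : v = fun i => (σ : E →+* E) (σ.symm (v i)) := by
      funext i
      simp
    have e1 : ((mapY (σ : E →+* E) p.2 : GL (Fin 27) E) : Matrix (Fin 27) (Fin 27) E) *ᵥ v =
        fun i => (σ : E →+* E) (((p.2 : Matrix (Fin 27) (Fin 27) E) *ᵥ fun j => σ.symm (v j)) i) := by
      funext i
      conv_lhs => rw [hv]
      exact (RingHom.map_mulVec (σ : E →+* E) (p.2 : Matrix (Fin 27) (Fin 27) E) _ i).symm
    rw [e1, map_Nc, h.2]
    conv_rhs => rw [hv]
    rw [map_Nc]

/-- Lifts of elements of the group over a subfield: they have entries in the subfield. -/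
theorem exists_lift_sub {F : Type*} [Field F] (ι : F →+* E) (σ : E ≃+* E) (hσι : ∀ a, σ (ι a) = ι a)
    {g : GL chevE6.Idx F} (hg : g ∈ chevE6.group F) :
    ∃ y, (Matrix.GeneralLinearGroup.map ι g, y) ∈ Rs E ∧ mapY (σ : E →+* E) y = y := by
  let fx : Subgroup (GL (Fin 27) E) := MonoidHom.eqLocus (mapY (σ : E →+* E)) (MonoidHom.id _)
  let S₀ : Subgroup (GL chevE6.Idx E × GL (Fin 27) E) := Rs E ⊓ fx.comap (MonoidHom.snd _ _)
  have hle : chevE6.group F ≤ (S₀.map (MonoidHom.fst _ _)).comap (Matrix.GeneralLinearGroup.map ι) := by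
    rw [group, Subgroup.closure_le]
    rintro g ⟨r, t, hg⟩
    have e1 : ((Matrix.GeneralLinearGroup.map ι g : GL chevE6.Idx E) : Matrix chevE6.Idx chevE6.Idx E) = chevE6.xMat E r (ι t) := by
      have := Cfsg.Agent.Lib.KS71.ChevFix.xMat_map ι r t
      rw [← this, ← hg]
      rfl
    refine ⟨(_, xL r (ι t)), ⟨lift_gen e1, ?_⟩, rfl⟩
    show mapY (σ : E →+* E) (xL r (ι t)) = xL r (ι t)
    apply Units.ext
    show (1 + ι t • eE E r).map (σ : E →+* E) = 1 + ι t • eE E r
    ext i j
    have e2 : ((eE E r) i j) = ((eM r i j : ℤ) : E) := rfl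
    simp only [Matrix.map_apply, Matrix.add_apply, Matrix.smul_apply, smul_eq_mul, Matrix.one_apply, map_add, map_mul, e2, map_intCast]
    have e3 : (σ : E →+* E) (ι t) = ι t := hσι t
    rw [e3]
    split_ifs <;> simp
  obtain ⟨⟨a, y⟩, hp, e⟩ := hle hg
  have e' : a = Matrix.GeneralLinearGroup.map ι g := e
  rw [← e']
  exact ⟨y, hp.1, hp.2⟩

/-! ### Scalars -/

lemma eE_mul (r : ℕ) (A : Matrix (Fin 27) (Fin 27) E) (i j : Fin 27) : (eE E r * A) i j = (sgnN r i : E) * A (sf r i) j := by
  rw [Matrix.mul_apply, Finset.sum_eq_single (sf r i)]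
  · rw [eE_apply, if_pos rfl]
  · intro k _ hk
    rw [eE_apply, if_neg (Ne.symm hk), zero_mul]
  · simp

lemma inv_chk {r : ℕ} (hr : r < 72) (i : Fin 27) (hi : sgnN r i ≠ 0) :
    sf (chevE6.neg r) (sf r i) = i ∧ sgnN r i * sgnN (chevE6.neg r) (sf r i) = 1 := by
  have h := allBelow_spec (allBelow_spec chkInv_true r hr) i i.isLt
  simp only [Bool.or_eq_true, Bool.and_eq_true, decide_eq_true_eq] at h
  rcases h with h | ⟨h1, h2⟩
  · exact absurd h hi
  · exact ⟨Fin.ext h1, h2⟩

lemma sgn_cast_ne {r : ℕ} (hr : r < 72) (i : Fin 27) (hi : sgnN r i ≠ 0) : (sgnN r i : E) ≠ 0 := by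
  intro e
  have h := (inv_chk hr i hi).2
  have h2 := congrArg (fun z : ℤ => (z : E)) h
  simp only [Int.cast_mul, e, zero_mul, Int.cast_one] at h2
  exact zero_ne_one h2

/-- An element commuting with the root matrices is a scalar. -/
theorem scalar_of_comm (Y : Matrix (Fin 27) (Fin 27) E) (hY : ∀ r, r < 72 → Y * eE E r = eE E r * Y) :
    ∃ s : E, Y = s • 1 := by
  have hoff : ∀ i j : Fin 27, i ≠ j → Y i j = 0 := by
    intro i j hij
    have h := allBelow_spec (allBelow_spec chkSep_true i i.isLt) j j.isLt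
    simp only [Bool.or_eq_true, decide_eq_true_eq] at h
    rcases h with h | h
    · exact absurd (Fin.ext h) hij
    obtain ⟨r, hr, h1⟩ := anyBelow_spec h
    simp only [Bool.and_eq_true, Bool.not_eq_true', decide_eq_false_iff_not, decide_eq_true_eq] at h1
    obtain ⟨h1, h2⟩ := h1
    have hnr : chevE6.neg r < 72 := (Cfsg.Agent.Lib.Chev.Tables.tab_of_mem (D := chevE6) (by simp)).neg_lt r hr
    set P := eE E r * eE E (chevE6.neg r) with hP
    have hc : Y * P = P * Y := by
      rw [hP, ← mul_assoc, hY r hr, mul_assoc, hY _ hnr, mul_assoc]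
    have e1 : (P * Y) i j = Y i j := by
      rw [hP, mul_assoc, eE_mul, eE_mul]
      obtain ⟨e2, e3⟩ := inv_chk hr i h1
      rw [e2, ← mul_assoc]
      have e4 : (sgnN r i : E) * (sgnN (chevE6.neg r) (sf r i) : E) = 1 := by
        have := congrArg (fun z : ℤ => (z : E)) e3
        simpa using this
      rw [e4, one_mul]
    have e5 : (Y * P) i j = 0 := by
      rw [Matrix.mul_apply]
      apply Finset.sum_eq_zero
      intro l _
      have e6 : P l j = 0 := by
        rw [hP, eE_mul, eE_apply]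
        by_cases hl : sgnN r l = 0
        · simp [hl]
        · obtain ⟨e7, _⟩ := inv_chk hr l hl
          rw [e7]
          by_cases hlj : l = j
          · subst hlj
            exact absurd h2 hl
          · simp [hlj]
      rw [e6, mul_zero]
    rw [← e1, ← hc, e5]
  have hd : ∀ n : ℕ, ∀ i : Fin 27, (i : ℕ) = n → Y i i = Y 0 0 := by
    intro n
    induction n using Nat.strong_induction_on with
    | _ n ih =>
      intro i hi
      by_cases h0 : (i : ℕ) = 0
      · have : i = 0 := Fin.ext h0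
        rw [this]
      have h := allBelow_spec chkTree_true i i.isLt
      simp only [Bool.or_eq_true, decide_eq_true_eq] at h
      rcases h with h | h
      · exact absurd h h0
      obtain ⟨r, hr, h1⟩ := anyBelow_spec h
      simp only [Bool.and_eq_true, Bool.not_eq_true', decide_eq_false_iff_not, decide_eq_true_eq] at h1
      obtain ⟨h1, h2⟩ := h1
      have e1 := congrFun (congrFun (hY r hr) i) (sf r i)
      rw [eE_mul, Matrix.mul_apply, Finset.sum_eq_single i] at e1
      · rw [eE_apply, if_pos rfl, mul_comm] at e1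
        have e2 := mul_left_cancel₀ (sgn_cast_ne hr i h1) e1
        rw [e2]
        exact ih _ (hi ▸ h2) _ rfl
      · intro k _ hk
        rw [hoff i k (Ne.symm hk), zero_mul]
      · simp
  refine ⟨Y 0 0, ?_⟩
  ext i j
  rw [Matrix.smul_apply, Matrix.one_apply, smul_eq_mul]
  by_cases e : i = j
  · subst e
    rw [if_pos rfl, mul_one]
    exact hd _ i rfl
  · rw [if_neg e, mul_zero]
    exact hoff i j e

/-- The lifts of the identity. -/
theorem scalar_of_one {y : GL (Fin 27) E} (h : ((1 : GL chevE6.Idx E), y) ∈ Rs E) :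
    ∃ s : E, (y : Matrix (Fin 27) (Fin 27) E) = s • 1 ∧ s ^ 3 = 1 := by
  obtain ⟨s, hs⟩ := scalar_of_comm (y : Matrix (Fin 27) (Fin 27) E) (by
    intro r hr
    have e1 := Rs_rel h (Sum.inr ⟨r, hr⟩)
    simp only [Units.val_one, linX_one'] at e1
    exact e1)
  refine ⟨s, hs, ?_⟩
  have e1 := h.2 (fun i : Fin 27 => ((bT i : ℤ) : E))
  simp only at e1
  rw [hs, Matrix.smul_mulVec, Matrix.one_mulVec, Nc_scalar, Nc_test, mul_one] at e1
  exact e1

/-! ### The torus -/

open Cfsg.Agent.Lib.Chev.Torus Cfsg.Agent.Lib.Chev.Diag Cfsg.Agent.Lib.Chev.AxBasic Cfsg.Agent.Lib.Chev.Tables2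

/-- The value of the weight `j` on parameters. -/
def dVal (c : ℕ → Eˣ) (j : Fin 27) : Eˣ := ∏ k ∈ Finset.range 6, c k ^ wtN j k

/-- The diagonal element of the module given by parameters. -/
noncomputable def dL (c : ℕ → Eˣ) : GL (Fin 27) E := diagG (dVal c)

lemma dVal_src {s : ℕ} (hs : s < 72) (i : Fin 27) (hi : sgnN s i ≠ 0) (c : ℕ → Eˣ) :
    dVal c i = (∏ k ∈ Finset.range 6, c k ^ chevE6.cartan k s) * dVal c (sf s i) := by
  have h := root_chk hs
  simp only [chkRoot, Bool.and_eq_true] at h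
  rw [dVal, dVal, ← Finset.prod_mul_distrib]
  refine Finset.prod_congr rfl fun k hk => ?_
  have h1 := of_decide_eq_true (allBelow_spec (allBelow_spec h.1.1.1.2 k (Finset.mem_range.mp hk)) i i.isLt)
  have h2 := (mul_eq_zero.mp h1).resolve_left hi
  have e : wtN i k = chevE6.cartan k s + wtN (sf s i) k := by
    have : wtN (srcN s i) k - wtN i k + chevE6.cartan k s = 0 := h2
    show wtN i k = chevE6.cartan k s + wtN (srcN s i) k
    linarith
  rw [e, zpow_add]

lemma Nc_dL (c : ℕ → Eˣ) (v : Fin 27 → E) : Nc (((dL c : GL (Fin 27) E) : Matrix (Fin 27) (Fin 27) E) *ᵥ v) = Nc v := by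
  rw [Nc, Nc]
  congr 1
  apply List.map_congr_left
  intro a ha
  obtain ⟨h1, h2, h3⟩ := tri_lt ha
  rw [vv_lt _ h1, vv_lt _ h2, vv_lt _ h3, vv_lt _ h1, vv_lt _ h2, vv_lt _ h3]
  simp only [dL, diagG_val, Matrix.mulVec_diagonal]
  have e : dVal c ⟨a.1, h1⟩ * dVal c ⟨a.2.1, h2⟩ * dVal c ⟨a.2.2.1, h3⟩ = 1 := by
    simp only [dVal]
    rw [← Finset.prod_mul_distrib, ← Finset.prod_mul_distrib]
    apply Finset.prod_eq_one
    intro k hk
    rw [← zpow_add, ← zpow_add, tri_wt ha (Finset.mem_range.mp hk), zpow_zero]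
  have e' : (dVal c ⟨a.1, h1⟩ : E) * (dVal c ⟨a.2.1, h2⟩ : E) * (dVal c ⟨a.2.2.1, h3⟩ : E) = 1 := by
    have := congrArg (Units.val) e
    simpa using this
  linear_combination ((a.2.2.2 : E) * (v ⟨a.1, h1⟩ * v ⟨a.2.1, h2⟩ * v ⟨a.2.2.1, h3⟩)) * e'

variable (h : Tab chevE6) (h2 : Tab2 chevE6)

lemma linX_tor (y : ℕ → Eˣ) (col : chevE6.Idx) :
    linX E ((tor chevE6 y : GL chevE6.Idx E) : Matrix chevE6.Idx chevE6.Idx E) col = (torD chevE6 y col : E) • Xm E col := by
  rw [linX, Finset.sum_eq_single col]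
  · simp [tor]
  · intro b _ hb
    simp [tor, Matrix.diagonal_apply, hb]
  · simp

include h h2 in
/-- The lift of a torus element. -/
theorem tor_lift (c : ℕ → Eˣ) : (tor chevE6 (psi chevE6 c), dL c) ∈ Rs E := by
  refine ⟨fun col => ?_, fun v => Nc_dL c v⟩
  rw [linX_tor]
  rcases col with k | s
  · ext i j
    simp only [torD, Sum.elim_inl, Units.val_one, one_smul, Xm, Sum.elim_inl, dL, diagG_val, Matrix.diagonal_mul, Matrix.mul_diagonal]
    have e : hE E k i j = if i = j then ((wtN i k : ℤ) : E) else 0 := by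
      show ((dM (fun i => wtN i k) i j : ℤ) : E) = _
      rw [dM]
      split_ifs <;> simp
    rw [e]
    by_cases e2 : i = j
    · subst e2
      simp only [if_true]
      ring
    · simp [e2]
  · ext i j
    have hs : (s : ℕ) < 72 := s.isLt
    simp only [torD, Sum.elim_inr, Xm, dL, diagG_val, Matrix.diagonal_mul, Matrix.mul_diagonal, Matrix.smul_apply, smul_eq_mul]
    rw [eE_apply]
    by_cases hj : sf s i = j
    · subst hj
      rw [if_pos rfl]
      by_cases hi : sgnN s i = 0
      · simp [hi]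
      · rw [dVal_src hs i hi c, chi_psi h h2 c s.isLt]
        push_cast
        have hr : chevE6.rank = 6 := rfl
        rw [hr]
        ring
    · rw [if_neg hj]
      simp

end Cfsg.Agent.Lib.KS71.E6e
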