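/-
The minuscule module of dimension 27 for the Chevalley datum of type `E₆`: the Weyl group on the module, and the relation
for the elements of the group over a subfield.
-/
import Mathlib
import Cfsg.Agent.Lib.KS71.E6e

set_option autoImplicit false
set_option linter.unusedSectionVars false
set_option linter.unusedVariables false

namespace Cfsg.Agent.Lib.KS71.E6f

open scoped Matrix MatrixGroups
open Cfsg Cfsg.Lie Cfsg.Lie.ChevalleyDatum Cfsg.Agent.Lib.Chev.Tables Cfsg.Agent.Lib.KS71.E6a Cfsg.Agent.Lib.KS71.E6b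
open Cfsg.Agent.Lib.KS71.E6c Cfsg.Agent.Lib.KS71.E6d Cfsg.Agent.Lib.KS71.E6e
open Cfsg.Agent.Lib.Chev.Torus Cfsg.Agent.Lib.Chev.Diag Cfsg.Agent.Lib.Chev.AxBasic Cfsg.Agent.Lib.Chev.Tables2
open Cfsg.Agent.Lib.Chev.Mono1 Cfsg.Agent.Lib.Chev.Mono2 Cfsg.Agent.Lib.Chev.Basic

variable {E : Type*} [Field E]

/-- The fundamental root as an element of `Fin`. -/
def pF (i : ℕ) : Fin chevE6.nroots := Fin.ofNat 72 (chevE6.simple i)

/-- The opposite of a fundamental root as an element of `Fin`. -/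
def npF (i : ℕ) : Fin chevE6.nroots := Fin.ofNat 72 (chevE6.neg (chevE6.simple i))

lemma tab6 : Tab chevE6 := tab_of_mem (D := chevE6) (by simp)

lemma pF_val {i : ℕ} (hi : i < 6) : (pF i : ℕ) = chevE6.simple i := by
  have := tab6.simple_lt i hi
  exact Nat.mod_eq_of_lt this

lemma npF_val {i : ℕ} (hi : i < 6) : (npF i : ℕ) = chevE6.neg (chevE6.simple i) := by
  have := tab6.neg_lt _ (tab6.simple_lt i hi)
  exact Nat.mod_eq_of_lt this

/-- The lift of a reflection. -/
noncomputable def nLift (i : ℕ) : GL (Fin 27) E := xL (pF i) 1 * xL (npF i) (-1⁻¹) * xL (pF i) 1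

/-- The monomial integer matrix. -/
def mmZ (i : ℕ) : Matrix (Fin 27) (Fin 27) ℤ := fun j l => if bN i j = l then aN i j else 0

lemma refl_chk {i : ℕ} (hi : i < 6) (j : Fin 27) :
    vanL [(1, (j : ℕ)), (sgnN (chevE6.simple i) j, srcN (chevE6.simple i) j),
      (-sgnN (chevE6.neg (chevE6.simple i)) j, srcN (chevE6.neg (chevE6.simple i)) j),
      (-(sgnN (chevE6.simple i) j * sgnN (chevE6.neg (chevE6.simple i)) (srcN (chevE6.simple i) j)), srcN (chevE6.neg (chevE6.simple i)) (srcN (chevE6.simple i) j)),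
      (-(sgnN (chevE6.neg (chevE6.simple i)) j * sgnN (chevE6.simple i) (srcN (chevE6.neg (chevE6.simple i)) j)), srcN (chevE6.simple i) (srcN (chevE6.neg (chevE6.simple i)) j)),
      (-aN i j, bN i j)] = true ∧ bN i j < 27 ∧
    ∀ k, k < 6 → wtN (bN i j) k = wtN j k - wtN j i * chevE6.cartan k (chevE6.simple i) := by
  have h := allBelow_spec (allBelow_spec chkRefl_true i hi) j j.isLt
  simp only [Bool.and_eq_true] at h
  obtain ⟨⟨⟨h1, h2⟩, -⟩, h4⟩ := h
  exact ⟨h1, of_decide_eq_true h2, fun k hk => of_decide_eq_true (allBelow_spec h4 k hk)⟩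

lemma mmZ_eq {i : ℕ} (hi : i < 6) :
    (1 + eM (chevE6.simple i)) * (1 - eM (chevE6.neg (chevE6.simple i))) * (1 + eM (chevE6.simple i)) = mmZ i := by
  have hp := tab6.simple_lt i hi
  set e := eM (chevE6.simple i) with he
  set f := eM (chevE6.neg (chevE6.simple i)) with hf
  have hsq : e * e = 0 := root_sq hp
  have hn : e * f = f * e + hS (chevE6.simple i) := root_neg hp
  have hhe : hS (chevE6.simple i) * e = e := root_he hp
  have hefe : e * f * e = e := by
    rw [hn, add_mul, mul_assoc, hsq, mul_zero, zero_add, hhe]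
  have e1 : (1 + e) * (1 - f) * (1 + e) = 1 + e - f - e * f - f * e := by
    have e2 : (1 + e) * (1 - f) * (1 + e) = 1 + e + e - f - e * f - f * e + e * e - e * f * e := by noncomm_ring
    rw [e2, hsq, hefe]
    abel
  rw [e1]
  ext j l
  have h3 := vanL_spec (refl_chk hi j).1 l
  simp only [List.map, List.sum_cons, List.sum_nil, add_zero] at h3
  simp only [Matrix.sub_apply, Matrix.add_apply]
  rw [he, hf, eM_mul, eM_mul, eM_apply, eM_apply, eM_apply, eM_apply, Matrix.one_apply, mmZ]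
  have e3 : (j = l) = ((j : ℕ) = (l : ℕ)) := by simp [Fin.ext_iff]
  simp only [e3]
  show _ + _ - _ - _ * (if srcN (chevE6.neg (chevE6.simple i)) (srcN (chevE6.simple i) j) = l then sgnN (chevE6.neg (chevE6.simple i)) (srcN (chevE6.simple i) j) else 0) -
    _ * (if srcN (chevE6.simple i) (srcN (chevE6.neg (chevE6.simple i)) j) = l then sgnN (chevE6.simple i) (srcN (chevE6.neg (chevE6.simple i)) j) else 0) = _
  split_ifs at h3 ⊢ <;> linarith

lemma nLift_val {i : ℕ} (hi : i < 6) : ((nLift i : GL (Fin 27) E) : Matrix (Fin 27) (Fin 27) E) = cE E (mmZ i) := by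
  rw [← mmZ_eq hi, map_mul, map_mul, map_add, map_sub, map_one]
  simp only [nLift, Units.val_mul, xL_val, pF_val hi, npF_val hi, inv_one, one_smul, neg_smul]
  rw [eE, eE, sub_eq_add_neg]

/-- The permutation of the weights attached to a reflection. -/
def bF (i : ℕ) (j : Fin 27) : Fin 27 := Fin.ofNat 27 (bN i j)

lemma bF_val {i : ℕ} (hi : i < 6) (j : Fin 27) : (bF i j : ℕ) = bN i j :=
  Nat.mod_eq_of_lt (refl_chk hi j).2.1

lemma nLift_diag {i : ℕ} (hi : i < 6) (d : Fin 27 → Eˣ) :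
    nLift i * (diagG d : GL (Fin 27) E) = diagG (fun j => d (bF i j)) * nLift i := by
  apply Units.ext
  simp only [Units.val_mul, nLift_val hi, diagG_val]
  ext j l
  rw [Matrix.mul_diagonal, Matrix.diagonal_mul]
  have e : (cE E (mmZ i)) j l = ((mmZ i j l : ℤ) : E) := rfl
  rw [e, mmZ]
  by_cases h1 : bN i j = l
  · have e2 : bF i j = l := Fin.ext ((bF_val hi j).trans h1)
    rw [if_pos h1, e2]
    ring
  · rw [if_neg h1]
    simp

/-- The lift of an element of the Weyl group. -/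
noncomputable def nLw (l : List ℕ) : GL (Fin 27) E := (l.map nLift).prod

/-- The permutation of the weights attached to a word. -/
def bw : List ℕ → Fin 27 → Fin 27
  | [], j => j
  | i :: l, j => bw l (bF i j)

lemma nLw_diag {l : List ℕ} (hl : ∀ i ∈ l, i < 6) (d : Fin 27 → Eˣ) :
    nLw l * (diagG d : GL (Fin 27) E) = diagG (fun j => d (bw l j)) * nLw l := by
  induction l generalizing d with
  | nil => simp [nLw, bw]
  | cons i l ih =>
    have hi := hl i (by simp)
    have e : nLw (i :: l) = nLift (E := E) i * nLw l := by simp [nLw]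
    rw [e, mul_assoc, ih (fun x hx => hl x (by simp [hx])), ← mul_assoc, nLift_diag hi, mul_assoc]
    rfl

lemma Rs_mul {a b : GL chevE6.Idx E} {c d : GL (Fin 27) E} (h1 : (a, c) ∈ Rs E) (h2 : (b, d) ∈ Rs E) : (a * b, c * d) ∈ Rs E := by
  have := (Rs E).mul_mem h1 h2
  rwa [Prod.mk_mul_mk] at this

lemma Rs_inv {a : GL chevE6.Idx E} {c : GL (Fin 27) E} (h1 : (a, c) ∈ Rs E) : (a⁻¹, c⁻¹) ∈ Rs E := by
  have := (Rs E).inv_mem h1
  rwa [Prod.inv_mk] at this

variable (ax : Ax chevE6 E)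

lemma sG_lift {i : ℕ} (hi : i < 6) : (sG ax i, nLift (E := E) i) ∈ Rs E := by
  have hp := tab6.simple_lt i hi
  have hnp := tab6.neg_lt _ hp
  have h1 : (xG ax (chevE6.simple i) 1, xL (E := E) (pF i) 1) ∈ Rs E := by
    apply lift_gen
    show chevE6.x E (chevE6.simple i) 1 = _
    rw [x_eq_xMat _ hp]
    congr 1
    exact Fin.ext (pF_val hi).symm
  have h2 : (xG ax (chevE6.neg (chevE6.simple i)) (-1⁻¹), xL (E := E) (npF i) (-1⁻¹)) ∈ Rs E := by
    apply lift_gen
    show chevE6.x E (chevE6.neg (chevE6.simple i)) (-1⁻¹) = _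
    rw [x_eq_xMat _ hnp]
    congr 1
    exact Fin.ext (npF_val hi).symm
  have e1 : sG ax i = xG ax (chevE6.simple i) 1 * xG ax (chevE6.neg (chevE6.simple i)) (-1⁻¹) * xG ax (chevE6.simple i) 1 := rfl
  rw [e1, nLift]
  exact Rs_mul (Rs_mul h1 h2) h1

lemma nw_lift {l : List ℕ} (hl : ∀ i ∈ l, i < 6) : (nw chevE6 ax l, nLw (E := E) l) ∈ Rs E := by
  induction l with
  | nil => exact (Rs E).one_mem
  | cons i l ih =>
    have hi := hl i (by simp)
    have e : nLw (i :: l) = nLift (E := E) i * nLw l := by simp [nLw]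
    rw [nw_cons, e]
    exact Rs_mul (sG_lift ax hi) (ih fun x hx => hl x (by simp [hx]))

/-- A scalar element is central. -/
lemma central_of_scalar {z : GL (Fin 27) E} {s : E} (hz : (z : Matrix (Fin 27) (Fin 27) E) = s • 1) (a : GL (Fin 27) E) : z * a = a * z := by
  apply Units.ext
  simp only [Units.val_mul, hz, smul_mul_assoc, mul_smul_comm, one_mul, mul_one]

/-- The relation for an element of the group over a subfield which is conjugate to an element of the torus. -/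
theorem key_rep (h : Tab chevE6) (h2 : Tab2 chevE6) (σ : E ≃+* E) {q : ℕ} (hσ : ∀ x, σ x = x ^ q) (hs3 : ∀ s : E, s ^ 3 = 1 → σ s = s)
    {F : Type*} [Field F] (ι : F →+* E) (hσι : ∀ a, σ (ι a) = ι a)
    {x : GL chevE6.Idx E} (hx : x ∈ chevE6.group E) {n₀ : GL chevE6.Idx E}
    (hn₀ : Matrix.GeneralLinearGroup.map (σ : E →+* E) x = x * n₀)
    {l : List ℕ} (hl : ∀ i ∈ l, i < 6) {c₀ : ℕ → Eˣ} (hn : n₀ = tor chevE6 (psi chevE6 c₀) * nw chevE6 ax l)
    (c : ℕ → Eˣ) {g : GL chevE6.Idx F} (hg : g ∈ chevE6.group F)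
    (hgc : Matrix.GeneralLinearGroup.map ι g = x * tor chevE6 (psi chevE6 c) * x⁻¹) (j : Fin 27) :
    dVal c j = dVal c (bw l j) ^ q := by
  obtain ⟨X, hX⟩ := exists_lift hx
  obtain ⟨Y, hY, hYf⟩ := exists_lift_sub ι σ hσι hg
  have hd := tor_lift (E := E) h h2 c
  have hd₀ := tor_lift (E := E) h h2 c₀
  -- the first scalar
  have h1 : (Matrix.GeneralLinearGroup.map ι g, X * dL c * X⁻¹) ∈ Rs E := by
    rw [hgc]
    exact Rs_mul (Rs_mul hX hd) (Rs_inv hX)
  have h3 : ((1 : GL chevE6.Idx E), Y * (X * dL c * X⁻¹)⁻¹) ∈ Rs E := by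
    have := Rs_mul hY (Rs_inv h1)
    rwa [mul_inv_cancel] at this
  obtain ⟨s, hs, hs3'⟩ := scalar_of_one h3
  set z₁ := Y * (X * dL c * X⁻¹)⁻¹ with hz₁
  have hz₁f : mapY (σ : E →+* E) z₁ = z₁ := by
    apply Units.ext
    show (z₁ : Matrix (Fin 27) (Fin 27) E).map (σ : E →+* E) = z₁
    rw [hs]
    ext a b
    simp only [Matrix.map_apply, Matrix.smul_apply, smul_eq_mul, map_mul, Matrix.one_apply]
    have e : (σ : E →+* E) s = s := hs3 s hs3'
    rw [e]
    split_ifs <;> simp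
  have hYz : Y = z₁ * (X * dL c * X⁻¹) := by rw [hz₁]; group
  -- the second scalar
  set N := dL (E := E) c₀ * nLw l with hN
  have hnN : (n₀, N) ∈ Rs E := by
    rw [hn, hN]
    exact Rs_mul hd₀ (nw_lift ax hl)
  have h4 := Rs_map σ hX
  simp only at h4
  rw [hn₀] at h4
  have h5 : ((1 : GL chevE6.Idx E), mapY (σ : E →+* E) X * (X * N)⁻¹) ∈ Rs E := by
    have := Rs_mul h4 (Rs_inv (Rs_mul hX hnN))
    rwa [mul_inv_cancel] at this
  obtain ⟨s', hs', -⟩ := scalar_of_one h5
  set z₂ := mapY (σ : E →+* E) X * (X * N)⁻¹ with hz₂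
  have hXz : mapY (σ : E →+* E) X = z₂ * (X * N) := by rw [hz₂]; group
  -- the Frobenius map on the diagonal
  set d₁ : Fin 27 → Eˣ := fun j => dVal c j ^ q with hd₁
  have hdσ : mapY (σ : E →+* E) (dL c) = diagG d₁ := by
    apply Units.ext
    show ((dL c : GL (Fin 27) E) : Matrix (Fin 27) (Fin 27) E).map (σ : E →+* E) = _
    simp only [dL, diagG_val, hd₁]
    ext a b
    by_cases e : a = b
    · subst e
      simp only [Matrix.map_apply, Matrix.diagonal_apply_eq]
      rw [Units.val_pow_eq_pow_val]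
      exact hσ _
    · simp [Matrix.map_apply, Matrix.diagonal_apply_ne _ e]
  -- the relation
  clear_value z₁ z₂
  have e1 := congrArg (mapY (σ : E →+* E)) hYz
  rw [hYf, map_mul, map_mul, map_mul, map_inv, hz₁f, hXz, hdσ] at e1
  have e2 : z₂ * (X * N) * diagG d₁ * (z₂ * (X * N))⁻¹ = X * (N * diagG d₁ * N⁻¹) * X⁻¹ := by
    have e3 := central_of_scalar hs' (X * N * diagG d₁ * (X * N)⁻¹)
    calc z₂ * (X * N) * diagG d₁ * (z₂ * (X * N))⁻¹ = z₂ * (X * N * diagG d₁ * (X * N)⁻¹) * z₂⁻¹ := by group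
      _ = (X * N * diagG d₁ * (X * N)⁻¹) * z₂ * z₂⁻¹ := by rw [e3]
      _ = _ := by group
  rw [e2] at e1
  have e4 : X * dL c * X⁻¹ = X * (N * diagG d₁ * N⁻¹) * X⁻¹ := by
    have e5 := hYz.symm.trans e1
    exact mul_left_cancel e5
  have e6 : dL c = N * diagG d₁ * N⁻¹ := by
    have e7 := mul_right_cancel e4
    exact mul_left_cancel e7
  have e8 : N * diagG d₁ * N⁻¹ = diagG fun j => d₁ (bw l j) := by
    rw [hN]
    have e9 := nLw_diag hl d₁
    have e10 : (dL c₀ : GL (Fin 27) E) * diagG (fun j => d₁ (bw l j)) = diagG (fun j => d₁ (bw l j)) * dL c₀ := by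
      rw [dL, ← map_mul, ← map_mul, mul_comm]
    calc dL c₀ * nLw l * diagG d₁ * (dL c₀ * nLw l)⁻¹
        = dL c₀ * (nLw l * diagG d₁) * (nLw l)⁻¹ * (dL c₀)⁻¹ := by group
      _ = dL c₀ * (diagG (fun j => d₁ (bw l j)) * nLw l) * (nLw l)⁻¹ * (dL c₀)⁻¹ := by rw [e9]
      _ = (dL c₀ * diagG (fun j => d₁ (bw l j))) * (dL c₀)⁻¹ := by group
      _ = diagG (fun j => d₁ (bw l j)) * dL c₀ * (dL c₀)⁻¹ := by rw [e10]
      _ = _ := by group
  rw [e8] at e6
  have e11 := diagG_inj e6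
  exact congrFun e11 j

end Cfsg.Agent.Lib.KS71.E6f
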