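/-
Sylow subgroups of Chevalley groups for primes away from the Weyl group: the abstract group theory.
-/
import Mathlib

set_option autoImplicit false

namespace Cfsg.Agent.Lib.KS71.HCa

open scoped Pointwise

section twist

variable {G : Type*} [Group G] [Finite G]

lemma map_sylow_surj (s : G ≃* G) {H : Subgroup G} (hs : ∀ a ∈ H, s a ∈ H) {a : G} (ha : a ∈ H) :
    ∃ b ∈ H, s b = a := by
  have hf : Function.Injective (fun x : H => (⟨s x.1, hs x.1 x.2⟩ : H)) := by
    intro x y e
    apply Subtype.ext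
    exact s.injective (congrArg Subtype.val e)
  have hsurj := Finite.surjective_of_injective hf
  obtain ⟨b, hb⟩ := hsurj ⟨a, ha⟩
  exact ⟨b.1, b.2, congrArg Subtype.val hb⟩

/-- A subgroup fixed pointwise by an automorphism lies in a conjugate of an abelian invariant Sylow subgroup,
and the automorphism acts on it as an element of the normalizer of the Sylow subgroup. -/
theorem exists_twist (s : G ≃* G) {r : ℕ} [Fact r.Prime]
    (P' : Subgroup G) (hP' : IsPGroup r P') (hfix : ∀ p ∈ P', s p = p)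
    (Q₀ : Sylow r G) (hab : ∀ a ∈ (Q₀ : Subgroup G), ∀ b ∈ (Q₀ : Subgroup G), a * b = b * a)
    (hs : ∀ a ∈ (Q₀ : Subgroup G), s a ∈ (Q₀ : Subgroup G)) :
    ∃ x n : G, (∀ p ∈ P', x⁻¹ * p * x ∈ (Q₀ : Subgroup G)) ∧
      (∀ a ∈ (Q₀ : Subgroup G), n * a * n⁻¹ ∈ (Q₀ : Subgroup G)) ∧
      ∀ p ∈ P', n * s (x⁻¹ * p * x) * n⁻¹ = x⁻¹ * p * x := by
  classical
  obtain ⟨Q, hQ⟩ := hP'.exists_le_sylow
  obtain ⟨x, rfl⟩ : ∃ x : G, x • Q₀ = Q := MulAction.exists_smul_eq G Q₀ Q
  have hmem : ∀ a : G, a ∈ ((x • Q₀ : Sylow r G) : Subgroup G) ↔ x⁻¹ * a * x ∈ (Q₀ : Subgroup G) := by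
    intro a
    rw [Sylow.coe_subgroup_smul, Subgroup.mem_pointwise_smul_iff_inv_smul_mem]
    simp [MulAut.smul_def, MulAut.conj_apply]
  have hmem' : ∀ a ∈ (Q₀ : Subgroup G), x * a * x⁻¹ ∈ ((x • Q₀ : Sylow r G) : Subgroup G) := by
    intro a ha
    rw [hmem]
    simpa [mul_assoc] using ha
  -- the two Sylow subgroups inside the centralizer
  set C₀ : Subgroup G := Subgroup.centralizer (P' : Set G) with hC₀
  set Q : Sylow r G := x • Q₀ with hQdef
  have hQab : ∀ a ∈ (Q : Subgroup G), ∀ b ∈ (Q : Subgroup G), a * b = b * a := by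
    intro a ha b hb
    have h1 := hab _ ((hmem a).1 ha) _ ((hmem b).1 hb)
    have h2 : x * ((x⁻¹ * a * x) * (x⁻¹ * b * x)) * x⁻¹ = x * ((x⁻¹ * b * x) * (x⁻¹ * a * x)) * x⁻¹ := by rw [h1]
    simpa [mul_assoc] using h2
  have hQC : (Q : Subgroup G) ≤ C₀ := by
    intro a ha
    rw [hC₀, Subgroup.mem_centralizer_iff]
    intro p hp
    exact hQab p (hQ hp) a ha
  let Q' : Sylow r G := (s : MulAut G) • Q
  have hQ'mem : ∀ a : G, a ∈ (Q' : Subgroup G) ↔ ∃ b ∈ (Q : Subgroup G), s b = a := by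
    intro a
    show a ∈ ((s : MulAut G) • (Q : Subgroup G)) ↔ _
    rw [Subgroup.mem_pointwise_smul_iff_inv_smul_mem]
    constructor
    · intro h
      refine ⟨_, h, ?_⟩
      exact s.apply_symm_apply a
    · rintro ⟨b, hb, rfl⟩
      have : (s : MulAut G)⁻¹ • s b = b := s.symm_apply_apply b
      rw [this]
      exact hb
  have hQ'C : (Q' : Subgroup G) ≤ C₀ := by
    intro a ha
    obtain ⟨b, hb, rfl⟩ := (hQ'mem a).1 ha
    rw [hC₀, Subgroup.mem_centralizer_iff]
    intro p hp
    have h1 := hQab p (hQ hp) b hb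
    have h2 := congrArg s h1
    rw [map_mul, map_mul, hfix p hp] at h2
    exact h2
  -- conjugacy in the centralizer
  obtain ⟨g, hg⟩ : ∃ g : C₀, g • (Q'.subtype hQ'C) = Q.subtype hQC :=
    MulAction.exists_smul_eq C₀ (Q'.subtype hQ'C) (Q.subtype hQC)
  have hgQ : ∀ a ∈ (Q' : Subgroup G), (g : G) * a * (g : G)⁻¹ ∈ (Q : Subgroup G) := by
    intro a ha
    rw [Sylow.smul_subtype hQ'C g] at hg
    have h2 := Sylow.subtype_injective hg
    rw [← h2]
    show (g : G) * a * (g : G)⁻¹ ∈ (MulAut.conj (g : G) • (Q' : Subgroup G))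
    rw [Subgroup.mem_pointwise_smul_iff_inv_smul_mem]
    simpa [MulAut.smul_def, mul_assoc] using ha
  have hgc : ∀ p ∈ P', (g : G) * p * (g : G)⁻¹ = p := by
    intro p hp
    have h1 := (Subgroup.mem_centralizer_iff.mp g.2) p hp
    rw [← h1]
    group
  refine ⟨x, x⁻¹ * g * s x, ?_, ?_, ?_⟩
  · intro p hp
    exact (hmem p).1 (hQ hp)
  · intro a ha
    obtain ⟨b, hb, rfl⟩ := map_sylow_surj s hs ha
    have h1 : s (x * b * x⁻¹) ∈ (Q' : Subgroup G) := (hQ'mem _).2 ⟨_, hmem' b hb, rfl⟩
    have h2 := hgQ _ h1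
    have h3 := (hmem _).1 h2
    have e : x⁻¹ * g * s x * s b * (x⁻¹ * g * s x)⁻¹ = x⁻¹ * (g * s (x * b * x⁻¹) * (g : G)⁻¹) * x := by
      simp only [map_mul, map_inv]
      group
    rw [e]
    exact h3
  · intro p hp
    have e : x⁻¹ * g * s x * s (x⁻¹ * p * x) * (x⁻¹ * g * s x)⁻¹ = x⁻¹ * (g * s p * (g : G)⁻¹) * x := by
      simp only [map_mul, map_inv]
      group
    rw [e, hfix p hp, hgc p hp]

end twist

section homocyclic

variable {P : Type*} [CommGroup P] [Finite P]

/-- A finite abelian group of exponent dividing `r ^ v`, of order `r ^ (v * a)`, with at most `r ^ a` solutions of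
`x ^ r = 1`, is homocyclic. -/
theorem iso_of_card {r v a : ℕ} [hr : Fact r.Prime] (hv : 0 < v) (hexp : ∀ x : P, x ^ (r ^ v) = 1)
    (hcard : Nat.card P = r ^ (v * a)) (hom : Nat.card {x : P // x ^ r = 1} ≤ r ^ a) :
    Nonempty (P ≃* (Fin a → Multiplicative (ZMod (r ^ v)))) := by
  classical
  obtain ⟨ι, _, n, hn, ⟨e⟩⟩ := CommGroup.equiv_prod_multiplicative_zmod_of_finite P
  have hr1 := hr.out
  -- each `n i` divides `r ^ v`
  have hni : ∀ i, n i ∣ r ^ v := by
    intro i
    haveI : NeZero (n i) := ⟨by have := hn i; omega⟩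
    have h1 := hexp (e.symm (fun j => if j = i then Multiplicative.ofAdd (1 : ZMod (n j)) else 1))
    have h2 := congrArg e h1
    rw [map_pow, MulEquiv.apply_symm_apply, map_one] at h2
    have h3 := congrFun h2 i
    rw [Pi.pow_apply, if_pos rfl, Pi.one_apply, ← ofAdd_nsmul, ofAdd_eq_one] at h3
    have h4 : ((r ^ v : ℕ) : ZMod (n i)) = 0 := by simpa using h3
    exact (ZMod.natCast_eq_zero_iff _ _).1 h4
  choose E hE hE' using fun i => (Nat.dvd_prime_pow hr1).1 (hni i)
  have hEpos : ∀ i, 0 < E i := by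
    intro i
    rcases Nat.eq_zero_or_pos (E i) with h0 | h0
    · have := hn i
      rw [hE' i, h0, pow_zero] at this
      omega
    · exact h0
  -- the order
  have hc1 : Nat.card P = r ^ ∑ i, E i := by
    rw [Nat.card_congr e.toEquiv, Nat.card_pi]
    rw [← Finset.prod_pow_eq_pow_sum]
    refine Finset.prod_congr rfl fun i _ => ?_
    haveI : NeZero (n i) := ⟨by have := hn i; omega⟩
    have : Nat.card (Multiplicative (ZMod (n i))) = n i := by
      rw [Nat.card_eq_fintype_card, Fintype.card_multiplicative, ZMod.card]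
    rw [this, hE' i]
  have hsum : ∑ i, E i = v * a := by
    have := hc1.symm.trans hcard
    exact Nat.pow_right_injective hr1.two_le this
  -- the solutions of `x ^ r = 1`
  have hc2 : r ^ Fintype.card ι ≤ Nat.card {x : P // x ^ r = 1} := by
    haveI : ∀ i, NeZero (n i) := fun i => ⟨by have := hn i; omega⟩
    haveI : NeZero r := ⟨hr1.ne_zero⟩
    let f : (ι → Fin r) → {x : P // x ^ r = 1} := fun c =>
      ⟨e.symm (fun i => Multiplicative.ofAdd (((c i : ℕ) * r ^ (E i - 1) : ℕ) : ZMod (n i))), by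
        apply e.injective
        rw [map_pow, MulEquiv.apply_symm_apply, map_one]
        funext i
        rw [Pi.pow_apply, Pi.one_apply, ← ofAdd_nsmul, ofAdd_eq_one]
        have h1 : ((c i : ℕ) * r ^ (E i - 1) * r : ℕ) = (c i : ℕ) * n i := by
          rw [hE' i]
          have : E i = E i - 1 + 1 := by have := hEpos i; omega
          conv_rhs => rw [this, pow_succ]
          ring
        have h2 : r • (((c i : ℕ) * r ^ (E i - 1) : ℕ) : ZMod (n i)) = (((c i : ℕ) * r ^ (E i - 1) * r : ℕ) : ZMod (n i)) := by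
          rw [nsmul_eq_mul]
          push_cast
          ring
        rw [h2, h1]
        simp⟩
    have hf : Function.Injective f := by
      intro c c' hcc
      funext i
      have h1 := congrArg (fun x : {x : P // x ^ r = 1} => e x.1 i) hcc
      simp only [f, MulEquiv.apply_symm_apply] at h1
      have h2 : (((c i : ℕ) * r ^ (E i - 1) : ℕ) : ZMod (n i)) = (((c' i : ℕ) * r ^ (E i - 1) : ℕ) : ZMod (n i)) :=
        Multiplicative.ofAdd.injective h1
      rw [ZMod.natCast_eq_natCast_iff'] at h2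
      have hpos := hEpos i
      have h3 : n i = r * r ^ (E i - 1) := by
        rw [hE' i]
        conv_lhs => rw [show E i = E i - 1 + 1 by omega, pow_succ]
        ring
      have hb : ∀ t : Fin r, (t : ℕ) * r ^ (E i - 1) < n i := by
        intro t
        rw [h3]
        exact (Nat.mul_lt_mul_right (pow_pos hr1.pos _)).2 t.isLt
      rw [Nat.mod_eq_of_lt (hb _), Nat.mod_eq_of_lt (hb _)] at h2
      apply Fin.ext
      exact Nat.eq_of_mul_eq_mul_right (pow_pos hr1.pos _) h2
    have := Nat.card_le_card_of_injective f hf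
    rw [Nat.card_fun] at this
    simpa using this
  have hι : Fintype.card ι ≤ a := by
    exact (Nat.pow_le_pow_iff_right hr1.one_lt).1 (hc2.trans hom)
  -- all the exponents are `v`
  have hle : ∀ i, E i ≤ v := fun i => by
    have := hE i
    exact this
  have hall : ∀ i, E i = v := by
    by_contra hne
    push Not at hne
    obtain ⟨i₀, hi₀⟩ := hne
    have hlt : E i₀ < v := lt_of_le_of_ne (hle i₀) hi₀
    have : ∑ i, E i < ∑ _i : ι, v := Finset.sum_lt_sum (fun i _ => hle i) ⟨i₀, Finset.mem_univ _, hlt⟩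
    rw [hsum, Finset.sum_const, Finset.card_univ, smul_eq_mul] at this
    have h5 : Fintype.card ι * v ≤ a * v := Nat.mul_le_mul_right _ hι
    have h6 : v * a = a * v := mul_comm _ _
    omega
  have hι2 : Fintype.card ι = a := by
    have : ∑ i, E i = v * Fintype.card ι := by
      rw [Finset.sum_congr rfl (fun i _ => hall i), Finset.sum_const, Finset.card_univ, smul_eq_mul, mul_comm]
    rw [hsum] at this
    exact (Nat.eq_of_mul_eq_mul_left hv this).symm
  have hn' : n = fun _ => r ^ v := by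
    funext i
    rw [hE' i, hall i]
  subst hn'
  exact ⟨e.trans (MulEquiv.arrowCongr (Fintype.equivFinOfCardEq hι2) (MulEquiv.refl _))⟩

end homocyclic

end Cfsg.Agent.Lib.KS71.HCa
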