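/-
Integer matrices of finite order: the characteristic polynomial is a product of cyclotomic polynomials, and the
eigenspaces modulo a prime not dividing the order are bounded by the multiplicities.
-/
import Mathlib

set_option autoImplicit false

namespace Cfsg.Agent.Lib.KS71.HCb

open Polynomial Module

variable {n : ℕ}

/-- A root of the characteristic polynomial over a field is a root of unity. -/
lemma pow_eq_one_of_isRoot {K : Type*} [Field K] (A : Matrix (Fin n) (Fin n) K) {m : ℕ} (hA : A ^ m = 1) {x : K}
    (hx : IsRoot A.charpoly x) : x ^ m = 1 := by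
  have h1 : (Matrix.toLin' A).charpoly = A.charpoly := Matrix.charpoly_toLin' A
  have h2 : Module.End.HasEigenvalue (Matrix.toLin' A) x := by
    rw [Module.End.hasEigenvalue_iff_isRoot_charpoly, h1]
    exact hx
  obtain ⟨v, hv⟩ := h2.exists_hasEigenvector
  have h3 : Matrix.mulVec A v = x • v := by
    have := hv.apply_eq_smul
    simpa [Matrix.toLin'_apply] using this
  have h4 : ∀ k : ℕ, Matrix.mulVec (A ^ k) v = x ^ k • v := by
    intro k
    induction k with
    | zero => simp
    | succ k ih =>
      rw [pow_succ, ← Matrix.mulVec_mulVec, h3, Matrix.mulVec_smul, ih, smul_smul, pow_succ]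
      ring_nf
  have h5 := h4 m
  rw [hA, Matrix.one_mulVec] at h5
  have h6 : (x ^ m - 1) • v = 0 := by
    rw [sub_smul, one_smul, ← h5, sub_self]
  rcases smul_eq_zero.mp h6 with h7 | h7
  · exact sub_eq_zero.mp h7
  · exact absurd h7 hv.2

/-- An irreducible factor of the characteristic polynomial. -/
lemma factor_cyclotomic (A : Matrix (Fin n) (Fin n) ℚ) {m : ℕ} (hm : 0 < m) (hA : A ^ m = 1) {p : ℚ[X]}
    (hp : Irreducible p) (hpm : p.Monic) (hd : p ∣ A.charpoly) : ∃ e, 0 < e ∧ e ∣ m ∧ p = cyclotomic e ℚ := by
  let K := AlgebraicClosure ℚ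
  have hdeg : p.degree ≠ 0 := (Polynomial.degree_pos_of_irreducible hp).ne'
  obtain ⟨x, hx⟩ := IsAlgClosed.exists_aeval_eq_zero K p hdeg
  have h1 : IsRoot (A.map (algebraMap ℚ K)).charpoly x := by
    rw [Matrix.charpoly_map]
    obtain ⟨c, hc⟩ := hd
    rw [IsRoot, hc, Polynomial.map_mul, eval_mul]
    have : eval x (p.map (algebraMap ℚ K)) = 0 := by
      rw [eval_map_algebraMap]
      exact hx
    rw [this, zero_mul]
  have h2 : (A.map (algebraMap ℚ K)) ^ m = 1 := by
    rw [← Matrix.map_pow _ (algebraMap ℚ K : ℚ →+* K) , hA]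
    simp
  have h3 := pow_eq_one_of_isRoot _ h2 h1
  have hx0 : IsOfFinOrder x := isOfFinOrder_iff_pow_eq_one.mpr ⟨m, hm, h3⟩
  have he : 0 < orderOf x := hx0.orderOf_pos
  refine ⟨orderOf x, he, orderOf_dvd_of_pow_eq_one h3, ?_⟩
  rw [cyclotomic_eq_minpoly_rat (IsPrimitiveRoot.orderOf x) he]
  exact minpoly.eq_of_irreducible_of_monic hp hx hpm

/-- The characteristic polynomial of an integer matrix of finite order is a product of cyclotomic polynomials. -/
theorem exists_cyclo (A : Matrix (Fin n) (Fin n) ℤ) {m : ℕ} (hm : 0 < m) (hA : A ^ m = 1) :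
    ∃ E : Multiset ℕ, (∀ e ∈ E, 0 < e ∧ e ∣ m) ∧ A.charpoly = (E.map fun e => cyclotomic e ℤ).prod := by
  classical
  let φ : ℤ →+* ℚ := Int.castRingHom ℚ
  let B : Matrix (Fin n) (Fin n) ℚ := A.map φ
  have hB : B ^ m = 1 := by
    show (A.map φ) ^ m = 1
    rw [← Matrix.map_pow _ φ, hA]
    simp
  have hBc : B.charpoly = A.charpoly.map φ := Matrix.charpoly_map A φ
  have hmon : B.charpoly.Monic := Matrix.charpoly_monic B
  have hne : B.charpoly ≠ 0 := hmon.ne_zero
  have hfac := UniqueFactorizationMonoid.prod_normalizedFactors_eq hne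
  rw [hmon.normalize_eq_self] at hfac
  have key : ∀ s : Multiset ℚ[X], (∀ p ∈ s, ∃ e, 0 < e ∧ e ∣ m ∧ p = cyclotomic e ℚ) →
      ∃ E : Multiset ℕ, (∀ e ∈ E, 0 < e ∧ e ∣ m) ∧ s = E.map fun e => cyclotomic e ℚ := by
    intro s
    induction s using Multiset.induction with
    | empty => intro _; exact ⟨0, by simp, by simp⟩
    | cons a s ih =>
      intro hs
      obtain ⟨e, h1, h2, rfl⟩ := hs a (Multiset.mem_cons_self _ _)
      obtain ⟨E, hE, rfl⟩ := ih fun p hp => hs p (Multiset.mem_cons_of_mem hp)
      refine ⟨e ::ₘ E, ?_, by simp⟩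
      intro x hx
      rcases Multiset.mem_cons.mp hx with rfl | hx
      · exact ⟨h1, h2⟩
      · exact hE x hx
  obtain ⟨E, hE, hs⟩ := key (UniqueFactorizationMonoid.normalizedFactors B.charpoly) (by
    intro p hp
    have h1 := UniqueFactorizationMonoid.irreducible_of_normalized_factor p hp
    have h2 := UniqueFactorizationMonoid.dvd_of_mem_normalizedFactors hp
    have h3 : p.Monic := by
      have h4 := UniqueFactorizationMonoid.normalize_normalized_factor p hp
      rw [← h4]
      exact Polynomial.monic_normalize h1.ne_zero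
    exact factor_cyclotomic B hm hB h1 h3 h2)
  refine ⟨E, hE, ?_⟩
  apply Polynomial.map_injective φ (RingHom.injective_int φ)
  rw [← hBc, ← hfac, hs, Polynomial.map_multiset_prod, Multiset.map_map]
  congr 1
  apply Multiset.map_congr rfl
  intro e _
  simp [φ, map_cyclotomic_int]

variable {E : Multiset ℕ}

lemma charpoly_natDegree (A : Matrix (Fin n) (Fin n) ℤ)
    (hc : A.charpoly = (E.map fun e => cyclotomic e ℤ).prod) : (E.map Nat.totient).sum = n := by
  have h1 : A.charpoly.natDegree = n := by
    simpa using Matrix.charpoly_natDegree_eq_dim A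
  rw [hc, natDegree_multiset_prod_of_monic] at h1
  · simpa [Multiset.map_map, Function.comp_def, natDegree_cyclotomic] using h1
  · intro p hp
    obtain ⟨e, _, rfl⟩ := Multiset.mem_map.mp hp
    exact cyclotomic.monic e ℤ

lemma count_mul_totient_le (d : ℕ) : E.count d * d.totient ≤ (E.map Nat.totient).sum := by
  induction E using Multiset.induction with
  | empty => simp
  | cons a s ih =>
    rw [Multiset.map_cons, Multiset.sum_cons]
    by_cases h : a = d
    · subst h
      rw [Multiset.count_cons_self, add_mul, one_mul]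
      omega
    · rw [Multiset.count_cons_of_ne (Ne.symm h)]
      omega

/-- The eigenspaces modulo a prime not dividing the order. -/
theorem eig_le (A : Matrix (Fin n) (Fin n) ℤ) {m : ℕ} (hE : ∀ e ∈ E, 0 < e ∧ e ∣ m)
    (hc : A.charpoly = (E.map fun e => cyclotomic e ℤ).prod) {r : ℕ} [hr : Fact r.Prime] (hrm : ¬ r ∣ m)
    (ζ : ZMod r) (d : ℕ) (hζ : orderOf ζ = d) :
    finrank (ZMod r) (Module.End.eigenspace (Matrix.toLin' (A.map (Int.castRingHom (ZMod r)))) ζ) ≤ E.count d := by
  classical
  let φ : ℤ →+* ZMod r := Int.castRingHom (ZMod r)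
  have h1 := LinearMap.finrank_eigenspace_le (Matrix.toLin' (A.map φ)) ζ
  refine h1.trans ?_
  rw [Matrix.charpoly_toLin', Matrix.charpoly_map, hc, Polynomial.map_multiset_prod, Multiset.map_map]
  have hrne : ∀ e ∈ E, NeZero ((e : ℕ) : ZMod r) := by
    intro e he
    refine ⟨?_⟩
    intro h0
    have h2 : r ∣ e := (ZMod.natCast_eq_zero_iff _ _).1 h0
    exact hrm (h2.trans (hE e he).2)
  have key : ∀ s : Multiset ℕ, (∀ e ∈ s, e ∈ E) →
      (s.map ((Polynomial.map φ) ∘ fun e => cyclotomic e ℤ)).prod.rootMultiplicity ζ ≤ s.count d := by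
    intro s
    induction s using Multiset.induction with
    | empty => intro _; simp
    | cons a s ih =>
      intro hs
      have hih := ih fun e he => hs e (Multiset.mem_cons_of_mem he)
      have hmon : ∀ t : Multiset ℕ, (t.map ((Polynomial.map φ) ∘ fun e => cyclotomic e ℤ)).prod.Monic := by
        intro t
        apply monic_multiset_prod_of_monic
        intro e _
        simp [Function.comp, cyclotomic.monic]
      have ha : (Polynomial.map φ ∘ fun e => cyclotomic e ℤ) a = cyclotomic a (ZMod r) := by
        simp [Function.comp, map_cyclotomic]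
      rw [Multiset.map_cons, Multiset.prod_cons, rootMultiplicity_mul, ha]
      · have haE := hs a (Multiset.mem_cons_self _ _)
        haveI := hrne a haE
        by_cases had : a = d
        · subst had
          rw [Multiset.count_cons_self]
          have h3 : (cyclotomic a (ZMod r)).Separable := by
            have hne : ((a : ℕ) : ZMod r) ≠ 0 := NeZero.out
            exact Polynomial.Separable.of_dvd (X_pow_sub_one_separable_iff.2 hne) (cyclotomic.dvd_X_pow_sub_one a _)
          have h4 := rootMultiplicity_le_one_of_separable h3 ζ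
          omega
        · rw [Multiset.count_cons_of_ne (Ne.symm had)]
          have h5 : ¬ IsRoot (cyclotomic a (ZMod r)) ζ := by
            rw [isRoot_cyclotomic_iff]
            intro hp
            exact had (hp.eq_orderOf.trans hζ)
          rw [rootMultiplicity_eq_zero h5, zero_add]
          exact hih
      · rw [← Multiset.prod_cons, ← Multiset.map_cons]
        exact (hmon _).ne_zero
  exact key E (fun _ h => h)

/-- The radical of the characteristic polynomial annihilates. -/
theorem aeval_radical (A : Matrix (Fin n) (Fin n) ℤ) {m : ℕ} (hm : 0 < m) (hA : A ^ m = 1)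
    (hE : ∀ e ∈ E, 0 < e ∧ e ∣ m) (hc : A.charpoly = (E.map fun e => cyclotomic e ℤ).prod) [DecidableEq ℕ] :
    aeval A (∏ e ∈ E.toFinset, cyclotomic e ℤ) = 0 := by
  classical
  let φ : ℤ →+* ℚ := Int.castRingHom ℚ
  let B : Matrix (Fin n) (Fin n) ℚ := A.map φ
  have hB : B ^ m = 1 := by
    show (A.map φ) ^ m = 1
    rw [← Matrix.map_pow _ φ, hA]
    simp
  have hBc : B.charpoly = (E.map fun e => cyclotomic e ℚ).prod := by
    have h1 : B.charpoly = A.charpoly.map φ := Matrix.charpoly_map A φ
    rw [h1, hc, Polynomial.map_multiset_prod, Multiset.map_map]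
    congr 1
    apply Multiset.map_congr rfl
    intro e _
    simp [φ, map_cyclotomic_int]
  set T := E.toFinset with hT
  have hTm : T ⊆ m.divisors := by
    intro e he
    have := hE e (Multiset.mem_toFinset.mp he)
    exact Nat.mem_divisors.mpr ⟨this.2, hm.ne'⟩
  set G : ℚ[X] := ∏ e ∈ T, cyclotomic e ℚ with hG
  set G' : ℚ[X] := ∏ e ∈ m.divisors \ T, cyclotomic e ℚ with hG'
  have hprod : G * G' = X ^ m - 1 := by
    rw [← prod_cyclotomic_eq_X_pow_sub_one hm, hG, hG', mul_comm, Finset.prod_sdiff hTm]
  have hcop : IsCoprime G' B.charpoly := by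
    rw [hBc]
    have : ∀ s : Multiset ℕ, (∀ e ∈ s, e ∈ T) → IsCoprime G' (s.map fun e => cyclotomic e ℚ).prod := by
      intro s
      induction s using Multiset.induction with
      | empty => intro _; simpa using isCoprime_one_right
      | cons a s ih =>
        intro hs
        rw [Multiset.map_cons, Multiset.prod_cons]
        apply IsCoprime.mul_right _ (ih fun e he => hs e (Multiset.mem_cons_of_mem he))
        rw [hG']
        apply IsCoprime.prod_left
        intro e he
        have h1 := (Finset.mem_sdiff.mp he).2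
        have h2 := hs a (Multiset.mem_cons_self _ _)
        have hne : e ≠ a := fun h => h1 (h ▸ h2)
        exact cyclotomic.isCoprime_rat hne
    exact this E fun e he => Multiset.mem_toFinset.mpr he
  obtain ⟨u, v, huv⟩ := hcop
  have h1 : aeval B B.charpoly = 0 := Matrix.aeval_self_charpoly B
  have h2 : aeval B (G * G') = 0 := by
    rw [hprod]
    simp [hB]
  have h3 : aeval B G = 0 := by
    have h4 : G = u * (G * G') + v * B.charpoly * G := by
      linear_combination (-G) * huv
    rw [h4, map_add, map_mul, map_mul (aeval B) (v * B.charpoly), map_mul (aeval B) v, h1, h2]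
    simp
  -- back to the integers
  have hinj : Function.Injective (φ.mapMatrix : Matrix (Fin n) (Fin n) ℤ →+* Matrix (Fin n) (Fin n) ℚ) := by
    intro a b hab
    ext i j
    have := congrFun (congrFun hab i) j
    simpa [φ] using this
  apply hinj
  rw [map_zero]
  have h5 : G = (∏ e ∈ T, cyclotomic e ℤ).map φ := by
    rw [Polynomial.map_prod, hG]
    refine Finset.prod_congr rfl fun e _ => ?_
    simp [φ, map_cyclotomic_int]
  rw [h5] at h3
  have h6 : ∀ p : ℤ[X], φ.mapMatrix (aeval A p) = aeval B (p.map φ) := by
    intro p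
    induction p using Polynomial.induction_on' with
    | add a b ha hb => rw [map_add, map_add, Polynomial.map_add, map_add, ha, hb]
    | monomial k c =>
      rw [aeval_monomial, map_monomial, aeval_monomial, map_mul, map_pow]
      have e1 : φ.mapMatrix A = B := rfl
      rw [e1]
      congr 1
      simp only [eq_intCast, map_intCast]
  rw [h6]
  exact h3

end Cfsg.Agent.Lib.KS71.HCb
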