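/-
Involutions in Chevalley groups, odd characteristic: identities in the rank one groups and in the groups of type `A₂`.
-/
import Mathlib
import Cfsg.Agent.Lib.Chev.SL2

set_option autoImplicit false
set_option linter.unusedSectionVars false
set_option linter.unusedVariables false

namespace Cfsg.Agent.Lib.KS71.IVa

open scoped MatrixGroups Matrix
open Cfsg.Agent.Lib.Chev.SL2

variable {G : Type*} [Group G] {F : Type*} [Field F]
variable {X Y : F → G}

/-- The diagonal matrices of `SL₂`. -/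
def dM (c : F) (hc : c ≠ 0) : SL(2, F) := ⟨!![c, 0; 0, c⁻¹], by simp [Matrix.det_fin_two, hc]⟩

lemma phi_w (R : RankOneRel X Y) {s : F} (hs : s ≠ 0) : phiHom X Y R (wM s hs) = WW X Y s := by
  have h := phiF_w R s hs 1
  rw [mul_one, phiF_one R, mul_one] at h
  exact h

lemma dM_eq (c : F) (hc : c ≠ 0) :
    dM c hc = wM c hc * wM (-1) (neg_ne_zero.mpr one_ne_zero) := by
  apply Subtype.ext
  simp only [Matrix.SpecialLinearGroup.coe_mul]
  ext i j
  fin_cases i <;> fin_cases j <;> simp [dM, wM, upM, loM, Matrix.mul_apply, Fin.sum_univ_two] <;> field_simp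

lemma phi_d (R : RankOneRel X Y) {c : F} (hc : c ≠ 0) : phiHom X Y R (dM c hc) = HH X Y c := by
  rw [dM_eq, map_mul, phi_w R, phi_w R, HH]

/-- The Gauss decomposition. -/
lemma X_mul_Y (R : RankOneRel X Y) {s s' : F} (hc : 1 + s * s' ≠ 0) :
    X s * Y s' = Y (s' / (1 + s * s')) * HH X Y (1 + s * s') * X (s / (1 + s * s')) := by
  rw [← phiHom_up R s, ← phiHom_lo R s', ← phiHom_lo R (s' / (1 + s * s')), ← phi_d R hc,
    ← phiHom_up R (s / (1 + s * s')), ← map_mul, ← map_mul, ← map_mul]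
  have hc' : 1 + s' * s ≠ 0 := by rwa [mul_comm s' s]
  congr 1
  apply Subtype.ext
  simp only [Matrix.SpecialLinearGroup.coe_mul]
  ext i j
  fin_cases i <;> fin_cases j <;> simp [dM, upM, loM, Matrix.mul_apply, Fin.sum_univ_two] <;> (try field_simp) <;> (try ring)

/-- The identity used to split a monomial involution. -/
lemma split_id (R : RankOneRel X Y) (h2 : (2 : F) ≠ 0) {e : F} (he : e ≠ 0) :
    X (-(1 / (2 * e))) * Y e * X (-(1 / e)) * Y (e / 2) = WW X Y (-(1 / e)) := by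
  have hs : -(1 / e) ≠ 0 := neg_ne_zero.mpr (one_div_ne_zero he)
  rw [← phi_w R hs, ← phiHom_up R (-(1 / (2 * e))), ← phiHom_lo R e, ← phiHom_up R (-(1 / e)),
    ← phiHom_lo R (e / 2), ← map_mul, ← map_mul, ← map_mul]
  congr 1
  apply Subtype.ext
  simp only [Matrix.SpecialLinearGroup.coe_mul]
  ext i j
  fin_cases i <;> fin_cases j <;> simp [wM, upM, loM, Matrix.mul_apply, Fin.sum_univ_two] <;> (try field_simp) <;> (try ring_nf) <;> (try simp)

/-- Conjugating an element exchanging `X` and `Y` with square scalar into a monomial element of the rank one group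
times itself. -/
lemma split_conj (R : RankOneRel X Y) (h2 : (2 : F) ≠ 0) {e : F} (he : e ≠ 0) (t : G)
    (h1 : ∀ u, t * X u * t⁻¹ = Y (e ^ 2 * u)) (h3 : ∀ u, t * Y u * t⁻¹ = X ((e ^ 2)⁻¹ * u)) :
    (X (-(1 / (2 * e))) * Y e) * t * (X (-(1 / (2 * e))) * Y e)⁻¹ = WW X Y (-(1 / e)) * t := by
  have e1 : t * (X (-(1 / (2 * e))) * Y e)⁻¹ * t⁻¹ = X (-(1 / e)) * Y (e / 2) := by
    rw [mul_inv_rev, R.X_inv, R.Y_inv]
    have : t * (Y (-e) * X (- -(1 / (2 * e)))) * t⁻¹ = (t * Y (-e) * t⁻¹) * (t * X (- -(1 / (2 * e))) * t⁻¹) := by group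
    rw [this, h1, h3]
    congr 2 <;> field_simp
  have e2 : (X (-(1 / (2 * e))) * Y e) * t * (X (-(1 / (2 * e))) * Y e)⁻¹ =
      (X (-(1 / (2 * e))) * Y e) * (t * (X (-(1 / (2 * e))) * Y e)⁻¹ * t⁻¹) * t := by group
  rw [e2, e1, ← split_id R h2 he]
  group

section A2

variable {X' Y' Z Z' : F → G} {H : G}

/-- The identity in a group of type `A₂` : `g τ(g)⁻¹` is monomial for a suitable `g`, where `τ` is the
inverse transpose and `a² + b² = -1`. -/
lemma a2_id (R : RankOneRel X X') (RY : RankOneRel Y Y') (RZ : RankOneRel Z Z')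
    (h2 : (2 : F) ≠ 0) {a b c : F} (ha : a ≠ 0) (hc : c = -a ^ 2)
    (hab : a ^ 2 + b ^ 2 = -1)
    (E0 : Z b * Z' b = Z' (b / c) * H * Z (b / c))
    (c1 : ∀ u v, Z' u * X v = X v * Y' (u * v) * Z' u)
    (c2 : ∀ u v, Z u * X' v = X' v * Y (-(u * v)) * Z u)
    (c3 : ∀ u v, X u * Y' v = Y' v * X u)
    (c4 : ∀ u v, X' u * Y v = Y v * X' u)
    (h5 : ∀ u, X u * H = H * X (u / c))
    (h6 : ∀ u, X' u * H = H * X' (c * u)) :
    (X' (-(1 / (2 * a))) * Y' (b / c * a) * Z' (-(b / c)) * X a * Z b) *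
      (Z' b * X' a * Z (-(b / c)) * Y (b / c * a) * X (-(1 / (2 * a)))) = H * WW X X' (-(1 / a)) := by
  have hc0 : c ≠ 0 := by rw [hc]; exact neg_ne_zero.mpr (pow_ne_zero 2 ha)
  set d := b / c with hd
  -- the inner part
  have i1 : Z' (-d) * X a * Z' d = X a * Y' (-(d * a)) := by
    have := c1 (-d) a
    calc Z' (-d) * X a * Z' d = (X a * Y' (-d * a) * Z' (-d)) * Z' d := by rw [this]
      _ = X a * Y' (-d * a) * (Z' (-d) * Z' d) := by group
      _ = X a * Y' (-(d * a)) := by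
          rw [RZ.Y_add, neg_add_cancel, RZ.Y_zero, mul_one, neg_mul]
  have i2 : Z d * X' a * Z (-d) = X' a * Y (-(d * a)) := by
    have := c2 d a
    calc Z d * X' a * Z (-d) = (X' a * Y (-(d * a)) * Z d) * Z (-d) := by rw [this]
      _ = X' a * Y (-(d * a)) * (Z d * Z (-d)) := by group
      _ = X' a * Y (-(d * a)) := by rw [RZ.X_add, add_neg_cancel, RZ.X_zero, mul_one]
  have main : (X' (-(1 / (2 * a))) * Y' (d * a) * Z' (-d) * X a * Z b) *
      (Z' b * X' a * Z (-d) * Y (d * a) * X (-(1 / (2 * a)))) =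
      X' (-(1 / (2 * a))) * X a * H * X' a * X (-(1 / (2 * a))) := by
    calc (X' (-(1 / (2 * a))) * Y' (d * a) * Z' (-d) * X a * Z b) *
          (Z' b * X' a * Z (-d) * Y (d * a) * X (-(1 / (2 * a))))
        = X' (-(1 / (2 * a))) * Y' (d * a) * (Z' (-d) * X a * (Z b * Z' b) * X' a * Z (-d)) * Y (d * a) *
            X (-(1 / (2 * a))) := by group
      _ = X' (-(1 / (2 * a))) * Y' (d * a) * ((Z' (-d) * X a * Z' d) * H * (Z d * X' a * Z (-d))) * Y (d * a) *
            X (-(1 / (2 * a))) := by rw [E0]; group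
      _ = X' (-(1 / (2 * a))) * (Y' (d * a) * X a * Y' (-(d * a))) * H * (X' a * Y (-(d * a)) * Y (d * a)) *
            X (-(1 / (2 * a))) := by rw [i1, i2]; group
      _ = _ := by
          have e1 : Y' (d * a) * X a * Y' (-(d * a)) = X a := by
            rw [← c3 a (d * a), mul_assoc, RY.Y_add, add_neg_cancel, RY.Y_zero, mul_one]
          have e2 : X' a * Y (-(d * a)) * Y (d * a) = X' a := by
            rw [mul_assoc, RY.X_add, neg_add_cancel, RY.X_zero, mul_one]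
          rw [e1, e2]
  rw [main]
  -- move `H` to the left
  have e3 : X' (-(1 / (2 * a))) * X a * H = H * X' (a / 2) * X (-(1 / a)) := by
    rw [mul_assoc, h5, ← mul_assoc, h6, mul_assoc, mul_assoc]
    have e4 : c * -(1 / (2 * a)) = a / 2 := by rw [hc]; field_simp
    have e5 : a / c = -(1 / a) := by rw [hc]; field_simp
    rw [e4, e5]
  rw [e3]
  simp only [mul_assoc]
  congr 1
  -- a computation in the rank one group
  have hs : -(1 / a) ≠ 0 := neg_ne_zero.mpr (one_div_ne_zero ha)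
  rw [← phi_w R hs, ← phiHom_lo R (a / 2), ← phiHom_up R (-(1 / a)), ← phiHom_lo R a, ← phiHom_up R (-(1 / (2 * a))),
    ← map_mul, ← map_mul, ← map_mul]
  congr 1
  apply Subtype.ext
  simp only [Matrix.SpecialLinearGroup.coe_mul]
  ext i j
  fin_cases i <;> fin_cases j <;> simp [wM, upM, loM, Matrix.mul_apply, Fin.sum_univ_two] <;> (try field_simp) <;> (try ring_nf) <;> (try simp)

/-- The conjugation in a group of type `A₂`. -/
lemma a2_conj (R : RankOneRel X X') (RY : RankOneRel Y Y') (RZ : RankOneRel Z Z')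
    (h2 : (2 : F) ≠ 0) {a b c : F} (ha : a ≠ 0) (hc : c = -a ^ 2)
    (hab : a ^ 2 + b ^ 2 = -1)
    (E0 : Z b * Z' b = Z' (b / c) * H * Z (b / c))
    (c1 : ∀ u v, Z' u * X v = X v * Y' (u * v) * Z' u)
    (c2 : ∀ u v, Z u * X' v = X' v * Y (-(u * v)) * Z u)
    (c3 : ∀ u v, X u * Y' v = Y' v * X u)
    (c4 : ∀ u v, X' u * Y v = Y v * X' u)
    (h5 : ∀ u, X u * H = H * X (u / c))
    (h6 : ∀ u, X' u * H = H * X' (c * u)) (t : G)
    (t1 : ∀ u, t * X u * t⁻¹ = X' (-u)) (t2 : ∀ u, t * X' u * t⁻¹ = X (-u))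
    (t3 : ∀ u, t * Y u * t⁻¹ = Y' (-u)) (t4 : ∀ u, t * Y' u * t⁻¹ = Y (-u))
    (t5 : ∀ u, t * Z u * t⁻¹ = Z' (-u)) (t6 : ∀ u, t * Z' u * t⁻¹ = Z (-u)) :
    (X' (-(1 / (2 * a))) * Y' (b / c * a) * Z' (-(b / c)) * X a * Z b) * t *
      (X' (-(1 / (2 * a))) * Y' (b / c * a) * Z' (-(b / c)) * X a * Z b)⁻¹ = H * WW X X' (-(1 / a)) * t := by
  rw [← a2_id R RY RZ h2 ha hc hab E0 c1 c2 c3 c4 h5 h6]
  set g := X' (-(1 / (2 * a))) * Y' (b / c * a) * Z' (-(b / c)) * X a * Z b with hg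
  have e1 : t * g⁻¹ * t⁻¹ = Z' b * X' a * Z (-(b / c)) * Y (b / c * a) * X (-(1 / (2 * a))) := by
    rw [hg]
    simp only [mul_inv_rev, R.X_inv, R.Y_inv, RY.Y_inv, RZ.X_inv, RZ.Y_inv]
    have : ∀ p1 p2 p3 p4 p5 : G, t * (p1 * (p2 * (p3 * (p4 * p5)))) * t⁻¹ =
        (t * p1 * t⁻¹) * (t * p2 * t⁻¹) * (t * p3 * t⁻¹) * (t * p4 * t⁻¹) * (t * p5 * t⁻¹) := by
      intro p1 p2 p3 p4 p5; group
    rw [this, t5, t1, t6, t4, t2]
    simp only [neg_neg]
  have e2 : g * t * g⁻¹ = g * (t * g⁻¹ * t⁻¹) * t := by group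
  rw [e2, e1]

end A2

end Cfsg.Agent.Lib.KS71.IVa
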