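/-
Involutions in Chevalley groups, odd characteristic: the combinatorics of involutions of the Weyl group, and the
two ways to shorten a monomial involution.
-/
import Mathlib
import Cfsg.Agent.Lib.KS71.IVa
import Cfsg.Agent.Lib.KS71.HeckeD
import Cfsg.Agent.Lib.Chev.SL2Chev

set_option autoImplicit false
set_option linter.unusedSectionVars false
set_option linter.unusedVariables false

namespace Cfsg.Agent.Lib.KS71.IVb

open Cfsg Cfsg.Lie Cfsg.Lie.ChevalleyDatum
open Cfsg.Agent.Lib.Chev.Tables Cfsg.Agent.Lib.Chev.Tables2 Cfsg.Agent.Lib.Chev.Tables3 Cfsg.Agent.Lib.Chev.Raise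
open Cfsg.Agent.Lib.Chev.Basic Cfsg.Agent.Lib.Chev.AxBasic Cfsg.Agent.Lib.Chev.Torus
open Cfsg.Agent.Lib.Chev.Products Cfsg.Agent.Lib.Chev.Products2 Cfsg.Agent.Lib.Chev.Mono1
open Cfsg.Agent.Lib.Chev.Mono2 Cfsg.Agent.Lib.Chev.Mono3 Cfsg.Agent.Lib.Chev.Bn
open Cfsg.Agent.Lib.Chev.Order1 Cfsg.Agent.Lib.Chev.Order2 Cfsg.Agent.Lib.Chev.Parab
open Cfsg.Agent.Lib.Chev.Diag Cfsg.Agent.Lib.Chev.SL2 Cfsg.Agent.Lib.Chev.SL2Chev
open Cfsg.Agent.Lib.KS71.StWeyl Cfsg.Agent.Lib.KS71.StCell Cfsg.Agent.Lib.KS71.StUnip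
open Cfsg.Agent.Lib.KS71.HeckeD Cfsg.Agent.Lib.KS71.IVa

variable {D : ChevalleyDatum} {F : Type*} [Field F]
variable (h : Tab D) (h2 : Tab2 D) (ax : Ax D F)

/-! ### Linearity -/

/-- Elements of the Weyl group act linearly on coefficient vectors. -/
lemma coef_lin {π : Equiv.Perm (Fin D.nroots)} (hπ : π ∈ Wp h (Set.Iio D.rank)) :
    ∃ M : ℕ → ℕ → ℤ, (∀ k (hk : k < D.rank) j, M k j = coef D (π (sr h hk)) j) ∧
      ∀ (s : Fin D.nroots) j, j < D.rank → coef D (π s) j = ∑ k ∈ Finset.range D.rank, coef D s k * M k j := by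
  obtain ⟨l, hl, rfl⟩ := (mem_Wp_iff h).mp hπ
  have hl' : ∀ i ∈ l, i < D.rank := fun i hi => hl i hi
  refine ⟨fun k j => coef D (wWord D l (D.simple k)) j, ?_, ?_⟩
  · intro k hk j
    simp only
    rw [wPw_val h hl']
    rfl
  · intro s j hj
    rw [wPw_val h hl']
    exact coef_wWord h hl' s.isLt hj

lemma coef_negF (s : Fin D.nroots) {m : ℕ} (hm : m < D.rank) : coef D (negF h s) m = - coef D s m :=
  h.coef_neg s s.isLt m hm

lemma coef_sr {i : ℕ} (hi : i < D.rank) {j : ℕ} (hj : j < D.rank) : coef D (sr h hi) j = if j = i then 1 else 0 :=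
  h.coef_simple i hi j hj

lemma coef_wP {i : ℕ} (hi : i < D.rank) (s : Fin D.nroots) {j : ℕ} (hj : j < D.rank) :
    coef D (wP h i s) j = coef D s j - if j = i then D.cartan i s else 0 := by
  rw [wP_of_lt h hi, wF_val]
  exact h.coef_reflect i hi s s.isLt j hj

include h in
lemma eq_of_coef {a b : Fin D.nroots} (e : ∀ j, j < D.rank → coef D a j = coef D b j) : a = b :=
  Fin.ext (eq_of_coef_eq h a.isLt b.isLt e)

/-! ### The number of roots sent to their negatives -/

/-- The roots sent to their negatives. -/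
noncomputable def PsiS (π : Equiv.Perm (Fin D.nroots)) : Finset (Fin D.nroots) :=
  by classical exact Finset.univ.filter fun s : Fin D.nroots => π s = negF h s

lemma mem_PsiS {π : Equiv.Perm (Fin D.nroots)} {s : Fin D.nroots} : s ∈ PsiS h π ↔ π s = negF h s := by
  classical
  simp [PsiS]

/-- The number of roots sent to their negatives. -/
noncomputable def Psi (π : Equiv.Perm (Fin D.nroots)) : ℕ := (PsiS h π).card

include h2 ax in
lemma wP_neg {k : ℕ} (hk : k < D.rank) (s : Fin D.nroots) : wP h k (negF h s) = negF h (wP h k s) :=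
  W_neg h h2 ax (wP_mem_W h hk) s

include h2 ax in
/-- The number of negated roots decreases when a negated fundamental root is removed. -/
lemma Psi_lt {π : Equiv.Perm (Fin D.nroots)} (hπ : π ∈ Wp h (Set.Iio D.rank)) (hinv : π * π = 1) {i : ℕ}
    (hi : i < D.rank) (e : π (sr h hi) = negF h (sr h hi)) : Psi h (wP h i * π) < Psi h π := by
  classical
  obtain ⟨M, hM1, hM2⟩ := coef_lin h hπ
  have hpp : ∀ s, π (π s) = s := fun s => by
    have := congrArg (fun w : Equiv.Perm (Fin D.nroots) => w s) hinv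
    simpa using this
  apply Finset.card_lt_card
  rw [Finset.ssubset_iff_of_subset]
  · refine ⟨sr h hi, (mem_PsiS h).mpr e, ?_⟩
    rw [mem_PsiS, Equiv.Perm.mul_apply, e, wP_neg h h2 ax hi, wP_sr h hi, negF_negF]
    intro e2
    have := (isPos_negF_iff h (sr h hi)).mp (e2 ▸ sr_isPos h hi)
    exact this (sr_isPos h hi)
  · intro s hs
    rw [mem_PsiS, Equiv.Perm.mul_apply] at hs
    rw [mem_PsiS]
    set m := D.cartan i (π s) with hm
    -- the coefficients of `π s`
    have c1 : ∀ j, j < D.rank → coef D (π s) j = - coef D s j + if j = i then m else 0 := by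
      intro j hj
      have := coef_wP h hi (π s) hj
      rw [hs, coef_negF h s hj] at this
      linarith
    -- apply `π`
    have c2 : (m : ℤ) + m = 0 := by
      have e1 := hM2 (π s) i hi
      rw [hpp s] at e1
      have e2 : ∑ k ∈ Finset.range D.rank, coef D (π s) k * M k i =
          - ∑ k ∈ Finset.range D.rank, coef D s k * M k i + m * M i i := by
        rw [Finset.sum_congr rfl (fun k hk => by rw [c1 k (Finset.mem_range.mp hk)])]
        simp only [add_mul, Finset.sum_add_distrib, neg_mul, Finset.sum_neg_distrib, ite_mul, zero_mul]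
        rw [Finset.sum_ite_eq' (Finset.range D.rank) i]
        simp [hi]
      rw [e2, ← hM2 s i hi, hM1 i hi i, e, coef_negF h _ hi, coef_sr h hi hi, c1 i hi] at e1
      simp only [if_true] at e1
      linarith
    have hm0 : m = 0 := by omega
    apply eq_of_coef h
    intro j hj
    rw [c1 j hj, coef_negF h s hj, hm0]
    simp

include h2 ax in
/-- The number of negated roots does not change under conjugation by a reflection. -/
lemma Psi_conj (π : Equiv.Perm (Fin D.nroots)) {k : ℕ} (hk : k < D.rank) :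
    Psi h (wP h k * π * wP h k) = Psi h π := by
  classical
  apply Finset.card_bij (fun s _ => wP h k s)
  · intro s hs
    rw [mem_PsiS] at hs ⊢
    simp only [Equiv.Perm.mul_apply] at hs
    have := congrArg (wP h k) hs
    rw [← Equiv.Perm.mul_apply (wP h k) (wP h k), wP_mul_self h k] at this
    simpa [wP_neg h h2 ax hk] using this
  · intro a _ b _ e
    exact (wP h k).injective e
  · intro b hb
    refine ⟨wP h k b, ?_, ?_⟩
    · rw [mem_PsiS] at hb ⊢
      simp only [Equiv.Perm.mul_apply]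
      rw [← Equiv.Perm.mul_apply (wP h k) (wP h k), wP_mul_self h k]
      simp only [Equiv.Perm.one_apply]
      rw [hb, wP_neg h h2 ax hk]
    · rw [← Equiv.Perm.mul_apply (wP h k) (wP h k), wP_mul_self h k]
      rfl

include h2 ax in
/-- Conjugating an involution shortens it when a fundamental root is sent to a negative root which is not its
negative. -/
lemma Nw_conj_lt {π : Equiv.Perm (Fin D.nroots)} (hπ : π ∈ Wp h (Set.Iio D.rank)) (hinv : π * π = 1) {k : ℕ}
    (hk : k < D.rank) (hn : ¬ D.IsPosRoot (π (sr h hk))) (hne : π (sr h hk) ≠ negF h (sr h hk)) :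
    Nw D (wP h k * π * wP h k) < Nw D π := by
  have h1 := Nw_mul_wP_lt h h2 ax hπ hk hn
  set u := π * wP h k with hu
  have huW : u ∈ Wp h (Set.Iio D.rank) := Subgroup.mul_mem _ hπ (wP_mem_W h hk)
  have hπi : π⁻¹ = π := inv_eq_of_mul_eq_one_left hinv
  have hui : u⁻¹ = wP h k * π := by
    rw [hu, mul_inv_rev, wP_inv_eq', hπi]
  have h3 : ¬ D.IsPosRoot (u⁻¹ (sr h hk)) := by
    rw [hui, Equiv.Perm.mul_apply]
    intro hp
    apply hn
    rw [wP_of_lt h hk, wF_val] at hp
    refine isPos_neg_reflect h h2 hk (π (sr h hk)).isLt hp ?_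
    intro e
    exact hne (Fin.ext e)
  have h4 := Nw_mul_wP_lt h h2 ax (Subgroup.inv_mem _ huW) hk h3
  have e1 : u⁻¹ * wP h k = (wP h k * u)⁻¹ := by
    rw [_root_.mul_inv_rev (wP h k) u, wP_inv_eq']
  rw [e1, Nw_inv h h2 ax (Subgroup.mul_mem _ (wP_mem_W h hk) huW), Nw_inv h h2 ax huW] at h4
  have e2 : wP h k * π * wP h k = wP h k * u := by rw [hu, mul_assoc]
  rw [e2]
  omega

include h2 ax in
/-- An element of the Weyl group positive on all fundamental roots is trivial. -/
lemma eq_one_of_pos {u : Equiv.Perm (Fin D.nroots)} (hu : u ∈ Wp h (Set.Iio D.rank))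
    (hp : ∀ k (hk : k < D.rank), D.IsPosRoot (u (sr h hk))) : u = 1 := by
  apply eq_one_of_PosOn h h2 ax (J := Set.Iio D.rank) (fun j hj => hj) hu
  intro k hk _
  exact hp k hk

include h2 ax in
/-- The determination of an involution from the fundamental roots it negates. -/
lemma det_of_neg {J : Set ℕ} (hJ : ∀ j ∈ J, j < D.rank) {π v : Equiv.Perm (Fin D.nroots)}
    (hπ : π ∈ Wp h (Set.Iio D.rank)) (hinv : π * π = 1) (hv : v ∈ Wp h J)
    (h1 : ∀ k (hk : k < D.rank), k ∈ J → π (sr h hk) = negF h (sr h hk))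
    (h3 : ∀ k (hk : k < D.rank), k ∉ J → D.IsPosRoot (π (sr h hk)))
    (h4 : ∀ k (hk : k < D.rank), k ∈ J → v (sr h hk) = negF h (sr h hk)) : π = v := by
  classical
  obtain ⟨M, hM1, hM2⟩ := coef_lin h hπ
  have hpp : ∀ s, π (π s) = s := fun s => by
    have := congrArg (fun w : Equiv.Perm (Fin D.nroots) => w s) hinv
    simpa using this
  have hvW : v ∈ Wp h (Set.Iio D.rank) := Wp_mono h (fun j hj => hJ j hj) hv
  -- roots supported on `J` are negated
  have hS : ∀ s : Fin D.nroots, (∀ m, m < D.rank → m ∉ J → coef D s m = 0) → π s = negF h s := by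
    intro s hs
    apply eq_of_coef h
    intro j hj
    rw [hM2 s j hj, coef_negF h s hj]
    have : ∀ k ∈ Finset.range D.rank, coef D s k * M k j = - (coef D s k * if j = k then 1 else 0) := by
      intro k hk
      have hk' := Finset.mem_range.mp hk
      by_cases hkJ : k ∈ J
      · rw [hM1 k hk' j, h1 k hk' hkJ, coef_negF h _ hj, coef_sr h hk' hj]
        ring
      · rw [hs k hk' hkJ]
        ring
    rw [Finset.sum_congr rfl this, Finset.sum_neg_distrib]
    congr 1
    simp only [mul_ite, mul_one, mul_zero]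
    rw [Finset.sum_ite_eq (Finset.range D.rank) j]
    simp [hj]
  have hone : π * v = 1 := by
    apply eq_one_of_pos h h2 ax (Subgroup.mul_mem _ hπ hvW)
    intro k hk
    rw [Equiv.Perm.mul_apply]
    by_cases hkJ : k ∈ J
    · rw [h4 k hk hkJ, W_neg h h2 ax hπ, h1 k hk hkJ, negF_negF]
      exact sr_isPos h hk
    · -- `x = v α_k` differs from `α_k` by a vector supported on `J`
      set x := v (sr h hk) with hx
      have hxc : ∀ m, m < D.rank → m ∉ J → coef D x m = coef D (sr h hk) m := fun m hm hmJ =>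
        coef_of_mem_Wp h hJ hv _ hm hmJ
      by_contra hneg
      -- `π α_k` is supported on `J`
      have hsupp : ∀ m, m < D.rank → m ∉ J → coef D (π (sr h hk)) m = 0 := by
        intro m hm hmJ
        have e1 : coef D (π x) m = coef D (π (sr h hk)) m := by
          rw [hM2 x m hm, hM2 (sr h hk) m hm]
          apply Finset.sum_congr rfl
          intro i hi
          have hi' := Finset.mem_range.mp hi
          by_cases hiJ : i ∈ J
          · rw [hM1 i hi' m, h1 i hi' hiJ, coef_negF h _ hm, coef_sr h hi' hm]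
            have : m ≠ i := fun e => hmJ (e ▸ hiJ)
            simp [this]
          · rw [hxc i hi' hiJ]
        have h5 : coef D (π x) m ≤ 0 := by
          rw [not_isPos_iff h (π x).isLt] at hneg
          exact (isNegRoot_iff h (π x).isLt).mp hneg m hm
        have h6 : 0 ≤ coef D (π (sr h hk)) m := (isPosRoot_iff h (π _).isLt).mp (h3 k hk hkJ) m hm
        omega
      have h7 := hS _ hsupp
      rw [hpp] at h7
      have h8 := (isPos_negF_iff h (π (sr h hk))).mp (h7 ▸ sr_isPos h hk)
      exact h8 (h3 k hk hkJ)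
  have hπi : π⁻¹ = π := inv_eq_of_mul_eq_one_left hinv
  exact hπi.symm.trans (inv_eq_of_mul_eq_one_right hone)

/-! ### Monomial elements -/

include h h2 in
lemma nG_mem_N {r : ℕ} (hr : r < D.nroots) {x : F} (hx : x ≠ 0) : nG ax r x ∈ D.monomialSubgroup F := by
  rw [monomial_eq_monoS h h2 ax]
  exact nG_mem_monoS h h2 ax hr hx

include h h2 in
lemma sG_mem_N {i : ℕ} (hi : i < D.rank) : sG ax i ∈ D.monomialSubgroup F :=
  nG_mem_N h h2 ax (h.simple_lt i hi) one_ne_zero

include h h2 ax in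
lemma diag_le_N : D.diagonalSubgroup F ≤ D.monomialSubgroup F := by
  rw [monomial_eq_monoS h h2 ax]
  exact diagonal_le_monoS ax

include h2 in
lemma perm_mem_W {t : GL D.Idx F} {π : Equiv.Perm (Fin D.nroots)} {c : Fin D.nroots → Fˣ}
    (H : IsNor h ax t π c) (hm : t ∈ D.monomialSubgroup F) : π ∈ Wp h (Set.Iio D.rank) := by
  have e := piN_of_isNor h h2 ax (g := ⟨t, hm⟩) H
  rw [← e]
  exact piN_mem_Wp h h2 ax _

include h2 in
lemma perm_sq {t : GL D.Idx F} {π : Equiv.Perm (Fin D.nroots)} {c : Fin D.nroots → Fˣ}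
    (H : IsNor h ax t π c) (ht : t * t = 1) : π * π = 1 ∧ ∀ s, c (π s) * c s = 1 := by
  have H2 := H.mul h ax H
  rw [ht] at H2
  obtain ⟨e1, e2⟩ := IsNor.unique h ax h2 H2 (IsNor.one h ax)
  refine ⟨e1, fun s => ?_⟩
  have := congrFun e2 s
  simpa using this

include h2 in
lemma isNor_nG_simple {i : ℕ} (hi : i < D.rank) {x : F} (hx : x ≠ 0) :
    ∃ c, IsNor h ax (nG ax (D.simple i) x) (wP h i) c := by
  obtain ⟨c, hc⟩ := exists_isNor_sG h ax h2 (F := F) hi
  have e := hG_eq_tor ax h (h.simple_lt i hi) (Units.mk0 x hx)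
  simp only [Units.val_mk0] at e
  have H := (isNor_tor h ax (hW D (D.simple i) (Units.mk0 x hx))).mul h ax hc
  rw [one_mul, ← e, ← wP_of_lt h hi] at H
  rw [nG_eq_hG_mul ax]
  exact ⟨_, H⟩

lemma conj_of_neg {t : GL D.Idx F} {π : Equiv.Perm (Fin D.nroots)} {c : Fin D.nroots → Fˣ}
    (H : IsNor h ax t π c) (r : Fin D.nroots) (e : π r = negF h r) (u : F) :
    t * xG ax r u * t⁻¹ = xG ax (D.neg r) ((c r : F) * u) ∧
      t * xG ax (D.neg r) u * t⁻¹ = xG ax r ((c r : F)⁻¹ * u) := by
  constructor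
  · rw [H.conj r u, e]
    rfl
  · have h1 := H.conj (negF h r) u
    rw [H.neg, e, negF_negF, H.sign] at h1
    simpa [negF] using h1

/-! ### Splitting -/

include h2 in
/-- A monomial element negating a fundamental root with square scalar. -/
lemma split_step (h2F : (2 : F) ≠ 0) {t : GL D.Idx F} {π : Equiv.Perm (Fin D.nroots)} {c : Fin D.nroots → Fˣ}
    (H : IsNor h ax t π c) {r : Fin D.nroots} (e : π r = negF h r) {κ : F} (hκ0 : κ ≠ 0)
    (hκ : (c r : F) = κ ^ 2) :
    ∃ g ∈ D.group F, g * t * g⁻¹ = nG ax r (-(1 / κ)) * t := by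
  have R := rankOneRel h h2 ax r.isLt
  refine ⟨xG ax r (-(1 / (2 * κ))) * xG ax (D.neg r) κ, Subgroup.mul_mem _ (xG_mem_group ax r.isLt _)
    (xG_mem_group ax (h.neg_lt r r.isLt) _), ?_⟩
  refine split_conj R h2F hκ0 t (fun u => ?_) (fun u => ?_)
  · rw [(conj_of_neg h ax H r e u).1, hκ]
  · rw [(conj_of_neg h ax H r e u).2, hκ]

/-! ### Rank one groups with a sign -/

lemma twist_rel {G : Type*} [Group G] {X Y : F → G} (R : RankOneRel X Y) {ν : F} (hν : ν * ν = 1) :
    RankOneRel (fun v => X (ν * v)) (fun v => Y (ν * v)) := by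
  have hν0 : ν ≠ 0 := by
    intro h0
    rw [h0] at hν
    simp at hν
  have hWW : ∀ t : F, WW (fun v => X (ν * v)) (fun v => Y (ν * v)) t = WW X Y (ν * t) := by
    intro t
    simp only [WW]
    congr 2
    · congr 1
      rw [mul_inv]
      have : ν⁻¹ = ν := by
        field_simp
        rw [← hν]; ring
      rw [this]
      ring
  have hHH : ∀ t : F, t ≠ 0 → HH (fun v => X (ν * v)) (fun v => Y (ν * v)) t = HH X Y t := by
    intro t ht
    rw [HH, hWW, hWW, R.W_mul_W (mul_ne_zero hν0 ht) (mul_ne_zero hν0 (neg_ne_zero.mpr one_ne_zero))]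
    congr 1
    field_simp
  refine ⟨fun a b => by simp only [R.X_add, mul_add], fun a b => by simp only [R.Y_add, mul_add], ?_, ?_, ?_⟩
  · intro t u ht
    rw [hWW, R.conj_X _ _ (mul_ne_zero hν0 ht)]
    congr 1
    have : ν⁻¹ = ν := by
      field_simp
      rw [← hν]; ring
    rw [mul_inv, this]
    linear_combination (-(ν * (t⁻¹) ^ 2 * u) * ν * ν + ν * (t⁻¹ ^ 2 * u) * 0) * 0 + (-(t⁻¹ ^ 2 * (ν * u))) * hν
  · intro t u ht
    rw [hWW, R.conj_Y _ _ (mul_ne_zero hν0 ht)]
    congr 1
    linear_combination (-(t ^ 2 * (ν * u))) * hν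
  · intro a b ha hb
    rw [hHH a ha, hHH b hb, hHH _ (mul_ne_zero ha hb), R.H_mul a b ha hb]

end Cfsg.Agent.Lib.KS71.IVb
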