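/-
Involutions in Chevalley groups, odd characteristic: a monomial involution negating two fundamental roots joined by
a simple bond.
-/
import Mathlib
import Cfsg.Agent.Lib.KS71.IVb

set_option autoImplicit false
set_option linter.unusedSectionVars false
set_option linter.unusedVariables false

namespace Cfsg.Agent.Lib.KS71.IVb2

open Cfsg Cfsg.Lie Cfsg.Lie.ChevalleyDatum
open Cfsg.Agent.Lib.Chev.Tables Cfsg.Agent.Lib.Chev.Tables2 Cfsg.Agent.Lib.Chev.Tables3 Cfsg.Agent.Lib.Chev.Raise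
open Cfsg.Agent.Lib.Chev.Basic Cfsg.Agent.Lib.Chev.AxBasic Cfsg.Agent.Lib.Chev.Torus
open Cfsg.Agent.Lib.Chev.Products Cfsg.Agent.Lib.Chev.Products2 Cfsg.Agent.Lib.Chev.Mono1
open Cfsg.Agent.Lib.Chev.Mono2 Cfsg.Agent.Lib.Chev.Mono3 Cfsg.Agent.Lib.Chev.Bn
open Cfsg.Agent.Lib.Chev.Order1 Cfsg.Agent.Lib.Chev.Order2 Cfsg.Agent.Lib.Chev.Parab
open Cfsg.Agent.Lib.Chev.Diag Cfsg.Agent.Lib.Chev.SL2 Cfsg.Agent.Lib.Chev.SL2Chev
open Cfsg.Agent.Lib.KS71.StWeyl Cfsg.Agent.Lib.KS71.StCell Cfsg.Agent.Lib.KS71.StUnip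
open Cfsg.Agent.Lib.KS71.HeckeD Cfsg.Agent.Lib.KS71.IVa Cfsg.Agent.Lib.KS71.IVb

variable {D : ChevalleyDatum} {F : Type*} [Field F]
variable (h : Tab D) (h2 : Tab2 D) (ax : Ax D F)

/-- The commutator formula with one term. -/
lemma comm_one {r s p : ℕ} {N : ℤ} (hr : r < D.nroots) (hs : s < D.nroots) (hsr : s ≠ r) (hsn : s ≠ D.neg r)
    (ht : D.commTerms r s = [(p, N, 1, 1)]) (t u : F) :
    xG ax s u * xG ax r t = xG ax r t * xG ax s u * xG ax p (-(N : F) * t * u) := by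
  rw [xG_comm ax hr hs hsr hsn t u]
  congr 1
  simp only [commWord, ht, List.map_cons, List.map_nil, pow_one, wordG_cons]
  simp [wordG]

/-- The commutator formula with no term. -/
lemma comm_nil {r s : ℕ} (hr : r < D.nroots) (hs : s < D.nroots) (hsr : s ≠ r) (hsn : s ≠ D.neg r)
    (ht : D.commTerms r s = []) (t u : F) :
    xG ax s u * xG ax r t = xG ax r t * xG ax s u := by
  rw [xG_comm ax hr hs hsr hsn t u]
  simp [commWord, ht, wordG]

/-- The data of a simple bond. -/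
structure A2Edge (D : ChevalleyDatum) (i j p : ℕ) : Prop where
  hi : i < D.rank
  hj : j < D.rank
  hp : p < D.nroots
  t1 : D.commTerms (D.simple i) (D.simple j) = [(p, -1, 1, 1)]
  t2 : D.commTerms (D.neg (D.simple i)) (D.neg (D.simple j)) = [(D.neg p, 1, 1, 1)]
  t3 : D.commTerms (D.simple i) (D.neg p) = [(D.neg (D.simple j), 1, 1, 1)]
  t4 : D.commTerms (D.neg (D.simple i)) p = [(D.simple j, -1, 1, 1)]
  t5 : D.commTerms (D.simple i) (D.neg (D.simple j)) = []
  t6 : D.commTerms (D.neg (D.simple i)) (D.simple j) = []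
  t7 : D.commTerms (D.neg (D.simple j)) (D.neg p) = []
  t8 : D.commTerms (D.simple j) p = []
  t9 : pair D p (D.simple i) = 1
  t10 : pair D p (D.neg (D.simple i)) = -1
  t11 : D.reflectRoot j (D.simple i) = p
  n1 : D.simple j ≠ D.simple i
  n2 : D.simple j ≠ D.neg (D.simple i)
  n3 : D.neg (D.simple j) ≠ D.neg (D.simple i)
  n4 : D.neg (D.simple j) ≠ D.neg (D.neg (D.simple i))
  n5 : D.neg p ≠ D.simple i
  n6 : D.neg p ≠ D.neg (D.simple i)
  n7 : p ≠ D.neg (D.simple i)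
  n8 : p ≠ D.neg (D.neg (D.simple i))
  n9 : D.neg (D.simple j) ≠ D.simple i
  n10 : D.simple j ≠ D.neg (D.neg (D.simple i))
  n11 : D.neg p ≠ D.neg (D.simple j)
  n12 : D.neg p ≠ D.neg (D.neg (D.simple j))
  n13 : p ≠ D.simple j
  n14 : p ≠ D.neg (D.simple j)

/-- The check of the data of a simple bond. -/
def a2Check (D : ChevalleyDatum) (i j p : ℕ) : Bool :=
  decide (i < D.rank) && decide (j < D.rank) && decide (p < D.nroots) &&
  decide (D.commTerms (D.simple i) (D.simple j) = [(p, -1, 1, 1)]) &&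
  decide (D.commTerms (D.neg (D.simple i)) (D.neg (D.simple j)) = [(D.neg p, 1, 1, 1)]) &&
  decide (D.commTerms (D.simple i) (D.neg p) = [(D.neg (D.simple j), 1, 1, 1)]) &&
  decide (D.commTerms (D.neg (D.simple i)) p = [(D.simple j, -1, 1, 1)]) &&
  decide (D.commTerms (D.simple i) (D.neg (D.simple j)) = []) &&
  decide (D.commTerms (D.neg (D.simple i)) (D.simple j) = []) &&
  decide (D.commTerms (D.neg (D.simple j)) (D.neg p) = []) &&
  decide (D.commTerms (D.simple j) p = []) &&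
  decide (pair D p (D.simple i) = 1) &&
  decide (pair D p (D.neg (D.simple i)) = -1) &&
  decide (D.reflectRoot j (D.simple i) = p) &&
  decide (D.simple j ≠ D.simple i) && decide (D.simple j ≠ D.neg (D.simple i)) &&
  decide (D.neg (D.simple j) ≠ D.neg (D.simple i)) && decide (D.neg (D.simple j) ≠ D.neg (D.neg (D.simple i))) &&
  decide (D.neg p ≠ D.simple i) && decide (D.neg p ≠ D.neg (D.simple i)) &&
  decide (p ≠ D.neg (D.simple i)) && decide (p ≠ D.neg (D.neg (D.simple i))) &&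
  decide (D.neg (D.simple j) ≠ D.simple i) && decide (D.simple j ≠ D.neg (D.neg (D.simple i))) &&
  decide (D.neg p ≠ D.neg (D.simple j)) && decide (D.neg p ≠ D.neg (D.neg (D.simple j))) &&
  decide (p ≠ D.simple j) && decide (p ≠ D.neg (D.simple j))

lemma A2Edge.of_check {D : ChevalleyDatum} {i j p : ℕ} (hc : a2Check D i j p = true) : A2Edge D i j p := by
  simp only [a2Check, Bool.and_eq_true, decide_eq_true_eq] at hc
  obtain ⟨⟨⟨⟨⟨⟨⟨⟨⟨⟨⟨⟨⟨⟨⟨⟨⟨⟨⟨⟨⟨⟨⟨⟨⟨⟨⟨a1, a2⟩, a3⟩, a4⟩, a5⟩, a6⟩, a7⟩, a8⟩, a9⟩, a10⟩, a11⟩, a12⟩, a13⟩, a14⟩,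
    a15⟩, a16⟩, a17⟩, a18⟩, a19⟩, a20⟩, a21⟩, a22⟩, a23⟩, a24⟩, a25⟩, a26⟩, a27⟩, a28⟩ := hc
  exact ⟨a1, a2, a3, a4, a5, a6, a7, a8, a9, a10, a11, a12, a13, a14, a15, a16, a17, a18, a19, a20, a21, a22, a23,
    a24, a25, a26, a27, a28⟩

/-- A conjugate of `t` in the monomial group with fewer roots negated. -/
def Reduces (h : Tab D) (ax : Ax D F) (t : GL D.Idx F) (π : Equiv.Perm (Fin D.nroots)) : Prop :=
  ∃ g ∈ D.group F, ∃ π' c', IsNor h ax (g * t * g⁻¹) π' c' ∧ g * t * g⁻¹ ∈ D.monomialSubgroup F ∧ Psi h π' < Psi h π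

lemma Reduces.of_conj {t t₁ : GL D.Idx F} {π π₁ : Equiv.Perm (Fin D.nroots)} {g₀ : GL D.Idx F} (hg₀ : g₀ ∈ D.group F)
    (e : t₁ = g₀ * t * g₀⁻¹) (hP : Psi h π₁ = Psi h π) (R : Reduces h ax t₁ π₁) : Reduces h ax t π := by
  obtain ⟨g, hg, π', c', H', hm', hP'⟩ := R
  have e2 : (g * g₀) * t * (g * g₀)⁻¹ = g * t₁ * g⁻¹ := by rw [e]; group
  refine ⟨g * g₀, Subgroup.mul_mem _ hg hg₀, π', c', ?_, ?_, by omega⟩
  · rw [e2]; exact H'
  · rw [e2]; exact hm'

include h2 in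
/-- Splitting at a fundamental root with a square scalar. -/
lemma split_psi (h2F : (2 : F) ≠ 0) {t : GL D.Idx F} {π : Equiv.Perm (Fin D.nroots)} {c : Fin D.nroots → Fˣ}
    (H : IsNor h ax t π c) (hm : t ∈ D.monomialSubgroup F) (ht : t * t = 1) {i : ℕ} (hi : i < D.rank)
    (e : π (sr h hi) = negF h (sr h hi)) (hS : IsSquare ((c (sr h hi) : Fˣ) : F)) : Reduces h ax t π := by
  obtain ⟨κ, hκ⟩ := hS
  have hκ0 : κ ≠ 0 := by
    intro h0
    rw [h0, mul_zero] at hκ
    exact (c (sr h hi)).ne_zero hκ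
  obtain ⟨g, hg, eg⟩ := split_step h h2 ax h2F H e hκ0 (by rw [hκ]; ring)
  have hx : -(1 / κ) ≠ 0 := neg_ne_zero.mpr (one_div_ne_zero hκ0)
  obtain ⟨c₁, hc₁⟩ := isNor_nG_simple h h2 ax hi hx
  have H' := hc₁.mul h ax H
  rw [show nG ax (D.simple i) (-(1 / κ)) * t = g * t * g⁻¹ from eg.symm] at H'
  refine ⟨g, hg, _, _, H', ?_, ?_⟩
  · rw [eg]
    exact Subgroup.mul_mem _ (nG_mem_N h h2 ax (h.simple_lt i hi) hx) hm
  · exact Psi_lt h h2 ax (perm_mem_W h h2 ax H hm) (perm_sq h h2 ax H ht).1 hi e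

lemma sq_of_nonsq [Fintype F] {x y : F} (hx : x ≠ 0) (hy : y ≠ 0) (h1 : ¬ IsSquare x) (h3 : ¬ IsSquare y) :
    IsSquare (x * y) := by
  classical
  have e1 := quadraticChar_neg_one_iff_not_isSquare.mpr h1
  have e2 := quadraticChar_neg_one_iff_not_isSquare.mpr h3
  rw [← quadraticChar_one_iff_isSquare (mul_ne_zero hx hy), map_mul, e1, e2]
  norm_num

lemma exists_sum_sq [Fintype F] (h2F : (2 : F) ≠ 0) : ∃ A B : F, A ^ 2 + B ^ 2 = -1 := by
  classical
  have hc : ringChar F ≠ 2 := by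
    intro e
    apply h2F
    have := ringChar.Nat.cast_ringChar (R := F)
    rw [e] at this
    exact_mod_cast this
  have hodd := FiniteField.odd_card_of_char_ne_two hc
  obtain ⟨a, b, hab⟩ := FiniteField.exists_root_sum_quadratic
    (f := Polynomial.X ^ 2 + Polynomial.C (1 : F)) (g := Polynomial.X ^ 2) (by compute_degree!) (by compute_degree!) hodd
  refine ⟨a, b, ?_⟩
  simp at hab
  linear_combination hab

section edge

variable {i j p : ℕ} (E : A2Edge D i j p)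

include h h2 ax E

lemma coef_p {m : ℕ} (hm : m < D.rank) : coef D p m = coef D (D.simple i) m + coef D (D.simple j) m := by
  have := commTerms_spec h (h.simple_lt i E.hi) (h.simple_lt j E.hj) (c := (p, -1, 1, 1)) (by rw [E.t1]; simp)
  simpa using this.2.2.2 m hm

variable {t : GL D.Idx F} {π : Equiv.Perm (Fin D.nroots)} {c : Fin D.nroots → Fˣ}

/-- The root `p` is negated too. -/
lemma pi_p (hπ : π ∈ Wp h (Set.Iio D.rank)) (e1 : π (sr h E.hi) = negF h (sr h E.hi))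
    (e2 : π (sr h E.hj) = negF h (sr h E.hj)) : π ⟨p, E.hp⟩ = negF h ⟨p, E.hp⟩ := by
  obtain ⟨M, hM1, hM2⟩ := coef_lin h hπ
  apply eq_of_coef h
  intro m hm
  rw [hM2 _ m hm, coef_negF h _ hm]
  simp only
  rw [Finset.sum_congr rfl (fun k hk => by rw [coef_p h h2 ax E (Finset.mem_range.mp hk)])]
  simp only [add_mul, Finset.sum_add_distrib]
  have key : ∀ (a : ℕ) (ha : a < D.rank), ∑ k ∈ Finset.range D.rank, coef D (D.simple a) k * M k m = M a m := by
    intro a ha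
    rw [Finset.sum_congr rfl (fun k hk => by rw [h.coef_simple a ha k (Finset.mem_range.mp hk)])]
    simp only [ite_mul, one_mul, zero_mul]
    rw [Finset.sum_ite_eq' (Finset.range D.rank) a]
    simp [ha]
  rw [key i E.hi, key j E.hj, hM1 i E.hi m, hM1 j E.hj m, e1, e2, coef_negF h _ hm, coef_negF h _ hm, coef_p h h2 ax E hm]
  simp only [sr]
  ring

/-- The relation between the scalars. -/
lemma kappa_p (H : IsNor h ax t π c) (e1 : π (sr h E.hi) = negF h (sr h E.hi))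
    (e2 : π (sr h E.hj) = negF h (sr h E.hj)) (e3 : π ⟨p, E.hp⟩ = negF h ⟨p, E.hp⟩) :
    (c ⟨p, E.hp⟩ : F) = - ((c (sr h E.hi) : F) * (c (sr h E.hj) : F)) := by
  have ha := h.simple_lt i E.hi
  have hb := h.simple_lt j E.hj
  have r1 := comm_one ax ha hb E.n1 E.n2 E.t1 (1 : F) (1 : F)
  have e0 : -(((-1 : ℤ) : F)) * 1 * 1 = 1 := by
    push_cast
    ring
  rw [e0] at r1
  have r2 := congrArg (fun g => t * g * t⁻¹) r1
  have e : ∀ x y w : GL D.Idx F, t * (x * y * w) * t⁻¹ = (t * x * t⁻¹) * (t * y * t⁻¹) * (t * w * t⁻¹) := by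
    intro x y w; group
  have e' : ∀ x y : GL D.Idx F, t * (x * y) * t⁻¹ = (t * x * t⁻¹) * (t * y * t⁻¹) := by
    intro x y; group
  simp only [e, e'] at r2
  have c1 := (conj_of_neg h ax H (sr h E.hi) e1 1).1
  have c2 := (conj_of_neg h ax H (sr h E.hj) e2 1).1
  have c3 := (conj_of_neg h ax H ⟨p, E.hp⟩ e3 1).1
  simp only [mul_one] at c1 c2 c3
  change t * xG ax (D.simple i) 1 * t⁻¹ = _ at c1
  change t * xG ax (D.simple j) 1 * t⁻¹ = _ at c2
  change t * xG ax p 1 * t⁻¹ = _ at c3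
  rw [c1, c2, c3] at r2
  have r3 := comm_one ax (h.neg_lt _ ha) (h.neg_lt _ hb) E.n3 E.n4 E.t2 ((c (sr h E.hi) : F)) (c (sr h E.hj) : F)
  change xG ax (D.neg (D.simple j)) _ * xG ax (D.neg (D.simple i)) _ =
    xG ax (D.neg (D.simple i)) _ * xG ax (D.neg (D.simple j)) _ * _ at r2
  rw [r3] at r2
  have r4 := mul_left_cancel r2
  have r5 := xG_eq_iff ax h h2 (h.neg_lt _ E.hp) (h.neg_lt _ E.hp) (c ⟨p, E.hp⟩).ne_zero r4.symm
  rw [r5.2]
  push_cast
  ring

/-- The identity in the non split case. -/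
lemma a2_nonsplit (h2F : (2 : F) ≠ 0) (H : IsNor h ax t π c) (e1 : π (sr h E.hi) = negF h (sr h E.hi))
    (e2 : π (sr h E.hj) = negF h (sr h E.hj)) (e3 : π ⟨p, E.hp⟩ = negF h ⟨p, E.hp⟩)
    (ca : (c (sr h E.hi) : F) = -1) (cb : (c (sr h E.hj) : F) = -1) {A B : F} (hA : A ≠ 0)
    (hAB : A ^ 2 + B ^ 2 = -1) :
    ∃ g ∈ D.group F, g * t * g⁻¹ = hG ax p (-A ^ 2) * nG ax (D.simple i) (-(1 / A)) * t := by
  have ha := h.simple_lt i E.hi
  have hb := h.simple_lt j E.hj
  have hna := h.neg_lt _ ha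
  have hnb := h.neg_lt _ hb
  have hp := E.hp
  have hnp := h.neg_lt _ hp
  have R := rankOneRel h h2 ax ha
  have RY := rankOneRel h h2 ax hb
  have RP := rankOneRel h h2 ax hp
  have hν : (-1 : F) * (-1) = 1 := by ring
  have RZ := twist_rel RP hν
  have cp : (c ⟨p, E.hp⟩ : F) = -1 := by
    rw [kappa_p h h2 ax E H e1 e2 e3, ca, cb]
    ring
  set C : F := -A ^ 2 with hC
  have hC0 : C ≠ 0 := neg_ne_zero.mpr (pow_ne_zero 2 hA)
  have hC1 : 1 + B * B = C := by
    simp only [hC]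
    linear_combination hAB
  let CU : Fˣ := Units.mk0 C hC0
  have hH : hG ax p C = tor D (hW D p CU) := hG_eq_tor ax h hp CU
  have hact : ∀ (s : ℕ) (hs : s < D.nroots) (u : F),
      hG ax p C * xG ax s u * (hG ax p C)⁻¹ = xG ax s (((CU ^ pair D p s : Fˣ) : F) * u) := by
    intro s hs u
    rw [hH, tor_conj_xG ax h _ hs, chi_hW h _ _ hs]
  have key := a2_conj (X := xG ax (D.simple i)) (X' := xG ax (D.neg (D.simple i))) (Y := xG ax (D.simple j))
    (Y' := xG ax (D.neg (D.simple j))) (Z := fun v => xG ax p (-1 * v)) (Z' := fun v => xG ax (D.neg p) (-1 * v))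
    (H := hG ax p C) R RY RZ h2F hA hC hAB ?_ ?_ ?_ ?_ ?_ ?_ ?_ t ?_ ?_ ?_ ?_ ?_ ?_
  · exact ⟨_, Subgroup.mul_mem _ (Subgroup.mul_mem _ (Subgroup.mul_mem _ (Subgroup.mul_mem _ (xG_mem_group ax hna _)
      (xG_mem_group ax hnb _)) (xG_mem_group ax hnp _)) (xG_mem_group ax ha _)) (xG_mem_group ax hp _), key⟩
  · -- `E0`
    have e0 := X_mul_Y RZ (s := B) (s' := B) (by rw [hC1]; exact hC0)
    rw [hC1] at e0
    refine e0.trans ?_
    congr 2
    -- the element `H`
    simp only [HH]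
    have e5 : ∀ v : F, WW (fun v => xG ax p (-1 * v)) (fun v => xG ax (D.neg p) (-1 * v)) v = WW (xG ax p) (xG ax (D.neg p)) (-1 * v) := by
      intro v
      simp only [WW]
      congr 2
      congr 1
      simp only [mul_inv, neg_mul, one_mul, inv_neg, inv_one, mul_neg, neg_neg, mul_one]
    rw [e5, e5, RP.W_mul_W (mul_ne_zero (neg_ne_zero.mpr one_ne_zero) hC0) (by simp)]
    have e6 : -(-1 * C / (-1 * -1)) = C := by
      field_simp
    rw [e6]
    rfl
  · -- `c1`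
    intro u v
    have e : -(((1 : ℤ) : F)) * v * (-1 * u) = u * v := by
      push_cast
      ring
    have r1 := comm_one ax ha hnp E.n5 E.n6 E.t3 v (-1 * u)
    rw [e] at r1
    have r2 := comm_nil ax hnb hnp E.n11 E.n12 E.t7 (u * v) (-1 * u)
    rw [r1, mul_assoc, r2, ← mul_assoc]
  · -- `c2`
    intro u v
    have e : -(((-1 : ℤ) : F)) * v * (-1 * u) = -(u * v) := by
      push_cast
      ring
    have r1 := comm_one ax hna hp E.n7 E.n8 E.t4 v (-1 * u)
    rw [e] at r1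
    have r2 := comm_nil ax hb hp E.n13 E.n14 E.t8 (-(u * v)) (-1 * u)
    rw [r1, mul_assoc, r2, ← mul_assoc]
  · intro u v
    exact (comm_nil ax ha hnb E.n9 E.n3 E.t5 u v).symm
  · intro u v
    exact (comm_nil ax hna hb E.n2 E.n10 E.t6 u v).symm
  · -- `h5`
    intro u
    have e := hact _ ha (u / C)
    rw [E.t9, zpow_one] at e
    have e1 : ((CU : Fˣ) : F) * (u / C) = u := by
      simp only [CU, Units.val_mk0]
      field_simp
    rw [e1] at e
    calc xG ax (D.simple i) u * hG ax p C = (hG ax p C * xG ax (D.simple i) (u / C) * (hG ax p C)⁻¹) * hG ax p C := by rw [e]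
      _ = _ := by group
  · -- `h6`
    intro u
    have e := hact _ hna (C * u)
    rw [E.t10, zpow_neg, zpow_one] at e
    have e1 : ((CU⁻¹ : Fˣ) : F) * (C * u) = u := by
      simp only [CU, Units.val_inv_eq_inv_val, Units.val_mk0]
      field_simp
    rw [e1] at e
    calc xG ax (D.neg (D.simple i)) u * hG ax p C =
        (hG ax p C * xG ax (D.neg (D.simple i)) (C * u) * (hG ax p C)⁻¹) * hG ax p C := by rw [e]
      _ = _ := by group
  · intro u
    have := (conj_of_neg h ax H (sr h E.hi) e1 u).1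
    rw [ca, neg_one_mul] at this
    exact this
  · intro u
    have := (conj_of_neg h ax H (sr h E.hi) e1 u).2
    rw [ca] at this
    simpa [sr] using this
  · intro u
    have := (conj_of_neg h ax H (sr h E.hj) e2 u).1
    rw [cb, neg_one_mul] at this
    exact this
  · intro u
    have := (conj_of_neg h ax H (sr h E.hj) e2 u).2
    rw [cb] at this
    simpa [sr] using this
  · intro u
    have := (conj_of_neg h ax H ⟨p, E.hp⟩ e3 (-1 * u)).1
    rw [cp] at this
    simpa using this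
  · intro u
    have := (conj_of_neg h ax H ⟨p, E.hp⟩ e3 (-1 * u)).2
    rw [cp] at this
    simpa using this

/-- Conjugation by a torus element. -/
lemma isNor_tor_conj (H : IsNor h ax t π c) (y : ℕ → Fˣ) :
    IsNor h ax (tor D y * t * (tor D y)⁻¹) π (fun s => chi D y (π s) * c s * (chi D y s)⁻¹) := by
  have H1 := ((isNor_tor h ax y).mul h ax H).mul h ax (isNor_tor h ax y⁻¹)
  rw [tor_inv]
  simp only [one_mul, mul_one, Equiv.Perm.coe_one, id_eq, chi_inv] at H1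
  exact H1

/-- A monomial involution negating two fundamental roots joined by a simple bond can be shortened. -/
theorem a2_step [Fintype F] (h2F : (2 : F) ≠ 0) (hTor : ∀ y : ℕ → Fˣ, tor D y ∈ D.diagonalSubgroup F)
    (H : IsNor h ax t π c) (hm : t ∈ D.monomialSubgroup F) (ht : t * t = 1)
    (e1 : π (sr h E.hi) = negF h (sr h E.hi)) (e2 : π (sr h E.hj) = negF h (sr h E.hj)) : Reduces h ax t π := by
  classical
  have hWπ := perm_mem_W h h2 ax H hm
  have hsq := (perm_sq h h2 ax H ht).1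
  have e3 := pi_p h h2 ax E hWπ e1 e2
  have hκp := kappa_p h h2 ax E H e1 e2 e3
  by_cases Sa : IsSquare ((c (sr h E.hi) : Fˣ) : F)
  · exact split_psi h h2 ax h2F H hm ht E.hi e1 Sa
  by_cases Sb : IsSquare ((c (sr h E.hj) : Fˣ) : F)
  · exact split_psi h h2 ax h2F H hm ht E.hj e2 Sb
  by_cases Sp : IsSquare ((c ⟨p, E.hp⟩ : Fˣ) : F)
  · -- conjugate by `s_j` first
    obtain ⟨ε, Hε⟩ := exists_isNor_sG h ax h2 (F := F) E.hj
    have H₁ := (Hε.mul h ax H).mul h ax Hε.inv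
    set π₁ := wF h j E.hj * π * (wF h j E.hj)⁻¹ with hπ₁
    have hwj : wF h j E.hj = wP h j := (wP_of_lt h E.hj).symm
    have hinv : (wF h j E.hj)⁻¹ = wP h j := by rw [hwj, wP_inv_eq']
    have hπ₁' : π₁ = wP h j * π * wP h j := by rw [hπ₁, hinv, hwj]
    have hp1 : wP h j (sr h E.hi) = ⟨p, E.hp⟩ := by
      apply Fin.ext
      rw [wP_of_lt h E.hj, wF_val]
      exact E.t11
    have hp2 : wP h j ⟨p, E.hp⟩ = sr h E.hi := by
      rw [← hp1, ← Equiv.Perm.mul_apply, wP_mul_self]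
      rfl
    have hinvp : (wF h j E.hj)⁻¹ (sr h E.hi) = ⟨p, E.hp⟩ := by
      rw [hinv]
      exact hp1
    have e₁ : π₁ (sr h E.hi) = negF h (sr h E.hi) := by
      rw [hπ₁']
      simp only [Equiv.Perm.mul_apply]
      rw [hp1, e3, wP_neg h h2 ax E.hj, hp2]
    have hmj : sG ax j ∈ D.monomialSubgroup F := sG_mem_N h h2 ax E.hj
    have hS₁ : IsSquare (((ε (π ((wF h j E.hj)⁻¹ (sr h E.hi))) * c ((wF h j E.hj)⁻¹ (sr h E.hi))) *
        (ε ((wF h j E.hj)⁻¹ (sr h E.hi)))⁻¹ : Fˣ) : F) := by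
      rw [hinvp, e3, Hε.sign]
      obtain ⟨κ, hκ⟩ := Sp
      refine ⟨(ε ⟨p, E.hp⟩ : F)⁻¹ * κ, ?_⟩
      simp only [Units.val_mul, Units.val_inv_eq_inv_val, hκ]
      ring
    refine Reduces.of_conj h ax (monomial_le_group h ax hmj) rfl (π₁ := π₁) ?_ ?_
    · rw [hπ₁']
      exact Psi_conj h h2 ax π E.hj
    · refine split_psi h h2 ax h2F H₁ ?_ ?_ E.hi e₁ hS₁
      · exact Subgroup.mul_mem _ (Subgroup.mul_mem _ hmj hm) (Subgroup.inv_mem _ hmj)
      · have : sG ax j * t * (sG ax j)⁻¹ * (sG ax j * t * (sG ax j)⁻¹) = sG ax j * (t * t) * (sG ax j)⁻¹ := by group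
        rw [this, ht]
        simp
  · -- the non split case
    have hκa := (c (sr h E.hi)).ne_zero
    have hκb := (c (sr h E.hj)).ne_zero
    have hS := sq_of_nonsq hκa hκb Sa Sb
    have hn1 : ¬ IsSquare (-1 : F) := by
      intro hs
      apply Sp
      rw [hκp, ← neg_one_mul]
      exact hs.mul hS
    have hm1 : (-1 : F) ≠ 0 := neg_ne_zero.mpr one_ne_zero
    obtain ⟨ya, hya⟩ := sq_of_nonsq hm1 hκa hn1 Sa
    obtain ⟨yb, hyb⟩ := sq_of_nonsq hm1 hκb hn1 Sb
    have hya0 : ya ≠ 0 := by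
      intro h0
      rw [h0, mul_zero] at hya
      exact (mul_ne_zero hm1 hκa) hya
    have hyb0 : yb ≠ 0 := by
      intro h0
      rw [h0, mul_zero] at hyb
      exact (mul_ne_zero hm1 hκb) hyb
    obtain ⟨A, B, hAB⟩ := exists_sum_sq h2F
    have hA : A ≠ 0 := by
      intro h0
      apply hn1
      refine ⟨B, ?_⟩
      rw [h0] at hAB
      linear_combination (-1 : F) * hAB
    have hij : i ≠ j := by
      intro e
      exact E.n1 (by rw [e])
    let y : ℕ → Fˣ := fun k => if k = i then Units.mk0 ya hya0 else if k = j then Units.mk0 yb hyb0 else 1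
    have hyi : y i = Units.mk0 ya hya0 := by simp [y]
    have hyj : y j = Units.mk0 yb hyb0 := by simp [y, hij.symm]
    have H₂ := isNor_tor_conj h h2 ax E H y
    have hca : (((chi D y (π (sr h E.hi)) * c (sr h E.hi) * (chi D y (sr h E.hi))⁻¹ : Fˣ)) : F) = -1 := by
      rw [e1]
      have e5 : chi D y (negF h (sr h E.hi)) = (chi D y (sr h E.hi))⁻¹ := chi_neg h y (sr h E.hi).isLt
      have e6 : chi D y (sr h E.hi) = y i := chi_simple h y E.hi
      rw [e5, e6, hyi]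
      simp only [Units.val_mul, Units.val_inv_eq_inv_val, Units.val_mk0]
      field_simp
      linear_combination (-1 : F) * hya
    have hcb : (((chi D y (π (sr h E.hj)) * c (sr h E.hj) * (chi D y (sr h E.hj))⁻¹ : Fˣ)) : F) = -1 := by
      rw [e2]
      have e5 : chi D y (negF h (sr h E.hj)) = (chi D y (sr h E.hj))⁻¹ := chi_neg h y (sr h E.hj).isLt
      have e6 : chi D y (sr h E.hj) = y j := chi_simple h y E.hj
      rw [e5, e6, hyj]
      simp only [Units.val_mul, Units.val_inv_eq_inv_val, Units.val_mk0]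
      field_simp
      linear_combination (-1 : F) * hyb
    have hty := diag_le_N h h2 ax (hTor y)
    obtain ⟨g, hg, eg⟩ := a2_nonsplit h h2 ax E h2F H₂ e1 e2 e3 hca hcb hA hAB
    refine Reduces.of_conj h ax (diagonal_le_group h ax (hTor y)) rfl (π₁ := π) rfl ?_
    have hC0 : -A ^ 2 ≠ 0 := neg_ne_zero.mpr (pow_ne_zero 2 hA)
    have hx : -(1 / A) ≠ 0 := neg_ne_zero.mpr (one_div_ne_zero hA)
    obtain ⟨c₁, hc₁⟩ := isNor_nG_simple h h2 ax E.hi hx
    have hHe := hG_eq_tor ax h E.hp (Units.mk0 (-A ^ 2) hC0)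
    simp only [Units.val_mk0] at hHe
    have hHN := isNor_tor h ax (hW D p (Units.mk0 (-A ^ 2) hC0))
    rw [← hHe] at hHN
    have H₃ := (hHN.mul h ax hc₁).mul h ax H₂
    rw [show hG ax p (-A ^ 2) * nG ax (D.simple i) (-(1 / A)) * (tor D y * t * (tor D y)⁻¹) =
      g * (tor D y * t * (tor D y)⁻¹) * g⁻¹ from eg.symm, one_mul] at H₃
    refine ⟨g, hg, _, _, H₃, ?_, Psi_lt h h2 ax hWπ hsq E.hi e1⟩
    rw [eg]
    refine Subgroup.mul_mem _ (Subgroup.mul_mem _ ?_ (nG_mem_N h h2 ax (h.simple_lt i E.hi) hx))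
      (Subgroup.mul_mem _ (Subgroup.mul_mem _ hty hm) (Subgroup.inv_mem _ hty))
    exact nG_mem_N h h2 ax E.hp hC0 |> fun _ => diag_le_N h h2 ax (hG_mem_diagonal ax E.hp hC0)

end edge

end Cfsg.Agent.Lib.KS71.IVb2
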