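/-
Involutions in Chevalley groups, odd characteristic: a monomial involution whose negated fundamental roots are
pairwise orthogonal.
-/
import Mathlib
import Cfsg.Agent.Lib.KS71.IVb2

set_option autoImplicit false
set_option linter.unusedSectionVars false
set_option linter.unusedVariables false

namespace Cfsg.Agent.Lib.KS71.IVb3

open Cfsg Cfsg.Lie Cfsg.Lie.ChevalleyDatum
open Cfsg.Agent.Lib.Chev.Tables Cfsg.Agent.Lib.Chev.Tables2 Cfsg.Agent.Lib.Chev.Tables3 Cfsg.Agent.Lib.Chev.Raise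
open Cfsg.Agent.Lib.Chev.Basic Cfsg.Agent.Lib.Chev.AxBasic Cfsg.Agent.Lib.Chev.Torus
open Cfsg.Agent.Lib.Chev.Products Cfsg.Agent.Lib.Chev.Products2 Cfsg.Agent.Lib.Chev.Mono1
open Cfsg.Agent.Lib.Chev.Mono2 Cfsg.Agent.Lib.Chev.Mono3 Cfsg.Agent.Lib.Chev.Bn
open Cfsg.Agent.Lib.Chev.Order1 Cfsg.Agent.Lib.Chev.Order2 Cfsg.Agent.Lib.Chev.Parab
open Cfsg.Agent.Lib.Chev.Diag Cfsg.Agent.Lib.Chev.SL2 Cfsg.Agent.Lib.Chev.SL2Chev
open Cfsg.Agent.Lib.KS71.StWeyl Cfsg.Agent.Lib.KS71.StCell Cfsg.Agent.Lib.KS71.StUnip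
open Cfsg.Agent.Lib.KS71.HeckeD Cfsg.Agent.Lib.KS71.IVa Cfsg.Agent.Lib.KS71.IVb Cfsg.Agent.Lib.KS71.IVb2

variable {D : ChevalleyDatum} {F : Type*} [Field F]
variable (h : Tab D) (h2 : Tab2 D) (ax : Ax D F)

/-- Two orthogonal fundamental roots. -/
structure OrthPair (D : ChevalleyDatum) (a b : ℕ) : Prop where
  ha : a < D.rank
  hb : b < D.rank
  c1 : D.cartan a (D.simple b) = 0
  t1 : D.commTerms (D.simple a) (D.simple b) = []
  t2 : D.commTerms (D.neg (D.simple a)) (D.simple b) = []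
  t3 : D.commTerms (D.simple a) (D.neg (D.simple b)) = []
  t4 : D.commTerms (D.neg (D.simple a)) (D.neg (D.simple b)) = []
  n1 : D.simple b ≠ D.simple a
  n2 : D.simple b ≠ D.neg (D.simple a)
  n3 : D.simple b ≠ D.neg (D.neg (D.simple a))
  n4 : D.neg (D.simple b) ≠ D.simple a
  n5 : D.neg (D.simple b) ≠ D.neg (D.simple a)
  n6 : D.neg (D.simple b) ≠ D.neg (D.neg (D.simple a))

/-- The check of orthogonality. -/
def orthCheck (D : ChevalleyDatum) (a b : ℕ) : Bool :=
  decide (a < D.rank) && decide (b < D.rank) && decide (D.cartan a (D.simple b) = 0) &&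
  decide (D.commTerms (D.simple a) (D.simple b) = []) &&
  decide (D.commTerms (D.neg (D.simple a)) (D.simple b) = []) &&
  decide (D.commTerms (D.simple a) (D.neg (D.simple b)) = []) &&
  decide (D.commTerms (D.neg (D.simple a)) (D.neg (D.simple b)) = []) &&
  decide (D.simple b ≠ D.simple a) && decide (D.simple b ≠ D.neg (D.simple a)) &&
  decide (D.simple b ≠ D.neg (D.neg (D.simple a))) && decide (D.neg (D.simple b) ≠ D.simple a) &&
  decide (D.neg (D.simple b) ≠ D.neg (D.simple a)) && decide (D.neg (D.simple b) ≠ D.neg (D.neg (D.simple a)))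

lemma OrthPair.of_check {D : ChevalleyDatum} {a b : ℕ} (hc : orthCheck D a b = true) : OrthPair D a b := by
  simp only [orthCheck, Bool.and_eq_true, decide_eq_true_eq] at hc
  obtain ⟨⟨⟨⟨⟨⟨⟨⟨⟨⟨⟨⟨a1, a2⟩, a3⟩, a4⟩, a5⟩, a6⟩, a7⟩, a8⟩, a9⟩, a10⟩, a11⟩, a12⟩, a13⟩ := hc
  exact ⟨a1, a2, a3, a4, a5, a6, a7, a8, a9, a10, a11, a12, a13⟩

section comm

variable {a b : ℕ} (O : OrthPair D a b)

include h O

lemma sa_lt : D.simple a < D.nroots := h.simple_lt a O.ha
lemma sb_lt : D.simple b < D.nroots := h.simple_lt b O.hb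

/-- Root elements of `±b` commute with those of `±a`. -/
lemma comm_pp (u t : F) : Commute (xG ax (D.simple b) u) (xG ax (D.simple a) t) :=
  comm_nil ax (sa_lt h O) (sb_lt h O) O.n1 O.n2 O.t1 t u

lemma comm_pn (u t : F) : Commute (xG ax (D.simple b) u) (xG ax (D.neg (D.simple a)) t) :=
  comm_nil ax (h.neg_lt _ (sa_lt h O)) (sb_lt h O) O.n2 O.n3 O.t2 t u

lemma comm_np (u t : F) : Commute (xG ax (D.neg (D.simple b)) u) (xG ax (D.simple a) t) :=
  comm_nil ax (sa_lt h O) (h.neg_lt _ (sb_lt h O)) O.n4 O.n5 O.t3 t u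

lemma comm_nn (u t : F) : Commute (xG ax (D.neg (D.simple b)) u) (xG ax (D.neg (D.simple a)) t) :=
  comm_nil ax (h.neg_lt _ (sa_lt h O)) (h.neg_lt _ (sb_lt h O)) O.n5 O.n6 O.t4 t u

lemma comm_p_sG (u : F) : Commute (xG ax (D.simple b) u) (sG ax a) :=
  ((comm_pp h ax O u 1).mul_right (comm_pn h ax O u _)).mul_right (comm_pp h ax O u 1)

lemma comm_n_sG (u : F) : Commute (xG ax (D.neg (D.simple b)) u) (sG ax a) :=
  ((comm_np h ax O u 1).mul_right (comm_nn h ax O u _)).mul_right (comm_np h ax O u 1)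

lemma wP_fix : wP h a (sr h O.hb) = sr h O.hb := by
  rw [wP_of_lt h O.ha]
  apply Fin.ext
  rw [wF_val]
  change D.reflectRoot a (D.simple b) = D.simple b
  apply eq_of_coef_eq h (h.reflect_lt a O.ha _ (sb_lt h O)) (sb_lt h O)
  intro j hj
  rw [h.coef_reflect a O.ha _ (sb_lt h O) j hj, O.c1]
  simp

/-- Reflections in orthogonal roots do not change the value of the other coroot. -/
lemma cartan_wP (x : Fin D.nroots) (hO2 : D.cartan b (D.simple a) = 0) :
    D.cartan b (wP h a x) = D.cartan b x := by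
  rw [h.cartan_lin b O.hb _ (Fin.isLt _), h.cartan_lin b O.hb _ x.isLt]
  apply Finset.sum_congr rfl
  intro k hk
  have hk' := Finset.mem_range.mp hk
  rw [coef_wP h O.ha x hk']
  by_cases hka : k = a
  · subst hka
    rw [hO2]
    ring
  · simp [hka]

end comm

section list

variable {J : List ℕ}

include h ax

lemma comm_nw_p {b : ℕ} (hl : ∀ j ∈ J, OrthPair D j b) (u : F) : Commute (xG ax (D.simple b) u) (nw D ax J) := by
  induction J with
  | nil => simp
  | cons j J ih =>
    rw [nw_cons]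
    exact (comm_p_sG h ax (hl j (by simp)) u).mul_right (ih fun i hi => hl i (by simp [hi]))

lemma comm_nw_n {b : ℕ} (hl : ∀ j ∈ J, OrthPair D j b) (u : F) :
    Commute (xG ax (D.neg (D.simple b)) u) (nw D ax J) := by
  induction J with
  | nil => simp
  | cons j J ih =>
    rw [nw_cons]
    exact (comm_n_sG h ax (hl j (by simp)) u).mul_right (ih fun i hi => hl i (by simp [hi]))

lemma comm_sG_nw {b : ℕ} (hl : ∀ j ∈ J, OrthPair D j b) : Commute (sG ax b) (nw D ax J) :=
  ((comm_nw_p h ax hl 1).mul_left (comm_nw_n h ax hl _)).mul_left (comm_nw_p h ax hl 1)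

/-- The Cartan values. -/
lemma sG_sq {i : ℕ} (hi : i < D.rank) : sG ax i * sG ax i = tor D (hW D (D.simple i) (-1)) := by
  have e : sG ax i * sG ax i = (hG ax (D.simple i) (-1))⁻¹ := by
    simp only [hG, sG, _root_.mul_inv_rev, nG_inv, neg_neg]
  have e2 := hG_eq_tor ax h (h.simple_lt i hi) (-1 : Fˣ)
  simp only [Units.val_neg, Units.val_one] at e2
  rw [e, e2, tor_inv]
  congr 1
  funext j
  simp only [hW, Pi.inv_apply, ← inv_zpow]
  simp

end list

/-- The element of the torus which is the square of the product of reflections. -/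
noncomputable def YJ (D : ChevalleyDatum) (F : Type*) [Field F] (J : List ℕ) : ℕ → Fˣ :=
  (J.map fun j => hW D (D.simple j) (-1)).prod

section list2

variable {J : List ℕ}

include h ax in
lemma nw_sq (hJ : ∀ j ∈ J, j < D.rank) (hO : ∀ a ∈ J, ∀ b ∈ J, a ≠ b → OrthPair D a b) (hnd : J.Nodup) :
    nw D ax J * nw D ax J = tor D (YJ D F J) := by
  induction J with
  | nil => simp [YJ, tor_one]
  | cons j J ih =>
    rw [List.nodup_cons] at hnd
    have hj := hJ j (by simp)
    have ih' := ih (fun i hi => hJ i (by simp [hi]))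
      (fun a ha b hb => hO a (by simp [ha]) b (by simp [hb])) hnd.2
    have hc : Commute (sG ax j) (nw D ax J) := by
      apply comm_sG_nw h ax
      intro i hi
      exact hO i (by simp [hi]) j (by simp) (fun e => hnd.1 (e ▸ hi))
    have e1 : sG ax j * nw D ax J * (sG ax j * nw D ax J) = (sG ax j * sG ax j) * (nw D ax J * nw D ax J) := by
      rw [mul_assoc (sG ax j), ← mul_assoc (nw D ax J), ← hc.eq]
      group
    rw [nw_cons, e1, sG_sq h ax hj, ih']
    simp only [YJ, List.map_cons, List.prod_cons]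
    rw [tor_mul]

include h2 ax in
lemma wPw_fix {b : ℕ} (hb : b < D.rank) (hl : ∀ j ∈ J, OrthPair D j b) : wPw h J (sr h hb) = sr h hb := by
  induction J with
  | nil => rfl
  | cons j J ih =>
    rw [wPw_cons, Equiv.Perm.mul_apply, ih fun i hi => hl i (by simp [hi])]
    exact wP_fix h (hl j (by simp))

include h2 ax in
lemma wPw_neg (hO : ∀ a ∈ J, ∀ b ∈ J, a ≠ b → OrthPair D a b) (hnd : J.Nodup) {b : ℕ} (hb : b < D.rank)
    (hbJ : b ∈ J) : wPw h J (sr h hb) = negF h (sr h hb) := by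
  induction J with
  | nil => simp at hbJ
  | cons j J ih =>
    rw [List.nodup_cons] at hnd
    rw [wPw_cons, Equiv.Perm.mul_apply]
    by_cases hbj : b = j
    · subst hbj
      rw [wPw_fix h h2 ax hb (fun i hi => hO i (by simp [hi]) b (by simp) (fun e => hnd.1 (e ▸ hi))), wP_sr h hb]
    · have hbJ' : b ∈ J := by
        rcases List.mem_cons.mp hbJ with e | e
        · exact absurd e hbj
        · exact e
      rw [ih (fun a ha c hc => hO a (by simp [ha]) c (by simp [hc])) hnd.2 hbJ', wP_neg h h2 ax (hO j (by simp) j (by simp) |> fun _ => (hO j (by simp) b (by simp [hbJ']) (Ne.symm hbj)).ha),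
        wP_fix h (hO j (by simp) b (by simp [hbJ']) (Ne.symm hbj))]

include h h2 ax in
lemma conj_nw_mem (hO : ∀ a ∈ J, ∀ b ∈ J, a ≠ b → OrthPair D a b) (hnd : J.Nodup) {b : ℕ} (hb : b < D.rank)
    (hbJ : b ∈ J) (u : F) :
    nw D ax J * xG ax (D.simple b) u * (nw D ax J)⁻¹ = xG ax (D.neg (D.simple b)) (-u) := by
  induction J with
  | nil => simp at hbJ
  | cons j J ih =>
    rw [List.nodup_cons] at hnd
    rw [nw_cons]
    have e : sG ax j * nw D ax J * xG ax (D.simple b) u * (sG ax j * nw D ax J)⁻¹ =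
        sG ax j * (nw D ax J * xG ax (D.simple b) u * (nw D ax J)⁻¹) * (sG ax j)⁻¹ := by group
    rw [e]
    by_cases hbj : b = j
    · subst hbj
      have hc := comm_nw_p h ax (J := J) (b := b) (fun i hi => hO i (by simp [hi]) b (by simp) (fun e => hnd.1 (e ▸ hi))) u
      rw [← hc.eq, mul_inv_cancel_right]
      have := nG_simple_conj h h2 ax hb (one_ne_zero (α := F)) u
      simpa [sG] using this
    · have hbJ' : b ∈ J := by
        rcases List.mem_cons.mp hbJ with e | e
        · exact absurd e hbj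
        · exact e
      rw [ih (fun a ha c hc => hO a (by simp [ha]) c (by simp [hc])) hnd.2 hbJ']
      have hc := comm_n_sG h ax (hO j (by simp) b (by simp [hbJ']) (Ne.symm hbj)) (-u)
      rw [← hc.eq, mul_inv_cancel_right]

lemma chi_wP (y : ℕ → Fˣ) {j : ℕ} (hj : j < D.rank) (x : Fin D.nroots) :
    chi D y (wP h j x) = chi D y x * (y j) ^ (- D.cartan j x) := by
  simp only [chi]
  rw [Finset.prod_congr rfl (fun i hi => by rw [coef_wP h hj x (Finset.mem_range.mp hi)])]
  have : ∀ i ∈ Finset.range D.rank, (y i) ^ (coef D x i - if i = j then D.cartan j x else 0) =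
      (y i) ^ coef D x i * (if i = j then (y j) ^ (- D.cartan j x) else 1) := by
    intro i _
    split_ifs with e
    · subst e
      rw [sub_eq_add_neg, zpow_add]
    · simp
  rw [Finset.prod_congr rfl this, Finset.prod_mul_distrib, Finset.prod_ite_eq' (Finset.range D.rank) j]
  simp [hj]

lemma cartan_wPw {b : ℕ} (hl : ∀ j ∈ J, OrthPair D j b) (hl' : ∀ j ∈ J, D.cartan b (D.simple j) = 0)
    (x : Fin D.nroots) : D.cartan b (wPw h J x) = D.cartan b x := by
  induction J with
  | nil => rfl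
  | cons j J ih =>
    rw [wPw_cons, Equiv.Perm.mul_apply, cartan_wP h (hl j (by simp)) _ (hl' j (by simp)),
      ih (fun i hi => hl i (by simp [hi])) (fun i hi => hl' i (by simp [hi]))]

lemma chi_wPw (y : ℕ → Fˣ) (hJ : ∀ j ∈ J, j < D.rank) (hO : ∀ a ∈ J, ∀ b ∈ J, a ≠ b → OrthPair D a b)
    (hnd : J.Nodup) (s : Fin D.nroots) :
    chi D y (wPw h J s) = chi D y s * (J.map fun j => (y j) ^ (- D.cartan j s)).prod := by
  induction J with
  | nil => simp
  | cons j J ih =>
    rw [List.nodup_cons] at hnd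
    rw [wPw_cons, Equiv.Perm.mul_apply, chi_wP h y (hJ j (by simp)),
      ih (fun i hi => hJ i (by simp [hi])) (fun a ha c hc => hO a (by simp [ha]) c (by simp [hc])) hnd.2,
      cartan_wPw h (fun i hi => hO i (by simp [hi]) j (by simp) (fun e => hnd.1 (e ▸ hi)))
        (fun i hi => (hO j (by simp) i (by simp [hi]) (fun e => hnd.1 (e ▸ hi))).c1)]
    simp only [List.map_cons, List.prod_cons]
    simp only [mul_assoc, mul_comm, mul_left_comm]

include h h2 in
lemma chi_YJ (hJ : ∀ j ∈ J, j < D.rank) {s : ℕ} (hs : s < D.nroots) :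
    chi D (YJ D F J) s = (J.map fun j => (-1 : Fˣ) ^ D.cartan j s).prod := by
  induction J with
  | nil =>
    simp only [YJ, List.map_nil, List.prod_nil]
    exact chi_one s
  | cons j J ih =>
    have hj := hJ j (by simp)
    have e : YJ D F (j :: J) = hW D (D.simple j) (-1) * YJ D F J := by
      simp [YJ]
    rw [e, chi_mul, chi_hW h _ _ hs, pair_simple h2 hj, ih fun i hi => hJ i (by simp [hi])]
    simp

lemma prod_list_zpow {G : Type*} [CommGroup G] {ι : Type*} (l : List ℕ) (S : Finset ι) (f : ℕ → ι → G) (m : ι → ℤ) :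
    ∏ k ∈ S, ((l.map fun j => f j k).prod) ^ m k = (l.map fun j => ∏ k ∈ S, (f j k) ^ m k).prod := by
  induction l with
  | nil => simp
  | cons a l ih =>
    simp only [List.map_cons, List.prod_cons, mul_zpow, Finset.prod_mul_distrib, ih]

lemma prod_list_single {G : Type*} [CommGroup G] {l : List ℕ} (hnd : l.Nodup) {i : ℕ} (hi : i ∈ l) (z : ℕ → G) :
    (l.map fun j => (z j) ^ (if j = i then (1 : ℤ) else 0)).prod = z i := by
  induction l with
  | nil => simp at hi
  | cons a l ih =>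
    rw [List.nodup_cons] at hnd
    simp only [List.map_cons, List.prod_cons]
    by_cases hai : a = i
    · subst hai
      have : ∀ j ∈ l, (if j = a then (1 : ℤ) else 0) = 0 := by
        intro j hj
        have hne : j ≠ a := fun e => hnd.1 (e ▸ hj)
        rw [if_neg hne]
      rw [List.map_congr_left (g := fun _ => (1 : G)) (fun j hj => by rw [this j hj, zpow_zero])]
      simp
    · have hi' : i ∈ l := by
        rcases List.mem_cons.mp hi with e | e
        · exact absurd e.symm hai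
        · exact e
      rw [ih hnd.2 hi', if_neg hai]
      simp

lemma list_prod_inv {G : Type*} [CommGroup G] (l : List ℕ) (f : ℕ → G) :
    (l.map fun j => (f j)⁻¹).prod = ((l.map f).prod)⁻¹ := by
  induction l with
  | nil => simp
  | cons a l ih =>
    simp only [List.map_cons, List.prod_cons, ih, mul_inv]

include h2 in
/-- The main computation: a monomial involution negating pairwise orthogonal fundamental roots, and making the others
positive, has square scalars on those roots. -/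
theorem orth_square {t : GL D.Idx F} {π : Equiv.Perm (Fin D.nroots)} {c : Fin D.nroots → Fˣ}
    (H : IsNor h ax t π c) (hm : t ∈ D.monomialSubgroup F) (ht : t * t = 1)
    (hJ : ∀ j ∈ J, j < D.rank) (hO : ∀ a ∈ J, ∀ b ∈ J, a ≠ b → OrthPair D a b) (hnd : J.Nodup)
    (hneg : ∀ k (hk : k < D.rank), k ∈ J → π (sr h hk) = negF h (sr h hk))
    (hpos : ∀ k (hk : k < D.rank), k ∉ J → D.IsPosRoot (π (sr h hk)))
    {M : ℕ → ℕ → ℤ}
    (hM : ∀ j i, j < D.rank → i < D.rank →
      ∑ k ∈ Finset.range D.rank, D.cartan j (D.simple k) * M k i = if j = i then 1 else 0)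
    {i₀ : ℕ} (hi₀ : i₀ < D.rank) (hiJ : i₀ ∈ J) : IsSquare ((c (sr h hi₀) : Fˣ) : F) := by
  classical
  have hπ := perm_mem_W h h2 ax H hm
  obtain ⟨hinv, hcc⟩ := perm_sq h h2 ax H ht
  have hpp : ∀ s, π (π s) = s := fun s => by
    have := congrArg (fun w : Equiv.Perm (Fin D.nroots) => w s) hinv
    simpa using this
  have hv : wPw h J ∈ Wp h {k | k ∈ J} := (mem_Wp_iff h).mpr ⟨J, fun i hi => hi, rfl⟩
  have e0 : π = wPw h J := det_of_neg h h2 ax (J := {k | k ∈ J}) (fun j hj => hJ j hj) hπ hinv hv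
    (fun k hk hkJ => hneg k hk hkJ) (fun k hk hkJ => hpos k hk hkJ)
    (fun k hk hkJ => wPw_neg h h2 ax hO hnd hk hkJ)
  obtain ⟨cn, Hn⟩ := exists_isNor_nw h h2 ax (F := F) hJ
  -- `t = tor y * n`
  have hnN : nw D ax J ∈ D.monomialSubgroup F := nw_mem_monomial_aux h h2 ax hJ
  have H1 := H.mul h ax Hn.inv
  rw [e0, mul_inv_cancel] at H1
  have hT := mem_H_of_pos h h2 ax (Subgroup.mul_mem _ hm (Subgroup.inv_mem _ hnN)) H1 (fun s hs => hs)
  obtain ⟨y, hy⟩ := exists_tor_of_mem ax h hT
  have ety : t = tor D y * nw D ax J := by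
    rw [← hy]; group
  have H2 := (isNor_tor h ax y).mul h ax Hn
  rw [← ety, one_mul, ← e0] at H2
  have ec := (IsNor.unique h ax h2 H H2).2
  have hn2 := Hn.mul h ax Hn
  rw [nw_sq h ax hJ hO hnd] at hn2
  have ecn := (IsNor.unique h ax h2 hn2 (isNor_tor h ax (YJ D F J))).2
  -- the equation for every root
  have key : ∀ s : Fin D.nroots, chi D y s * chi D y s * (J.map fun j => (y j) ^ (- D.cartan j s) * (-1 : Fˣ) ^ D.cartan j s).prod = 1 := by
    intro s
    have e1 := hcc s
    rw [ec] at e1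
    simp only [hpp] at e1
    have e2 := congrFun ecn s
    rw [← e0] at e2
    have e3 : chi D y s * chi D y (π s) * (cn (π s) * cn s) = 1 := by
      rw [← e1]
      exact mul_mul_mul_comm _ _ _ _
    rw [e2, chi_YJ h h2 hJ s.isLt, e0, chi_wPw h y hJ hO hnd] at e3
    rw [List.prod_map_mul]
    refine Eq.trans ?_ e3
    simp only [mul_assoc]
  set z : ℕ → Fˣ := fun j => (-1 : Fˣ) * y j with hz
  have key2 : ∀ k, k < D.rank → (J.map fun j => (z j) ^ D.cartan j (D.simple k)).prod = y k * y k := by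
    intro k hk
    have e1 := key (sr h hk)
    have e2 : chi D y (sr h hk) = y k := chi_simple h y hk
    rw [e2] at e1
    have e3 : (J.map fun j => (y j) ^ (- D.cartan j (sr h hk)) * (-1 : Fˣ) ^ D.cartan j (sr h hk)).prod =
        ((J.map fun j => (z j) ^ D.cartan j (D.simple k)).prod)⁻¹ := by
      rw [← list_prod_inv]
      apply congrArg
      apply List.map_congr_left
      intro j hj
      have e4 : (-1 : Fˣ) ^ D.cartan j (sr h hk) = ((-1 : Fˣ) ^ D.cartan j (sr h hk))⁻¹ := by
        rw [← inv_zpow]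
        simp
      rw [e4, hz]
      change y j ^ (-D.cartan j (D.simple k)) * ((-1 : Fˣ) ^ D.cartan j (D.simple k))⁻¹ = _
      simp only [mul_zpow, mul_inv, zpow_neg]
      exact mul_comm _ _
    rw [e3] at e1
    exact (mul_inv_eq_one.mp e1).symm
  set v : Fˣ := ∏ k ∈ Finset.range D.rank, (y k) ^ M k i₀ with hv'
  have key3 : z i₀ = v * v := by
    have e1 : ∏ k ∈ Finset.range D.rank, ((J.map fun j => (z j) ^ D.cartan j (D.simple k)).prod) ^ M k i₀ = v * v := by
      rw [Finset.prod_congr rfl (fun k hk => by rw [key2 k (Finset.mem_range.mp hk)])]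
      simp only [mul_zpow, Finset.prod_mul_distrib, hv']
    rw [← e1, prod_list_zpow J (Finset.range D.rank) (fun j k => (z j) ^ D.cartan j (D.simple k)) (fun k => M k i₀)]
    rw [← prod_list_single hnd hiJ z]
    apply congrArg
    apply List.map_congr_left
    intro j hj
    simp only [← zpow_mul]
    rw [← zpow_sum_gen, hM j i₀ (hJ j hj) hi₀]
  -- conclude
  have ecn0 : (cn (sr h hi₀) : F) = -1 := by
    have e1 := Hn.conj (sr h hi₀) 1
    have e2 := conj_nw_mem h h2 ax hO hnd hi₀ hiJ (1 : F)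
    have e3 : xG ax (wPw h J (sr h hi₀)) ((cn (sr h hi₀) : F) * 1) = xG ax (D.neg (D.simple i₀)) (-1) :=
      e1.symm.trans e2
    rw [wPw_neg h h2 ax hO hnd hi₀ hiJ, mul_one] at e3
    exact (xG_eq_iff ax h h2 (negF h _).isLt (h.neg_lt _ (h.simple_lt i₀ hi₀)) (cn _).ne_zero e3).2
  have e1 : c (sr h hi₀) = (z i₀)⁻¹ := by
    rw [ec]
    simp only
    rw [hneg i₀ hi₀ hiJ]
    have e2 : chi D y (negF h (sr h hi₀)) = (y i₀)⁻¹ := by
      have e5 : chi D y (negF h (sr h hi₀)) = (chi D y (sr h hi₀))⁻¹ := chi_neg h y (sr h hi₀).isLt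
      rw [e5, show chi D y (sr h hi₀) = y i₀ from chi_simple h y hi₀]
    rw [e2]
    have e3 : cn (sr h hi₀) = -1 := Units.ext (by simpa using ecn0)
    rw [e3, hz]
    simp
  rw [e1, key3]
  refine ⟨((v⁻¹ : Fˣ) : F), ?_⟩
  simp only [← Units.val_mul, mul_inv_rev]

end list2

end Cfsg.Agent.Lib.KS71.IVb3
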