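/-
Involutions in Chevalley groups, odd characteristic: a monomial involution is conjugate into the torus.
-/
import Mathlib
import Cfsg.Agent.Lib.KS71.IVb3

set_option autoImplicit false
set_option linter.unusedSectionVars false
set_option linter.unusedVariables false

namespace Cfsg.Agent.Lib.KS71.IVb4

open Cfsg Cfsg.Lie Cfsg.Lie.ChevalleyDatum
open Cfsg.Agent.Lib.Chev.Tables Cfsg.Agent.Lib.Chev.Tables2 Cfsg.Agent.Lib.Chev.Tables3 Cfsg.Agent.Lib.Chev.Raise
open Cfsg.Agent.Lib.Chev.Basic Cfsg.Agent.Lib.Chev.AxBasic Cfsg.Agent.Lib.Chev.Torus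
open Cfsg.Agent.Lib.Chev.Products Cfsg.Agent.Lib.Chev.Products2 Cfsg.Agent.Lib.Chev.Mono1
open Cfsg.Agent.Lib.Chev.Mono2 Cfsg.Agent.Lib.Chev.Mono3 Cfsg.Agent.Lib.Chev.Bn
open Cfsg.Agent.Lib.Chev.Order1 Cfsg.Agent.Lib.Chev.Order2 Cfsg.Agent.Lib.Chev.Parab
open Cfsg.Agent.Lib.Chev.Diag Cfsg.Agent.Lib.Chev.SL2 Cfsg.Agent.Lib.Chev.SL2Chev
open Cfsg.Agent.Lib.KS71.StWeyl Cfsg.Agent.Lib.KS71.StCell Cfsg.Agent.Lib.KS71.StUnip
open Cfsg.Agent.Lib.KS71.HeckeD Cfsg.Agent.Lib.KS71.IVa Cfsg.Agent.Lib.KS71.IVb Cfsg.Agent.Lib.KS71.IVb2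
open Cfsg.Agent.Lib.KS71.IVb3

variable {D : ChevalleyDatum} {F : Type*} [Field F]
variable (h : Tab D) (h2 : Tab2 D) (ax : Ax D F)

/-- The remaining case: all fundamental roots sent to negative roots are negated, and there is at least one. -/
def CaseC (h : Tab D) (ax : Ax D F) : Prop :=
  ∀ (t : GL D.Idx F) (π : Equiv.Perm (Fin D.nroots)) (c : Fin D.nroots → Fˣ), IsNor h ax t π c →
    t ∈ D.monomialSubgroup F → t * t = 1 →
    (∀ k (hk : k < D.rank), ¬ D.IsPosRoot (π (sr h hk)) → π (sr h hk) = negF h (sr h hk)) →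
    (∃ k, ∃ hk : k < D.rank, ¬ D.IsPosRoot (π (sr h hk))) → Reduces h ax t π

lemma Nw_le (π : Equiv.Perm (Fin D.nroots)) : Nw D π ≤ D.nroots := by
  classical
  rw [Nw]
  calc _ ≤ (Finset.univ : Finset (Fin D.nroots)).card := Finset.card_le_card (Finset.filter_subset _ _)
    _ = D.nroots := by simp

include h2 in
/-- **A monomial involution is conjugate into the torus.** -/
theorem mono_red (hC : CaseC h ax) {t : GL D.Idx F} (hm : t ∈ D.monomialSubgroup F) (ht : t * t = 1) :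
    ∃ g ∈ D.group F, g * t * g⁻¹ ∈ D.diagonalSubgroup F := by
  classical
  obtain ⟨π, c, H⟩ := exists_isNor h h2 ax hm
  have key : ∀ (n : ℕ) (t : GL D.Idx F) (π : Equiv.Perm (Fin D.nroots)) (c : Fin D.nroots → Fˣ),
      IsNor h ax t π c → t ∈ D.monomialSubgroup F → t * t = 1 → Psi h π * (D.nroots + 1) + Nw D π ≤ n →
      ∃ g ∈ D.group F, g * t * g⁻¹ ∈ D.diagonalSubgroup F := by
    intro n
    induction n using Nat.strong_induction_on with
    | _ n ih =>
      intro t π c H hm ht hn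
      have hπ := perm_mem_W h h2 ax H hm
      have hinv := (perm_sq h h2 ax H ht).1
      by_cases hA : ∀ k (hk : k < D.rank), D.IsPosRoot (π (sr h hk))
      · have e := eq_one_of_pos h h2 ax hπ hA
        subst e
        exact ⟨1, Subgroup.one_mem _, by
          simpa using mem_H_of_pos h h2 ax hm H (fun s hs => hs)⟩
      push Not at hA
      obtain ⟨k₀, hk₀, hk₀n⟩ := hA
      by_cases hB : ∃ k, ∃ hk : k < D.rank, ¬ D.IsPosRoot (π (sr h hk)) ∧ π (sr h hk) ≠ negF h (sr h hk)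
      · obtain ⟨k, hk, hkn, hkne⟩ := hB
        obtain ⟨ε, Hε⟩ := exists_isNor_sG h ax h2 (F := F) hk
        have H₁ := (Hε.mul h ax H).mul h ax Hε.inv
        have e1 : wF h k hk * π * (wF h k hk)⁻¹ = wP h k * π * wP h k := by
          rw [← wP_of_lt h hk, wP_inv_eq']
        rw [e1] at H₁
        have hmk := sG_mem_N h h2 ax (F := F) hk
        have hlt := Nw_conj_lt h h2 ax hπ hinv hk hkn hkne
        have hP := Psi_conj h h2 ax π hk
        obtain ⟨g, hg, hT⟩ := ih (Psi h π * (D.nroots + 1) + Nw D (wP h k * π * wP h k)) (by omega) _ _ _ H₁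
          (Subgroup.mul_mem _ (Subgroup.mul_mem _ hmk hm) (Subgroup.inv_mem _ hmk))
          (by
            have : sG ax k * t * (sG ax k)⁻¹ * (sG ax k * t * (sG ax k)⁻¹) = sG ax k * (t * t) * (sG ax k)⁻¹ := by group
            rw [this, ht]
            simp)
          (by rw [hP])
        refine ⟨g * sG ax k, Subgroup.mul_mem _ hg (monomial_le_group h ax hmk), ?_⟩
        have : g * sG ax k * t * (g * sG ax k)⁻¹ = g * (sG ax k * t * (sG ax k)⁻¹) * g⁻¹ := by group
        rw [this]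
        exact hT
      · push Not at hB
        obtain ⟨g, hg, π', c', H', hm', hP'⟩ := hC t π c H hm ht hB ⟨k₀, hk₀, hk₀n⟩
        have hlt2 := Nw_le π'
        have h3 : Psi h π' * (D.nroots + 1) + Nw D π' < n := by
          have h4 : (Psi h π' + 1) * (D.nroots + 1) ≤ Psi h π * (D.nroots + 1) :=
            Nat.mul_le_mul_right _ hP'
          have h5 : (Psi h π' + 1) * (D.nroots + 1) = Psi h π' * (D.nroots + 1) + (D.nroots + 1) := by ring
          omega
        obtain ⟨g', hg', hT⟩ := ih _ h3 _ _ _ H' hm'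
          (by
            have : g * t * g⁻¹ * (g * t * g⁻¹) = g * (t * t) * g⁻¹ := by group
            rw [this, ht]
            simp) le_rfl
        refine ⟨g' * g, Subgroup.mul_mem _ hg' hg, ?_⟩
        have : g' * g * t * (g' * g)⁻¹ = g' * (g * t * g⁻¹) * g'⁻¹ := by group
        rw [this]
        exact hT
  exact key _ t π c H hm ht le_rfl

include h2 in
/-- The general form of the remaining case in terms of the Dynkin diagram. -/
theorem caseC_of_graph [Fintype F] (h2F : (2 : F) ≠ 0) (hTor : ∀ y : ℕ → Fˣ, tor D y ∈ D.diagonalSubgroup F)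
    {M : ℕ → ℕ → ℤ}
    (hM : ∀ j i, j < D.rank → i < D.rank →
      ∑ k ∈ Finset.range D.rank, D.cartan j (D.simple k) * M k i = if j = i then 1 else 0)
    (P : ℕ → ℕ → Prop)
    (hGraph : ∀ i j, i < D.rank → j < D.rank → i ≠ j →
      OrthPair D i j ∨ (∃ p, A2Edge D i j p) ∨ (∃ p, A2Edge D j i p) ∨ P i j)
    (hSp : ∀ (t : GL D.Idx F) (π : Equiv.Perm (Fin D.nroots)) (c : Fin D.nroots → Fˣ), IsNor h ax t π c →
      t ∈ D.monomialSubgroup F → t * t = 1 →
      (∀ k (hk : k < D.rank), ¬ D.IsPosRoot (π (sr h hk)) → π (sr h hk) = negF h (sr h hk)) →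
      (∀ a b (ha : a < D.rank) (hb : b < D.rank), a ≠ b → π (sr h ha) = negF h (sr h ha) →
        π (sr h hb) = negF h (sr h hb) → OrthPair D a b ∨ P a b) →
      ∀ a b (ha : a < D.rank) (hb : b < D.rank), π (sr h ha) = negF h (sr h ha) →
        π (sr h hb) = negF h (sr h hb) → P a b → Reduces h ax t π) : CaseC h ax := by
  classical
  intro t π c H hm ht hC1 ⟨k₀, hk₀, hk₀n⟩
  -- the list of negated fundamental roots
  let J : List ℕ := (List.range D.rank).filter fun k => ∃ hk : k < D.rank, π (sr h hk) = negF h (sr h hk)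
  have hJmem : ∀ k, k ∈ J ↔ ∃ hk : k < D.rank, π (sr h hk) = negF h (sr h hk) := by
    intro k
    simp only [J, List.mem_filter, List.mem_range, decide_eq_true_eq]
    constructor
    · rintro ⟨_, h3⟩
      exact h3
    · rintro ⟨hk, h3⟩
      exact ⟨hk, hk, h3⟩
  have hnd : J.Nodup := (List.nodup_range).filter _
  have hJ : ∀ j ∈ J, j < D.rank := fun j hj => ((hJmem j).mp hj).1
  have hneg : ∀ k (hk : k < D.rank), k ∈ J → π (sr h hk) = negF h (sr h hk) := fun k hk hkJ => by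
    obtain ⟨_, e⟩ := (hJmem k).mp hkJ
    exact e
  have hpos : ∀ k (hk : k < D.rank), k ∉ J → D.IsPosRoot (π (sr h hk)) := by
    intro k hk hkJ
    by_contra hn
    exact hkJ ((hJmem k).mpr ⟨hk, hC1 k hk hn⟩)
  have hk₀J : k₀ ∈ J := (hJmem k₀).mpr ⟨hk₀, hC1 k₀ hk₀ hk₀n⟩
  -- the edges
  by_cases hE : ∃ a ∈ J, ∃ b ∈ J, ∃ p, A2Edge D a b p
  · obtain ⟨a, haJ, b, hbJ, p, E⟩ := hE
    exact a2_step h h2 ax E h2F hTor H hm ht (hneg a _ haJ) (hneg b _ hbJ)
  push Not at hE
  have hOP : ∀ a ∈ J, ∀ b ∈ J, a ≠ b → OrthPair D a b ∨ P a b := by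
    intro a ha b hb hab
    rcases hGraph a b (hJ a ha) (hJ b hb) hab with h3 | ⟨p, h3⟩ | ⟨p, h3⟩ | h3
    · exact Or.inl h3
    · exact absurd h3 (hE a ha b hb p)
    · exact absurd h3 (hE b hb a ha p)
    · exact Or.inr h3
  by_cases hS : ∃ a ∈ J, ∃ b ∈ J, P a b
  · obtain ⟨a, ha, b, hb, hP⟩ := hS
    exact hSp t π c H hm ht hC1
      (fun x y hx hy hxy e1 e2 => hOP x ((hJmem x).mpr ⟨hx, e1⟩) y ((hJmem y).mpr ⟨hy, e2⟩) hxy)
      a b (hJ a ha) (hJ b hb) (hneg a _ ha) (hneg b _ hb) hP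
  push Not at hS
  have hO : ∀ a ∈ J, ∀ b ∈ J, a ≠ b → OrthPair D a b := by
    intro a ha b hb hab
    rcases hOP a ha b hb hab with h3 | h3
    · exact h3
    · exact absurd h3 (hS a ha b hb)
  exact split_psi h h2 ax h2F H hm ht hk₀ (hneg k₀ hk₀ hk₀J)
    (orth_square h h2 ax H hm ht hJ hO hnd hneg hpos hM hk₀ hk₀J)

include h h2 ax in
/-- All elements `tor y` lie in the diagonal subgroup when the Cartan matrix is unimodular. -/
lemma tor_mem_of_inv {M : ℕ → ℕ → ℤ}
    (hM : ∀ k j, k < D.rank → j < D.rank →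
      ∑ i ∈ Finset.range D.rank, M k i * D.cartan i (D.simple j) = if k = j then 1 else 0) (y : ℕ → Fˣ) :
    tor D y ∈ D.diagonalSubgroup F := by
  set c : ℕ → Fˣ := fun i => ∏ k ∈ Finset.range D.rank, (y k) ^ M k i with hc
  have e : ∀ j, j < D.rank → psi D c j = y j := by
    intro j hj
    rw [psi_apply]
    have e1 : ∀ i ∈ Finset.range D.rank, (c i) ^ pair D (D.simple i) (D.simple j) =
        ∏ k ∈ Finset.range D.rank, (y k) ^ (M k i * D.cartan i (D.simple j)) := by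
      intro i hi
      rw [pair_simple h2 (Finset.mem_range.mp hi), hc]
      simp only [← Finset.prod_zpow, ← zpow_mul]
    rw [Finset.prod_congr rfl e1, Finset.prod_comm]
    have e2 : ∀ k ∈ Finset.range D.rank, ∏ i ∈ Finset.range D.rank, (y k) ^ (M k i * D.cartan i (D.simple j)) =
        (y k) ^ (if k = j then (1 : ℤ) else 0) := by
      intro k hk
      rw [← hM k j (Finset.mem_range.mp hk) hj, zpow_sum_gen]
    rw [Finset.prod_congr rfl e2]
    have e3 : ∀ k ∈ Finset.range D.rank, (y k) ^ (if k = j then (1 : ℤ) else 0) = if k = j then y j else 1 := by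
      intro k _
      split_ifs with e
      · subst e
        simp
      · simp
    rw [Finset.prod_congr rfl e3, Finset.prod_ite_eq' (Finset.range D.rank) j]
    simp [hj]
  have e2 : tor D y = (tor D (psi D c) : GL D.Idx F) := by
    apply tor_eq_of_chi
    intro s _
    simp only [chi]
    apply Finset.prod_congr rfl
    intro i hi
    rw [e i (Finset.mem_range.mp hi)]
  rw [e2]
  exact tor_psi_mem h h2 ax c

lemma b2_aux {G : Type*} [CommGroup G] {a b d m : G} (h1 : a * (a * b ^ 2 * d) * m = 1) (hm : m⁻¹ = m) :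
    d⁻¹ * m = (a * b) * (a * b) := by
  have e6 : (a * b) * (a * b) * (d * m) = 1 := by
    rw [← h1]
    simp only [pow_two, mul_assoc, mul_left_comm, mul_comm]
  rw [eq_inv_of_mul_eq_one_left e6, mul_inv, hm]

include h2 in
/-- A monomial involution negating exactly the two fundamental roots of a double bond. -/
lemma b2_step (h2F : (2 : F) ≠ 0) {i0 i1 i2 r' x0 x1 : ℕ} (hi0 : i0 < D.rank) (hi1 : i1 < D.rank) (hi2 : i2 < D.rank)
    (hr' : r' < D.nroots) (hx0 : x0 < D.nroots) (hx1 : x1 < D.nroots)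
    (hv1' : wWord D [i1, i2, i1, i2] (D.simple i1) = D.neg (D.simple i1))
    (hv2' : wWord D [i1, i2, i1, i2] (D.simple i2) = D.neg (D.simple i2))
    (hv0' : wWord D [i1, i2, i1, i2] (D.simple i0) = x0)
    (hrr : D.reflectRoot i1 (D.simple i2) = r') (hrx : D.reflectRoot i1 (D.simple i0) = x1)
    (t1 : D.commTerms r' (D.simple i2) = []) (t2 : D.commTerms (D.neg r') (D.simple i2) = [])
    (t3 : D.commTerms r' (D.neg (D.simple i2)) = []) (t4 : D.commTerms (D.neg r') (D.neg (D.simple i2)) = [])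
    (n1 : D.simple i2 ≠ r') (n2 : D.simple i2 ≠ D.neg r') (n3 : D.simple i2 ≠ D.neg (D.neg r'))
    (n4 : D.neg (D.simple i2) ≠ r') (n5 : D.neg (D.simple i2) ≠ D.neg r') (n6 : D.neg (D.simple i2) ≠ D.neg (D.neg r'))
    (hc1 : D.cartan i2 x1 = -1) (hc0 : D.cartan i2 (D.simple i0) = 0)
    (hchi : ∀ y : ℕ → Fˣ, chi D y x0 = y i0 * y i1 ^ 2 * y i2)
    {t : GL D.Idx F} {π : Equiv.Perm (Fin D.nroots)} {c : Fin D.nroots → Fˣ}
    (H : IsNor h ax t π c) (hm : t ∈ D.monomialSubgroup F) (ht : t * t = 1)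
    (h1 : π (sr h hi1) = negF h (sr h hi1))
    (h3 : π (sr h hi2) = negF h (sr h hi2))
    (h0 : ∀ k (hk : k < D.rank), k ≠ i1 → k ≠ i2 → D.IsPosRoot (π (sr h hk))) : Reduces h ax t π := by
  classical
  have hπ := perm_mem_W h h2 ax H hm
  obtain ⟨hinv, hcc⟩ := perm_sq h h2 ax H ht
  have hpp : ∀ s, π (π s) = s := fun s => by
    have := congrArg (fun w : Equiv.Perm (Fin D.nroots) => w s) hinv
    simpa using this
  have hl : ∀ i ∈ [i1, i2, i1, i2], i < D.rank := by
    intro i hi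
    simp only [List.mem_cons, List.not_mem_nil, or_false] at hi
    rcases hi with rfl | rfl | rfl | rfl
    · exact hi1
    · exact hi2
    · exact hi1
    · exact hi2
  have hvv : ∀ (r : ℕ) (hr : r < D.nroots) (x : ℕ) (hx : x < D.nroots),
      wWord D [i1, i2, i1, i2] r = x → wPw h [i1, i2, i1, i2] ⟨r, hr⟩ = ⟨x, hx⟩ := by
    intro r hr x hx e
    apply Fin.ext
    rw [wPw_val h hl]
    exact e
  have hv1 : wPw h [i1, i2, i1, i2] (sr h hi1) = negF h (sr h hi1) :=
    hvv (D.simple i1) (h.simple_lt i1 hi1) (D.neg (D.simple i1)) (h.neg_lt _ (h.simple_lt i1 hi1)) hv1'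
  have hv2 : wPw h [i1, i2, i1, i2] (sr h hi2) = negF h (sr h hi2) :=
    hvv (D.simple i2) (h.simple_lt i2 hi2) (D.neg (D.simple i2)) (h.neg_lt _ (h.simple_lt i2 hi2)) hv2'
  have hv0 : wPw h [i1, i2, i1, i2] (sr h hi0) = ⟨x0, hx0⟩ :=
    hvv (D.simple i0) (h.simple_lt i0 hi0) x0 hx0 hv0'
  have hvW : wPw h [i1, i2, i1, i2] ∈ Wp h {k | k = i1 ∨ k = i2} := by
    refine (mem_Wp_iff h).mpr ⟨_, ?_, rfl⟩
    intro i hi
    simp only [List.mem_cons, List.not_mem_nil, or_false] at hi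
    rcases hi with rfl | rfl | rfl | rfl
    · exact Or.inl rfl
    · exact Or.inr rfl
    · exact Or.inl rfl
    · exact Or.inr rfl
  have e0 : π = wPw h [i1, i2, i1, i2] := by
    refine det_of_neg h h2 ax (J := {k | k = i1 ∨ k = i2}) ?_ hπ hinv hvW ?_ ?_ ?_
    · rintro j (rfl | rfl)
      · exact hi1
      · exact hi2
    · rintro k hk (rfl | rfl)
      · exact h1
      · exact h3
    · intro k hk hkJ
      exact h0 k hk (fun e => hkJ (Or.inl e)) (fun e => hkJ (Or.inr e))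
    · rintro k hk (rfl | rfl)
      · exact hv1
      · exact hv2
  -- the element `n`
  obtain ⟨c1, Hs1⟩ := exists_isNor_sG h ax h2 (F := F) hi1
  obtain ⟨c2, Hs2⟩ := exists_isNor_sG h ax h2 (F := F) hi2
  set m := sG ax i1 * sG ax i2 * (sG ax i1)⁻¹ with hmdef
  set n := m * sG ax i2 with hndef
  have Hn := ((Hs1.mul h ax Hs2).mul h ax Hs1.inv).mul h ax Hs2
  have hperm : wF h i1 hi1 * wF h i2 hi2 * (wF h i1 hi1)⁻¹ * wF h i2 hi2 = wPw h [i1, i2, i1, i2] := by
    rw [← wP_of_lt h hi1, ← wP_of_lt h hi2, wP_inv_eq']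
    simp [wPw, mul_assoc]
  rw [hperm] at Hn
  generalize hcn : (fun s => c1 ((wF h i2 hi2) ((wF h i1 hi1)⁻¹ (wF h i2 hi2 s))) *
      c2 ((wF h i1 hi1)⁻¹ (wF h i2 hi2 s)) * (c1 ((wF h i1 hi1)⁻¹ (wF h i2 hi2 s)))⁻¹ * c2 s) = cn at Hn
  have hs1N := sG_mem_N h h2 ax (F := F) hi1
  have hs2N := sG_mem_N h h2 ax (F := F) hi2
  have hnN : n ∈ D.monomialSubgroup F :=
    Subgroup.mul_mem _ (Subgroup.mul_mem _ (Subgroup.mul_mem _ hs1N hs2N) (Subgroup.inv_mem _ hs1N)) hs2N
  have H1 := H.mul h ax Hn.inv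
  rw [e0, mul_inv_cancel] at H1
  have hT := mem_H_of_pos h h2 ax (Subgroup.mul_mem _ hm (Subgroup.inv_mem _ hnN)) H1 (fun s hs => hs)
  obtain ⟨y, hy⟩ := exists_tor_of_mem ax h hT
  have ety : t = tor D y * n := by
    rw [← hy]; group
  have H2 := (isNor_tor h ax y).mul h ax Hn
  rw [← ety, one_mul, ← e0] at H2
  have ec := (IsNor.unique h ax h2 H H2).2
  -- `m` commutes with the root elements of the second root
  have hr'2 : wF h i1 hi1 (sr h hi2) = ⟨r', hr'⟩ := by
    apply Fin.ext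
    rw [wF_val]
    exact hrr
  have hm_eq : m = nG ax r' ((c1 (sr h hi2) : F) * 1) := by
    have := Hs1.conj_nG h ax (sr h hi2) (one_ne_zero (α := F))
    rw [hr'2] at this
    exact this
  set e := (c1 (sr h hi2) : F) * 1 with he
  set b := D.simple i2 with hb
  have hb' : b < D.nroots := h.simple_lt i2 hi2
  have hnb' : D.neg b < D.nroots := h.neg_lt _ hb'
  have hnr : D.neg r' < D.nroots := h.neg_lt _ hr'
  have cpp : ∀ u t : F, Commute (xG ax b u) (xG ax r' t) := fun u t =>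
    comm_nil ax hr' hb' n1 n2 t1 t u
  have cpn : ∀ u t : F, Commute (xG ax b u) (xG ax (D.neg r') t) := fun u t =>
    comm_nil ax hnr hb' n2 n3 t2 t u
  have cnp : ∀ u t : F, Commute (xG ax (D.neg b) u) (xG ax r' t) := fun u t =>
    comm_nil ax hr' hnb' n4 n5 t3 t u
  have cnn : ∀ u t : F, Commute (xG ax (D.neg b) u) (xG ax (D.neg r') t) := fun u t =>
    comm_nil ax hnr hnb' n5 n6 t4 t u
  have hmp : ∀ u : F, Commute (xG ax b u) m := by
    intro u
    rw [hm_eq]
    exact ((cpp u _).mul_right (cpn u _)).mul_right (cpp u _)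
  have hmn : ∀ u : F, Commute (xG ax (D.neg b) u) m := by
    intro u
    rw [hm_eq]
    exact ((cnp u _).mul_right (cnn u _)).mul_right (cnp u _)
  have hs2m : Commute (sG ax i2) m :=
    ((hmp 1).mul_left (hmn _)).mul_left (hmp 1)
  -- the scalar on the second root
  have hconj : n * xG ax b (1 : F) * n⁻¹ = xG ax (D.neg b) (-1) := by
    have e1 := nG_simple_conj h h2 ax hi2 (one_ne_zero (α := F)) 1
    have e2 : n * xG ax b (1 : F) * n⁻¹ = m * (sG ax i2 * xG ax b (1 : F) * (sG ax i2)⁻¹) * m⁻¹ := by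
      rw [hndef]; group
    rw [e2]
    have e3 : sG ax i2 * xG ax b (1 : F) * (sG ax i2)⁻¹ = xG ax (D.neg b) (-1) := by
      simpa [sG] using e1
    rw [e3, ← (hmn _).eq, mul_inv_cancel_right]
  have ecn2 : cn (sr h hi2) = -1 := by
    have e1 := Hn.conj (sr h hi2) 1
    have e3 : xG ax (wPw h [i1, i2, i1, i2] (sr h hi2)) ((cn (sr h hi2) : F) * 1) = xG ax (D.neg b) (-1) :=
      e1.symm.trans hconj
    rw [hv2, mul_one] at e3
    have := (xG_eq_iff ax h h2 (negF h _).isLt hnb' (cn _).ne_zero e3).2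
    exact Units.ext (by simpa using this)
  -- the square of `n`
  set Y := hW D (D.simple i2) (-1 : Fˣ) with hY
  have hsq2 : sG ax i2 * sG ax i2 = tor D Y := sG_sq h ax hi2
  have hnn : n * n = sG ax i1 * tor D Y * (sG ax i1)⁻¹ * tor D Y := by
    rw [← hsq2]
    have e1 : n * n = (m * m) * (sG ax i2 * sG ax i2) := by
      rw [hndef, mul_assoc m, ← mul_assoc (sG ax i2), hs2m.eq]
      group
    rw [e1, hmdef]
    group
  have H3 := ((Hs1.mul h ax (isNor_tor h ax Y)).mul h ax Hs1.inv).mul h ax (isNor_tor h ax Y)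
  rw [← hnn] at H3
  have ed := (IsNor.unique h ax h2 (Hn.mul h ax Hn) H3).2
  have hinv34 : (wF h i1 hi1)⁻¹ (sr h hi0) = ⟨x1, hx1⟩ := by
    rw [← wP_of_lt h hi1, wP_inv_eq', wP_of_lt h hi1]
    apply Fin.ext
    rw [wF_val]
    exact hrx
  have ed0 := congrFun ed (sr h hi0)
  simp only [Equiv.Perm.coe_one, id_eq, hinv34] at ed0
  have hchiY : ∀ x (hx : x < D.nroots), chi D Y x = (-1 : Fˣ) ^ D.cartan i2 x := by
    intro x hx
    rw [hY, chi_hW h _ _ hx, pair_simple h2 hi2]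
  have e34 : chi D Y x1 = -1 := by
    rw [hchiY x1 hx1, hc1]
    simp
  have e0' : chi D Y (D.simple i0) = 1 := by
    rw [hchiY _ (h.simple_lt i0 hi0), hc0]
    simp
  have ed1 : cn (wPw h [i1, i2, i1, i2] (sr h hi0)) * cn (sr h hi0) = -1 := by
    rw [ed0]
    change _ * chi D Y x1 * _ * chi D Y (D.simple i0) = -1
    rw [e34, e0']
    simp
  -- the equation at the first fundamental root
  have e37 := hchi y
  have e1 := hcc (sr h hi0)
  rw [ec] at e1
  simp only [hpp] at e1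
  rw [e0, hv0] at e1
  rw [hv0] at ed1
  have hA : chi D y (sr h hi0) = y i0 := chi_simple h y hi0
  have h37 : chi D y ((⟨x0, hx0⟩ : Fin D.nroots) : ℕ) = y i0 * y i1 ^ 2 * y i2 := e37
  rw [hA, h37, mul_mul_mul_comm, ed1] at e1
  have e3 : c (sr h hi2) = (y i2)⁻¹ * (-1) := by
    rw [ec]
    simp only
    rw [h3]
    have e5 : chi D y (negF h (sr h hi2)) = (chi D y (sr h hi2))⁻¹ := chi_neg h y (sr h hi2).isLt
    rw [e5, show chi D y (sr h hi2) = y i2 from chi_simple h y hi2, ecn2]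
  have e4 : c (sr h hi2) = (y i0 * y i1) * (y i0 * y i1) := by
    rw [e3]
    exact b2_aux e1 (by simp)
  have hS : IsSquare ((c (sr h hi2) : Fˣ) : F) := by
    rw [e4]
    exact ⟨((y i0 * y i1 : Fˣ) : F), Units.val_mul _ _⟩
  exact split_psi h h2 ax h2F H hm ht hi2 h3 hS

end Cfsg.Agent.Lib.KS71.IVb4
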