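/-
Involutions in Chevalley groups, odd characteristic: monomial involutions in types `E₈` and `F₄`.
-/
import Mathlib
import Cfsg.Agent.Lib.KS71.IVb4
import Cfsg.Agent.Lib.Lie.AxOf

set_option autoImplicit false
set_option linter.unusedSectionVars false
set_option linter.unusedVariables false

namespace Cfsg.Agent.Lib.KS71.IVb5

open Cfsg Cfsg.Lie Cfsg.Lie.ChevalleyDatum
open Cfsg.Agent.Lib.Chev.Tables Cfsg.Agent.Lib.Chev.Tables2 Cfsg.Agent.Lib.Chev.Tables3 Cfsg.Agent.Lib.Chev.Raise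
open Cfsg.Agent.Lib.Chev.Basic Cfsg.Agent.Lib.Chev.AxBasic Cfsg.Agent.Lib.Chev.Torus
open Cfsg.Agent.Lib.Chev.Products Cfsg.Agent.Lib.Chev.Products2 Cfsg.Agent.Lib.Chev.Mono1
open Cfsg.Agent.Lib.Chev.Mono2 Cfsg.Agent.Lib.Chev.Mono3 Cfsg.Agent.Lib.Chev.Bn
open Cfsg.Agent.Lib.Chev.Order1 Cfsg.Agent.Lib.Chev.Order2 Cfsg.Agent.Lib.Chev.Parab
open Cfsg.Agent.Lib.Chev.Diag Cfsg.Agent.Lib.Chev.SL2 Cfsg.Agent.Lib.Chev.SL2Chev
open Cfsg.Agent.Lib.KS71.StWeyl Cfsg.Agent.Lib.KS71.StCell Cfsg.Agent.Lib.KS71.StUnip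
open Cfsg.Agent.Lib.KS71.HeckeD Cfsg.Agent.Lib.KS71.IVa Cfsg.Agent.Lib.KS71.IVb Cfsg.Agent.Lib.KS71.IVb2
open Cfsg.Agent.Lib.KS71.IVb3 Cfsg.Agent.Lib.KS71.IVb4

variable {F : Type*} [Field F]

set_option maxRecDepth 100000

/-- An integer table. -/
def tabZ (T : List (List ℤ)) (k i : ℕ) : ℤ := (T.getD k []).getD i 0

/-- The inverse of the Cartan matrix of `F₄`. -/
def invF4 : List (List ℤ) := [[2, 3, 4, 2], [3, 6, 8, 4], [2, 4, 6, 3], [1, 2, 3, 2]]

/-- The inverse of the Cartan matrix of `E₈`. -/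
def invE8 : List (List ℤ) := [[4, 5, 7, 10, 8, 6, 4, 2], [5, 8, 10, 15, 12, 9, 6, 3], [7, 10, 14, 20, 16, 12, 8, 4],
  [10, 15, 20, 30, 24, 18, 12, 6], [8, 12, 16, 24, 20, 15, 10, 5], [6, 9, 12, 18, 15, 12, 8, 4],
  [4, 6, 8, 12, 10, 8, 6, 3], [2, 3, 4, 6, 5, 4, 3, 2]]

lemma invF4_r : ∀ j, j < chevF4.rank → ∀ i, i < chevF4.rank →
    ∑ k ∈ Finset.range chevF4.rank, chevF4.cartan j (chevF4.simple k) * tabZ invF4 k i = if j = i then 1 else 0 := by
  decide +kernel

lemma invF4_l : ∀ k, k < chevF4.rank → ∀ j, j < chevF4.rank →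
    ∑ i ∈ Finset.range chevF4.rank, tabZ invF4 k i * chevF4.cartan i (chevF4.simple j) = if k = j then 1 else 0 := by
  decide +kernel

lemma invE8_r : ∀ j, j < chevE8.rank → ∀ i, i < chevE8.rank →
    ∑ k ∈ Finset.range chevE8.rank, chevE8.cartan j (chevE8.simple k) * tabZ invE8 k i = if j = i then 1 else 0 := by
  decide +kernel

lemma invE8_l : ∀ k, k < chevE8.rank → ∀ j, j < chevE8.rank →
    ∑ i ∈ Finset.range chevE8.rank, tabZ invE8 k i * chevE8.cartan i (chevE8.simple j) = if k = j then 1 else 0 := by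
  decide +kernel

/-- The extra root of a bond. -/
def bondE8 (i j : ℕ) : ℕ :=
  match min i j, max i j with
  | 0, 2 => 163 | 1, 3 => 142 | 2, 3 => 136 | 3, 4 => 131 | 4, 5 => 127 | 5, 6 => 124 | 6, 7 => 122
  | _, _ => 0

lemma graphE8 : ∀ i, i < chevE8.rank → ∀ j, j < chevE8.rank → i ≠ j →
    orthCheck chevE8 i j = true ∨ a2Check chevE8 i j (bondE8 i j) = true ∨ a2Check chevE8 j i (bondE8 i j) = true := by
  decide +kernel

/-- The extra root of a bond. -/
def bondF4 (i j : ℕ) : ℕ :=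
  match min i j, max i j with
  | 0, 1 => 34 | 2, 3 => 26
  | _, _ => 0

lemma graphF4 : ∀ i, i < chevF4.rank → ∀ j, j < chevF4.rank → i ≠ j →
    (orthCheck chevF4 i j || a2Check chevF4 i j (bondF4 i j) || a2Check chevF4 j i (bondF4 i j) ||
      ((i == 1 && j == 2) || (i == 2 && j == 1))) = true := by
  decide +kernel

section E8

variable [Fintype F] (h2F : (2 : F) ≠ 0)

include h2F in
theorem mono_red_E8 {t : GL chevE8.Idx F} (hm : t ∈ chevE8.monomialSubgroup F) (ht : t * t = 1) :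
    ∃ g ∈ chevE8.group F, g * t * g⁻¹ ∈ chevE8.diagonalSubgroup F := by
  have hD : chevE8 ∈ [chevG2, chevB2, chevD4, chevF4, chevE6, chevE7, chevE8] := by simp
  have h := tab_of_mem hD
  have h2 := tab2_of_mem hD
  have ax := Cfsg.Agent.Lib.Lie.AxOf.ax_of_mem (F := F) hD
  refine mono_red h h2 ax (caseC_of_graph h h2 ax h2F (tor_mem_of_inv h h2 ax fun k j hk hj => invE8_l k hk j hj) (fun j i hj hi => invE8_r j hj i hi) (fun _ _ => False) ?_ ?_) hm ht
  · intro i j hi hj hij
    rcases graphE8 i hi j hj hij with h3 | h3 | h3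
    · exact Or.inl (OrthPair.of_check h3)
    · exact Or.inr (Or.inl ⟨_, A2Edge.of_check h3⟩)
    · exact Or.inr (Or.inr (Or.inl ⟨_, A2Edge.of_check h3⟩))
  · intro t π c H hm ht hC1 hOP a b ha hb e1 e2 hP
    exact hP.elim

end E8

lemma chi37 (y : ℕ → Fˣ) : chi chevF4 y 37 = y 0 * y 1 ^ 2 * y 2 := by
  simp only [chi]
  rw [show chevF4.rank = 4 from rfl]
  simp only [Finset.prod_range_succ, Finset.prod_range_zero, one_mul]
  rw [show coef chevF4 37 0 = 1 by decide +kernel, show coef chevF4 37 1 = 2 by decide +kernel,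
    show coef chevF4 37 2 = 1 by decide +kernel, show coef chevF4 37 3 = 0 by decide +kernel]
  simp

section F4b

variable [Fintype F] (h2F : (2 : F) ≠ 0)

include h2F in
theorem mono_red_F4 {t : GL chevF4.Idx F} (hm : t ∈ chevF4.monomialSubgroup F) (ht : t * t = 1) :
    ∃ g ∈ chevF4.group F, g * t * g⁻¹ ∈ chevF4.diagonalSubgroup F := by
  have hD : chevF4 ∈ [chevG2, chevB2, chevD4, chevF4, chevE6, chevE7, chevE8] := by simp
  have h := tab_of_mem hD
  have h2 := tab2_of_mem hD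
  have ax := Cfsg.Agent.Lib.Lie.AxOf.ax_of_mem (F := F) hD
  refine mono_red h h2 ax (caseC_of_graph h h2 ax h2F (tor_mem_of_inv h h2 ax fun k j hk hj => invF4_l k hk j hj)
    (fun j i hj hi => invF4_r j hj i hi) (fun i j => (i = 1 ∧ j = 2) ∨ (i = 2 ∧ j = 1)) ?_ ?_) hm ht
  · intro i j hi hj hij
    have := graphF4 i hi j hj hij
    simp only [Bool.or_eq_true, Bool.and_eq_true, beq_iff_eq] at this
    rcases this with (((h3 | h3) | h3) | h3)
    · exact Or.inl (OrthPair.of_check h3)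
    · exact Or.inr (Or.inl ⟨_, A2Edge.of_check h3⟩)
    · exact Or.inr (Or.inr (Or.inl ⟨_, A2Edge.of_check h3⟩))
    · exact Or.inr (Or.inr (Or.inr h3))
  · intro t π c H hm ht hC1 hOP a b ha hb e1 e2 hP
    have hi0 : 0 < chevF4.rank := by decide
    have hi1 : 1 < chevF4.rank := by decide
    have hi2 : 2 < chevF4.rank := by decide
    have hi3 : 3 < chevF4.rank := by decide
    have e1' : π (sr h hi1) = negF h (sr h hi1) := by
      rcases hP with ⟨rfl, rfl⟩ | ⟨rfl, rfl⟩
      · exact e1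
      · exact e2
    have e2' : π (sr h hi2) = negF h (sr h hi2) := by
      rcases hP with ⟨rfl, rfl⟩ | ⟨rfl, rfl⟩
      · exact e2
      · exact e1
    have no01 : ¬ OrthPair chevF4 0 1 := by
      intro O
      have := O.c1
      revert this
      decide +kernel
    have no32 : ¬ OrthPair chevF4 3 2 := by
      intro O
      have := O.c1
      revert this
      decide +kernel
    refine b2_step h h2 ax h2F (i0 := 0) (i1 := 1) (i2 := 2) (r' := 30) (x0 := 37) (x1 := 34) hi0 hi1 hi2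
      (by decide) (by decide) (by decide) (by decide +kernel) (by decide +kernel) (by decide +kernel)
      (by decide +kernel) (by decide +kernel) (by decide +kernel) (by decide +kernel) (by decide +kernel)
      (by decide +kernel) (by decide +kernel) (by decide +kernel) (by decide +kernel) (by decide +kernel)
      (by decide +kernel) (by decide +kernel) (by decide +kernel) (by decide +kernel) chi37 H hm ht e1' e2' ?_
    intro k hk hk1 hk2
    have hk4 : k < 4 := hk
    interval_cases k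
    · by_contra hn
      have e3 := hC1 0 hk hn
      rcases hOP 0 1 hi0 hi1 (by decide) e3 e1' with h5 | h5
      · exact no01 h5
      · simp at h5
    · exact absurd rfl hk1
    · exact absurd rfl hk2
    · by_contra hn
      have e3 := hC1 3 hk hn
      rcases hOP 3 2 hi3 hi2 (by decide) e3 e2' with h5 | h5
      · exact no32 h5
      · simp at h5

end F4b

end Cfsg.Agent.Lib.KS71.IVb5
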