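/-
Involutions in Chevalley groups, odd characteristic: frames of strongly orthogonal roots, and the product of the
corresponding copies of `SL₂`.
-/
import Mathlib
import Cfsg.Agent.Lib.KS71.IVb4

set_option autoImplicit false
set_option linter.unusedSectionVars false
set_option linter.unusedVariables false

namespace Cfsg.Agent.Lib.KS71.IVc

open scoped MatrixGroups Matrix
open Cfsg Cfsg.Lie Cfsg.Lie.ChevalleyDatum
open Cfsg.Agent.Lib.Chev.Tables Cfsg.Agent.Lib.Chev.Tables2 Cfsg.Agent.Lib.Chev.Tables3 Cfsg.Agent.Lib.Chev.Raise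
open Cfsg.Agent.Lib.Chev.Basic Cfsg.Agent.Lib.Chev.AxBasic Cfsg.Agent.Lib.Chev.Torus
open Cfsg.Agent.Lib.Chev.Products Cfsg.Agent.Lib.Chev.Products2 Cfsg.Agent.Lib.Chev.Mono1
open Cfsg.Agent.Lib.Chev.Mono2 Cfsg.Agent.Lib.Chev.Mono3 Cfsg.Agent.Lib.Chev.Bn
open Cfsg.Agent.Lib.Chev.Order1 Cfsg.Agent.Lib.Chev.Order2 Cfsg.Agent.Lib.Chev.Parab
open Cfsg.Agent.Lib.Chev.Diag Cfsg.Agent.Lib.Chev.SL2 Cfsg.Agent.Lib.Chev.SL2Chev
open Cfsg.Agent.Lib.KS71.StWeyl Cfsg.Agent.Lib.KS71.StCell Cfsg.Agent.Lib.KS71.StUnip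
open Cfsg.Agent.Lib.KS71.HeckeD Cfsg.Agent.Lib.KS71.IVa Cfsg.Agent.Lib.KS71.IVb Cfsg.Agent.Lib.KS71.IVb2
open Cfsg.Agent.Lib.KS71.IVb3 Cfsg.Agent.Lib.KS71.IVb4

/-! ### `SL₂` -/

section sl2

variable {F : Type*} [Field F]

/-- `SL₂` is generated by the unitriangular elements. -/
lemma sl2_induction {p : SL(2, F) → Prop} (hu : ∀ u, p (upM u)) (hl : ∀ u, p (loM u))
    (hm : ∀ a b, p a → p b → p (a * b)) (A : SL(2, F)) : p A := by
  have key : ∀ A : SL(2, F), A.1 1 0 ≠ 0 → p A := by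
    intro A hc
    set a := A.1 0 0
    set b := A.1 0 1
    set c := A.1 1 0
    set d := A.1 1 1
    have hdet : a * d - b * c = 1 := det_eq A
    have e : A = upM ((a - 1) / c) * (loM c * upM ((d - 1) / c)) := by
      apply Subtype.ext
      simp only [Matrix.SpecialLinearGroup.coe_mul]
      ext i j
      fin_cases i <;> fin_cases j <;> simp [upM, loM, Matrix.mul_apply, Fin.sum_univ_two]
      · change a = _
        field_simp
        ring
      · change b = _
        field_simp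
        linear_combination (-1 : F) * hdet
      · change c = _
        ring
      · change d = _
        field_simp
        ring
    rw [e]
    exact hm _ _ (hu _) (hm _ _ (hl _) (hu _))
  by_cases hc : A.1 1 0 = 0
  · have ha := ne_zero_of_c hc
    have e : A = loM (-1) * (loM 1 * A) := by
      rw [← mul_assoc]
      have : loM (-1) * loM 1 = (1 : SL(2, F)) := by
        apply Subtype.ext
        simp only [Matrix.SpecialLinearGroup.coe_mul]
        ext i j
        fin_cases i <;> fin_cases j <;> simp [loM, Matrix.mul_apply, Fin.sum_univ_two]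
      rw [this, one_mul]
    rw [e]
    refine hm _ _ (hl _) (key _ ?_)
    show (((loM 1).1 * A.1 : Matrix (Fin 2) (Fin 2) F)) 1 0 ≠ 0
    simpa [loM, Matrix.mul_apply, Fin.sum_univ_two, hc] using ha
  · exact key A hc

lemma sl2_hom_ext {G : Type*} [Group G] {f g : SL(2, F) →* G} (hu : ∀ u, f (upM u) = g (upM u))
    (hl : ∀ u, f (loM u) = g (loM u)) : f = g := by
  ext A
  induction A using sl2_induction with
  | hu u => exact hu u
  | hl u => exact hl u
  | hm a b ha hb => rw [map_mul, map_mul, ha, hb]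

/-- Conjugation of `SL₂` by an element of `GL₂`. -/
def conjM (M : GL (Fin 2) F) : SL(2, F) →* SL(2, F) where
  toFun A := ⟨M.1 * A.1 * M⁻¹.1, by
    have h1 : M.1.det * M⁻¹.1.det = 1 := by
      rw [← Matrix.det_mul, ← Units.val_mul, mul_inv_cancel]
      simp
    rw [Matrix.det_mul, Matrix.det_mul, A.2, mul_one, h1]⟩
  map_one' := by
    apply Subtype.ext
    simp
  map_mul' := by
    intro A B
    apply Subtype.ext
    have h1 : M⁻¹.1 * M.1 = 1 := by
      rw [← Units.val_mul, inv_mul_cancel]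
      simp
    show M.1 * (A.1 * B.1) * M⁻¹.1 = (M.1 * A.1 * M⁻¹.1) * (M.1 * B.1 * M⁻¹.1)
    calc M.1 * (A.1 * B.1) * M⁻¹.1 = M.1 * A.1 * 1 * B.1 * M⁻¹.1 := by simp [Matrix.mul_assoc]
      _ = M.1 * A.1 * (M⁻¹.1 * M.1) * B.1 * M⁻¹.1 := by rw [h1]
      _ = _ := by simp only [Matrix.mul_assoc]

lemma conjM_val (M : GL (Fin 2) F) (A : SL(2, F)) : (conjM M A).1 = M.1 * A.1 * M⁻¹.1 := rfl

lemma conjM_mul (M M' : GL (Fin 2) F) (A : SL(2, F)) : conjM (M * M') A = conjM M (conjM M' A) := by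
  apply Subtype.ext
  simp only [conjM_val, Units.val_mul, mul_inv_rev, Matrix.mul_assoc]

/-- The inclusion of `SL₂` into `GL₂`. -/
def toG (A : SL(2, F)) : GL (Fin 2) F := Matrix.SpecialLinearGroup.toGL A

lemma toG_val (A : SL(2, F)) : (toG A).1 = A.1 := rfl

lemma toG_inv_val (A : SL(2, F)) : (toG A)⁻¹.1 = (A⁻¹).1 := rfl

lemma conjM_toG (A B : SL(2, F)) : conjM (toG A) B = A * B * A⁻¹ := by
  apply Subtype.ext
  simp only [conjM_val, Matrix.SpecialLinearGroup.coe_mul, toG_val, toG_inv_val]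

/-- The element `diag(c, 1)` of `GL₂`. -/
def plusM (c : Fˣ) : GL (Fin 2) F :=
  ⟨!![(c : F), 0; 0, 1], !![(c⁻¹ : Fˣ), 0; 0, 1], by
    ext i j
    fin_cases i <;> fin_cases j <;> simp [Matrix.mul_apply, Fin.sum_univ_two],
   by
    ext i j
    fin_cases i <;> fin_cases j <;> simp [Matrix.mul_apply, Fin.sum_univ_two]⟩

/-- The element `[[0, 1], [c, 0]]` of `GL₂`. -/
def minusM (c : Fˣ) : GL (Fin 2) F :=
  ⟨!![0, 1; (c : F), 0], !![0, (c⁻¹ : Fˣ); 1, 0], by
    ext i j
    fin_cases i <;> fin_cases j <;> simp [Matrix.mul_apply, Fin.sum_univ_two],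
   by
    ext i j
    fin_cases i <;> fin_cases j <;> simp [Matrix.mul_apply, Fin.sum_univ_two]⟩

lemma conj_plus_up (c : Fˣ) (u : F) : conjM (plusM c) (upM u) = upM ((c : F) * u) := by
  apply Subtype.ext
  rw [conjM_val]
  ext i j
  fin_cases i <;> fin_cases j <;> simp [plusM, upM, Matrix.mul_apply, Fin.sum_univ_two]

lemma conj_plus_lo (c : Fˣ) (u : F) : conjM (plusM c) (loM u) = loM ((c⁻¹ : Fˣ) * u) := by
  apply Subtype.ext
  rw [conjM_val]
  ext i j
  fin_cases i <;> fin_cases j <;> simp [plusM, loM, Matrix.mul_apply, Fin.sum_univ_two] <;> ring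

lemma conj_minus_up (c : Fˣ) (u : F) : conjM (minusM c) (upM u) = loM ((c : F) * u) := by
  apply Subtype.ext
  rw [conjM_val]
  ext i j
  fin_cases i <;> fin_cases j <;> simp [minusM, upM, loM, Matrix.mul_apply, Fin.sum_univ_two] <;> (try ring)

lemma conj_minus_lo (c : Fˣ) (u : F) : conjM (minusM c) (loM u) = upM ((c⁻¹ : Fˣ) * u) := by
  apply Subtype.ext
  rw [conjM_val]
  ext i j
  fin_cases i <;> fin_cases j <;> simp [minusM, upM, loM, Matrix.mul_apply, Fin.sum_univ_two] <;> (try ring)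

/-- Monomial matrices. -/
def IsMono (M : Matrix (Fin 2) (Fin 2) F) : Prop := (M 0 1 = 0 ∧ M 1 0 = 0) ∨ (M 0 0 = 0 ∧ M 1 1 = 0)

lemma isMono_plus (c : Fˣ) : IsMono (plusM c).1 := Or.inl (by simp [plusM])

lemma isMono_minus (c : Fˣ) : IsMono (minusM c).1 := Or.inr (by simp [minusM])

lemma IsMono.mul {M M' : Matrix (Fin 2) (Fin 2) F} (h1 : IsMono M) (h2 : IsMono M') : IsMono (M * M') := by
  simp only [IsMono, Matrix.mul_apply, Fin.sum_univ_two] at *
  rcases h1 with ⟨a, b⟩ | ⟨a, b⟩ <;> rcases h2 with ⟨c, d⟩ | ⟨c, d⟩ <;> simp [a, b, c, d]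

lemma isMono_inv (M : GL (Fin 2) F) (h1 : IsMono M.1) : IsMono M⁻¹.1 := by
  have hdet : M.1.det ≠ 0 := by
    have : M.1 * M⁻¹.1 = 1 := by
      rw [← Units.val_mul, mul_inv_cancel]
      simp
    intro h0
    have h3 := congrArg Matrix.det this
    rw [Matrix.det_mul, h0] at h3
    simp at h3
  have e : M⁻¹.1 = (M.1)⁻¹ := by
    rw [Matrix.coe_units_inv]
  rw [e, Matrix.inv_def, Matrix.adjugate_fin_two]
  simp only [IsMono, Matrix.smul_apply, smul_eq_mul, Matrix.of_apply, Matrix.cons_val', Matrix.cons_val_zero,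
    Matrix.cons_val_one, Matrix.cons_val_fin_one]
  rcases h1 with ⟨a, b⟩ | ⟨a, b⟩
  · left; simp [a, b]
  · right; simp [a, b]

lemma inv_up (t : F) : (upM t)⁻¹ = upM (-t) := by
  apply inv_eq_of_mul_eq_one_right
  apply Subtype.ext
  simp only [Matrix.SpecialLinearGroup.coe_mul]
  ext i j
  fin_cases i <;> fin_cases j <;> simp [upM, Matrix.mul_apply, Fin.sum_univ_two]

lemma inv_lo (t : F) : (loM t)⁻¹ = loM (-t) := by
  apply inv_eq_of_mul_eq_one_right
  apply Subtype.ext
  simp only [Matrix.SpecialLinearGroup.coe_mul]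
  ext i j
  fin_cases i <;> fin_cases j <;> simp [loM, Matrix.mul_apply, Fin.sum_univ_two]

/-- An element of `GL₂` whose square is scalar is conjugate to a monomial one. -/
lemma exists_mono_conj {m : GL (Fin 2) F} {σ : F} (hm : m.1 * m.1 = σ • (1 : Matrix (Fin 2) (Fin 2) F)) :
    ∃ v : SL(2, F), IsMono (toG v * m * (toG v)⁻¹).1 := by
  obtain ⟨a, b, c, d, hM⟩ : ∃ a b c d : F, m.1 = !![a, b; c, d] := ⟨_, _, _, _, Matrix.eta_fin_two m.1⟩
  have e10 : c * (a + d) = 0 := by
    have := congrFun (congrFun hm 1) 0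
    rw [hM] at this
    simp [Matrix.mul_apply, Fin.sum_univ_two, Matrix.one_apply] at this
    linear_combination this
  have e01 : b * (a + d) = 0 := by
    have := congrFun (congrFun hm 0) 1
    rw [hM] at this
    simp [Matrix.mul_apply, Fin.sum_univ_two, Matrix.one_apply] at this
    linear_combination this
  have hval : ∀ v : SL(2, F), (toG v * m * (toG v)⁻¹).1 = v.1 * m.1 * (v⁻¹).1 := fun v => rfl
  by_cases hc0 : c = 0
  · by_cases hb0 : b = 0
    · refine ⟨1, ?_⟩
      have : (toG (1 : SL(2, F)) * m * (toG 1)⁻¹) = m := by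
        simp [toG]
      rw [this, hM]
      left
      simp [hb0, hc0]
    · have hs : a + d = 0 := (mul_eq_zero.mp e01).resolve_left hb0
      refine ⟨loM (-d / b), ?_⟩
      rw [hval, inv_lo, hM]
      right
      subst hc0
      constructor
      · simp [Matrix.mul_apply, Fin.sum_univ_two, loM]
        field_simp
        linear_combination hs
      · simp [Matrix.mul_apply, Fin.sum_univ_two, loM]
        field_simp
        ring
  · have hs : a + d = 0 := (mul_eq_zero.mp e10).resolve_left hc0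
    refine ⟨upM (-a / c), ?_⟩
    rw [hval, inv_up, hM]
    right
    constructor
    · simp [Matrix.mul_apply, Fin.sum_univ_two, upM]
      field_simp
      ring
    · simp [Matrix.mul_apply, Fin.sum_univ_two, upM]
      field_simp
      linear_combination hs

lemma central_sl2 {A : SL(2, F)} (h1 : A * upM 1 = upM 1 * A) (h3 : A * loM 1 = loM 1 * A) : A * A = 1 := by
  obtain ⟨a, b, c, d, hM⟩ : ∃ a b c d : F, A.1 = !![a, b; c, d] := ⟨_, _, _, _, Matrix.eta_fin_two A.1⟩
  have h1' : A.1 * (upM (1 : F)).1 = (upM (1 : F)).1 * A.1 := congrArg Subtype.val h1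
  have h3' : A.1 * (loM (1 : F)).1 = (loM (1 : F)).1 * A.1 := congrArg Subtype.val h3
  have hdet : a * d - b * c = 1 := by
    have := A.2
    rw [hM, Matrix.det_fin_two_of] at this
    exact this
  rw [hM] at h1' h3'
  have e1 := congrFun (congrFun h1' 1) 1
  have e2 := congrFun (congrFun h3' 1) 1
  have e3 := congrFun (congrFun h1' 0) 1
  simp [upM, loM, Matrix.mul_apply, Fin.sum_univ_two] at e1 e2 e3
  apply Subtype.ext
  simp only [Matrix.SpecialLinearGroup.coe_mul, hM]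
  subst e1
  subst e2
  ext i j
  fin_cases i <;> fin_cases j <;> simp [Matrix.mul_apply, Fin.sum_univ_two]
  · linear_combination hdet + a * e3
  · linear_combination hdet - d * e3

end sl2

/-! ### Frames -/

/-- A frame of strongly orthogonal positive roots. -/
structure Frame (D : ChevalleyDatum) (k : ℕ) where
  r : Fin k → ℕ
  hr : ∀ i, r i < D.nroots
  hpos : ∀ i, D.IsPosRoot (r i)
  two : ∀ i, pair D (r i) (r i) = 2
  odd : ∀ i, ∃ s, s < D.nroots ∧ pair D (r i) s % 2 = 1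
  t1 : ∀ i j, i ≠ j → D.commTerms (r i) (r j) = []
  t2 : ∀ i j, i ≠ j → D.commTerms (D.neg (r i)) (r j) = []
  t3 : ∀ i j, i ≠ j → D.commTerms (r i) (D.neg (r j)) = []
  t4 : ∀ i j, i ≠ j → D.commTerms (D.neg (r i)) (D.neg (r j)) = []
  n1 : ∀ i j, i ≠ j → r j ≠ r i
  n2 : ∀ i j, i ≠ j → r j ≠ D.neg (r i)
  n3 : ∀ i j, i ≠ j → r j ≠ D.neg (D.neg (r i))
  n4 : ∀ i j, i ≠ j → D.neg (r j) ≠ r i
  n5 : ∀ i j, i ≠ j → D.neg (r j) ≠ D.neg (r i)
  n6 : ∀ i j, i ≠ j → D.neg (r j) ≠ D.neg (D.neg (r i))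

section frame

variable {D : ChevalleyDatum} {F : Type*} [Field F] {k : ℕ}
variable (h : Tab D) (h2 : Tab2 D) (ax : Ax D F) (Fr : Frame D k)

/-- The copies of `SL₂`. -/
noncomputable def phi (i : Fin k) : SL(2, F) →* GL D.Idx F :=
  phiHom (xG ax (Fr.r i)) (xG ax (D.neg (Fr.r i))) (rankOneRel h h2 ax (Fr.hr i))

lemma phi_up (i : Fin k) (u : F) : phi h h2 ax Fr i (upM u) = xG ax (Fr.r i) u := phiHom_up _ u

lemma phi_lo (i : Fin k) (u : F) : phi h h2 ax Fr i (loM u) = xG ax (D.neg (Fr.r i)) u := phiHom_lo _ u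

lemma phi_comm {i j : Fin k} (hij : i ≠ j) (A B : SL(2, F)) :
    Commute (phi h h2 ax Fr i A) (phi h h2 ax Fr j B) := by
  have hri := Fr.hr i
  have hrj := Fr.hr j
  have hni := h.neg_lt _ hri
  have hnj := h.neg_lt _ hrj
  have cpp : ∀ u t : F, Commute (xG ax (Fr.r j) u) (xG ax (Fr.r i) t) := fun u t =>
    comm_nil ax hri hrj (Fr.n1 i j hij) (Fr.n2 i j hij) (Fr.t1 i j hij) t u
  have cpn : ∀ u t : F, Commute (xG ax (Fr.r j) u) (xG ax (D.neg (Fr.r i)) t) := fun u t =>
    comm_nil ax hni hrj (Fr.n2 i j hij) (Fr.n3 i j hij) (Fr.t2 i j hij) t u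
  have cnp : ∀ u t : F, Commute (xG ax (D.neg (Fr.r j)) u) (xG ax (Fr.r i) t) := fun u t =>
    comm_nil ax hri hnj (Fr.n4 i j hij) (Fr.n5 i j hij) (Fr.t3 i j hij) t u
  have cnn : ∀ u t : F, Commute (xG ax (D.neg (Fr.r j)) u) (xG ax (D.neg (Fr.r i)) t) := fun u t =>
    comm_nil ax hni hnj (Fr.n5 i j hij) (Fr.n6 i j hij) (Fr.t4 i j hij) t u
  induction B using sl2_induction with
  | hu u =>
    rw [phi_up]
    induction A using sl2_induction with
    | hu t => rw [phi_up]; exact (cpp u t).symm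
    | hl t => rw [phi_lo]; exact (cpn u t).symm
    | hm a b ha hb => rw [map_mul]; exact ha.mul_left hb
  | hl u =>
    rw [phi_lo]
    induction A using sl2_induction with
    | hu t => rw [phi_up]; exact (cnp u t).symm
    | hl t => rw [phi_lo]; exact (cnn u t).symm
    | hm a b ha hb => rw [map_mul]; exact ha.mul_left hb
  | hm a b ha hb => rw [map_mul]; exact ha.mul_right hb

/-- The copies of `SL₂` are faithful. -/
lemma phi_eq_one (i : Fin k) {A : SL(2, F)} (e : phi h h2 ax Fr i A = 1) : A = 1 := by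
  have hri := Fr.hr i
  have R := rankOneRel h h2 ax hri
  change phiF (xG ax (Fr.r i)) (xG ax (D.neg (Fr.r i))) A = 1 at e
  have hdet := det_eq A
  by_cases hc : A.1 1 0 = 0
  · rw [phiF_of_c0 hc] at e
    have ha := ne_zero_of_c hc
    change hG ax (Fr.r i) (A.1 0 0) * xG ax (Fr.r i) (A.1 0 1 / A.1 0 0) = 1 at e
    have hT := hG_mem_diagonal ax hri ha
    have hx : xG ax (Fr.r i) (A.1 0 1 / A.1 0 0) ∈ D.posUnipotent F ⊓ D.diagonalSubgroup F := by
      refine ⟨?_, ?_⟩
      · rw [posUnipotent_eq ax]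
        exact xG_mem_rootClosure ax (Fr.hpos i) _
      · have : xG ax (Fr.r i) (A.1 0 1 / A.1 0 0) = (hG ax (Fr.r i) (A.1 0 0))⁻¹ := eq_inv_of_mul_eq_one_right e
        rw [this]
        exact Subgroup.inv_mem _ hT
    rw [U_inf_H ax h, Subgroup.mem_bot] at hx
    have hb : A.1 0 1 / A.1 0 0 = 0 := by
      by_contra hne
      have := xG_eq_iff ax h h2 hri hri hne (hx.trans (xG_zero ax _).symm)
      exact hne this.2
    rw [hx, mul_one] at e
    have hact : ∀ s, s < D.nroots → (Units.mk0 _ ha) ^ pair D (Fr.r i) s = 1 := by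
      intro s hs
      have e1 := hG_eq_tor ax h hri (Units.mk0 _ ha)
      simp only [Units.val_mk0] at e1
      have e2 := tor_conj_xG ax h (hW D (Fr.r i) (Units.mk0 _ ha)) hs (1 : F)
      rw [← e1, e, chi_hW h _ _ hs] at e2
      simp only [one_mul, inv_one, mul_one] at e2
      have := (xG_eq_iff ax h h2 hs hs (one_ne_zero (α := F)) e2).2
      exact Units.ext (by simpa using this.symm)
    have ha1 : (Units.mk0 _ ha) = 1 := by
      obtain ⟨s, hs, hodd⟩ := Fr.odd i
      have h1 := hact s hs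
      have h3 := hact _ hri
      rw [Fr.two i] at h3
      have e3 : pair D (Fr.r i) s = 2 * (pair D (Fr.r i) s / 2) + 1 := by omega
      rw [e3, zpow_add, zpow_mul, h3, one_zpow, one_mul, zpow_one] at h1
      exact h1
    have ha2 : A.1 0 0 = 1 := by
      have := congrArg Units.val ha1
      simpa using this
    have hb2 : A.1 0 1 = 0 := by
      rw [ha2, div_one] at hb
      exact hb
    have hd2 : A.1 1 1 = 1 := by
      rw [ha2, hb2, hc] at hdet
      simpa using hdet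
    apply Subtype.ext
    ext x y
    fin_cases x <;> fin_cases y <;> simp [ha2, hb2, hc, hd2]
  · rw [phiF_of_cne hc] at e
    exfalso
    set s := -1 / A.1 1 0 with hs
    have hs0 : s ≠ 0 := div_ne_zero (neg_ne_zero.mpr one_ne_zero) hc
    have e1 : WW (xG ax (Fr.r i)) (xG ax (D.neg (Fr.r i))) s =
        xG ax (Fr.r i) (-(A.1 0 0 / A.1 1 0) + -(A.1 1 1 / A.1 1 0)) := by
      rw [← xG_add, ← xG_inv, ← xG_inv]
      have e2 : ∀ p q r : GL D.Idx F, p * q * r = 1 → q = p⁻¹ * r⁻¹ := by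
        intro p q r e3
        have : q = p⁻¹ * (p * q * r) * r⁻¹ := by group
        rw [this, e3]
        group
      exact e2 _ _ _ e
    have e3 := R.conj_X s 1 hs0
    rw [e1] at e3
    have e4 : xG ax (Fr.r i) (-(A.1 0 0 / A.1 1 0) + -(A.1 1 1 / A.1 1 0)) * xG ax (Fr.r i) 1 *
        (xG ax (Fr.r i) (-(A.1 0 0 / A.1 1 0) + -(A.1 1 1 / A.1 1 0)))⁻¹ = xG ax (Fr.r i) 1 := by
      rw [xG_inv, xG_add, xG_add]
      congr 1
      ring
    rw [e4] at e3
    have h5 : -(s⁻¹ ^ 2 * 1) ≠ 0 := by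
      simp [hs0]
    have := xG_eq_iff ax h h2 (h.neg_lt _ hri) hri h5 e3.symm
    exact h.neg_ne _ hri this.1

lemma phi_inj (i : Fin k) : Function.Injective (phi h h2 ax Fr i) :=
  (injective_iff_map_eq_one _).mpr fun _ e => phi_eq_one h h2 ax Fr i e

/-- The product of the copies of `SL₂`. -/
noncomputable def Phi : (Fin k → SL(2, F)) →* GL D.Idx F :=
  MonoidHom.noncommPiCoprod (phi h h2 ax Fr) (fun _ _ hij x y => phi_comm h h2 ax Fr hij x y)

lemma Phi_single (i : Fin k) (A : SL(2, F)) : Phi h h2 ax Fr (Pi.mulSingle i A) = phi h h2 ax Fr i A :=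
  MonoidHom.noncommPiCoprod_mulSingle _ _ _

lemma Phi_mem {S : Subgroup (GL D.Idx F)} {y : Fin k → SL(2, F)} (hS : ∀ j, phi h h2 ax Fr j (y j) ∈ S) :
    Phi h h2 ax Fr y ∈ S := by
  exact Subgroup.noncommProd_mem S (t := Finset.univ) (f := fun j => phi h h2 ax Fr j (y j))
    (fun _ _ _ _ hij => phi_comm h h2 ax Fr hij _ _) fun c _ => hS c

/-- `Phi y` acts on the `i`-th copy through the `i`-th component. -/
lemma Phi_conj_phi (y : Fin k → SL(2, F)) (i : Fin k) (A : SL(2, F)) :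
    Phi h h2 ax Fr y * phi h h2 ax Fr i A * (Phi h h2 ax Fr y)⁻¹ = phi h h2 ax Fr i (y i * A * (y i)⁻¹) := by
  classical
  obtain ⟨y', hy1, hy⟩ : ∃ y' : Fin k → SL(2, F), y' i = 1 ∧ y = Pi.mulSingle i (y i) * y' :=
    ⟨(Pi.mulSingle i (y i))⁻¹ * y, by simp, by group⟩
  have hc : Phi h h2 ax Fr y' ∈ Subgroup.centralizer ({phi h h2 ax Fr i A} : Set (GL D.Idx F)) := by
    apply Phi_mem
    intro j
    rw [Subgroup.mem_centralizer_singleton_iff]
    by_cases hj : j = i
    · subst hj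
      rw [hy1, map_one]
      simp
    · exact (phi_comm h h2 ax Fr hj _ _).eq
  rw [Subgroup.mem_centralizer_singleton_iff] at hc
  have e0 : Phi h h2 ax Fr y = phi h h2 ax Fr i (y i) * Phi h h2 ax Fr y' := by
    conv_lhs => rw [hy, map_mul, Phi_single]
  rw [e0, map_mul, map_mul, map_inv, mul_assoc (phi h h2 ax Fr i (y i)), hc]
  group

/-- `π` permutes the frame up to signs. -/
def FP (π : Equiv.Perm (Fin D.nroots)) (a : Equiv.Perm (Fin k)) : Prop :=
  ∀ i, π ⟨Fr.r i, Fr.hr i⟩ = ⟨Fr.r (a i), Fr.hr (a i)⟩ ∨ π ⟨Fr.r i, Fr.hr i⟩ = negF h ⟨Fr.r (a i), Fr.hr (a i)⟩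

/-- An element permuting the frame permutes the copies of `SL₂`. -/
lemma n_conj_phi {n : GL D.Idx F} {π : Equiv.Perm (Fin D.nroots)} {c : Fin D.nroots → Fˣ}
    {a : Equiv.Perm (Fin k)} (H : IsNor h ax n π c) (hFP : FP h Fr π a) (i : Fin k) :
    ∃ M : GL (Fin 2) F, IsMono M.1 ∧ ∀ A, n * phi h h2 ax Fr i A * n⁻¹ = phi h h2 ax Fr (a i) (conjM M A) := by
  set ri : Fin D.nroots := ⟨Fr.r i, Fr.hr i⟩ with hri
  set rj : Fin D.nroots := ⟨Fr.r (a i), Fr.hr (a i)⟩ with hrj
  have key : ∀ M : GL (Fin 2) F, (∀ u, n * xG ax (Fr.r i) u * n⁻¹ = phi h h2 ax Fr (a i) (conjM M (upM u))) →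
      (∀ u, n * xG ax (D.neg (Fr.r i)) u * n⁻¹ = phi h h2 ax Fr (a i) (conjM M (loM u))) →
      ∀ A, n * phi h h2 ax Fr i A * n⁻¹ = phi h h2 ax Fr (a i) (conjM M A) := by
    intro M h1 h3 A
    induction A using sl2_induction with
    | hu u => rw [phi_up, h1]
    | hl u => rw [phi_lo, h3]
    | hm x y hx hy =>
      have e : n * phi h h2 ax Fr i (x * y) * n⁻¹ =
          (n * phi h h2 ax Fr i x * n⁻¹) * (n * phi h h2 ax Fr i y * n⁻¹) := by
        rw [map_mul]; group
      rw [e, hx, hy, map_mul, map_mul]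
  rcases hFP i with e | e
  · refine ⟨plusM (c ri), isMono_plus _, key _ (fun u => ?_) (fun u => ?_)⟩
    · rw [conj_plus_up, phi_up]
      have := H.conj ri u
      rw [e] at this
      exact this
    · rw [conj_plus_lo, phi_lo]
      have := H.conj (negF h ri) u
      rw [H.neg, e, H.sign] at this
      exact this
  · refine ⟨minusM (c ri), isMono_minus _, key _ (fun u => ?_) (fun u => ?_)⟩
    · rw [conj_minus_up, phi_lo]
      have := H.conj ri u
      rw [e] at this
      exact this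
    · rw [conj_minus_lo, phi_up]
      have := H.conj (negF h ri) u
      rw [H.neg, e, H.sign, negF_negF] at this
      exact this

end frame

end Cfsg.Agent.Lib.KS71.IVc
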