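/-
Involutions in Chevalley groups, odd characteristic: an involution of the product of the copies of `SL₂` extended by
a permutation of the frame is conjugate into the monomial group.
-/
import Mathlib
import Cfsg.Agent.Lib.KS71.IVc

set_option autoImplicit false
set_option linter.unusedSectionVars false
set_option linter.unusedVariables false

namespace Cfsg.Agent.Lib.KS71.IVd

open scoped MatrixGroups Matrix
open Cfsg Cfsg.Lie Cfsg.Lie.ChevalleyDatum
open Cfsg.Agent.Lib.Chev.Tables Cfsg.Agent.Lib.Chev.Tables2 Cfsg.Agent.Lib.Chev.Tables3 Cfsg.Agent.Lib.Chev.Raise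
open Cfsg.Agent.Lib.Chev.Basic Cfsg.Agent.Lib.Chev.AxBasic Cfsg.Agent.Lib.Chev.Torus
open Cfsg.Agent.Lib.Chev.Products Cfsg.Agent.Lib.Chev.Products2 Cfsg.Agent.Lib.Chev.Mono1
open Cfsg.Agent.Lib.Chev.Mono2 Cfsg.Agent.Lib.Chev.Mono3 Cfsg.Agent.Lib.Chev.Bn
open Cfsg.Agent.Lib.Chev.Order1 Cfsg.Agent.Lib.Chev.Order2 Cfsg.Agent.Lib.Chev.Parab
open Cfsg.Agent.Lib.Chev.Diag Cfsg.Agent.Lib.Chev.SL2 Cfsg.Agent.Lib.Chev.SL2Chev
open Cfsg.Agent.Lib.KS71.StWeyl Cfsg.Agent.Lib.KS71.StCell Cfsg.Agent.Lib.KS71.StUnip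
open Cfsg.Agent.Lib.KS71.HeckeD Cfsg.Agent.Lib.KS71.IVa Cfsg.Agent.Lib.KS71.IVb Cfsg.Agent.Lib.KS71.IVb2
open Cfsg.Agent.Lib.KS71.IVb3 Cfsg.Agent.Lib.KS71.IVb4 Cfsg.Agent.Lib.KS71.IVc

/-- Homomorphisms from a finite product agreeing on the factors agree. -/
lemma pi_hom_ext {ι G H : Type*} [Fintype ι] [DecidableEq ι] [Group G] [Group H] {f g : (ι → H) →* G}
    (hfg : ∀ i A, f (Pi.mulSingle i A) = g (Pi.mulSingle i A)) : f = g := by
  ext z
  have key : ∀ s : Finset ι, f (fun j => if j ∈ s then z j else 1) = g (fun j => if j ∈ s then z j else 1) := by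
    intro s
    induction s using Finset.induction_on with
    | empty =>
      have : (fun j => if j ∈ (∅ : Finset ι) then z j else 1) = (1 : ι → H) := by
        funext j
        simp
      rw [this, map_one, map_one]
    | insert i s hi ih =>
      have : (fun j => if j ∈ insert i s then z j else 1) =
          Pi.mulSingle i (z i) * (fun j => if j ∈ s then z j else 1) := by
        funext j
        by_cases hj : j = i
        · subst hj
          simp [hi]
        · simp [hj, Pi.mulSingle_eq_of_ne hj]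
      rw [this, map_mul, map_mul, hfg, ih]
  simpa using key Finset.univ

section sl2

variable {F : Type*} [Field F]

lemma up_sq_ne (h2F : (2 : F) ≠ 0) : ¬ (upM (1 : F) * upM 1 = 1) := by
  intro e
  have := congrArg (fun A : SL(2, F) => A.1 0 1) e
  simp only [Matrix.SpecialLinearGroup.coe_mul] at this
  simp [upM, Matrix.mul_apply, Fin.sum_univ_two] at this
  apply h2F
  linear_combination this

lemma scalar_of_conj {Q : GL (Fin 2) F} (hQ : ∀ A : SL(2, F), conjM Q A = A) :
    Q.1 = Q.1 0 0 • (1 : Matrix (Fin 2) (Fin 2) F) := by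
  have hinv : Q⁻¹.1 * Q.1 = 1 := by
    rw [← Units.val_mul, inv_mul_cancel]
    simp
  have key : ∀ A : SL(2, F), Q.1 * A.1 = A.1 * Q.1 := by
    intro A
    have e := congrArg Subtype.val (hQ A)
    rw [conjM_val] at e
    calc Q.1 * A.1 = Q.1 * A.1 * (Q⁻¹.1 * Q.1) := by rw [hinv, Matrix.mul_one]
      _ = (Q.1 * A.1 * Q⁻¹.1) * Q.1 := by simp only [Matrix.mul_assoc]
      _ = A.1 * Q.1 := by rw [e]
  have h1 := key (upM 1)
  have h3 := key (loM 1)
  obtain ⟨a, b, c, d, hM⟩ : ∃ a b c d : F, Q.1 = !![a, b; c, d] := ⟨_, _, _, _, Matrix.eta_fin_two Q.1⟩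
  rw [hM] at h1 h3
  have e1 := congrFun (congrFun h1 0) 0
  have e2 := congrFun (congrFun h1 0) 1
  have e3 := congrFun (congrFun h3 0) 0
  simp [upM, loM, Matrix.mul_apply, Fin.sum_univ_two] at e1 e2 e3
  have e4 : d = a := by
    have : a + b = b + d := by simpa using e2
    linear_combination -this
  rw [hM]
  ext i j
  fin_cases i <;> fin_cases j <;> simp [e1, e3, e4]

end sl2

section frame

variable {D : ChevalleyDatum} {F : Type*} [Field F] {k : ℕ}
variable (h : Tab D) (h2 : Tab2 D) (ax : Ax D F) (Fr : Frame D k)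

local notation "φ" => phi h h2 ax Fr
local notation "Φ" => Phi h h2 ax Fr

lemma inter_triv {i j : Fin k} (hij : i ≠ j) {A B : SL(2, F)} (e : φ i A = φ j B) : A * A = 1 := by
  have comm : ∀ X, A * X = X * A := by
    intro X
    apply phi_inj h h2 ax Fr i
    rw [map_mul, map_mul, e]
    exact (phi_comm h h2 ax Fr hij X B).symm.eq
  exact central_sl2 (comm _) (comm _)

/-- A copy of a monomial element is monomial. -/
lemma phi_mem_of_mono (i : Fin k) {A : SL(2, F)} (hA : IsMono A.1) : φ i A ∈ D.monomialSubgroup F := by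
  have hri := Fr.hr i
  have R := rankOneRel h h2 ax hri
  have hdet := det_eq A
  rcases hA with ⟨e1, e2⟩ | ⟨e1, e2⟩
  · have ha : A.1 0 0 ≠ 0 := ne_zero_of_c e2
    have e : A = dM (A.1 0 0) ha := by
      apply Subtype.ext
      have e3 : A.1 1 1 = (A.1 0 0)⁻¹ := by
        rw [e1] at hdet
        simp only [zero_mul, sub_zero] at hdet
        exact eq_inv_of_mul_eq_one_right hdet
      ext x y
      fin_cases x <;> fin_cases y <;> simp [dM, e1, e2, e3]
    rw [e]
    have : φ i (dM (A.1 0 0) ha) = hG ax (Fr.r i) (A.1 0 0) := phi_d R ha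
    rw [this]
    exact diag_le_N h h2 ax (hG_mem_diagonal ax hri ha)
  · have ha : A.1 0 1 ≠ 0 := by
      intro h0
      rw [e1, h0] at hdet
      simp at hdet
    have e : A = wM (A.1 0 1) ha := by
      apply Subtype.ext
      have e3 : A.1 1 0 = -(A.1 0 1)⁻¹ := by
        rw [e1, zero_mul, zero_sub] at hdet
        field_simp
        linear_combination -hdet
      ext x y
      fin_cases x <;> fin_cases y <;> simp [wM, e1, e2, e3]
    rw [e]
    have : φ i (wM (A.1 0 1) ha) = nG ax (Fr.r i) (A.1 0 1) := phi_w R ha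
    rw [this]
    exact nG_mem_N h h2 ax hri ha

/-- The twist of the components by a permutation of the frame. -/
def twist (a : Equiv.Perm (Fin k)) (M : Fin k → GL (Fin 2) F) : (Fin k → SL(2, F)) →* (Fin k → SL(2, F)) where
  toFun z j := conjM (M (a.symm j)) (z (a.symm j))
  map_one' := by
    funext j
    simp
  map_mul' := by
    intro x y
    funext j
    simp

lemma Phi_twist {a : Equiv.Perm (Fin k)} {M : Fin k → GL (Fin 2) F} {n : GL D.Idx F}
    (hM : ∀ i A, n * φ i A * n⁻¹ = φ (a i) (conjM (M i) A)) (z : Fin k → SL(2, F)) :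
    n * Φ z * n⁻¹ = Φ (twist a M z) := by
  classical
  have key : ((MulAut.conj n).toMonoidHom.comp Φ) = (Phi h h2 ax Fr).comp (twist a M) := by
    apply pi_hom_ext
    intro i A
    change n * Φ (Pi.mulSingle i A) * n⁻¹ = Φ (twist a M (Pi.mulSingle i A))
    rw [Phi_single, hM]
    have : twist a M (Pi.mulSingle i A) = Pi.mulSingle (a i) (conjM (M i) A) := by
      funext j
      change conjM (M (a.symm j)) ((Pi.mulSingle i A : Fin k → SL(2, F)) (a.symm j)) = _
      by_cases hj : j = a i
      · subst hj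
        simp
      · have hj' : a.symm j ≠ i := fun e => hj (by rw [← e]; simp)
        rw [Pi.mulSingle_eq_of_ne hj', Pi.mulSingle_eq_of_ne hj, map_one]
    rw [this, Phi_single]
  exact congrArg (fun f => f z) key

/-- An involution in the frame group is conjugate into the monomial group. -/
theorem mono_of_frame (h2F : (2 : F) ≠ 0) {n : GL D.Idx F} {π : Equiv.Perm (Fin D.nroots)} {c : Fin D.nroots → Fˣ}
    {a : Equiv.Perm (Fin k)} (H : IsNor h ax n π c) (hFP : FP h Fr π a) (hn : n ∈ D.monomialSubgroup F)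
    (y : Fin k → SL(2, F)) (ht : (Φ y * n) * (Φ y * n) = 1) :
    ∃ v, Φ v * (Φ y * n) * (Φ v)⁻¹ ∈ D.monomialSubgroup F := by
  classical
  choose M hM1 hM2 using fun i => n_conj_phi h h2 ax Fr H hFP i
  set t := Φ y * n with ht'
  let m : Fin k → GL (Fin 2) F := fun i => toG (y (a i)) * M i
  have hconj : ∀ i A, t * φ i A * t⁻¹ = φ (a i) (conjM (m i) A) := by
    intro i A
    have e : t * φ i A * t⁻¹ = Φ y * (n * φ i A * n⁻¹) * (Φ y)⁻¹ := by
      simp only [ht', mul_inv_rev, mul_assoc]
    rw [e, hM2, Phi_conj_phi, conjM_mul, conjM_toG]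
  have htinv : t⁻¹ = t := inv_eq_of_mul_eq_one_left ht
  have hss : ∀ i A, φ i A = φ (a (a i)) (conjM (m (a i) * m i) A) := by
    intro i A
    have e1 : φ i A = t * (t * φ i A * t⁻¹) * t⁻¹ := by
      have : t * (t * φ i A * t⁻¹) * t⁻¹ = (t * t) * φ i A * (t * t)⁻¹ := by group
      rw [this, ht]
      simp
    rw [e1, hconj, hconj, conjM_mul (m (a i)) (m i)]
  have haa : ∀ i, a (a i) = i := by
    intro i
    by_contra hne
    exact up_sq_ne h2F (inter_triv h h2 ax Fr (Ne.symm hne) (hss i (upM 1)))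
  have hQ : ∀ i A, conjM (m (a i) * m i) A = A := by
    intro i A
    have := hss i A
    rw [haa] at this
    exact (phi_inj h h2 ax Fr i this).symm
  have hfix : ∀ i, a i = i → ∃ v : SL(2, F), IsMono (toG v * m i * (toG v)⁻¹).1 := by
    intro i hi
    have hq := hQ i
    rw [hi] at hq
    exact exists_mono_conj (by rw [← Units.val_mul]; exact scalar_of_conj hq)
  choose! v0 hv0 using hfix
  let v : Fin k → SL(2, F) := fun i => if a i = i then v0 i else if i < a i then 1 else (y i)⁻¹
  have htoG_one : toG (1 : SL(2, F)) = 1 := by simp [toG]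
  have htoG_inv : ∀ A : SL(2, F), toG A⁻¹ = (toG A)⁻¹ := by
    intro A
    simp [toG]
  have hvm : ∀ i, IsMono (toG (v (a i)) * m i * (toG (v i))⁻¹).1 := by
    intro i
    by_cases hi : a i = i
    · have e1 : v i = v0 i := by simp [v, hi]
      rw [hi, e1]
      exact hv0 i hi
    · by_cases hlt : i < a i
      · have e1 : v i = 1 := by simp [v, hi, hlt]
        have e2 : v (a i) = (y (a i))⁻¹ := by
          have h1 : a (a i) ≠ a i := by rw [haa]; exact Ne.symm hi
          have h3 : ¬ a i < a (a i) := by rw [haa]; exact not_lt.mpr hlt.le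
          simp [v, h1, h3]
        have e3 : toG (v (a i)) * m i * (toG (v i))⁻¹ = M i := by
          rw [e1, e2, htoG_one, htoG_inv, inv_one, mul_one]
          simp only [m]
          group
        rw [e3]
        exact hM1 i
      · have hlt' : a i < i := lt_of_le_of_ne (not_lt.mp hlt) hi
        have e1 : v i = (y i)⁻¹ := by simp [v, hi, hlt]
        have e2 : v (a i) = 1 := by
          have h1 : a (a i) ≠ a i := by rw [haa]; exact Ne.symm hi
          have h3 : a i < a (a i) := by rw [haa]; exact hlt'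
          simp [v, h1, h3]
        -- the scalar
        have hq := scalar_of_conj (hQ i)
        set σ := (m (a i) * m i).1 0 0 with hσ
        have e3 : m (a i) = toG (y i) * M (a i) := by
          simp only [m]
          rw [haa]
        have e4 : toG (v (a i)) * m i * (toG (v i))⁻¹ = (M (a i))⁻¹ * (toG (y i))⁻¹ * (m (a i) * m i) * toG (y i) := by
          rw [e1, e2, htoG_one, htoG_inv, inv_inv, one_mul, e3]
          group
        rw [e4]
        have e5 : (((M (a i))⁻¹ * (toG (y i))⁻¹ * (m (a i) * m i) * toG (y i) : GL (Fin 2) F) :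
            Matrix (Fin 2) (Fin 2) F) = σ • (M (a i))⁻¹.1 := by
          rw [Units.val_mul, Units.val_mul, Units.val_mul, hq, Matrix.mul_smul, Matrix.smul_mul, Matrix.mul_one,
            Matrix.mul_assoc, ← Units.val_mul, inv_mul_cancel, Units.val_one, Matrix.mul_one]
        rw [e5]
        have hmi := isMono_inv _ (hM1 (a i))
        rcases hmi with ⟨x1, x2⟩ | ⟨x1, x2⟩
        · exact Or.inl ⟨by rw [Matrix.smul_apply, x1, smul_zero], by rw [Matrix.smul_apply, x2, smul_zero]⟩
        · exact Or.inr ⟨by rw [Matrix.smul_apply, x1, smul_zero], by rw [Matrix.smul_apply, x2, smul_zero]⟩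
  refine ⟨v, ?_⟩
  have hw := Phi_twist h h2 ax Fr (a := a) (M := M) (n := n) hM2
  have e : Φ v * (Φ y * n) * (Φ v)⁻¹ = Φ (v * y * twist a M v⁻¹) * n := by
    rw [map_mul, map_mul, ← hw, map_inv]
    group
  rw [e]
  apply Subgroup.mul_mem _ _ hn
  apply Phi_mem
  intro j
  obtain ⟨i, rfl⟩ := a.surjective j
  apply phi_mem_of_mono h h2 ax Fr
  have e1 : ((v * y * twist a M v⁻¹) (a i)).1 =
      ((toG (v (a i)) * m i * (toG (v i))⁻¹ * (M i)⁻¹ : GL (Fin 2) F) : Matrix (Fin 2) (Fin 2) F) := by
    have e2 : (v * y * twist a M v⁻¹) (a i) = v (a i) * y (a i) * conjM (M i) (v i)⁻¹ := by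
      change v (a i) * y (a i) * conjM (M (a.symm (a i))) ((v⁻¹ : Fin k → SL(2, F)) (a.symm (a i))) = _
      simp
    rw [e2]
    simp only [Matrix.SpecialLinearGroup.coe_mul, conjM_val, Units.val_mul, m, toG_val, Matrix.mul_assoc, toG_inv_val]
  rw [e1, Units.val_mul]
  exact IsMono.mul (hvm i) (isMono_inv _ (hM1 i))

end frame

end Cfsg.Agent.Lib.KS71.IVd
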