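/-
Involutions in Chevalley groups, odd characteristic: the frame group contains a Sylow 2-subgroup.
-/
import Mathlib
import Cfsg.Agent.Lib.KS71.IVd
import Cfsg.Agent.Lib.Classical.SL2Sylow

set_option autoImplicit false
set_option linter.unusedSectionVars false
set_option linter.unusedVariables false

namespace Cfsg.Agent.Lib.KS71.IVe

open scoped MatrixGroups Matrix Pointwise
open Cfsg Cfsg.Lie Cfsg.Lie.ChevalleyDatum
open Cfsg.Agent.Lib.Chev.Tables Cfsg.Agent.Lib.Chev.Tables2 Cfsg.Agent.Lib.Chev.Tables3 Cfsg.Agent.Lib.Chev.Raise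
open Cfsg.Agent.Lib.Chev.Basic Cfsg.Agent.Lib.Chev.AxBasic Cfsg.Agent.Lib.Chev.Torus
open Cfsg.Agent.Lib.Chev.Products Cfsg.Agent.Lib.Chev.Products2 Cfsg.Agent.Lib.Chev.Mono1
open Cfsg.Agent.Lib.Chev.Mono2 Cfsg.Agent.Lib.Chev.Mono3 Cfsg.Agent.Lib.Chev.Bn
open Cfsg.Agent.Lib.Chev.Order1 Cfsg.Agent.Lib.Chev.Order2 Cfsg.Agent.Lib.Chev.Parab
open Cfsg.Agent.Lib.Chev.Diag Cfsg.Agent.Lib.Chev.SL2 Cfsg.Agent.Lib.Chev.SL2Chev
open Cfsg.Agent.Lib.KS71.StWeyl Cfsg.Agent.Lib.KS71.StCell Cfsg.Agent.Lib.KS71.StUnip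
open Cfsg.Agent.Lib.KS71.HeckeD Cfsg.Agent.Lib.KS71.IVa Cfsg.Agent.Lib.KS71.IVb Cfsg.Agent.Lib.KS71.IVb2
open Cfsg.Agent.Lib.KS71.IVb3 Cfsg.Agent.Lib.KS71.IVb4 Cfsg.Agent.Lib.KS71.IVc Cfsg.Agent.Lib.KS71.IVd

/-! ### Generalities -/

/-- A subgroup containing a Sylow 2-subgroup contains a conjugate of every involution. -/
theorem exists_conj_of_two_part {Γ : Type*} [Group Γ] {G Z : Subgroup Γ} [Finite G] (hZ : Z ≤ G)
    (hcard : ∀ n, 2 ^ n ∣ Nat.card G → 2 ^ n ∣ Nat.card Z) {t : Γ} (ht : t ∈ G) (htt : t * t = 1) :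
    ∃ g ∈ G, g * t * g⁻¹ ∈ Z := by
  classical
  haveI : Fact (Nat.Prime 2) := ⟨Nat.prime_two⟩
  let Z' : Subgroup G := Z.subgroupOf G
  have hZ' : Nat.card Z' = Nat.card Z := Nat.card_congr (Subgroup.subgroupOfEquivOfLe hZ).toEquiv
  let P0 : Sylow 2 Z' := default
  let P : Subgroup G := (P0 : Subgroup Z').map Z'.subtype
  have hP0 : Nat.card (P0 : Subgroup Z') = 2 ^ (Nat.card Z').factorization 2 := P0.card_eq_multiplicity
  have hPc : Nat.card P = Nat.card (P0 : Subgroup Z') := by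
    apply Nat.card_congr
    exact ((P0 : Subgroup Z').equivMapOfInjective _ Z'.subtype_injective).toEquiv.symm
  have hG0 : Nat.card G ≠ 0 := Nat.card_pos.ne'
  have hZ0 : Nat.card Z' ≠ 0 := Nat.card_pos.ne'
  have hfac : (Nat.card Z').factorization 2 = (Nat.card G).factorization 2 := by
    apply le_antisymm
    · exact (Nat.factorization_le_iff_dvd hZ0 hG0).mpr (Subgroup.card_subgroup_dvd_card Z') 2
    · have h1 : 2 ^ (Nat.card G).factorization 2 ∣ Nat.card G := Nat.ordProj_dvd _ _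
      have h3 := hcard _ h1
      rw [← hZ'] at h3
      exact (Nat.Prime.pow_dvd_iff_le_factorization Nat.prime_two hZ0).mp h3
  have hP : Nat.card P = 2 ^ (Nat.card G).factorization 2 := by
    rw [hPc, hP0, hfac]
  let S : Sylow 2 G := Sylow.ofCard P hP
  let τ : G := ⟨t, ht⟩
  have hτ : τ ^ 2 = 1 := by
    apply Subtype.ext
    change t ^ 2 = 1
    rw [pow_two, htt]
  have hτP : IsPGroup 2 (Subgroup.zpowers τ) := by
    rw [IsPGroup.iff_card]
    by_cases h1 : τ = 1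
    · refine ⟨0, ?_⟩
      rw [Nat.card_zpowers, h1]
      simp
    · refine ⟨1, ?_⟩
      rw [Nat.card_zpowers, orderOf_eq_prime hτ h1]
      simp
  obtain ⟨Q, hQ⟩ := hτP.exists_le_sylow
  obtain ⟨g, hg⟩ := MulAction.exists_smul_eq G Q S
  have hτQ : τ ∈ (Q : Subgroup G) := hQ (Subgroup.mem_zpowers τ)
  have h1 : g * τ * g⁻¹ ∈ (S : Subgroup G) := by
    rw [← hg, Sylow.coe_subgroup_smul]
    rw [Subgroup.mem_pointwise_smul_iff_inv_smul_mem]
    simpa [MulAut.smul_def, MulAut.conj_apply, mul_assoc] using hτQ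
  have h3 : g * τ * g⁻¹ ∈ P := h1
  obtain ⟨x, hx, e⟩ := Subgroup.mem_map.mp h3
  refine ⟨g.1, g.2, ?_⟩
  have e1 : g.1 * t * g.1⁻¹ = ((Z'.subtype x : G) : Γ) := by
    rw [e]
    rfl
  rw [e1]
  exact x.2

/-- Products of subsets of a list. -/
def allP {α : Type*} [Group α] : List α → List α
  | [] => [1]
  | g :: gs => allP gs ++ (allP gs).map (g * ·)

lemma mem_closure_of_allP {α : Type*} [Group α] (gs : List α) {x : α} (hx : x ∈ allP gs) :
    x ∈ Subgroup.closure {g | g ∈ gs} := by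
  induction gs generalizing x with
  | nil =>
    simp only [allP, List.mem_singleton] at hx
    rw [hx]
    exact Subgroup.one_mem _
  | cons g gs ih =>
    have hle : Subgroup.closure {g | g ∈ gs} ≤ Subgroup.closure {g' | g' ∈ g :: gs} := by
      apply Subgroup.closure_mono
      intro a ha
      exact List.mem_cons_of_mem _ ha
    simp only [allP, List.mem_append, List.mem_map] at hx
    rcases hx with hx | ⟨y, hy, rfl⟩
    · exact hle (ih hx)
    · exact Subgroup.mul_mem _ (Subgroup.subset_closure (by simp)) (hle (ih hy))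

lemma one_mem_allP {α : Type*} [Group α] (gs : List α) : (1 : α) ∈ allP gs := by
  induction gs with
  | nil => simp [allP]
  | cons g gs ih =>
    simp only [allP, List.mem_append]
    exact Or.inl ih

lemma card_closure_allP {α : Type*} [Group α] (gs : List α)
    (hcl : ∀ g ∈ gs, ∀ x ∈ allP gs, g * x ∈ allP gs) (hcl' : ∀ g ∈ gs, ∀ x ∈ allP gs, g⁻¹ * x ∈ allP gs)
    (hnd : (allP gs).Nodup) : Nat.card (Subgroup.closure {g | g ∈ gs}) = (allP gs).length := by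
  classical
  have hmem : ∀ x, x ∈ Subgroup.closure {g | g ∈ gs} ↔ x ∈ allP gs := by
    intro x
    refine ⟨fun hx => ?_, mem_closure_of_allP gs⟩
    induction hx using Subgroup.closure_induction_left with
    | one => exact one_mem_allP gs
    | mul_left g hg y _ ih => exact hcl g hg y ih
    | inv_mul_cancel g hg y _ ih => exact hcl' g hg y ih
  rw [← List.toFinset_card_of_nodup hnd, ← Fintype.card_coe, ← Nat.card_eq_fintype_card]
  apply Nat.card_congr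
  exact Equiv.subtypeEquivRight (fun x => by rw [hmem]; simp)

/-- Counting in a product of a subgroup normalising the image of a homomorphism. -/
theorem card_sup_comap {Γ Y : Type*} [Group Γ] [Group Y] [Finite Y] (Φ : Y →* Γ) (T : Subgroup Γ) [Finite T]
    (hT : ∀ τ ∈ T, ∀ v ∈ Φ.range, τ * v * τ⁻¹ ∈ Φ.range) :
    Nat.card ↥(Φ.range ⊔ T) * Nat.card (T.comap Φ) = Nat.card Y * Nat.card T := by
  classical
  have hform := fun g => mem_sup_iff_of_normalizes (V := Φ.range) (H := T) hT (g := g)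
  haveI : Finite ↥(Φ.range ⊔ T) := by
    let f : Y × T → ↥(Φ.range ⊔ T) := fun x => ⟨Φ x.1 * x.2.1, (hform _).mpr ⟨_, ⟨x.1, rfl⟩, _, x.2.2, rfl⟩⟩
    have hf : Function.Surjective f := by
      rintro ⟨g, hg⟩
      obtain ⟨v, ⟨y, rfl⟩, τ, hτ, rfl⟩ := (hform g).mp hg
      exact ⟨(y, ⟨τ, hτ⟩), rfl⟩
    exact Finite.of_surjective f hf
  let f : Y × T → ↥(Φ.range ⊔ T) := fun x => ⟨Φ x.1 * x.2.1, (hform _).mpr ⟨_, ⟨x.1, rfl⟩, _, x.2.2, rfl⟩⟩
  have hm : ∀ σ : ↥(Φ.range ⊔ T), Nat.card {c // f c = σ ∧ True} = Nat.card (T.comap Φ) := by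
    rintro ⟨g, hg⟩
    obtain ⟨v, ⟨y₀, rfl⟩, τ₀, hτ₀, rfl⟩ := (hform g).mp hg
    symm
    apply Nat.card_congr
    exact
      { toFun := fun z => ⟨(y₀ * z.1⁻¹, ⟨Φ z.1 * τ₀, T.mul_mem z.2 hτ₀⟩), by
            apply Subtype.ext
            change Φ (y₀ * z.1⁻¹) * (Φ z.1 * τ₀) = _
            rw [map_mul, map_inv]
            group, trivial⟩
        invFun := fun c => ⟨c.1.1⁻¹ * y₀, by
            have e : Φ c.1.1 * c.1.2.1 = Φ y₀ * τ₀ := congrArg Subtype.val c.2.1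
            have e2 : Φ (c.1.1⁻¹ * y₀) = c.1.2.1 * τ₀⁻¹ := by
              rw [map_mul, map_inv]
              calc (Φ c.1.1)⁻¹ * Φ y₀ = (Φ c.1.1)⁻¹ * (Φ y₀ * τ₀) * τ₀⁻¹ := by group
                _ = (Φ c.1.1)⁻¹ * (Φ c.1.1 * c.1.2.1) * τ₀⁻¹ := by rw [e]
                _ = _ := by group
            change Φ (c.1.1⁻¹ * y₀) ∈ T
            rw [e2]
            exact T.mul_mem c.1.2.2 (T.inv_mem hτ₀)⟩
        left_inv := by
          intro z
          apply Subtype.ext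
          change (y₀ * z.1⁻¹)⁻¹ * y₀ = z.1
          group
        right_inv := by
          rintro ⟨⟨y, τ⟩, he, -⟩
          have e : Φ y * τ.1 = Φ y₀ * τ₀ := congrArg Subtype.val he
          apply Subtype.ext
          refine Prod.ext ?_ (Subtype.ext ?_)
          · change y₀ * (y⁻¹ * y₀)⁻¹ = y
            group
          · change Φ (y⁻¹ * y₀) * τ₀ = τ.1
            rw [map_mul, map_inv, mul_assoc, ← e]
            group }
  have key := card_fiber_generic f (fun _ => True) (fun _ => True) _ hm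
  have e1 : Nat.card {c // True ∧ (fun _ : ↥(Φ.range ⊔ T) => True) (f c)} = Nat.card (Y × T) :=
    Nat.card_congr (Equiv.subtypeUnivEquiv (fun _ => ⟨trivial, trivial⟩))
  have e2 : Nat.card {σ // (fun _ : ↥(Φ.range ⊔ T) => True) σ} = Nat.card ↥(Φ.range ⊔ T) :=
    Nat.card_congr (Equiv.subtypeUnivEquiv (fun _ => trivial))
  rw [e1, e2, Nat.card_prod] at key
  rw [key, mul_comm]

/-- A homomorphism with a subgroup in the kernel and a subgroup in the range. -/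
theorem card_dvd_of_hom {Z R : Type*} [Group Z] [Group R] [Finite Z] (ρ : Z →* R) {H₁ : Subgroup Z} {R₀ : Subgroup R}
    (h1 : H₁ ≤ ρ.ker) (h3 : R₀ ≤ ρ.range) : Nat.card H₁ * Nat.card R₀ ∣ Nat.card Z := by
  have e : Nat.card ρ.ker * Nat.card ρ.range = Nat.card Z := by
    rw [← Subgroup.index_ker ρ, Subgroup.card_mul_index]
  rw [← e]
  exact mul_dvd_mul (Subgroup.card_dvd_of_le h1) (Subgroup.card_dvd_of_le h3)

/-! ### The frame group -/

section frame

variable {D : ChevalleyDatum} {F : Type*} [Field F] {k : ℕ}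
variable (h : Tab D) (h2 : Tab2 D) (ax : Ax D F) (Fr : Frame D k)

local notation "φ" => phi h h2 ax Fr
local notation "Φ" => Phi h h2 ax Fr

variable {h ax Fr} in
lemma FP_mul {n : GL D.Idx F} {π π' : Equiv.Perm (Fin D.nroots)} {c : Fin D.nroots → Fˣ} {a a' : Equiv.Perm (Fin k)}
    (H : IsNor h ax n π c) (hF : FP h Fr π a) (hF' : FP h Fr π' a') : FP h Fr (π * π') (a * a') := by
  intro i
  change π (π' ⟨Fr.r i, Fr.hr i⟩) = ⟨Fr.r (a (a' i)), Fr.hr _⟩ ∨ π (π' ⟨Fr.r i, Fr.hr i⟩) = negF h ⟨Fr.r (a (a' i)), Fr.hr _⟩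
  rcases hF' i with e | e <;> rw [e]
  · exact hF (a' i)
  · rw [H.neg]
    rcases hF (a' i) with e' | e' <;> rw [e']
    · exact Or.inr rfl
    · rw [negF_negF]
      exact Or.inl rfl

variable {h ax Fr} in
lemma FP_inv {n : GL D.Idx F} {π : Equiv.Perm (Fin D.nroots)} {c : Fin D.nroots → Fˣ} {a : Equiv.Perm (Fin k)}
    (H : IsNor h ax n π c) (hF : FP h Fr π a) : FP h Fr π⁻¹ a⁻¹ := by
  intro j
  obtain ⟨i, rfl⟩ := a.surjective j
  have key : ∀ x, x = i → π⁻¹ ⟨Fr.r (a i), Fr.hr (a i)⟩ = ⟨Fr.r x, Fr.hr x⟩ ∨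
      π⁻¹ ⟨Fr.r (a i), Fr.hr (a i)⟩ = negF h ⟨Fr.r x, Fr.hr x⟩ := by
    rintro x rfl
    rcases hF x with e | e
    · left
      rw [← e]
      simp
    · right
      have e1 := (H.inv h ax).neg ⟨Fr.r (a x), Fr.hr (a x)⟩
      rw [← e] at e1
      have e2 : π⁻¹ (π ⟨Fr.r x, Fr.hr x⟩) = ⟨Fr.r x, Fr.hr x⟩ := by simp
      rw [e2] at e1
      rw [← negF_negF h (π⁻¹ ⟨Fr.r (a x), Fr.hr (a x)⟩), ← e1]
  exact key _ (by simp)

/-- Monomial elements permuting the frame up to signs. -/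
def Nt : Subgroup (GL D.Idx F) where
  carrier := {n | n ∈ D.monomialSubgroup F ∧ ∃ π c a, IsNor h ax n π c ∧ FP h Fr π a}
  mul_mem' := by
    rintro x y ⟨hx, π, c, a, H, hF⟩ ⟨hy, π', c', a', H', hF'⟩
    exact ⟨Subgroup.mul_mem _ hx hy, _, _, _, H.mul h ax H', FP_mul H hF hF'⟩
  one_mem' := by
    refine ⟨Subgroup.one_mem _, 1, 1, 1, IsNor.one h ax, fun i => Or.inl rfl⟩
  inv_mem' := by
    rintro x ⟨hx, π, c, a, H, hF⟩
    exact ⟨Subgroup.inv_mem _ hx, _, _, _, H.inv h ax, FP_inv H hF⟩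

include h2 in
lemma diag_le_Nt : D.diagonalSubgroup F ≤ Nt h ax Fr := by
  intro τ hτ
  refine ⟨diag_le_N h h2 ax hτ, ?_⟩
  obtain ⟨y, rfl⟩ := exists_tor_of_mem ax h hτ
  exact ⟨1, _, 1, isNor_tor h ax y, fun i => Or.inl rfl⟩

lemma Nt_norm : ∀ n ∈ Nt h ax Fr, ∀ v ∈ (Φ).range, n * v * n⁻¹ ∈ (Φ).range := by
  rintro n ⟨hn, π, c, a, H, hF⟩ v ⟨z, rfl⟩
  choose M hM1 hM2 using fun i => n_conj_phi h h2 ax Fr H hF i
  exact ⟨_, (Phi_twist h h2 ax Fr hM2 z).symm⟩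

/-- The frame group. -/
noncomputable def Zf : Subgroup (GL D.Idx F) := (Φ).range ⊔ Nt h ax Fr

lemma mem_Zf_iff {g : GL D.Idx F} : g ∈ Zf h h2 ax Fr ↔ ∃ y, ∃ n ∈ Nt h ax Fr, g = Φ y * n := by
  rw [Zf, mem_sup_iff_of_normalizes (Nt_norm h h2 ax Fr)]
  constructor
  · rintro ⟨v, ⟨y, rfl⟩, n, hn, rfl⟩
    exact ⟨y, n, hn, rfl⟩
  · rintro ⟨y, n, hn, rfl⟩
    exact ⟨_, ⟨y, rfl⟩, n, hn, rfl⟩

lemma phi_mem_group (i : Fin k) (A : SL(2, F)) : φ i A ∈ D.group F := by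
  induction A using sl2_induction with
  | hu u =>
    rw [phi_up]
    exact xG_mem_group ax (Fr.hr i) u
  | hl u =>
    rw [phi_lo]
    exact xG_mem_group ax (h.neg_lt _ (Fr.hr i)) u
  | hm a b ha hb =>
    rw [map_mul]
    exact Subgroup.mul_mem _ ha hb

lemma Zf_le_group : Zf h h2 ax Fr ≤ D.group F := by
  rw [Zf, sup_le_iff]
  constructor
  · rintro _ ⟨y, rfl⟩
    exact Phi_mem h h2 ax Fr fun j => phi_mem_group h h2 ax Fr j _
  · rintro n ⟨hn, -⟩
    exact monomial_le_group h ax hn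

/-- An element permutes the copies of `SL₂`. -/
def Act (g : GL D.Idx F) (a : Equiv.Perm (Fin k)) : Prop := ∀ i A, ∃ B, g * φ i A * g⁻¹ = φ (a i) B

lemma act_unique (h2F : (2 : F) ≠ 0) {g : GL D.Idx F} {a a' : Equiv.Perm (Fin k)}
    (H : Act h h2 ax Fr g a) (H' : Act h h2 ax Fr g a') : a = a' := by
  ext i
  by_contra hne
  have hne' : a i ≠ a' i := fun e => hne (by rw [e])
  obtain ⟨B, hB⟩ := H i (upM 1)
  obtain ⟨B', hB'⟩ := H' i (upM 1)
  have h1 := inter_triv h h2 ax Fr hne' (hB.symm.trans hB')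
  have h3 : g * φ i (upM 1 * upM 1) * g⁻¹ = 1 := by
    have e : g * φ i (upM 1 * upM 1) * g⁻¹ = (g * φ i (upM 1) * g⁻¹) * (g * φ i (upM 1) * g⁻¹) := by
      rw [map_mul]
      group
    rw [e, hB, ← map_mul, h1, map_one]
  have h4 : φ i (upM 1 * upM 1) = 1 := by
    have e : φ i (upM 1 * upM 1) = g⁻¹ * (g * φ i (upM 1 * upM 1) * g⁻¹) * g := by group
    rw [e, h3]
    group
  exact up_sq_ne h2F (phi_eq_one h h2 ax Fr i h4)

lemma act_mul {g g' : GL D.Idx F} {a a' : Equiv.Perm (Fin k)}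
    (H : Act h h2 ax Fr g a) (H' : Act h h2 ax Fr g' a') : Act h h2 ax Fr (g * g') (a * a') := by
  intro i A
  obtain ⟨B, hB⟩ := H' i A
  obtain ⟨C, hC⟩ := H (a' i) B
  refine ⟨C, ?_⟩
  rw [Equiv.Perm.mul_apply, ← hC, ← hB]
  group

lemma act_Phi (y : Fin k → SL(2, F)) : Act h h2 ax Fr (Φ y) 1 := by
  intro i A
  exact ⟨_, Phi_conj_phi h h2 ax Fr y i A⟩

lemma act_Nt {n : GL D.Idx F} {π : Equiv.Perm (Fin D.nroots)} {c : Fin D.nroots → Fˣ} {a : Equiv.Perm (Fin k)}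
    (H : IsNor h ax n π c) (hF : FP h Fr π a) : Act h h2 ax Fr n a := by
  intro i A
  obtain ⟨M, -, hM⟩ := n_conj_phi h h2 ax Fr H hF i
  exact ⟨_, hM A⟩

lemma exists_act {g : GL D.Idx F} (hg : g ∈ Zf h h2 ax Fr) : ∃ a, Act h h2 ax Fr g a := by
  obtain ⟨y, n, ⟨-, π, c, a, H, hF⟩, rfl⟩ := (mem_Zf_iff h h2 ax Fr).mp hg
  refine ⟨1 * a, act_mul h h2 ax Fr (act_Phi h h2 ax Fr y) (act_Nt h h2 ax Fr H hF)⟩

/-- The permutation of the frame. -/
noncomputable def rho (h2F : (2 : F) ≠ 0) : ↥(Zf h h2 ax Fr) →* Equiv.Perm (Fin k) :=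
  MonoidHom.mk' (fun z => Classical.choose (exists_act h h2 ax Fr z.2)) (by
    intro x y
    exact act_unique h h2 ax Fr h2F (Classical.choose_spec (exists_act h h2 ax Fr (x * y).2))
      (act_mul h h2 ax Fr (Classical.choose_spec (exists_act h h2 ax Fr x.2))
        (Classical.choose_spec (exists_act h h2 ax Fr y.2))))

lemma rho_eq (h2F : (2 : F) ≠ 0) {z : ↥(Zf h h2 ax Fr)} {a : Equiv.Perm (Fin k)} (H : Act h h2 ax Fr z.1 a) :
    rho h h2 ax Fr h2F z = a :=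
  act_unique h h2 ax Fr h2F (Classical.choose_spec (exists_act h h2 ax Fr z.2)) H

/-- The part with the trivial permutation. -/
noncomputable def H1 : Subgroup (GL D.Idx F) := (Φ).range ⊔ D.diagonalSubgroup F

lemma H1_norm : ∀ τ ∈ D.diagonalSubgroup F, ∀ v ∈ (Φ).range, τ * v * τ⁻¹ ∈ (Φ).range :=
  fun τ hτ => Nt_norm h h2 ax Fr τ (diag_le_Nt h h2 ax Fr hτ)

lemma H1_le_Zf : H1 h h2 ax Fr ≤ Zf h h2 ax Fr :=
  sup_le_sup_left (diag_le_Nt h h2 ax Fr) _

lemma act_H1 {g : GL D.Idx F} (hg : g ∈ H1 h h2 ax Fr) : Act h h2 ax Fr g 1 := by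
  obtain ⟨v, ⟨y, rfl⟩, τ, hτ, rfl⟩ := (mem_sup_iff_of_normalizes (H1_norm h h2 ax Fr)).mp hg
  obtain ⟨x, rfl⟩ := exists_tor_of_mem ax h hτ
  have := act_mul h h2 ax Fr (act_Phi h h2 ax Fr y) (act_Nt h h2 ax Fr (isNor_tor h ax x) (a := 1) fun i => Or.inl rfl)
  rwa [mul_one] at this

/-- An element of the product of copies of `SL₂` lying in the torus has diagonal components. -/
lemma diag_of_Phi_mem {y : Fin k → SL(2, F)} (hy : Φ y ∈ D.diagonalSubgroup F) (i : Fin k) :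
    (y i).1 1 0 = 0 ∧ (y i).1 0 1 = 0 := by
  obtain ⟨x, hx⟩ := exists_tor_of_mem ax h hy
  have e1 := tor_conj_xG ax h x (Fr.hr i) 1
  have e3 := tor_conj_xG ax h x (h.neg_lt _ (Fr.hr i)) 1
  have e2 := Phi_conj_phi h h2 ax Fr y i (upM 1)
  have e4 := Phi_conj_phi h h2 ax Fr y i (loM 1)
  rw [phi_up, hx, e1, ← phi_up h h2 ax Fr] at e2
  rw [phi_lo, hx, e3, ← phi_lo h h2 ax Fr] at e4
  have e5 := phi_inj h h2 ax Fr i e2
  have e6 := phi_inj h h2 ax Fr i e4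
  have e7 : upM ((chi D x (Fr.r i) : F) * 1) * y i = y i * upM (1 : F) := by
    rw [e5]
    group
  have e8 : loM ((chi D x (D.neg (Fr.r i)) : F) * 1) * y i = y i * loM (1 : F) := by
    rw [e6]
    group
  have e9 := congrArg (fun A : SL(2, F) => A.1 1 1) e7
  have e10 := congrArg (fun A : SL(2, F) => A.1 0 0) e8
  simp only [Matrix.SpecialLinearGroup.coe_mul] at e9 e10
  simp [upM, loM, Matrix.mul_apply, Fin.sum_univ_two] at e9 e10
  exact ⟨e9, e10⟩

end frame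

section frameCard

variable {D : ChevalleyDatum} {F : Type*} [Field F] [Fintype F] {k : ℕ}
variable (h : Tab D) (h2 : Tab2 D) (ax : Ax D F) (Fr : Frame D k)

local notation "φ" => phi h h2 ax Fr
local notation "Φ" => Phi h h2 ax Fr

/-- The diagonal matrices of `SL₂` as a homomorphism. -/
def dHom : Fˣ →* SL(2, F) where
  toFun c := dM (c : F) c.ne_zero
  map_one' := by
    apply Subtype.ext
    ext x y
    fin_cases x <;> fin_cases y <;> simp [dM]
  map_mul' := by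
    intro c c'
    apply Subtype.ext
    simp only [Matrix.SpecialLinearGroup.coe_mul]
    ext x y
    fin_cases x <;> fin_cases y <;> simp [dM, Matrix.mul_apply, Fin.sum_univ_two, mul_comm]

lemma dHom_inj : Function.Injective (dHom (F := F)) := by
  intro c c' e
  have : (dM (c : F) c.ne_zero).1 0 0 = (dM (c' : F) c'.ne_zero).1 0 0 :=
    congrArg (fun A : SL(2, F) => A.1 0 0) e
  apply Units.ext
  simpa [dM] using this

lemma card_K_dvd {q : ℕ} (hq : Fintype.card F = q) :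
    Nat.card ((D.diagonalSubgroup F).comap Φ) ∣ (q - 1) ^ k := by
  classical
  let δ : (Fin k → Fˣ) →* (Fin k → SL(2, F)) := (dHom (F := F)).compLeft (Fin k)
  have hδ : Function.Injective δ := dHom_inj.comp_left
  have hle : (D.diagonalSubgroup F).comap Φ ≤ δ.range := by
    intro y hy
    have hd := diag_of_Phi_mem h h2 ax Fr (y := y) hy
    refine ⟨fun i => Units.mk0 ((y i).1 0 0) (ne_zero_of_c (hd i).1), ?_⟩
    funext i
    apply Subtype.ext
    have e3 : (y i).1 1 1 = ((y i).1 0 0)⁻¹ := by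
      have hdet := det_eq (y i)
      rw [(hd i).1, mul_zero, sub_zero] at hdet
      exact eq_inv_of_mul_eq_one_right hdet
    change (dM ((y i).1 0 0) (ne_zero_of_c (hd i).1)).1 = _
    ext x z
    fin_cases x <;> fin_cases z <;> simp [dM, e3, (hd i).1, (hd i).2]
  have e1 : Nat.card δ.range = (q - 1) ^ k := by
    rw [Nat.card_congr (MonoidHom.ofInjective hδ).toEquiv.symm, Nat.card_fun, Nat.card_eq_fintype_card,
      Fintype.card_units, hq]
    simp
  rw [← e1]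
  exact Subgroup.card_dvd_of_le hle

/-- The order of the part with the trivial permutation. -/
theorem card_H1_dvd {q : ℕ} (hq : Fintype.card F = q) (hT : Nat.card (D.diagonalSubgroup F) = (q - 1) ^ k)
    (hq1 : 1 < q) : (q ^ 2 - 1) ^ k ∣ Nat.card (H1 h h2 ax Fr) := by
  classical
  haveI : Finite (D.diagonalSubgroup F) := inferInstance
  have key := card_sup_comap Φ (D.diagonalSubgroup F) (H1_norm h h2 ax Fr)
  obtain ⟨e, he⟩ := card_K_dvd h h2 ax Fr hq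
  have hSL : Nat.card (Fin k → SL(2, F)) = (q * (q ^ 2 - 1)) ^ k := by
    rw [Nat.card_fun, Cfsg.Agent.Lib.Classical.SL2Sylow.card_SL2, hq]
    simp only [Nat.card_eq_fintype_card, Fintype.card_fin]
    congr 2
    obtain ⟨p, rfl⟩ : ∃ p, q = p + 1 := ⟨q - 1, by omega⟩
    simp only [Nat.add_sub_cancel]
    have : (p + 1) ^ 2 - 1 = p * (p + 1 + 1) := by
      have : (p + 1) ^ 2 = p * (p + 1 + 1) + 1 := by ring
      omega
    rw [this]
  have hK0 : 0 < Nat.card ((D.diagonalSubgroup F).comap Φ) := Nat.card_pos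
  have e2 : Nat.card (H1 h h2 ax Fr) = (q * (q ^ 2 - 1)) ^ k * e := by
    apply Nat.eq_of_mul_eq_mul_right hK0
    have key' : Nat.card (H1 h h2 ax Fr) * Nat.card ((D.diagonalSubgroup F).comap Φ) =
        (q * (q ^ 2 - 1)) ^ k * ((q - 1) ^ k) := by
      rw [← hSL, ← hT]
      exact key
    rw [key', he]
    ring
  rw [e2, mul_pow]
  exact Dvd.dvd.mul_right (Dvd.intro_left _ rfl) _

/-- The order of the frame group. -/
theorem card_Zf_dvd {q : ℕ} (hq : Fintype.card F = q) (hT : Nat.card (D.diagonalSubgroup F) = (q - 1) ^ k)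
    (hq1 : 1 < q) (h2F : (2 : F) ≠ 0) (gs : List (Equiv.Perm (Fin k)))
    (hlift : ∀ g ∈ gs, ∃ n ∈ Nt h ax Fr, Act h h2 ax Fr n g)
    (hcl : ∀ g ∈ gs, ∀ x ∈ allP gs, g * x ∈ allP gs) (hcl' : ∀ g ∈ gs, ∀ x ∈ allP gs, g⁻¹ * x ∈ allP gs)
    (hnd : (allP gs).Nodup) : (q ^ 2 - 1) ^ k * (allP gs).length ∣ Nat.card (Zf h h2 ax Fr) := by
  classical
  have hfin : Finite ↥(Zf h h2 ax Fr) := inferInstance
  have h1 : (H1 h h2 ax Fr).subgroupOf (Zf h h2 ax Fr) ≤ (rho h h2 ax Fr h2F).ker := by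
    intro z hz
    rw [MonoidHom.mem_ker]
    exact rho_eq h h2 ax Fr h2F (act_H1 h h2 ax Fr (Subgroup.mem_subgroupOf.mp hz))
  have h3 : Subgroup.closure {g | g ∈ gs} ≤ (rho h h2 ax Fr h2F).range := by
    rw [Subgroup.closure_le]
    intro g hg
    obtain ⟨n, hn, hA⟩ := hlift g hg
    refine ⟨⟨n, (le_sup_right : Nt h ax Fr ≤ Zf h h2 ax Fr) hn⟩, ?_⟩
    exact rho_eq h h2 ax Fr h2F hA
  have key := card_dvd_of_hom (rho h h2 ax Fr h2F) h1 h3
  rw [card_closure_allP gs hcl hcl' hnd] at key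
  have e : Nat.card ↥((H1 h h2 ax Fr).subgroupOf (Zf h h2 ax Fr)) = Nat.card (H1 h h2 ax Fr) :=
    Nat.card_congr (Subgroup.subgroupOfEquivOfLe (H1_le_Zf h h2 ax Fr)).toEquiv
  rw [e] at key
  exact (mul_dvd_mul_right (card_H1_dvd h h2 ax Fr hq hT hq1) _).trans key

/-- Every involution is conjugate into the monomial group, if the frame group contains a Sylow 2-subgroup. -/
theorem inv_conj_mono (h2F : (2 : F) ≠ 0)
    (hcard : ∀ n, 2 ^ n ∣ Nat.card (D.group F) → 2 ^ n ∣ Nat.card (Zf h h2 ax Fr)) {t : GL D.Idx F}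
    (ht : t ∈ D.group F) (htt : t * t = 1) : ∃ g ∈ D.group F, g * t * g⁻¹ ∈ D.monomialSubgroup F := by
  obtain ⟨g, hg, hz⟩ := exists_conj_of_two_part (Zf_le_group h h2 ax Fr) hcard ht htt
  obtain ⟨y, n, ⟨hn, π, c, a, H, hF⟩, e⟩ := (mem_Zf_iff h h2 ax Fr).mp hz
  have hs : (Φ y * n) * (Φ y * n) = 1 := by
    rw [← e]
    have : g * t * g⁻¹ * (g * t * g⁻¹) = g * (t * t) * g⁻¹ := by group
    rw [this, htt]
    group
  obtain ⟨v, hv⟩ := mono_of_frame h h2 ax Fr h2F H hF hn y hs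
  refine ⟨Φ v * g, Subgroup.mul_mem _ (Phi_mem h h2 ax Fr fun j => phi_mem_group h h2 ax Fr j _) hg, ?_⟩
  rw [← e] at hv
  have e2 : Φ v * g * t * (Φ v * g)⁻¹ = Φ v * (g * t * g⁻¹) * (Φ v)⁻¹ := by group
  rw [e2]
  exact hv

end frameCard

end Cfsg.Agent.Lib.KS71.IVe
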