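/-
Involutions in Chevalley groups, odd characteristic: the frames of `F₄` and `E₈`; every involution is conjugate
into the torus.
-/
import Mathlib
import Cfsg.Agent.Lib.KS71.IVe
import Cfsg.Agent.Lib.KS71.IVb5
import Cfsg.Agent.Lib.Chev.OrderData.F4
import Cfsg.Agent.Lib.Chev.OrderData.E8
import Cfsg.Agent.Lib.Chev.Diag

set_option autoImplicit false
set_option linter.unusedSectionVars false
set_option linter.unusedVariables false

namespace Cfsg.Agent.Lib.KS71.IVe2

open scoped MatrixGroups Matrix Pointwise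
open Cfsg Cfsg.Lie Cfsg.Lie.ChevalleyDatum
open Cfsg.Agent.Lib.Chev.Tables Cfsg.Agent.Lib.Chev.Tables2 Cfsg.Agent.Lib.Chev.Tables3 Cfsg.Agent.Lib.Chev.Raise
open Cfsg.Agent.Lib.Chev.Basic Cfsg.Agent.Lib.Chev.AxBasic Cfsg.Agent.Lib.Chev.Torus
open Cfsg.Agent.Lib.Chev.Products Cfsg.Agent.Lib.Chev.Products2 Cfsg.Agent.Lib.Chev.Mono1
open Cfsg.Agent.Lib.Chev.Mono2 Cfsg.Agent.Lib.Chev.Mono3 Cfsg.Agent.Lib.Chev.Bn
open Cfsg.Agent.Lib.Chev.Order1 Cfsg.Agent.Lib.Chev.Order2 Cfsg.Agent.Lib.Chev.Parab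
open Cfsg.Agent.Lib.Chev.Diag Cfsg.Agent.Lib.Chev.SL2 Cfsg.Agent.Lib.Chev.SL2Chev
open Cfsg.Agent.Lib.KS71.IVb Cfsg.Agent.Lib.KS71.IVc Cfsg.Agent.Lib.KS71.IVe

/-! ### Lifts of permutations of the frame -/

section lift

variable {D : ChevalleyDatum} {F : Type*} [Field F] {k : ℕ}
variable (h : Tab D) (h2 : Tab2 D) (ax : Ax D F) (Fr : Frame D k)

lemma lift_of_word {l : List ℕ} (hl : ∀ i ∈ l, i < D.rank) {a : Equiv.Perm (Fin k)}
    (hc : ∀ i, wWord D l (Fr.r i) = Fr.r (a i) ∨ wWord D l (Fr.r i) = D.neg (Fr.r (a i))) :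
    ∃ n ∈ Nt h ax Fr, Act h h2 ax Fr n a := by
  obtain ⟨c, H⟩ := exists_isNor_nw h h2 ax hl
  have hF : FP h Fr (wPw h l) a := by
    intro i
    have e : ((wPw h l ⟨Fr.r i, Fr.hr i⟩ : Fin D.nroots) : ℕ) = wWord D l (Fr.r i) := wPw_val h hl ⟨Fr.r i, Fr.hr i⟩
    rcases hc i with e1 | e1
    · exact Or.inl (Fin.ext (e.trans e1))
    · exact Or.inr (Fin.ext (e.trans e1))
  exact ⟨nw D ax l, ⟨nw_mem_monomial_aux h h2 ax hl, _, c, a, H, hF⟩, act_Nt h h2 ax Fr H hF⟩

end lift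

/-! ### Orders -/

section val

lemma val_of (v o : ℕ) (ho : ¬ 2 ∣ o) : padicValNat 2 (2 ^ v * o) = v := by
  haveI : Fact (Nat.Prime 2) := ⟨Nat.prime_two⟩
  have ho0 : o ≠ 0 := fun e => ho (by rw [e]; exact dvd_zero _)
  rw [padicValNat.mul (pow_ne_zero _ two_ne_zero) ho0, padicValNat.prime_pow,
    padicValNat.eq_zero_of_not_dvd ho, add_zero]

lemma val_pow_sub {q : ℕ} (hq : 1 < q) (hodd : ¬ 2 ∣ q) {d v : ℕ} (hd : d = 2 ^ (v + 1) * (d / 2 ^ (v + 1)))
    (ho : ¬ 2 ∣ d / 2 ^ (v + 1)) : padicValNat 2 (q ^ d - 1) = padicValNat 2 (q ^ 2 - 1) + v := by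
  haveI : Fact (Nat.Prime 2) := ⟨Nat.prime_two⟩
  have h2q : 2 ∣ q - 1 := by omega
  have hd0 : d ≠ 0 := by
    intro e
    rw [e] at ho
    simp at ho
  have hev : Even d := by
    rw [hd]
    exact (even_two.pow_of_ne_zero (Nat.succ_ne_zero v)).mul_right _
  have h1 := padicValNat.pow_two_sub_pow (x := q) (y := 1) hq h2q hodd hd0 hev
  have h3 := padicValNat.pow_two_sub_pow (x := q) (y := 1) hq h2q hodd (n := 2) two_ne_zero even_two
  rw [one_pow] at h1 h3
  have h4 : padicValNat 2 d = v + 1 := by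
    rw [hd]
    exact val_of _ _ ho
  have h5 : padicValNat 2 2 = 1 := padicValNat.self (by norm_num)
  rw [h4] at h1
  rw [h5] at h3
  omega

lemma two_part_of_val {G Z A : ℕ} (hG : G ≠ 0) (hA : A ≠ 0) (hval : padicValNat 2 G = padicValNat 2 A) (hAZ : A ∣ Z)
    (n : ℕ) (hn : 2 ^ n ∣ G) : 2 ^ n ∣ Z := by
  haveI : Fact (Nat.Prime 2) := ⟨Nat.prime_two⟩
  rw [padicValNat_dvd_iff_le hG, hval, ← padicValNat_dvd_iff_le hA] at hn
  exact hn.trans hAZ

lemma pow_sub_ne {q d : ℕ} (hq : 1 < q) (hd : d ≠ 0) : q ^ d - 1 ≠ 0 := by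
  have : 1 < q ^ d := Nat.one_lt_pow hd hq
  omega

lemma val_tail {q : ℕ} (hq : 1 < q) (hodd : ¬ 2 ∣ q) (N : ℕ) (ds : List (ℕ × ℕ))
    (hds : ∀ p ∈ ds, p.1 = 2 ^ (p.2 + 1) * (p.1 / 2 ^ (p.2 + 1)) ∧ ¬ 2 ∣ p.1 / 2 ^ (p.2 + 1)) :
    (ds.map fun p => q ^ p.1 - 1).prod ≠ 0 ∧
    padicValNat 2 (ds.map fun p => q ^ p.1 - 1).prod = ds.length * padicValNat 2 (q ^ 2 - 1) + (ds.map Prod.snd).sum := by
  haveI : Fact (Nat.Prime 2) := ⟨Nat.prime_two⟩
  induction ds with
  | nil => simp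
  | cons p ps ih =>
    obtain ⟨ih1, ih2⟩ := ih fun x hx => hds x (List.mem_cons_of_mem _ hx)
    obtain ⟨hp1, hp2⟩ := hds p (by simp)
    have hp0 : p.1 ≠ 0 := by
      intro e
      rw [e] at hp2
      simp at hp2
    have hne := pow_sub_ne hq hp0
    simp only [List.map_cons, List.prod_cons, List.length_cons, List.sum_cons]
    refine ⟨mul_ne_zero hne ih1, ?_⟩
    rw [padicValNat.mul hne ih1, ih2, val_pow_sub hq hodd hp1 hp2]
    ring

lemma hcard_of {q : ℕ} (hq : 1 < q) (hodd : ¬ 2 ∣ q) (N k a : ℕ) (ds : List (ℕ × ℕ))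
    (hds : ∀ p ∈ ds, p.1 = 2 ^ (p.2 + 1) * (p.1 / 2 ^ (p.2 + 1)) ∧ ¬ 2 ∣ p.1 / 2 ^ (p.2 + 1))
    (hlen : ds.length = k) (hsum : (ds.map Prod.snd).sum = a) {Z b : ℕ} (hb : b = 2 ^ a)
    (hZ : (q ^ 2 - 1) ^ k * b ∣ Z) (n : ℕ)
    (hn : 2 ^ n ∣ q ^ N * (ds.map fun p => q ^ p.1 - 1).prod) : 2 ^ n ∣ Z := by
  haveI : Fact (Nat.Prime 2) := ⟨Nat.prime_two⟩
  subst hb
  obtain ⟨h1, h3⟩ := val_tail hq hodd N ds hds
  have hq0 : q ^ N ≠ 0 := pow_ne_zero _ (by omega)
  have hq2 : q ^ 2 - 1 ≠ 0 := pow_sub_ne hq two_ne_zero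
  have hA : (q ^ 2 - 1) ^ k ≠ 0 := pow_ne_zero _ hq2
  refine two_part_of_val (mul_ne_zero hq0 h1) (mul_ne_zero hA (pow_ne_zero _ two_ne_zero)) ?_ hZ n hn
  have e1 : padicValNat 2 (q ^ N) = N * padicValNat 2 q := padicValNat.pow _ _
  have e2 : padicValNat 2 ((q ^ 2 - 1) ^ k) = k * padicValNat 2 (q ^ 2 - 1) := padicValNat.pow _ _
  have e3 : padicValNat 2 (2 ^ a) = a := padicValNat.prime_pow a
  rw [padicValNat.mul hq0 h1, h3, padicValNat.mul hA (pow_ne_zero _ two_ne_zero), e1, e2, e3,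
    padicValNat.eq_zero_of_not_dvd hodd, hlen, hsum]
  ring

end val

/-! ### Lists of permutations -/

section perms

variable {k : ℕ}

/-- A permutation as a list of numbers. -/
def toL (g : Equiv.Perm (Fin k)) : List ℕ := (List.finRange k).map fun i => (g i : ℕ)

lemma toL_getD (g : Equiv.Perm (Fin k)) (j : Fin k) : (toL g).getD j 0 = g j := by
  simp [toL, List.getD_eq_getElem?_getD]

lemma toL_inj : Function.Injective (toL (k := k)) := by
  intro g g' e
  ext j
  have := congrArg (fun l => l.getD (j : ℕ) 0) e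
  simp only [toL_getD] at this
  exact this

/-- Multiplication of lists. -/
def lmul (a b : List ℕ) : List ℕ := b.map fun i => a.getD i 0

lemma toL_mul (g x : Equiv.Perm (Fin k)) : toL (g * x) = lmul (toL g) (toL x) := by
  simp only [toL, lmul, List.map_map]
  apply List.map_congr_left
  intro i _
  exact (toL_getD g (x i)).symm

/-- All products for lists. -/
def allL (n : ℕ) : List (List ℕ) → List (List ℕ)
  | [] => [List.range n]
  | g :: gs => allL n gs ++ (allL n gs).map (lmul g)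

lemma toL_one' : toL (1 : Equiv.Perm (Fin k)) = List.range k := by
  apply List.ext_getElem
  · simp [toL]
  · intro i h1 h3
    simp [toL]

lemma allL_eq (gs : List (Equiv.Perm (Fin k))) : allL k (gs.map toL) = (allP gs).map toL := by
  induction gs with
  | nil =>
    simp only [List.map_nil, allL, allP, List.map_cons, toL_one']
  | cons g gs ih =>
    simp only [List.map_cons, allL, allP, List.map_append, ih, List.map_map]
    congr 1
    apply List.map_congr_left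
    intro x _
    exact (toL_mul g x).symm

/-- The facts about a list of permutations. -/
structure PermOK (gs : List (Equiv.Perm (Fin k))) : Prop where
  cl : ∀ g ∈ gs, ∀ x ∈ allP gs, g * x ∈ allP gs
  cl' : ∀ g ∈ gs, ∀ x ∈ allP gs, g⁻¹ * x ∈ allP gs
  nd : (allP gs).Nodup

lemma permOK_of_list (gs : List (Equiv.Perm (Fin k))) (L : List (List ℕ)) (hL : gs.map toL = L)
    (hinv : ∀ a ∈ L, lmul a a = List.range k) (hcl : ∀ a ∈ L, ∀ b ∈ allL k L, lmul a b ∈ allL k L)
    (hnd : (allL k L).Nodup) : PermOK gs := by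
  subst hL
  rw [allL_eq] at hcl hnd
  have hcl1 : ∀ g ∈ gs, ∀ x ∈ allP gs, g * x ∈ allP gs := by
    intro g hg x hx
    have h1 := hcl (toL g) (List.mem_map_of_mem hg) (toL x) (List.mem_map_of_mem hx)
    rw [← toL_mul] at h1
    obtain ⟨y, hy, e⟩ := List.mem_map.mp h1
    rw [← toL_inj e]
    exact hy
  have hi : ∀ g ∈ gs, g⁻¹ = g := by
    intro g hg
    have h1 := hinv (toL g) (List.mem_map_of_mem hg)
    rw [← toL_mul, ← toL_one'] at h1
    exact inv_eq_of_mul_eq_one_left (toL_inj h1)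
  refine ⟨hcl1, ?_, List.Nodup.of_map _ hnd⟩
  intro g hg x hx
  rw [hi g hg]
  exact hcl1 g hg x hx

lemma allP_length_eq (gs : List (Equiv.Perm (Fin k))) (L : List (List ℕ)) (hL : gs.map toL = L) :
    (allP gs).length = (allL k L).length := by
  subst hL
  rw [allL_eq, List.length_map]

end perms


/-- A permutation of the frame. -/
def gF40 : Equiv.Perm (Fin 4) where
  toFun := ![0, 2, 1, 3]
  invFun := ![0, 2, 1, 3]
  left_inv := by decide
  right_inv := by decide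

/-- A permutation of the frame. -/
def gF41 : Equiv.Perm (Fin 4) where
  toFun := ![3, 1, 2, 0]
  invFun := ![3, 1, 2, 0]
  left_inv := by decide
  right_inv := by decide

/-- A permutation of the frame. -/
def gF42 : Equiv.Perm (Fin 4) where
  toFun := ![1, 0, 3, 2]
  invFun := ![1, 0, 3, 2]
  left_inv := by decide
  right_inv := by decide

/-- The generators of a 2-subgroup of the permutations of the frame. -/
def gsF4 : List (Equiv.Perm (Fin 4)) := [gF40, gF41, gF42]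

/-- A permutation of the frame. -/
def gE80 : Equiv.Perm (Fin 8) where
  toFun := ![0, 1, 2, 6, 5, 4, 3, 7]
  invFun := ![0, 1, 2, 6, 5, 4, 3, 7]
  left_inv := by decide
  right_inv := by decide

/-- A permutation of the frame. -/
def gE81 : Equiv.Perm (Fin 8) where
  toFun := ![0, 1, 2, 5, 6, 3, 4, 7]
  invFun := ![0, 1, 2, 5, 6, 3, 4, 7]
  left_inv := by decide
  right_inv := by decide

/-- A permutation of the frame. -/
def gE82 : Equiv.Perm (Fin 8) where
  toFun := ![0, 2, 1, 3, 6, 5, 4, 7]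
  invFun := ![0, 2, 1, 3, 6, 5, 4, 7]
  left_inv := by decide
  right_inv := by decide

/-- A permutation of the frame. -/
def gE83 : Equiv.Perm (Fin 8) where
  toFun := ![7, 1, 2, 3, 6, 5, 4, 0]
  invFun := ![7, 1, 2, 3, 6, 5, 4, 0]
  left_inv := by decide
  right_inv := by decide

/-- A permutation of the frame. -/
def gE84 : Equiv.Perm (Fin 8) where
  toFun := ![1, 0, 7, 3, 4, 5, 6, 2]
  invFun := ![1, 0, 7, 3, 4, 5, 6, 2]
  left_inv := by decide
  right_inv := by decide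

/-- A permutation of the frame. -/
def gE85 : Equiv.Perm (Fin 8) where
  toFun := ![3, 6, 4, 0, 2, 7, 1, 5]
  invFun := ![3, 6, 4, 0, 2, 7, 1, 5]
  left_inv := by decide
  right_inv := by decide

/-- The generators of a 2-subgroup of the permutations of the frame. -/
def gsE8 : List (Equiv.Perm (Fin 8)) := [gE80, gE81, gE82, gE83, gE84, gE85]

def LF4 : List (List ℕ) := [[0, 2, 1, 3], [3, 1, 2, 0], [1, 0, 3, 2]]

def LE8 : List (List ℕ) := [[0, 1, 2, 6, 5, 4, 3, 7], [0, 1, 2, 5, 6, 3, 4, 7], [0, 2, 1, 3, 6, 5, 4, 7], [7, 1, 2, 3, 6, 5, 4, 0], [1, 0, 7, 3, 4, 5, 6, 2], [3, 6, 4, 0, 2, 7, 1, 5]]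


lemma gsF4_ok : PermOK gsF4 := permOK_of_list gsF4 LF4 (by decide +kernel) (by decide +kernel) (by decide +kernel) (by decide +kernel)
lemma gsF4_len : (allP gsF4).length = 8 := by
  rw [allP_length_eq gsF4 LF4 (by decide +kernel)]
  decide +kernel

lemma gsE8_ok : PermOK gsE8 := permOK_of_list gsE8 LE8 (by decide +kernel) (by decide +kernel) (by decide +kernel) (by decide +kernel)
lemma gsE8_len : (allP gsE8).length = 64 := by
  rw [allP_length_eq gsE8 LE8 (by decide +kernel)]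
  decide +kernel

/-- The frame of `F₄`. -/
def frF4 : Frame chevF4 4 where
  r := ![47, 41, 30, 25]
  hr := by decide +kernel
  hpos := by decide +kernel
  two := by decide +kernel
  odd := fun i => ⟨1, by decide +kernel, by revert i; decide +kernel⟩
  t1 := by decide +kernel
  t2 := by decide +kernel
  t3 := by decide +kernel
  t4 := by decide +kernel
  n1 := by decide +kernel
  n2 := by decide +kernel
  n3 := by decide +kernel
  n4 := by decide +kernel
  n5 := by decide +kernel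
  n6 := by decide +kernel

/-- The frame of `E₈`. -/
def frE8 : Frame chevE8 8 where
  r := ![239, 226, 159, 152, 141, 135, 126, 121]
  hr := by decide +kernel
  hpos := by decide +kernel
  two := by decide +kernel
  odd := fun i => ⟨(![1, 1, 1, 3, 5, 5, 3, 1] : Fin 8 → ℕ) i, by revert i; decide +kernel, by revert i; decide +kernel⟩
  t1 := by decide +kernel
  t2 := by decide +kernel
  t3 := by decide +kernel
  t4 := by decide +kernel
  n1 := by decide +kernel
  n2 := by decide +kernel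
  n3 := by decide +kernel
  n4 := by decide +kernel
  n5 := by decide +kernel
  n6 := by decide +kernel

lemma liftF4 : ∀ g ∈ gsF4, ∃ l : List ℕ, (∀ i ∈ l, i < chevF4.rank) ∧
    ∀ i, wWord chevF4 l (frF4.r i) = frF4.r (g i) ∨ wWord chevF4 l (frF4.r i) = chevF4.neg (frF4.r (g i)) := by
  intro g hg
  simp only [gsF4, List.mem_cons, List.not_mem_nil, or_false] at hg
  rcases hg with rfl | rfl | rfl
  · exact ⟨[0], by decide +kernel, by decide +kernel⟩
  · exact ⟨[3, 1, 2, 0, 1, 2, 3, 0, 1], by decide +kernel, by decide +kernel⟩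
  · exact ⟨[3, 2, 1, 2, 3, 1], by decide +kernel, by decide +kernel⟩


lemma liftE8 : ∀ g ∈ gsE8, ∃ l : List ℕ, (∀ i ∈ l, i < chevE8.rank) ∧
    ∀ i, wWord chevE8 l (frE8.r i) = frE8.r (g i) ∨ wWord chevE8 l (frE8.r i) = chevE8.neg (frE8.r (g i)) := by
  intro g hg
  simp only [gsE8, List.mem_cons, List.not_mem_nil, or_false] at hg
  rcases hg with rfl | rfl | rfl | rfl | rfl | rfl
  · exact ⟨[3, 2, 1, 3], by decide +kernel, by decide +kernel⟩
  · exact ⟨[3, 4, 1, 3], by decide +kernel, by decide +kernel⟩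
  · exact ⟨[0, 2, 3, 4, 1, 3, 2, 0], by decide +kernel, by decide +kernel⟩
  · exact ⟨[5, 4, 3, 2, 1, 3, 4, 5, 0, 2, 3, 4, 1, 3, 2, 0, 7, 6, 5, 4, 3, 2, 1, 3, 4, 5, 6, 7, 0, 2, 3, 4, 1, 3, 2, 0, 5, 4, 3, 2, 1, 3, 4, 5], by decide +kernel, by decide +kernel⟩
  · exact ⟨[7, 6, 5, 4, 3, 2, 1, 3, 4, 5, 6, 7, 5, 4, 3, 2, 1, 3, 4, 5], by decide +kernel, by decide +kernel⟩
  · exact ⟨[5, 6, 0, 2, 3, 4, 5, 1, 3, 4, 2, 3, 0, 2, 1, 3, 4, 5, 2, 0, 7, 6, 5, 4, 3, 2, 1, 3, 4, 5, 6, 7, 0, 2, 3, 4, 1, 3, 2, 0, 3, 4, 5, 6, 2, 3, 4, 5], by decide +kernel, by decide +kernel⟩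


section main

variable {F : Type*} [Field F] [Fintype F]

lemma card_F4 (ax : Ax chevF4 F) {q : ℕ} (hq : Fintype.card F = q) :
    Nat.card (chevF4.group F) = q ^ 24 * ([2, 6, 8, 12].map fun d => q ^ d - 1).prod := by
  have hD : chevF4 ∈ [chevG2, chevB2, chevD4, chevF4, chevE6, chevE7, chevE8] := by simp
  have hd := card_diagonal_final hq (chevF4, 1) (by simp) ax
  have key := Cfsg.Agent.Lib.Chev.Order3.card_of_cert (tab_of_mem hD) (tab2_of_mem hD) ax
    Cfsg.Agent.Lib.Chev.OrderData.F4.cert (by decide) hq hd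
  have hN : chevF4.nroots / 2 = 24 := by decide
  rw [hN, one_mul] at key
  exact key

lemma card_E8 (ax : Ax chevE8 F) {q : ℕ} (hq : Fintype.card F = q) :
    Nat.card (chevE8.group F) = q ^ 120 * ([2, 8, 12, 14, 18, 20, 24, 30].map fun d => q ^ d - 1).prod := by
  have hD : chevE8 ∈ [chevG2, chevB2, chevD4, chevF4, chevE6, chevE7, chevE8] := by simp
  have hd := card_diagonal_final hq (chevE8, 1) (by simp) ax
  have key := Cfsg.Agent.Lib.Chev.Order3.card_of_cert (tab_of_mem hD) (tab2_of_mem hD) ax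
    Cfsg.Agent.Lib.Chev.OrderData.E8.cert (by decide) hq hd
  have hN : chevE8.nroots / 2 = 120 := by decide
  rw [hN, one_mul] at key
  exact key

lemma two_ne_of_odd {q : ℕ} (hq : Fintype.card F = q) (hodd : Odd q) : (2 : F) ≠ 0 := by
  intro h0
  have hc : ringChar F = 2 := by
    have hd : ringChar F ∣ 2 := by
      rw [← ringChar.spec F 2]
      exact_mod_cast h0
    have hp := CharP.char_is_prime_or_zero F (ringChar F)
    rcases hp with hp | hp
    · exact (Nat.prime_dvd_prime_iff_eq hp Nat.prime_two).mp hd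
    · exact absurd hp (CharP.ringChar_ne_zero_of_finite F)
  have := FiniteField.even_card_of_char_two hc
  rw [hq] at this
  rcases hodd with ⟨m, rfl⟩
  omega

/-- Every involution of `F₄(q)`, `q` odd, is conjugate into the monomial group. -/
theorem inv_mono_F4 (ax : Ax chevF4 F) {q : ℕ} (hq : Fintype.card F = q) (hodd : Odd q) {t : GL chevF4.Idx F}
    (ht : t ∈ chevF4.group F) (htt : t * t = 1) : ∃ g ∈ chevF4.group F, g * t * g⁻¹ ∈ chevF4.monomialSubgroup F := by
  have hD : chevF4 ∈ [chevG2, chevB2, chevD4, chevF4, chevE6, chevE7, chevE8] := by simp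
  have h := tab_of_mem hD
  have h2 := tab2_of_mem hD
  have h2F := two_ne_of_odd hq hodd
  have hq1 : 1 < q := by
    rw [← hq]
    exact Fintype.one_lt_card
  have hodd' : ¬ 2 ∣ q := by
    rcases hodd with ⟨m, rfl⟩
    omega
  have hT : Nat.card (chevF4.diagonalSubgroup F) = (q - 1) ^ 4 := by
    have := card_diagonal_final hq (chevF4, 1) (by simp) ax
    rw [one_mul] at this
    exact this
  have hZ := card_Zf_dvd h h2 ax frF4 hq hT hq1 h2F gsF4 (fun g hg => by
      obtain ⟨l, hl, hc⟩ := liftF4 g hg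
      exact lift_of_word h h2 ax frF4 hl hc) gsF4_ok.cl gsF4_ok.cl' gsF4_ok.nd
  rw [gsF4_len] at hZ
  refine inv_conj_mono h h2 ax frF4 h2F ?_ ht htt
  rw [card_F4 ax hq]
  exact hcard_of hq1 hodd' 24 4 3 [(2, 0), (6, 0), (8, 2), (12, 1)] (by decide) (by decide) (by decide)
    (b := 8) (by norm_num) hZ

/-- Every involution of `E₈(q)`, `q` odd, is conjugate into the monomial group. -/
theorem inv_mono_E8 (ax : Ax chevE8 F) {q : ℕ} (hq : Fintype.card F = q) (hodd : Odd q) {t : GL chevE8.Idx F}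
    (ht : t ∈ chevE8.group F) (htt : t * t = 1) : ∃ g ∈ chevE8.group F, g * t * g⁻¹ ∈ chevE8.monomialSubgroup F := by
  have hD : chevE8 ∈ [chevG2, chevB2, chevD4, chevF4, chevE6, chevE7, chevE8] := by simp
  have h := tab_of_mem hD
  have h2 := tab2_of_mem hD
  have h2F := two_ne_of_odd hq hodd
  have hq1 : 1 < q := by
    rw [← hq]
    exact Fintype.one_lt_card
  have hodd' : ¬ 2 ∣ q := by
    rcases hodd with ⟨m, rfl⟩
    omega
  have hT : Nat.card (chevE8.diagonalSubgroup F) = (q - 1) ^ 8 := by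
    have := card_diagonal_final hq (chevE8, 1) (by simp) ax
    rw [one_mul] at this
    exact this
  have hZ := card_Zf_dvd h h2 ax frE8 hq hT hq1 h2F gsE8 (fun g hg => by
      obtain ⟨l, hl, hc⟩ := liftE8 g hg
      exact lift_of_word h h2 ax frE8 hl hc) gsE8_ok.cl gsE8_ok.cl' gsE8_ok.nd
  rw [gsE8_len] at hZ
  refine inv_conj_mono h h2 ax frE8 h2F ?_ ht htt
  rw [card_E8 ax hq]
  exact hcard_of hq1 hodd' 120 8 6 [(2, 0), (8, 2), (12, 1), (14, 0), (18, 0), (20, 1), (24, 2), (30, 0)]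
    (by decide) (by decide) (by decide) (b := 64) (by norm_num) hZ

/-- Every involution of `F₄(q)`, `q` odd, is conjugate into the torus. -/
theorem inv_torus_F4 (ax : Ax chevF4 F) {q : ℕ} (hq : Fintype.card F = q) (hodd : Odd q) {t : GL chevF4.Idx F}
    (ht : t ∈ chevF4.group F) (htt : t * t = 1) : ∃ g ∈ chevF4.group F, g * t * g⁻¹ ∈ chevF4.diagonalSubgroup F := by
  obtain ⟨g, hg, hm⟩ := inv_mono_F4 ax hq hodd ht htt
  have hs : g * t * g⁻¹ * (g * t * g⁻¹) = 1 := by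
    have : g * t * g⁻¹ * (g * t * g⁻¹) = g * (t * t) * g⁻¹ := by group
    rw [this, htt]
    group
  obtain ⟨g', hg', hd⟩ := Cfsg.Agent.Lib.KS71.IVb5.mono_red_F4 (two_ne_of_odd hq hodd) hm hs
  refine ⟨g' * g, Subgroup.mul_mem _ hg' hg, ?_⟩
  have e : g' * g * t * (g' * g)⁻¹ = g' * (g * t * g⁻¹) * g'⁻¹ := by group
  rw [e]
  exact hd

/-- Every involution of `E₈(q)`, `q` odd, is conjugate into the torus. -/
theorem inv_torus_E8 (ax : Ax chevE8 F) {q : ℕ} (hq : Fintype.card F = q) (hodd : Odd q) {t : GL chevE8.Idx F}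
    (ht : t ∈ chevE8.group F) (htt : t * t = 1) : ∃ g ∈ chevE8.group F, g * t * g⁻¹ ∈ chevE8.diagonalSubgroup F := by
  obtain ⟨g, hg, hm⟩ := inv_mono_E8 ax hq hodd ht htt
  have hs : g * t * g⁻¹ * (g * t * g⁻¹) = 1 := by
    have : g * t * g⁻¹ * (g * t * g⁻¹) = g * (t * t) * g⁻¹ := by group
    rw [this, htt]
    group
  obtain ⟨g', hg', hd⟩ := Cfsg.Agent.Lib.KS71.IVb5.mono_red_E8 (two_ne_of_odd hq hodd) hm hs
  refine ⟨g' * g, Subgroup.mul_mem _ hg' hg, ?_⟩
  have e : g' * g * t * (g' * g)⁻¹ = g' * (g * t * g⁻¹) * g'⁻¹ := by group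
  rw [e]
  exact hd

end main

end Cfsg.Agent.Lib.KS71.IVe2
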