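/-
Involutions in Chevalley groups, odd characteristic: the order of the centralizer of a torus element with values
`±1` on the roots.
-/
import Mathlib
import Cfsg.Agent.Lib.KS71.IVe2

set_option autoImplicit false
set_option linter.unusedSectionVars false
set_option linter.unusedVariables false

namespace Cfsg.Agent.Lib.KS71.IVf

open scoped MatrixGroups Matrix Pointwise
open Cfsg Cfsg.Lie Cfsg.Lie.ChevalleyDatum
open Cfsg.Agent.Lib.Chev.Tables Cfsg.Agent.Lib.Chev.Tables2 Cfsg.Agent.Lib.Chev.Tables3 Cfsg.Agent.Lib.Chev.Raise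
open Cfsg.Agent.Lib.Chev.Basic Cfsg.Agent.Lib.Chev.AxBasic Cfsg.Agent.Lib.Chev.Torus
open Cfsg.Agent.Lib.Chev.Products Cfsg.Agent.Lib.Chev.Products2 Cfsg.Agent.Lib.Chev.Mono1
open Cfsg.Agent.Lib.Chev.Mono2 Cfsg.Agent.Lib.Chev.Mono3 Cfsg.Agent.Lib.Chev.Bn
open Cfsg.Agent.Lib.Chev.Order1 Cfsg.Agent.Lib.Chev.Order2 Cfsg.Agent.Lib.Chev.Parab
open Cfsg.Agent.Lib.Chev.Diag Cfsg.Agent.Lib.Chev.SL2 Cfsg.Agent.Lib.Chev.SL2Chev

variable {D : ChevalleyDatum} {F : Type*} [Field F]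
variable (h : Tab D) (h2 : Tab2 D) (ax : Ax D F)

/-- The roots on which a torus element is trivial. -/
structure SelOf (D : ChevalleyDatum) (y : ℕ → Fˣ) (Sel : ℕ → Bool) : Prop where
  pos : ∀ r, r < D.nroots → Sel r = true → chi D y r = 1
  neg : ∀ r, r < D.nroots → Sel r = false → chi D y r = -1

lemma neg_one_ne (h2F : (2 : F) ≠ 0) : (-1 : Fˣ) ≠ 1 := by
  intro e
  have e1 : (-1 : F) = 1 := by
    have := congrArg Units.val e
    simpa using this
  apply h2F
  linear_combination -e1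

include ax h in
lemma diag_comm {a b : GL D.Idx F} (ha : a ∈ D.diagonalSubgroup F) (hb : b ∈ D.diagonalSubgroup F) : a * b = b * a := by
  obtain ⟨y, rfl⟩ := exists_tor_of_mem ax h ha
  obtain ⟨y', rfl⟩ := exists_tor_of_mem ax h hb
  rw [← tor_mul, ← tor_mul, mul_comm]

include h in
lemma conj_wordL (y : ℕ → Fˣ) {L : List ℕ} (hL : ∀ r ∈ L, r < D.nroots) (t : ℕ → F) :
    tor D y * wordL ax L t * (tor D y)⁻¹ = wordL ax L (fun r => (chi D y r : F) * t r) := by
  induction L with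
  | nil => simp [wordL_nil]
  | cons a L ih =>
    rw [wordL_cons, wordL_cons]
    have e : tor D y * (xG ax a (t a) * wordL ax L t) * (tor D y)⁻¹ =
        (tor D y * xG ax a (t a) * (tor D y)⁻¹) * (tor D y * wordL ax L t * (tor D y)⁻¹) := by group
    rw [e, tor_conj_xG ax h y (hL a (by simp)), ih (fun r hr => hL r (by simp [hr]))]

lemma wordL_filter (Sel : ℕ → Bool) {L : List ℕ} {t : ℕ → F} (h0 : ∀ r ∈ L, Sel r = false → t r = 0) :
    wordL ax L t = wordL ax (L.filter Sel) t := by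
  induction L with
  | nil => rfl
  | cons a L ih =>
    have ih' := ih fun r hr => h0 r (by simp [hr])
    rw [wordL_cons]
    by_cases hs : Sel a = true
    · rw [List.filter_cons_of_pos hs, wordL_cons, ih']
    · rw [List.filter_cons_of_neg hs, ih', h0 a (by simp) (by simpa using hs), xG_zero, one_mul]

section sel

variable {y : ℕ → Fˣ} {Sel : ℕ → Bool}

include h in
lemma goodList_filter (h2F : (2 : F) ≠ 0) (hS : SelOf D y Sel) {L : List ℕ} (hL : GoodList D L) :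
    GoodList D (L.filter Sel) where
  sorted := hL.sorted.filter _
  pos := fun r hr => hL.pos r (List.mem_filter.mp hr).1
  closed := by
    intro r hr s hs hrs c hc
    rw [List.mem_filter] at hr hs ⊢
    refine ⟨hL.closed r hr.1 s hs.1 hrs c hc, ?_⟩
    obtain ⟨hlt, hi, hj, hv⟩ := commTerms_spec h (hL.pos r hr.1).1 (hL.pos s hs.1).1 hc
    have e := chi_vec (y := y) hv
    rw [hS.pos r (hL.pos r hr.1).1 hr.2, hS.pos s (hL.pos s hs.1).1 hs.2, one_zpow, one_zpow, one_mul] at e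
    by_contra hne
    have hf : Sel c.1 = false := by simpa using hne
    rw [hS.neg _ hlt hf] at e
    exact neg_one_ne h2F e

include h h2 in
lemma mem_filter_of_fix (h2F : (2 : F) ≠ 0) (hS : SelOf D y Sel) {L : List ℕ} (hL : GoodList D L) {a : GL D.Idx F}
    (ha : a ∈ rootClosure ax (· ∈ L)) (hfix : tor D y * a * (tor D y)⁻¹ = a) : a ∈ rootClosure ax (· ∈ L.filter Sel) := by
  obtain ⟨t, rfl⟩ := exists_wordL ax h hL ha
  rw [conj_wordL h ax y (fun r hr => (hL.pos r hr).1)] at hfix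
  have e := wordL_inj ax h h2 hL hfix
  have h0 : ∀ r ∈ L, Sel r = false → t r = 0 := by
    intro r hr hf
    have e1 := e r hr
    rw [hS.neg r (hL.pos r hr).1 hf] at e1
    have e2 : (2 : F) * t r = 0 := by
      simp only [Units.val_neg, Units.val_one, neg_mul, one_mul] at e1
      linear_combination -e1
    exact (mul_eq_zero.mp e2).resolve_left h2F
  rw [wordL_filter ax Sel h0]
  exact wordL_mem ax _

include h in
lemma fix_of_mem_filter (h2F : (2 : F) ≠ 0) (hS : SelOf D y Sel) {L : List ℕ} (hL : GoodList D L) {a : GL D.Idx F}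
    (ha : a ∈ rootClosure ax (· ∈ L.filter Sel)) : tor D y * a * (tor D y)⁻¹ = a := by
  have hL' := goodList_filter h h2F hS hL
  obtain ⟨t, rfl⟩ := exists_wordL ax h hL' ha
  rw [conj_wordL h ax y (fun r hr => (hL'.pos r hr).1)]
  apply wordL_congr
  intro r hr
  rw [hS.pos r (hL'.pos r hr).1 (List.mem_filter.mp hr).2]
  simp

end sel

/-! ### The double coset -/

section dc

variable {l : List ℕ}

include h h2 ax in
lemma dc_unique (hl : ∀ i ∈ l, i < D.rank) {a a' b b' : GL D.Idx F} (ha : a ∈ rootClosure ax (Pm D l))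
    (ha' : a' ∈ rootClosure ax (Pm D l)) (hb : b ∈ D.borelSubgroup F) (hb' : b' ∈ D.borelSubgroup F)
    (e1 : a * (nw D ax l)⁻¹ * b = a' * (nw D ax l)⁻¹ * b') : a = a' ∧ b = b' := by
  set n := nw D ax l with hn
  have e2 : n * (a'⁻¹ * a) * n⁻¹ = b' * b⁻¹ := by
    calc n * (a'⁻¹ * a) * n⁻¹ = n * a'⁻¹ * (a * n⁻¹ * b) * b⁻¹ := by group
      _ = n * a'⁻¹ * (a' * n⁻¹ * b') * b⁻¹ := by rw [e1]
      _ = _ := by group
  have h1 : a'⁻¹ * a ∈ rootClosure ax (Pm D l) := Subgroup.mul_mem _ (Subgroup.inv_mem _ ha') ha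
  have h4 := conj_Um h h2 ax hl h1
  have h5 : n * (a'⁻¹ * a) * n⁻¹ ∈ D.borelSubgroup F := by
    rw [e2]
    exact Subgroup.mul_mem _ hb' (Subgroup.inv_mem _ hb)
  have h6 := eq_one_of_conj_mem h h2 ax h4 h5
  have h7 : a' = a := inv_mul_eq_one.mp h6
  subst h7
  exact ⟨rfl, mul_left_cancel e1⟩

include h h2 ax in
lemma dc_exists [Finite F] (hl : ∀ i ∈ l, i < D.rank) {g : GL D.Idx F} (hg : g ∈ cell D F (nw D ax l)⁻¹) :
    ∃ a ∈ rootClosure ax (Pm D l), ∃ b ∈ D.borelSubgroup F, g = a * (nw D ax l)⁻¹ * b := by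
  set n := nw D ax l with hn
  have hnm : n ∈ D.monomialSubgroup F := nw_mem_monomial_aux h h2 ax hl
  obtain ⟨π, c0, Hn⟩ := exists_isNor h h2 ax hnm
  obtain ⟨b₁, hb₁, b₂, hb₂, rfl⟩ := mem_cell.mp hg
  obtain ⟨u, hu, a, ha, rfl⟩ := (mem_borel_iff ax h).mp hb₁
  obtain ⟨u₁, hu₁, u₂, hu₂, rfl⟩ := U_factor h h2 ax hl hu
  have h5 : n * (u₂ * a) * n⁻¹ ∈ D.borelSubgroup F := by
    have e : n * (u₂ * a) * n⁻¹ = (n * u₂ * n⁻¹) * (n * a * n⁻¹) := by group
    rw [e]
    refine Subgroup.mul_mem _ ((le_sup_left : D.posUnipotent F ≤ _) (conj_Up h h2 ax hl hu₂)) ?_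
    exact (le_sup_right : D.diagonalSubgroup F ≤ _) (Hn.conj_mem_H h ax ha)
  refine ⟨u₁, hu₁, n * (u₂ * a) * n⁻¹ * b₂, Subgroup.mul_mem _ h5 hb₂, ?_⟩
  group

end dc

/-! ### Conjugating torus elements -/

include h h2 in
/-- The values on the roots of a conjugate of a torus element. -/
lemma conj_tor_chi {n : GL D.Idx F} {π : Equiv.Perm (Fin D.nroots)} {c : Fin D.nroots → Fˣ}
    (H : IsNor h ax n π c) (y y' : ℕ → Fˣ) (e : n * tor D y * n⁻¹ = tor D y') (r : Fin D.nroots) :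
    chi D y' (π r) = chi D y r := by
  have e1 := tor_conj_xG ax h y' (Fin.isLt (π r)) 1
  rw [← e] at e1
  have e2 : n * tor D y * n⁻¹ * xG ax (π r) 1 * (n * tor D y * n⁻¹)⁻¹ =
      n * (tor D y * (n⁻¹ * xG ax (π r) 1 * n) * (tor D y)⁻¹) * n⁻¹ := by group
  have e3 := (H.inv h ax).conj (π r) 1
  have hπ : π⁻¹ (π r) = r := by simp
  rw [inv_inv, hπ] at e3
  rw [e2, e3, tor_conj_xG ax h y r.isLt, H.conj] at e1
  have e4 := (xG_eq_iff ax h h2 (Fin.isLt (π r)) (Fin.isLt (π r)) (by simp) e1).2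
  simp only [mul_one] at e4
  have e5 : ((chi D y' (π r) : Fˣ) : F) = ((chi D y r : Fˣ) : F) := by
    rw [← e4, mul_left_comm, Units.mul_inv, mul_one]
  exact (Units.ext e5)

section fix

variable {y : ℕ → Fˣ} {Sel : ℕ → Bool}

include h h2 in
/-- An element of the Weyl group fixes the torus element iff it preserves the roots on which it is trivial. -/
lemma conj_fix_iff (h2F : (2 : F) ≠ 0) (hS : SelOf D y Sel) {n : GL D.Idx F} {π : Equiv.Perm (Fin D.nroots)}
    {c : Fin D.nroots → Fˣ} (hτT : tor D y ∈ D.diagonalSubgroup F) (hn : n ∈ D.monomialSubgroup F)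
    (H : IsNor h ax n π c) :
    n * tor D y * n⁻¹ = tor D y ↔ ∀ r : Fin D.nroots, Sel (π r) = Sel r := by
  have hsel : ∀ r : Fin D.nroots, Sel r = true ↔ chi D y r = 1 := by
    intro r
    constructor
    · exact hS.pos r r.isLt
    · intro hc
      by_contra hne
      rw [hS.neg r r.isLt (by simpa using hne)] at hc
      exact neg_one_ne h2F hc
  constructor
  · intro e r
    have e1 := conj_tor_chi h h2 ax H y y e r
    rw [Bool.eq_iff_iff, hsel, hsel, e1]
  · intro hf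
    have hT : n * tor D y * n⁻¹ ∈ D.diagonalSubgroup F := H.conj_mem_H h ax hτT
    obtain ⟨y', hy'⟩ := exists_tor_of_mem ax h hT
    rw [hy']
    apply tor_eq_of_chi
    intro s hs
    obtain ⟨r, hr⟩ := π.surjective ⟨s, hs⟩
    have e1 := conj_tor_chi h h2 ax H y y' hy' r
    have e2 : (π r : ℕ) = s := by rw [hr]
    rw [← e2, e1]
    have hfr := hf r
    by_cases hr1 : Sel r = true
    · rw [hS.pos r r.isLt hr1, hS.pos _ (Fin.isLt _) (hfr.trans hr1)]
    · have hr2 : Sel r = false := by simpa using hr1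
      rw [hS.neg r r.isLt hr2, hS.neg _ (Fin.isLt _) (hfr.trans hr2)]

/-- The roots in the subsystem made negative. -/
noncomputable def lenS (D : ChevalleyDatum) (Sel : ℕ → Bool) (w : Equiv.Perm (Fin D.nroots)) : ℕ := by
  classical
  exact (Finset.univ.filter fun r : Fin D.nroots => D.IsPosRoot r ∧ Sel r = true ∧ ¬ D.IsPosRoot (w r)).card

include h in
lemma length_Lm_filter {l : List ℕ} (hl : ∀ i ∈ l, i < D.rank) :
    ((Lm D l).filter Sel).length = lenS D Sel (wPw h l) := by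
  classical
  have hnd : ((Lm D l).filter Sel).Nodup :=
    ((goodList_Lm h hl).sorted.filter _).imp (fun hab => Nat.ne_of_lt hab)
  rw [← List.toFinset_card_of_nodup hnd, lenS]
  symm
  apply Finset.card_bij (fun (r : Fin D.nroots) _ => (r : ℕ))
  · intro r hr
    simp only [Finset.mem_filter, Finset.mem_univ, true_and] at hr
    rw [List.mem_toFinset, List.mem_filter, mem_Lm]
    refine ⟨⟨hr.1, ?_⟩, hr.2.1⟩
    rw [← wPw_val h hl r]
    exact (not_isPos_iff h (Fin.isLt _)).mp hr.2.2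
  · intro a _ b _ he
    exact Fin.ext he
  · intro r hr
    rw [List.mem_toFinset, List.mem_filter, mem_Lm] at hr
    refine ⟨⟨r, hr.1.1.1⟩, ?_, rfl⟩
    simp only [Finset.mem_filter, Finset.mem_univ, true_and]
    refine ⟨hr.1.1, hr.2, ?_⟩
    have e : ((wPw h l ⟨r, hr.1.1.1⟩ : Fin D.nroots) : ℕ) = wWord D l r := wPw_val h hl ⟨r, hr.1.1.1⟩
    rw [e]
    exact (not_isPos_iff h (wWord_lt h hl hr.1.1.1)).mpr hr.1.2

include h h2 in
/-- The fixed points in a cell force the Weyl element to fix the torus element. -/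
lemma cell_fix_forces [Finite F] (hτT : tor D y ∈ D.diagonalSubgroup F) {l : List ℕ} (hl : ∀ i ∈ l, i < D.rank) {g : GL D.Idx F}
    (hg : g ∈ cell D F (nw D ax l)⁻¹) (hfix : tor D y * g * (tor D y)⁻¹ = g) :
    nw D ax l * tor D y * (nw D ax l)⁻¹ = tor D y := by
  set n := nw D ax l with hn
  set τ := (tor D y : GL D.Idx F) with hτ
  have hτB : τ ∈ D.borelSubgroup F := (le_sup_right : D.diagonalSubgroup F ≤ _) hτT
  have hnm : n ∈ D.monomialSubgroup F := nw_mem_monomial_aux h h2 ax hl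
  obtain ⟨π, c0, Hn⟩ := exists_isNor h h2 ax hnm
  obtain ⟨a, ha, b, hb, hgab⟩ := dc_exists h h2 ax hl hg
  rw [← hn] at hgab
  subst hgab
  have hτ0 : n * τ * n⁻¹ * τ⁻¹ ∈ D.diagonalSubgroup F :=
    Subgroup.mul_mem _ (Hn.conj_mem_H h ax hτT) (Subgroup.inv_mem _ hτT)
  set τ₀ := n * τ * n⁻¹ * τ⁻¹ with hτ₀
  have hτ0B : τ₀ ∈ D.borelSubgroup F := (le_sup_right : D.diagonalSubgroup F ≤ _) hτ0
  have ha' : τ * a * τ⁻¹ ∈ rootClosure ax (Pm D l) := diagonal_conj_rootClosure ax h (fun r hr => hr.1.1) hτT ha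
  have hb' : τ₀ * (τ * b * τ⁻¹) ∈ D.borelSubgroup F :=
    Subgroup.mul_mem _ hτ0B (Subgroup.mul_mem _ (Subgroup.mul_mem _ hτB hb) (Subgroup.inv_mem _ hτB))
  have e1 : a * n⁻¹ * b = (τ * a * τ⁻¹) * n⁻¹ * (τ₀ * (τ * b * τ⁻¹)) := by
    conv_lhs => rw [← hfix]
    rw [hτ₀]
    group
  have e2 := (dc_unique h h2 ax hl ha ha' hb hb' e1).2
  obtain ⟨u, hu, δ, hδ, rfl⟩ := (mem_borel_iff ax h).mp hb
  have hcomm : δ * τ⁻¹ = τ⁻¹ * δ := diag_comm h ax hδ (Subgroup.inv_mem _ hτT)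
  have e3 : τ₀ * (τ * (u * δ) * τ⁻¹) = τ₀ * (τ * u * τ⁻¹) * δ := by
    have : τ * (u * δ) * τ⁻¹ = τ * u * (δ * τ⁻¹) := by group
    rw [this, hcomm]
    group
  rw [e3] at e2
  have e4 : u = τ₀ * (τ * u * τ⁻¹) := mul_right_cancel e2
  have e5 : τ₀ = u * (τ * u * τ⁻¹)⁻¹ := by
    rw [eq_mul_inv_iff_mul_eq]
    exact e4.symm
  have hu' : τ * u * τ⁻¹ ∈ D.posUnipotent F := diagonal_conj_U ax h hτT hu
  have h6 : τ₀ ∈ D.posUnipotent F ⊓ D.diagonalSubgroup F :=
    ⟨by rw [e5]; exact Subgroup.mul_mem _ hu (Subgroup.inv_mem _ hu'), hτ0⟩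
  rw [U_inf_H ax h, Subgroup.mem_bot] at h6
  rw [hτ₀] at h6
  exact mul_inv_eq_one.mp h6

include h2 in
/-- The number of fixed points in a cell. -/
theorem card_cell_fix [Fintype F] (h2F : (2 : F) ≠ 0) (hS : SelOf D y Sel) (hτT : tor D y ∈ D.diagonalSubgroup F) {l : List ℕ} (hl : ∀ i ∈ l, i < D.rank)
    (hfn : nw D ax l * tor D y * (nw D ax l)⁻¹ = tor D y) :
    Nat.card {g : GL D.Idx F // g ∈ cell D F (nw D ax l)⁻¹ ∧ tor D y * g * (tor D y)⁻¹ = g} =
      Fintype.card F ^ lenS D Sel (wPw h l) * Fintype.card F ^ (D.posRoots.filter Sel).length *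
        Nat.card (D.diagonalSubgroup F) := by
  classical
  set n := nw D ax l with hn
  set τ := (tor D y : GL D.Idx F) with hτ
  have hτn : τ * n⁻¹ * τ⁻¹ = n⁻¹ := by
    have : n⁻¹ * τ * n = τ := by
      conv_lhs => rw [← hfn]
      group
    have h3 : τ * n⁻¹ = n⁻¹ * τ := by
      rw [← mul_inv_eq_iff_eq_mul]
      calc τ * n⁻¹ * τ⁻¹ = (n⁻¹ * τ * n) * n⁻¹ * τ⁻¹ := by rw [this]
        _ = n⁻¹ := by group
    rw [h3]
    group
  have hGLm := goodList_Lm h hl
  have hGLp := goodList_posRoots h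
  let A := rootClosure ax (· ∈ (Lm D l).filter Sel)
  let E := rootClosure ax (· ∈ D.posRoots.filter Sel)
  have hAm : A ≤ rootClosure ax (Pm D l) := by
    apply rootClosure_mono
    intro r hr
    exact mem_Lm.mp (List.mem_filter.mp hr).1
  have hEU : E ≤ D.posUnipotent F := by
    rw [← rootClosure_posRoots ax]
    apply rootClosure_mono
    intro r hr
    exact (List.mem_filter.mp hr).1
  have hAfix : ∀ a ∈ A, τ * a * τ⁻¹ = a := fun a ha => fix_of_mem_filter h ax h2F hS hGLm ha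
  have hEfix : ∀ a ∈ E, τ * a * τ⁻¹ = a := fun a ha => fix_of_mem_filter h ax h2F hS hGLp ha
  let f : A × E × D.diagonalSubgroup F → {g : GL D.Idx F // g ∈ cell D F n⁻¹ ∧ τ * g * τ⁻¹ = g} := fun x =>
    ⟨x.1.1 * n⁻¹ * (x.2.1.1 * x.2.2.1), by
      refine ⟨mem_cell.mpr ⟨x.1.1, (le_sup_left : D.posUnipotent F ≤ D.borelSubgroup F)
        (Um_le_U h h2 ax l (hAm x.1.2)), _, (mem_borel_iff ax h).mpr ⟨_, hEU x.2.1.2, _, x.2.2.2, rfl⟩, rfl⟩, ?_⟩
      have e : τ * (x.1.1 * n⁻¹ * (x.2.1.1 * x.2.2.1)) * τ⁻¹ =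
          (τ * x.1.1 * τ⁻¹) * (τ * n⁻¹ * τ⁻¹) * (τ * x.2.1.1 * τ⁻¹) * (τ * x.2.2.1 * τ⁻¹) := by group
      have hc : τ * x.2.2.1 * τ⁻¹ = x.2.2.1 := by
        rw [diag_comm h ax hτT x.2.2.2]
        group
      rw [e, hAfix _ x.1.2, hτn, hEfix _ x.2.1.2, hc]
      group⟩
  have hf : Function.Bijective f := by
    constructor
    · rintro ⟨⟨a, ha⟩, ⟨e, he⟩, ⟨δ, hδ⟩⟩ ⟨⟨a', ha'⟩, ⟨e', he'⟩, ⟨δ', hδ'⟩⟩ hff
      have e1 : a * n⁻¹ * (e * δ) = a' * n⁻¹ * (e' * δ') := congrArg Subtype.val hff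
      have hb : e * δ ∈ D.borelSubgroup F := (mem_borel_iff ax h).mpr ⟨_, hEU he, _, hδ, rfl⟩
      have hb' : e' * δ' ∈ D.borelSubgroup F := (mem_borel_iff ax h).mpr ⟨_, hEU he', _, hδ', rfl⟩
      obtain ⟨e2, e3⟩ := dc_unique h h2 ax hl (hAm ha) (hAm ha') hb hb' e1
      subst e2
      have e4 : e'⁻¹ * e = δ' * δ⁻¹ := by
        calc e'⁻¹ * e = e'⁻¹ * (e * δ) * δ⁻¹ := by group
          _ = e'⁻¹ * (e' * δ') * δ⁻¹ := by rw [e3]
          _ = _ := by group
      have h5 : e'⁻¹ * e ∈ D.posUnipotent F ⊓ D.diagonalSubgroup F :=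
        ⟨Subgroup.mul_mem _ (Subgroup.inv_mem _ (hEU he')) (hEU he), by
          rw [e4]
          exact Subgroup.mul_mem _ hδ' (Subgroup.inv_mem _ hδ)⟩
      rw [U_inf_H ax h, Subgroup.mem_bot] at h5
      have h6 : e' = e := inv_mul_eq_one.mp h5
      subst h6
      have h7 : δ = δ' := mul_left_cancel e3
      subst h7
      rfl
    · rintro ⟨g, hg, hfix⟩
      obtain ⟨a, ha, b, hb, hgab⟩ := dc_exists h h2 ax hl hg
      rw [← hn] at hgab
      subst hgab
      have hτB : τ ∈ D.borelSubgroup F := (le_sup_right : D.diagonalSubgroup F ≤ _) hτT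
      have ha' : τ * a * τ⁻¹ ∈ rootClosure ax (Pm D l) := diagonal_conj_rootClosure ax h (fun r hr => hr.1.1) hτT ha
      have hb' : τ * b * τ⁻¹ ∈ D.borelSubgroup F :=
        Subgroup.mul_mem _ (Subgroup.mul_mem _ hτB hb) (Subgroup.inv_mem _ hτB)
      have e1 : a * n⁻¹ * b = (τ * a * τ⁻¹) * n⁻¹ * (τ * b * τ⁻¹) := by
        conv_lhs => rw [← hfix]
        conv_rhs => rw [← hτn]
        group
      obtain ⟨e2, e3⟩ := dc_unique h h2 ax hl ha ha' hb hb' e1
      obtain ⟨u, hu, δ, hδ, rfl⟩ := (mem_borel_iff ax h).mp hb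
      have hcomm : δ * τ⁻¹ = τ⁻¹ * δ := diag_comm h ax hδ (Subgroup.inv_mem _ hτT)
      have e4 : τ * (u * δ) * τ⁻¹ = (τ * u * τ⁻¹) * δ := by
        have : τ * (u * δ) * τ⁻¹ = τ * u * (δ * τ⁻¹) := by group
        rw [this, hcomm]
        group
      rw [e4] at e3
      have e5 : u = τ * u * τ⁻¹ := mul_right_cancel e3
      have ha2 : a ∈ rootClosure ax (· ∈ Lm D l) := by rw [rootClosure_Lm h h2 ax]; exact ha
      have hu2 : u ∈ rootClosure ax (· ∈ D.posRoots) := by rw [rootClosure_posRoots ax]; exact hu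
      refine ⟨⟨⟨a, mem_filter_of_fix h h2 ax h2F hS hGLm ha2 e2.symm⟩,
        ⟨u, mem_filter_of_fix h h2 ax h2F hS hGLp hu2 e5.symm⟩, ⟨δ, hδ⟩⟩, ?_⟩
      apply Subtype.ext
      rfl
  rw [← Nat.card_congr (Equiv.ofBijective f hf), Nat.card_prod, Nat.card_prod,
    card_goodList ax h h2 (goodList_filter h h2F hS hGLm), card_goodList ax h h2 (goodList_filter h h2F hS hGLp),
    length_Lm_filter h hl]
  ring

/-- The Weyl group elements fixing the subsystem. -/
def FixS (D : ChevalleyDatum) (Sel : ℕ → Bool) (w : Equiv.Perm (Fin D.nroots)) : Prop :=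
  ∀ r : Fin D.nroots, Sel (w r) = Sel r

/-- The elements of the Weyl group preserving the subsystem. -/
noncomputable def WcS (h : Tab D) (Sel : ℕ → Bool) : Finset (Equiv.Perm (Fin D.nroots)) := by
  classical
  exact (Wc h).filter (FixS D Sel)

lemma mem_WcS {w : Equiv.Perm (Fin D.nroots)} : w ∈ WcS h Sel ↔ w ∈ Wc h ∧ FixS D Sel w := by
  classical
  simp [WcS]

include h2 ax in
/-- The order of the centralizer. -/
theorem card_centralizer [Fintype F] (h2F : (2 : F) ≠ 0) (hS : SelOf D y Sel)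
    (hτT : tor D y ∈ D.diagonalSubgroup F) (hτ : tor D y ∈ D.group F) :
    Nat.card (Subgroup.centralizer ({⟨tor D y, hτ⟩} : Set ↥(D.group F))) =
      Fintype.card F ^ (D.posRoots.filter Sel).length * Nat.card (D.diagonalSubgroup F) *
        ∑ w ∈ WcS h Sel, Fintype.card F ^ lenS D Sel w := by
  classical
  have hWS : WcS h Sel = (Wc h).filter (FixS D Sel) := by
    ext w
    simp [mem_WcS]
  rw [hWS]
  let C := Subgroup.centralizer ({⟨tor D y, hτ⟩} : Set ↥(D.group F))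
  haveI : Fintype ↥C := Fintype.ofFinite _
  change Nat.card ↥C = _
  rw [Nat.card_eq_fintype_card, ← Finset.card_univ,
    Finset.card_eq_sum_card_fiberwise (f := fun c : ↥C => idxG h h2 ax c.1) (s := Finset.univ) (t := Wc h)
      (fun g _ => idxG_mem h h2 ax g.1), Finset.sum_filter, Finset.mul_sum]
  apply Finset.sum_congr rfl
  intro w hw
  obtain ⟨l, hl, rfl⟩ := mem_Wp_iff h |>.mp ((mem_Wc h).mp hw)
  have hl' : ∀ i ∈ l, i < D.rank := fun i hi => hl i hi
  have hnN := nw_mem_monomial_aux h h2 ax hl'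
  obtain ⟨c0, Hn⟩ := exists_isNor_nw h h2 ax hl'
  have hfi := conj_fix_iff h h2 ax h2F hS hτT hnN Hn
  have hnN' : (nw D ax l)⁻¹ ∈ D.monomialSubgroup F := Subgroup.inv_mem _ hnN
  let E : {a // a ∈ (Finset.univ.filter fun c : ↥C => idxG h h2 ax c.1 = wPw h l)} ≃
      {g : GL D.Idx F // g ∈ cell D F (nw D ax l)⁻¹ ∧ tor D y * g * (tor D y)⁻¹ = g} :=
    { toFun := fun a => ⟨a.1.1.1, (idxG_eq_iff h h2 ax hl' a.1.1).mp (Finset.mem_filter.mp a.2).2, by
          have hc := Subgroup.mem_centralizer_iff.mp a.1.2 ⟨tor D y, hτ⟩ rfl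
          have hc' : tor D y * a.1.1.1 = a.1.1.1 * tor D y := congrArg Subtype.val hc
          rw [hc']
          group⟩
      invFun := fun g => ⟨⟨⟨g.1, cell_le_group h ax hnN' g.2.1⟩, by
          rw [Subgroup.mem_centralizer_iff]
          rintro x rfl
          apply Subtype.ext
          have e := g.2.2
          change tor D y * g.1 = g.1 * tor D y
          rw [← mul_inv_eq_iff_eq_mul]
          exact e⟩,
        Finset.mem_filter.mpr ⟨Finset.mem_univ _, (idxG_eq_iff h h2 ax hl' _).mpr g.2.1⟩⟩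
      left_inv := fun a => rfl
      right_inv := fun g => rfl }
  have hcard : (Finset.univ.filter fun c : ↥C => idxG h h2 ax c.1 = wPw h l).card =
      Nat.card {g : GL D.Idx F // g ∈ cell D F (nw D ax l)⁻¹ ∧ tor D y * g * (tor D y)⁻¹ = g} := by
    rw [← Nat.card_congr E, Nat.card_eq_fintype_card, Fintype.card_coe]
  rw [hcard]
  by_cases hf : FixS D Sel (wPw h l)
  · rw [if_pos hf, card_cell_fix h h2 ax h2F hS hτT hl' (hfi.mpr hf)]
    ring
  · rw [if_neg hf, mul_zero]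
    have hempty : IsEmpty {g : GL D.Idx F // g ∈ cell D F (nw D ax l)⁻¹ ∧ tor D y * g * (tor D y)⁻¹ = g} := by
      constructor
      rintro ⟨g, hg, hg'⟩
      exact hf (hfi.mp (cell_fix_forces h h2 ax hτT hl' hg hg'))
    exact Nat.card_of_isEmpty

end fix

end Cfsg.Agent.Lib.KS71.IVf
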