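/-
Elements normalizing a separating subgroup of the diagonal subgroup are monomial; the matrices of the Weyl group
on the root lattice.
-/
import Mathlib
import Cfsg.Agent.Lib.KS71.IVf
import Cfsg.Agent.Lib.KS71.HCa
import Cfsg.Agent.Lib.KS71.HCb

set_option autoImplicit false
set_option linter.unusedSectionVars false
set_option linter.unusedVariables false

namespace Cfsg.Agent.Lib.KS71.HCc

open scoped MatrixGroups Matrix Pointwise
open Cfsg Cfsg.Lie Cfsg.Lie.ChevalleyDatum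
open Cfsg.Agent.Lib.Chev.Tables Cfsg.Agent.Lib.Chev.Tables2 Cfsg.Agent.Lib.Chev.Tables3 Cfsg.Agent.Lib.Chev.Raise
open Cfsg.Agent.Lib.Chev.Basic Cfsg.Agent.Lib.Chev.AxBasic Cfsg.Agent.Lib.Chev.Torus
open Cfsg.Agent.Lib.Chev.Products Cfsg.Agent.Lib.Chev.Products2 Cfsg.Agent.Lib.Chev.Mono1
open Cfsg.Agent.Lib.Chev.Mono2 Cfsg.Agent.Lib.Chev.Mono3 Cfsg.Agent.Lib.Chev.Bn
open Cfsg.Agent.Lib.Chev.Order1 Cfsg.Agent.Lib.Chev.Order2 Cfsg.Agent.Lib.Chev.Parab
open Cfsg.Agent.Lib.Chev.Diag Cfsg.Agent.Lib.Chev.SL2 Cfsg.Agent.Lib.Chev.SL2Chev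
open Cfsg.Agent.Lib.KS71.ChevFix Cfsg.Agent.Lib.KS71.IVf

variable {D : ChevalleyDatum} {F : Type*} [Field F]
variable (h : Tab D) (h2 : Tab2 D) (ax : Ax D F)

include h h2 in
/-- An element of a root closure over a good list fixed by a separating family of torus elements is trivial. -/
lemma eq_one_of_fix {L : List ℕ} (hL : GoodList D L) {a : GL D.Idx F} (ha : a ∈ rootClosure ax (· ∈ L))
    (hsep : ∀ r ∈ L, ∃ y : ℕ → Fˣ, tor D y * a * (tor D y)⁻¹ = a ∧ chi D y r ≠ 1) : a = 1 := by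
  obtain ⟨t, rfl⟩ := exists_wordL ax h hL ha
  have h0 : ∀ r ∈ L, (fun _ => false : ℕ → Bool) r = false → t r = 0 := by
    intro r hr _
    obtain ⟨y, hy, hc⟩ := hsep r hr
    rw [conj_wordL h ax y (fun r hr => (hL.pos r hr).1)] at hy
    have e := wordL_inj ax h h2 hL hy r hr
    have e1 : ((chi D y r : Fˣ) : F) - 1 ≠ 0 := by
      intro e2
      apply hc
      apply Units.ext
      simpa using sub_eq_zero.mp e2
    have e2 : (((chi D y r : Fˣ) : F) - 1) * t r = 0 := by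
      linear_combination e
    exact (mul_eq_zero.mp e2).resolve_left e1
  rw [wordL_filter ax (fun _ => false) h0]
  simp [wordL_nil]

include h h2 ax in
/-- An element of the group normalizing a separating subgroup of the diagonal subgroup is monomial. -/
theorem mem_monomial_of_normalize [Finite F] {g : GL D.Idx F} (hg : g ∈ D.group F) (Q : Subgroup (GL D.Idx F))
    (hQH : Q ≤ D.diagonalSubgroup F) (hgQ : ∀ a ∈ Q, g * a * g⁻¹ ∈ Q) (hgQ' : ∀ a ∈ Q, g⁻¹ * a * g ∈ Q)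
    (hsep : ∀ r, r < D.nroots → ∃ y : ℕ → Fˣ, tor D y ∈ Q ∧ chi D y r ≠ 1) : g ∈ D.monomialSubgroup F := by
  obtain ⟨l, hl, a, ha, b, hb, rfl⟩ := exists_normal_form h h2 ax hg
  obtain ⟨u, hu, c, hc, rfl⟩ := (mem_borel_iff ax h).mp hb
  set n := nw D ax l with hn
  set g := a * n⁻¹ * (u * c) with hgdef
  obtain ⟨π, c0, Hn⟩ := exists_isNor h h2 ax (nw_mem_monomial_aux h h2 ax hl : n ∈ D.monomialSubgroup F)
  have hnH : ∀ τ ∈ D.diagonalSubgroup F, n * τ * n⁻¹ ∈ D.diagonalSubgroup F := fun τ hτ => Hn.conj_mem_H h ax hτ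
  -- the basic relation
  have key : ∀ τ ∈ Q, τ * a * τ⁻¹ = a ∧ (u * c) * (g⁻¹ * τ * g) = (n * τ * n⁻¹) * (u * c) := by
    intro τ hτ
    have hτH := hQH hτ
    have hτ₁ := hQH (hgQ' τ hτ)
    have hb1 : (u * c) * (g⁻¹ * τ * g) ∈ D.borelSubgroup F :=
      Subgroup.mul_mem _ hb ((le_sup_right : D.diagonalSubgroup F ≤ _) hτ₁)
    have hb2 : (n * τ * n⁻¹) * (u * c) ∈ D.borelSubgroup F :=
      Subgroup.mul_mem _ ((le_sup_right : D.diagonalSubgroup F ≤ _) (hnH τ hτH)) hb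
    have ha' : τ * a * τ⁻¹ ∈ rootClosure ax (Pm D l) := by
      obtain ⟨y, rfl⟩ := exists_tor_of_mem ax h hτH
      refine tor_conj_rootClosure ax h y (fun r hr => hr.1.1) ha
    have e : a * n⁻¹ * ((u * c) * (g⁻¹ * τ * g)) = (τ * a * τ⁻¹) * n⁻¹ * ((n * τ * n⁻¹) * (u * c)) := by
      calc a * n⁻¹ * ((u * c) * (g⁻¹ * τ * g)) = (a * n⁻¹ * (u * c)) * (g⁻¹ * τ * g) := by group
        _ = g * (g⁻¹ * τ * g) := rfl
        _ = τ * g := by group
        _ = τ * (a * n⁻¹ * (u * c)) := rfl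
        _ = _ := by group
    obtain ⟨e1, e2⟩ := normal_form_unique h h2 ax hl ha ha' hb1 hb2 e
    exact ⟨e1.symm, e2⟩
  -- `a = 1`
  have ha1 : a = 1 := by
    have hLm := goodList_Lm h (l := l) hl
    have ha2 : a ∈ rootClosure ax (· ∈ Lm D l) := by rw [rootClosure_Lm h h2 ax]; exact ha
    apply eq_one_of_fix h h2 ax hLm ha2
    intro r hr
    obtain ⟨y, hy, hne⟩ := hsep r (hLm.pos r hr).1
    exact ⟨y, (key _ hy).1, hne⟩
  -- `u` commutes with `Q`
  have hu1 : u = 1 := by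
    have hgl := goodList_posRoots h
    have hu2 : u ∈ rootClosure ax (· ∈ D.posRoots) := by
      rw [rootClosure_posRoots ax]
      exact hu
    apply eq_one_of_fix h h2 ax hgl hu2
    intro r hr
    obtain ⟨y, hy, hne⟩ := hsep r (hgl.pos r hr).1
    refine ⟨y, ?_, hne⟩
    set τ₁ := tor D y with hτ₁
    have hτ₁H := hQH hy
    set τ := g * τ₁ * g⁻¹ with hτ
    have hτQ : τ ∈ Q := hgQ _ hy
    have e1 := (key τ hτQ).2
    have e2 : g⁻¹ * τ * g = τ₁ := by rw [hτ]; group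
    rw [e2] at e1
    have hcc : c * τ₁ = τ₁ * c := diagonal_comm ax h hc hτ₁H
    have e3 : u * τ₁ = (n * τ * n⁻¹) * u := by
      have : u * τ₁ * c = (n * τ * n⁻¹) * u * c := by
        calc u * τ₁ * c = u * (τ₁ * c) := by group
          _ = u * (c * τ₁) := by rw [hcc]
          _ = (u * c) * τ₁ := by group
          _ = (n * τ * n⁻¹) * (u * c) := e1
          _ = _ := by group
      exact mul_right_cancel this
    -- `u τ₁ u⁻¹ τ₁⁻¹` lies in `U ∩ H`
    set τ₂ := n * τ * n⁻¹ with hτ₂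
    have hτ₂H : τ₂ ∈ D.diagonalSubgroup F := hnH τ (hQH hτQ)
    have h5 : u * (τ₁ * u⁻¹ * τ₁⁻¹) = τ₂ * τ₁⁻¹ := by
      calc u * (τ₁ * u⁻¹ * τ₁⁻¹) = (u * τ₁) * u⁻¹ * τ₁⁻¹ := by group
        _ = (τ₂ * u) * u⁻¹ * τ₁⁻¹ := by rw [e3]
        _ = _ := by group
    have h6 : τ₁ * u⁻¹ * τ₁⁻¹ ∈ D.posUnipotent F := diagonal_conj_U ax h hτ₁H (Subgroup.inv_mem _ hu)
    have h7 : u * (τ₁ * u⁻¹ * τ₁⁻¹) ∈ D.posUnipotent F ⊓ D.diagonalSubgroup F := by
      refine ⟨Subgroup.mul_mem _ hu h6, ?_⟩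
      rw [h5]
      exact Subgroup.mul_mem _ hτ₂H (Subgroup.inv_mem _ hτ₁H)
    rw [U_inf_H ax h] at h7
    have h8 : u * (τ₁ * u⁻¹ * τ₁⁻¹) = 1 := h7
    have h9 : τ₁ * u * τ₁⁻¹ = u := by
      have h10 : τ₁ * u⁻¹ * τ₁⁻¹ = u⁻¹ := by
        exact mul_left_cancel (a := u) (by rw [h8, mul_inv_cancel])
      have h11 : (τ₁ * u⁻¹ * τ₁⁻¹)⁻¹ = (u⁻¹)⁻¹ := by rw [h10]
      simpa [mul_assoc] using h11
    exact h9
  rw [hgdef, ha1, hu1]
  have hn1 := nw_mem_monomial_aux h h2 ax hl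
  have hc1 : c ∈ D.monomialSubgroup F := by
    rw [monomial_eq_monoS h h2 ax, monoS]
    exact (le_sup_left : D.diagonalSubgroup F ≤ _) hc
  simpa using Subgroup.mul_mem _ (Subgroup.inv_mem _ hn1) hc1

/-! ### The matrices of the Weyl group on the root lattice -/

/-- The matrix of a word: its columns are the coordinates of the images of the fundamental roots. -/
def Aw (D : ChevalleyDatum) (l : List ℕ) : Matrix (Fin D.rank) (Fin D.rank) ℤ :=
  fun j k => coef D (wWord D l (D.simple k)) j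

include h in
omit h2 ax in
lemma Aw_nil : Aw D [] = 1 := by
  ext j k
  simp only [Aw, wWord, List.foldr_nil]
  rw [h.coef_simple k k.isLt j j.isLt, Matrix.one_apply]
  simp [Fin.ext_iff]

/-- The coordinates of a root. -/
def crd (D : ChevalleyDatum) (s : ℕ) : Fin D.rank → ℤ := fun j => coef D s j

include h in
omit h2 ax in
lemma Aw_crd {l : List ℕ} (hl : ∀ i ∈ l, i < D.rank) {s : ℕ} (hs : s < D.nroots) :
    (Aw D l).mulVec (crd D s) = crd D (wWord D l s) := by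
  funext j
  show ∑ k : Fin D.rank, coef D (wWord D l (D.simple k)) j * coef D s k = _
  have := coef_wWord h hl hs j.isLt
  rw [crd, this, ← Fin.sum_univ_eq_sum_range (fun k => coef D s k * coef D (wWord D l (D.simple k)) j)]
  exact Finset.sum_congr rfl fun k _ => mul_comm _ _

include h in
omit h2 ax in
lemma Aw_append {l l' : List ℕ} (hl : ∀ i ∈ l, i < D.rank) (hl' : ∀ i ∈ l', i < D.rank) :
    Aw D (l ++ l') = Aw D l * Aw D l' := by
  ext j k
  have e : wWord D (l ++ l') (D.simple k) = wWord D l (wWord D l' (D.simple k)) := by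
    simp [wWord, List.foldr_append]
  have h1 := wWord_lt h hl' (h.simple_lt k k.isLt)
  rw [Matrix.mul_apply]
  show coef D (wWord D (l ++ l') (D.simple k)) j = ∑ m : Fin D.rank, coef D (wWord D l (D.simple m)) j * coef D (wWord D l' (D.simple k)) m
  rw [e, coef_wWord h hl h1 j.isLt, ← Fin.sum_univ_eq_sum_range (fun m => coef D (wWord D l' (D.simple k)) m * coef D (wWord D l (D.simple m)) j)]
  exact Finset.sum_congr rfl fun m _ => mul_comm _ _

include h in
omit h2 ax in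
/-- The matrix only depends on the permutation. -/
lemma Aw_eq_of_wPw {l l' : List ℕ} (hl : ∀ i ∈ l, i < D.rank) (hl' : ∀ i ∈ l', i < D.rank)
    (e : wPw h l = wPw h l') : Aw D l = Aw D l' := by
  ext j k
  show coef D (wWord D l (D.simple k)) j = coef D (wWord D l' (D.simple k)) j
  have hs := h.simple_lt k k.isLt
  have e1 := wPw_val h hl ⟨_, hs⟩
  have e2 := wPw_val h hl' ⟨_, hs⟩
  rw [e] at e1
  rw [← e1.symm.trans e2]

include h in
omit h2 ax in
lemma Aw_pow {l : List ℕ} (hl : ∀ i ∈ l, i < D.rank) (m : ℕ) :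
    ∃ l' : List ℕ, (∀ i ∈ l', i < D.rank) ∧ wPw h l' = wPw h l ^ m ∧ Aw D l' = Aw D l ^ m := by
  induction m with
  | zero => exact ⟨[], by simp, by simp, by simpa using Aw_nil h⟩
  | succ m ih =>
    obtain ⟨l', h1, h2', h3⟩ := ih
    refine ⟨l' ++ l, ?_, ?_, ?_⟩
    · intro i hi
      rcases List.mem_append.mp hi with hi | hi
      · exact h1 i hi
      · exact hl i hi
    · rw [wPw_append, h2', pow_succ]
    · rw [Aw_append h h1 hl, h3, pow_succ]

include h in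
omit h2 ax in
/-- The matrix of an element of the Weyl group has finite order. -/
lemma Aw_pow_card {l : List ℕ} (hl : ∀ i ∈ l, i < D.rank) : Aw D l ^ (Wc h).card = 1 := by
  classical
  obtain ⟨l', h1, h2', h3⟩ := Aw_pow h hl (Wc h).card
  have hmem : wPw h l ∈ Wp h (Set.Iio D.rank) := mem_Wp_iff h |>.2 ⟨l, fun i hi => hl i hi, rfl⟩
  have hc : Nat.card (Wp h (Set.Iio D.rank)) = (Wc h).card := by
    rw [Nat.card_eq_fintype_card]
    exact Fintype.card_of_subtype (Wc h) (fun w => mem_Wc h)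
  have e : wPw h l ^ (Wc h).card = 1 := by
    rw [← hc]
    have := pow_card_eq_one' (x := (⟨wPw h l, hmem⟩ : Wp h (Set.Iio D.rank)))
    exact congrArg Subtype.val this
  rw [e] at h2'
  rw [← h3, Aw_eq_of_wPw h h1 (l' := []) (by simp) (by simpa using h2')]
  exact Aw_nil h

end Cfsg.Agent.Lib.KS71.HCc
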