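/-
Valuations for the Sylow subgroups of Chevalley groups.
-/
import Mathlib
import Cfsg.Agent.Lib.Zsig.Basic

set_option autoImplicit false

namespace Cfsg.Agent.Lib.KS71.HCd

open Polynomial Cfsg.Agent.Lib.Zsig.Basic

variable {r : ℕ} [hr : Fact r.Prime]

lemma pow_sub_one_pos {q e : ℕ} (hq : 2 ≤ q) (he : 0 < e) : 0 < q ^ e - 1 := by
  have : 1 < q ^ e := Nat.one_lt_pow he.ne' (by omega)
  omega

lemma cast_pow_sub_one {q e : ℕ} (hq : 2 ≤ q) : ((q ^ e - 1 : ℕ) : ZMod r) = (q : ZMod r) ^ e - 1 := by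
  rw [Nat.cast_sub (Nat.one_le_pow _ _ (by omega))]
  simp

lemma dvd_iff_pow_eq_one {q e : ℕ} (hq : 2 ≤ q) : r ∣ q ^ e - 1 ↔ (q : ZMod r) ^ e = 1 := by
  rw [← ZMod.natCast_eq_zero_iff, cast_pow_sub_one hq, sub_eq_zero]

/-- `Φ_d(q)` carries the `r`-part of `q ^ d - 1`. -/
lemma val_phi {q d : ℕ} (hq : 2 ≤ q) (hd : orderOf (q : ZMod r) = d) (hd0 : 0 < d) :
    padicValNat r (q ^ d - 1) = padicValNat r (Phi d q) := by
  classical
  have h1 : ((q : ℤ) ^ d - 1) = ∏ k ∈ d.divisors, (cyclotomic k ℤ).eval (q : ℤ) := by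
    have := congrArg (Polynomial.eval (q : ℤ)) (prod_cyclotomic_eq_X_pow_sub_one hd0 ℤ)
    simp only [eval_sub, eval_pow, eval_X, eval_one, eval_prod] at this
    exact this.symm
  have h2 : q ^ d - 1 = Phi d q * ∏ k ∈ d.properDivisors, Phi k q := by
    have h3 : ((q : ℤ) ^ d - 1).natAbs = q ^ d - 1 := by
      rw [← natCast_pow_sub_one (by omega), Int.natAbs_natCast]
    rw [← h3, h1, ← Nat.insert_self_properDivisors hd0.ne', Finset.prod_insert Nat.self_notMem_properDivisors,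
      Int.natAbs_mul]
    have h9 : (∏ k ∈ d.properDivisors, (cyclotomic k ℤ).eval (q : ℤ)).natAbs = ∏ k ∈ d.properDivisors, Phi k q :=
      map_prod Int.natAbsHom _ _
    rw [h9]
    rfl
  have hpos := pow_sub_one_pos (e := d) hq hd0
  have h4 : ¬ r ∣ ∏ k ∈ d.properDivisors, Phi k q := by
    intro hdvd
    obtain ⟨k, hk, hrk⟩ := (Prime.dvd_finsetProd_iff hr.out.prime _).1 hdvd
    have hk1 := Nat.mem_properDivisors.mp hk
    have hk0 : 0 < k := Nat.pos_of_mem_properDivisors hk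
    have h5 : r ∣ q ^ k - 1 := hrk.trans (Phi_dvd (by omega) hk0)
    have h6 := (dvd_iff_pow_eq_one hq).1 h5
    have h7 := orderOf_dvd_of_pow_eq_one h6
    rw [hd] at h7
    have := Nat.le_of_dvd hk0 h7
    omega
  have hne1 : Phi d q ≠ 0 := by
    intro e0
    rw [h2, e0, zero_mul] at hpos
    omega
  have hne2 : ∏ k ∈ d.properDivisors, Phi k q ≠ 0 := by
    intro e0
    rw [h2, e0, mul_zero] at hpos
    omega
  rw [h2, padicValNat.mul hne1 hne2, padicValNat.eq_zero_of_not_dvd h4, add_zero]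

/-- The valuation of `q ^ e - 1` for `d ∣ e`. -/
lemma val_pow {q d e : ℕ} (hq : 2 ≤ q) (hodd : Odd r) (hrq : ¬ r ∣ q) (hd : orderOf (q : ZMod r) = d) (hd0 : 0 < d)
    (hde : d ∣ e) (he : 0 < e) (hre : ¬ r ∣ e) : padicValNat r (q ^ e - 1) = padicValNat r (q ^ d - 1) := by
  obtain ⟨c, rfl⟩ := hde
  have hc : c ≠ 0 := by
    rintro rfl
    simp at he
  have h1 : (1 : ℕ) < q ^ d := Nat.one_lt_pow hd0.ne' (by omega)
  have h2 : r ∣ q ^ d - 1 := by
    rw [dvd_iff_pow_eq_one hq, ← hd]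
    exact pow_orderOf_eq_one _
  have h3 : ¬ r ∣ q ^ d := fun h4 => hrq (hr.out.dvd_of_dvd_pow h4)
  have h4 := padicValNat.pow_sub_pow hodd h1 h2 h3 hc
  rw [one_pow, ← pow_mul] at h4
  rw [h4, padicValNat.eq_zero_of_not_dvd (fun h5 => hre (h5.trans (dvd_mul_left _ _))), add_zero]

/-- The valuation of the product over the degrees. -/
lemma val_prod {q d : ℕ} (hq : 2 ≤ q) (hodd : Odd r) (hrq : ¬ r ∣ q) (hd : orderOf (q : ZMod r) = d) (hd0 : 0 < d)
    (ds : List ℕ) (hds : ∀ e ∈ ds, 0 < e ∧ ¬ r ∣ e) :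
    padicValNat r (ds.map fun e => q ^ e - 1).prod = padicValNat r (q ^ d - 1) * (ds.filter fun e => d ∣ e).length := by
  induction ds with
  | nil => simp
  | cons e ds ih =>
    have he := hds e (by simp)
    have ih' := ih fun x hx => hds x (by simp [hx])
    have hne1 : q ^ e - 1 ≠ 0 := (pow_sub_one_pos hq he.1).ne'
    have hne2 : (ds.map fun e => q ^ e - 1).prod ≠ 0 := by
      apply List.prod_ne_zero
      intro h0
      obtain ⟨x, hx, e0⟩ := List.mem_map.mp h0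
      exact (pow_sub_one_pos hq (hds x (by simp [hx])).1).ne' e0
    rw [List.map_cons, List.prod_cons, padicValNat.mul hne1 hne2, ih']
    by_cases hde : d ∣ e
    · rw [List.filter_cons_of_pos (by simpa using hde), List.length_cons, val_pow hq hodd hrq hd hd0 hde he.1 he.2]
      ring
    · rw [List.filter_cons_of_neg (by simpa using hde)]
      have : ¬ r ∣ q ^ e - 1 := by
        rw [dvd_iff_pow_eq_one hq]
        intro h1
        exact hde (hd ▸ orderOf_dvd_of_pow_eq_one h1)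
      rw [padicValNat.eq_zero_of_not_dvd this, zero_add]

/-- The order of a Sylow subgroup. -/
theorem card_sylow {G : Type*} [Group G] [Finite G] {q d dd N : ℕ} (hq : 2 ≤ q) (hodd : Odd r) (hrq : ¬ r ∣ q)
    (hd : orderOf (q : ZMod r) = d) (hd0 : 0 < d)
    (ds : List ℕ) (hds : ∀ e ∈ ds, 0 < e ∧ ¬ r ∣ e) (hdd : ¬ r ∣ dd)
    (hc : dd * Nat.card G = q ^ N * (ds.map fun e => q ^ e - 1).prod) (P : Sylow r G) :
    Nat.card P = r ^ (padicValNat r (Phi d q) * (ds.filter fun e => d ∣ e).length) := by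
  have hne2 : (ds.map fun e => q ^ e - 1).prod ≠ 0 := by
    apply List.prod_ne_zero
    intro h0
    obtain ⟨x, hx, e0⟩ := List.mem_map.mp h0
    exact (pow_sub_one_pos hq (hds x hx).1).ne' e0
  have hq0 : q ^ N ≠ 0 := pow_ne_zero _ (by omega)
  have hG0 : Nat.card G ≠ 0 := Nat.card_pos.ne'
  have hdd0 : dd ≠ 0 := by
    rintro rfl
    exact hdd (dvd_zero _)
  have h1 : padicValNat r (dd * Nat.card G) = padicValNat r (Nat.card G) := by
    rw [padicValNat.mul hdd0 hG0, padicValNat.eq_zero_of_not_dvd hdd, zero_add]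
  have h2 : padicValNat r (q ^ N * (ds.map fun e => q ^ e - 1).prod) = padicValNat r (ds.map fun e => q ^ e - 1).prod := by
    rw [padicValNat.mul hq0 hne2, padicValNat.eq_zero_of_not_dvd (fun h3 => hrq (hr.out.dvd_of_dvd_pow h3)), zero_add]
  rw [Sylow.card_eq_multiplicity, Nat.factorization_def _ hr.out, ← h1, hc, h2, val_prod hq hodd hrq hd hd0 ds hds,
    val_phi hq hd hd0]

end Cfsg.Agent.Lib.KS71.HCd
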