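/-
Sylow subgroups of Chevalley groups for primes away from the Weyl group: the main argument.
-/
import Mathlib
import Cfsg.Agent.Lib.KS71.HCc
import Cfsg.Agent.Lib.KS71.HCd
import Cfsg.Agent.Lib.Chev.Order3
import Cfsg.Agent.Lib.Lie.AxOf

set_option autoImplicit false
set_option linter.unusedSectionVars false
set_option linter.unusedVariables false

namespace Cfsg.Agent.Lib.KS71.HCf

open scoped MatrixGroups Matrix Pointwise
open Cfsg Cfsg.Lie Cfsg.Lie.ChevalleyDatum
open Cfsg.Agent.Lib.Chev.Tables Cfsg.Agent.Lib.Chev.Tables2 Cfsg.Agent.Lib.Chev.Tables3 Cfsg.Agent.Lib.Chev.Raise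
open Cfsg.Agent.Lib.Chev.Basic Cfsg.Agent.Lib.Chev.AxBasic Cfsg.Agent.Lib.Chev.Torus
open Cfsg.Agent.Lib.Chev.Products Cfsg.Agent.Lib.Chev.Products2 Cfsg.Agent.Lib.Chev.Mono1
open Cfsg.Agent.Lib.Chev.Mono2 Cfsg.Agent.Lib.Chev.Mono3 Cfsg.Agent.Lib.Chev.Bn
open Cfsg.Agent.Lib.Chev.Order1 Cfsg.Agent.Lib.Chev.Order2 Cfsg.Agent.Lib.Chev.Parab
open Cfsg.Agent.Lib.Chev.Diag Cfsg.Agent.Lib.Chev.SL2 Cfsg.Agent.Lib.Chev.SL2Chev
open Cfsg.Agent.Lib.Chev.Order3
open Cfsg.Agent.Lib.KS71.ChevFix Cfsg.Agent.Lib.KS71.IVf Cfsg.Agent.Lib.KS71.HCa Cfsg.Agent.Lib.KS71.HCb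
open Cfsg.Agent.Lib.KS71.HCc

/-! ### Extensions of finite fields -/

/-- An extension with its Frobenius map. -/
theorem exists_extension (F : Type*) [Field F] [Fintype F] (d : ℕ) (hd : 0 < d) :
    ∃ (E : Type) (_ : Field E) (_ : Fintype E) (σ : E ≃+* E) (ι : F →+* E),
      Fintype.card E = Fintype.card F ^ d ∧ (∀ x, σ x = x ^ Fintype.card F) ∧ ∀ a, σ (ι a) = ι a := by
  classical
  obtain ⟨p, hp⟩ := CharP.exists F
  haveI : Fact p.Prime := ⟨CharP.char_is_prime F p⟩
  haveI : NeZero d := ⟨hd.ne'⟩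
  let E := FiniteField.Extension F p d
  haveI : Fintype E := Fintype.ofFinite E
  let σ : E ≃ₐ[F] E := FiniteField.Extension.frob F p d
  have hσ : ∀ x : E, σ x = x ^ Fintype.card F := by
    intro x
    have := FiniteField.Extension.frob_apply F p d (x := x)
    rw [Nat.card_eq_fintype_card] at this
    exact this
  refine ⟨E, inferInstance, inferInstance, σ.toRingEquiv, algebraMap F E, ?_, hσ, ?_⟩
  · have := FiniteField.natCard_extension F p d
    rw [Nat.card_eq_fintype_card, Nat.card_eq_fintype_card] at this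
    exact this
  · intro a
    exact σ.commutes a

/-! ### Abstract group theory -/

section abstract

variable {G : Type*} [Group G] [Finite G]

/-- A subgroup of index prime to `r` contains a Sylow subgroup. -/
lemma exists_sylow_le {r : ℕ} [Fact r.Prime] (H : Subgroup G) (hr : ¬ r ∣ H.index) :
    ∃ Q : Sylow r G, (Q : Subgroup G) ≤ H := by
  obtain ⟨S⟩ : Nonempty (Sylow r H) := inferInstance
  have h1 : IsPGroup r ((S : Subgroup H).map H.subtype) := S.isPGroup'.map _
  have h2 : ¬ r ∣ ((S : Subgroup H).map H.subtype).index := by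
    rw [Subgroup.index_map_subtype]
    intro h3
    rcases (Fact.out : r.Prime).dvd_mul.mp h3 with h4 | h4
    · exact S.not_dvd_index h4
    · exact hr h4
  refine ⟨h1.toSylow h2, ?_⟩
  exact Subgroup.map_subtype_le _

/-- An `r`-element of an abelian subgroup containing a Sylow subgroup lies in the Sylow subgroup. -/
lemma mem_sylow_of_pow {r k : ℕ} [Fact r.Prime] (Q : Sylow r G) (H : Subgroup G) (hQ : (Q : Subgroup G) ≤ H)
    (hab : ∀ a ∈ H, ∀ b ∈ H, a * b = b * a) {x : G} (hx : x ∈ H) (hk : x ^ (r ^ k) = 1) : x ∈ (Q : Subgroup G) := by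
  have h1 : IsPGroup r (Subgroup.zpowers x) := by
    rintro ⟨z, n, rfl⟩
    refine ⟨k, ?_⟩
    apply Subtype.ext
    show ((x ^ n) ^ r ^ k) = 1
    rw [← zpow_natCast, ← zpow_mul, mul_comm, zpow_mul, zpow_natCast, hk, one_zpow]
  have h2 : x ∈ Subgroup.normalizer ((Q : Subgroup G) : Set G) := by
    rw [Subgroup.mem_normalizer_iff]
    intro a
    constructor
    · intro ha
      have e : x * a * x⁻¹ = a := by
        rw [hab x hx a (hQ ha)]
        group
      rw [e]
      exact ha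
    · intro ha
      have hb := hQ ha
      have e : x * (x * a * x⁻¹) * x⁻¹ = x * a * x⁻¹ := by
        rw [hab x hx _ hb]
        group
      have e2 : a = x * a * x⁻¹ := by
        have hax : a ∈ H := by
          have : a = x⁻¹ * (x * a * x⁻¹) * x := by group
          rw [this]
          exact H.mul_mem (H.mul_mem (H.inv_mem hx) hb) hx
        rw [hab x hx a hax]
        group
      rw [e2]
      exact ha
  have h3 := h1.inf_normalizer_sylow Q
  exact (h3.le ⟨Subgroup.mem_zpowers x, h2⟩).2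

end abstract

/-! ### The torus -/

section torus

variable {D : ChevalleyDatum} {E : Type*} [Field E]
variable (h : Tab D) (h2 : Tab2 D) (ax : Ax D E)

include h in
omit h2 ax in
lemma eq_one_of_tor {y : ℕ → Eˣ} (e : tor D y = 1) {j : ℕ} (hj : j < D.rank) : y j = 1 := by
  have hp := h.simple_lt j hj
  have h3 := congrArg (fun g : GL D.Idx E => (g : Matrix D.Idx D.Idx E) (Sum.inr ⟨D.simple j, hp⟩) (Sum.inr ⟨D.simple j, hp⟩)) e
  have h4 : chi D y (D.simple j) = 1 := by
    simp [tor, diagG, torD] at h3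
    exact h3
  rw [chi_simple h _ hj] at h4
  exact h4

include h in
omit h2 ax in
lemma tor_eq_iff {y y' : ℕ → Eˣ} : tor D y = tor D y' ↔ ∀ j, j < D.rank → y j = y' j := by
  constructor
  · intro e j hj
    have e1 : tor D (y * y'⁻¹) = 1 := by
      rw [tor_mul, ← tor_inv, e, mul_inv_cancel]
    have e2 := eq_one_of_tor h e1 hj
    simpa [mul_inv_eq_one] using e2
  · intro e
    apply tor_eq_of_chi
    intro s _
    rw [chi, chi]
    refine Finset.prod_congr rfl fun i hi => ?_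
    rw [e i (Finset.mem_range.mp hi)]

omit h h2 ax in
lemma tor_pow (y : ℕ → Eˣ) (n : ℕ) : tor D y ^ n = tor D (y ^ n) := by
  have := map_pow (torHom D (F := E)) y n
  exact this.symm

include h h2 ax in
/-- `r`-torsion elements of the big torus lie in the diagonal subgroup, when the index is prime to `r`. -/
lemma tor_mem_of_torsion [Fintype E] {r dd : ℕ} [hr : Fact r.Prime]
    (hdd : dd * Nat.card (D.diagonalSubgroup E) = (Fintype.card E - 1) ^ D.rank) (hrd : ¬ r ∣ dd)
    (y : ℕ → Eˣ) (hy : ∀ i, i < D.rank → y i ^ r = 1) : tor D y ∈ D.diagonalSubgroup E := by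
  classical
  let f := mact (cartanM D) (G := Eˣ)
  have hk := card_diag_mul (F := E) h h2 ax
  rw [Nat.card_eq_fintype_card (α := E)] at hk
  have hHpos : 0 < Nat.card (D.diagonalSubgroup E) := Nat.card_pos
  have hker : Nat.card f.ker = dd := by
    have e : Nat.card (D.diagonalSubgroup E) * Nat.card f.ker = Nat.card (D.diagonalSubgroup E) * dd := by
      rw [hk, ← hdd, mul_comm]
    exact Nat.eq_of_mul_eq_mul_left hHpos e
  -- injectivity on the `r`-torsion
  let Ω := {x : Fin D.rank → Eˣ // x ^ r = 1}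
  let f₁ : Ω → Ω := fun x => ⟨f x.1, by rw [← map_pow, x.2, map_one]⟩
  have hf₁ : Function.Injective f₁ := by
    intro a b hab
    have e1 : f a.1 = f b.1 := congrArg Subtype.val hab
    have e2 : a.1 * b.1⁻¹ ∈ f.ker := by
      rw [MonoidHom.mem_ker, map_mul, map_inv, e1, mul_inv_cancel]
    have e3 : (a.1 * b.1⁻¹) ^ r = 1 := by
      rw [mul_pow, inv_pow, a.2, b.2]
      simp
    by_contra hne
    have e4 : a.1 * b.1⁻¹ ≠ 1 := by
      intro e5
      apply hne
      exact Subtype.ext (mul_inv_eq_one.mp e5)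
    have e6 : orderOf (a.1 * b.1⁻¹) = r := orderOf_eq_prime e3 e4
    have e7 : orderOf (⟨_, e2⟩ : f.ker) = r := (Subgroup.orderOf_mk _ _).trans e6
    have e8 := orderOf_dvd_natCard (⟨_, e2⟩ : f.ker)
    rw [e7, hker] at e8
    exact hrd e8
  have hf₂ := Finite.surjective_of_injective hf₁
  obtain ⟨c, hc⟩ := hf₂ ⟨fun j => y j, by
    funext j
    exact hy j j.isLt⟩
  have hc' : f c.1 = fun j : Fin D.rank => y j := congrArg Subtype.val hc
  have e9 : tor D y = tor D (psi D (extU D c.1)) := by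
    rw [tor_eq_iff h]
    intro j hj
    have e10 := congrFun hc' ⟨j, hj⟩
    rw [psi_apply, ← Fin.prod_univ_eq_prod_range (fun i => (extU D c.1 i) ^ pair D (D.simple i) (D.simple j))]
    show y j = _
    rw [← e10]
    show mact (cartanM D) c.1 ⟨j, hj⟩ = _
    rw [mact_apply]
    refine Finset.prod_congr rfl fun i _ => ?_
    rw [pair_simple h2 i.isLt]
    simp [extU, cartanM]
  rw [e9]
  exact tor_psi_mem h h2 ax _

omit h h2 ax in
lemma pow_card_sub_one [Fintype E] (y : ℕ → Eˣ) : tor D y ^ (Fintype.card E - 1) = 1 := by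
  classical
  rw [tor_pow]
  have : y ^ (Fintype.card E - 1) = 1 := by
    funext i
    have h1 := pow_card_eq_one' (x := y i)
    rw [Nat.card_eq_fintype_card, Fintype.card_units] at h1
    simpa using h1
  rw [this, tor_one]

include h h2 ax in
/-- A Sylow subgroup inside the diagonal subgroup. -/
lemma exists_sylow_diag [Fintype E] {r : ℕ} [hr : Fact r.Prime] (hE : ((Fintype.card E : ℕ) : ZMod r) = 1)
    (hW : ¬ r ∣ (Wc h).card) : ∃ Q : Sylow r ↥(D.group E), ∀ x ∈ (Q : Subgroup ↥(D.group E)),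
      (x : GL D.Idx E) ∈ D.diagonalSubgroup E := by
  classical
  have hle := diagonal_le_group (F := E) h ax
  let H' : Subgroup ↥(D.group E) := (D.diagonalSubgroup E).subgroupOf (D.group E)
  have hc1 : Nat.card H' = Nat.card (D.diagonalSubgroup E) :=
    Nat.card_congr (Subgroup.subgroupOfEquivOfLe hle).toEquiv
  have hc2 := Subgroup.card_mul_index H'
  have hc3 := card_group_final (F := E) h h2 ax
  set I := Fintype.card E ^ (D.nroots / 2) * ∑ w ∈ Wc h, Fintype.card E ^ Nw D w with hI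
  have hidx : H'.index = I := by
    have hpos : 0 < Nat.card (D.diagonalSubgroup E) := Nat.card_pos
    apply Nat.eq_of_mul_eq_mul_left hpos
    rw [← hc1, hc2, hc3, hc1, hI]
    ring
  have hrI : ¬ r ∣ I := by
    rw [← ZMod.natCast_eq_zero_iff, hI]
    push_cast
    rw [hE]
    simp only [one_pow, one_mul, Finset.sum_const, nsmul_eq_mul, mul_one]
    rw [ZMod.natCast_eq_zero_iff]
    exact hW
  obtain ⟨Q, hQ⟩ := exists_sylow_le (r := r) H' (by rw [hidx]; exact hrI)
  exact ⟨Q, fun x hx => hQ hx⟩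

end torus

/-! ### The twisted action -/

section twist

variable {D : ChevalleyDatum} {E : Type*} [Field E] [Finite E]
variable (h : Tab D) (h2 : Tab2 D) (ax : Ax D E)

/-- The automorphism of the group given by an automorphism of the field. -/
noncomputable def sAut (h : Tab D) (ax : Ax D E) (σ : E ≃+* E) : ↥(D.group E) ≃* ↥(D.group E) :=
  MulEquiv.ofBijective
    (MonoidHom.codRestrict ((mapX D (σ : E →+* E)).comp (D.group E).subtype) (D.group E)
      (fun x => mapX_group ax ax (σ : E →+* E) h x.2))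
    (Finite.injective_iff_bijective.mp (by
      intro a b hab
      apply Subtype.ext
      exact mapX_injective (σ : E →+* E) (congrArg Subtype.val hab)))

omit h2 in
lemma coe_sAut (σ : E ≃+* E) (x : ↥(D.group E)) : ((sAut h ax σ x : ↥(D.group E)) : GL D.Idx E) = mapX D (σ : E →+* E) x := rfl

lemma mapX_tor_frob {q : ℕ} (σ : E ≃+* E) (hσ : ∀ x, σ x = x ^ q) (y : ℕ → Eˣ) :
    mapX D (σ : E →+* E) (tor D y) = tor D (y ^ q) := by
  rw [mapX_tor]
  congr 1
  funext i
  apply Units.ext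
  simp [hσ]

lemma chi_pow (y : ℕ → Eˣ) (n : ℕ) (s : ℕ) : chi D (y ^ n) s = chi D y s ^ n := by
  rw [chi, chi, ← Finset.prod_pow]
  refine Finset.prod_congr rfl fun i _ => ?_
  rw [Pi.pow_apply, ← zpow_natCast, ← zpow_natCast, ← zpow_mul, ← zpow_mul, mul_comm]

include h h2 in
/-- The main step: a subgroup of the group fixed by a field automorphism lies in a conjugate of the Sylow subgroup
of the torus, and the automorphism acts there as an element of the Weyl group. -/
theorem twist_chev {r q : ℕ} [Fact r.Prime] (σ : E ≃+* E) (hσ : ∀ x, σ x = x ^ q) (Q₀ : Sylow r ↥(D.group E))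
    (hQ₀ : ∀ x ∈ (Q₀ : Subgroup ↥(D.group E)), (x : GL D.Idx E) ∈ D.diagonalSubgroup E)
    (hpow : ∀ x : ↥(D.group E), (x : GL D.Idx E) ∈ D.diagonalSubgroup E → ∀ k : ℕ, x ^ (r ^ k) = 1 → x ∈ (Q₀ : Subgroup ↥(D.group E)))
    (hsep : ∀ s, s < D.nroots → ∃ y : ℕ → Eˣ, ∃ hy : tor D y ∈ D.group E,
      (⟨tor D y, hy⟩ : ↥(D.group E)) ∈ (Q₀ : Subgroup ↥(D.group E)) ∧ chi D y s ≠ 1)
    (P' : Subgroup ↥(D.group E)) (hP' : IsPGroup r P') (hfix : ∀ p ∈ P', sAut h ax σ p = p) :
    ∃ x : ↥(D.group E), ∃ l : List ℕ, (∀ i ∈ l, i < D.rank) ∧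
      (∀ p ∈ P', x⁻¹ * p * x ∈ (Q₀ : Subgroup ↥(D.group E))) ∧
      ∀ p ∈ P', ∀ y : ℕ → Eˣ, ((x⁻¹ * p * x : ↥(D.group E)) : GL D.Idx E) = tor D y →
        ∀ t, t < D.nroots → chi D y (wWord D l t) = chi D y t ^ q := by
  classical
  have hab : ∀ a ∈ (Q₀ : Subgroup ↥(D.group E)), ∀ b ∈ (Q₀ : Subgroup ↥(D.group E)), a * b = b * a := by
    intro a ha b hb
    apply Subtype.ext
    exact diagonal_comm ax h (hQ₀ a ha) (hQ₀ b hb)
  have hs : ∀ a ∈ (Q₀ : Subgroup ↥(D.group E)), sAut h ax σ a ∈ (Q₀ : Subgroup ↥(D.group E)) := by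
    intro a ha
    obtain ⟨k, hk⟩ := Q₀.isPGroup' ⟨a, ha⟩
    have hk' : a ^ r ^ k = 1 := congrArg Subtype.val hk
    refine hpow _ ?_ k ?_
    · rw [coe_sAut]
      exact mapX_H ax ax (σ : E →+* E) (hQ₀ a ha)
    · rw [← map_pow, hk', map_one]
  obtain ⟨x, n, h1, h3, h4⟩ := exists_twist (sAut h ax σ) P' hP' hfix Q₀ hab hs
  -- `n` is monomial
  have hn' : ∀ a ∈ (Q₀ : Subgroup ↥(D.group E)), n⁻¹ * a * n ∈ (Q₀ : Subgroup ↥(D.group E)) := by
    intro a ha
    obtain ⟨b, hb, rfl⟩ := map_sylow_surj (MulAut.conj n) (by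
      intro c hc
      rw [MulAut.conj_apply]
      exact h3 c hc) ha
    rw [MulAut.conj_apply]
    have e : n⁻¹ * (n * b * n⁻¹) * n = b := by group
    rw [e]
    exact hb
  let Q : Subgroup (GL D.Idx E) := (Q₀ : Subgroup ↥(D.group E)).map (D.group E).subtype
  have hnm : (n : GL D.Idx E) ∈ D.monomialSubgroup E := by
    refine mem_monomial_of_normalize h h2 ax n.2 Q ?_ ?_ ?_ ?_
    · rintro _ ⟨a, ha, rfl⟩
      exact hQ₀ a ha
    · rintro _ ⟨a, ha, rfl⟩
      exact ⟨_, h3 a ha, rfl⟩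
    · rintro _ ⟨a, ha, rfl⟩
      exact ⟨_, hn' a ha, rfl⟩
    · intro s hs'
      obtain ⟨y, hy, h5, h6⟩ := hsep s hs'
      exact ⟨y, ⟨_, h5, rfl⟩, h6⟩
  obtain ⟨π, c0, Hn⟩ := exists_isNor h h2 ax hnm
  have hπ : π ∈ Wp h (Set.Iio D.rank) := by
    have := piN_mem_Wp h h2 ax ⟨(n : GL D.Idx E), hnm⟩
    rwa [piN_of_isNor h h2 ax (g := ⟨(n : GL D.Idx E), hnm⟩) Hn] at this
  obtain ⟨l, hl, rfl⟩ := (mem_Wp_iff h).1 hπ
  have hl' : ∀ i ∈ l, i < D.rank := fun i hi => hl i hi
  refine ⟨x, l, hl', h1, ?_⟩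
  intro p hp y hy t ht
  have e1 := h4 p hp
  have e2 := congrArg (Subtype.val) e1
  have e3 : ((sAut h ax σ (x⁻¹ * p * x) : ↥(D.group E)) : GL D.Idx E) = tor D (y ^ q) := by
    rw [coe_sAut, hy, mapX_tor_frob σ hσ]
  have e4 : (n : GL D.Idx E) * tor D (y ^ q) * (n : GL D.Idx E)⁻¹ = tor D y := by
    rw [← e3, ← hy]
    exact e2
  have e5 := conj_tor_chi h h2 ax Hn (y ^ q) y e4 ⟨t, ht⟩
  rw [chi_pow] at e5
  rw [← e5]
  congr 1
  exact (wPw_val h hl' ⟨t, ht⟩).symm

end twist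

end Cfsg.Agent.Lib.KS71.HCf
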