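/-
Sylow subgroups of Chevalley groups for primes away from the Weyl group: homocyclic, given the bound on the
eigenspaces of the Weyl group.
-/
import Mathlib
import Cfsg.Agent.Lib.KS71.HCf

set_option autoImplicit false
set_option linter.unusedSectionVars false
set_option linter.unusedVariables false

namespace Cfsg.Agent.Lib.KS71.HCg

open scoped MatrixGroups Matrix Pointwise
open Cfsg Cfsg.Lie Cfsg.Lie.ChevalleyDatum Module
open Cfsg.Agent.Lib.Chev.Tables Cfsg.Agent.Lib.Chev.Tables2 Cfsg.Agent.Lib.Chev.Tables3 Cfsg.Agent.Lib.Chev.Raise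
open Cfsg.Agent.Lib.Chev.Basic Cfsg.Agent.Lib.Chev.AxBasic Cfsg.Agent.Lib.Chev.Torus
open Cfsg.Agent.Lib.Chev.Products Cfsg.Agent.Lib.Chev.Products2 Cfsg.Agent.Lib.Chev.Mono1
open Cfsg.Agent.Lib.Chev.Mono2 Cfsg.Agent.Lib.Chev.Mono3 Cfsg.Agent.Lib.Chev.Bn
open Cfsg.Agent.Lib.Chev.Order1 Cfsg.Agent.Lib.Chev.Order2 Cfsg.Agent.Lib.Chev.Parab
open Cfsg.Agent.Lib.Chev.Diag Cfsg.Agent.Lib.Chev.SL2 Cfsg.Agent.Lib.Chev.SL2Chev
open Cfsg.Agent.Lib.Chev.Order3
open Cfsg.Agent.Lib.KS71.ChevFix Cfsg.Agent.Lib.KS71.IVf Cfsg.Agent.Lib.KS71.HCa Cfsg.Agent.Lib.KS71.HCb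
open Cfsg.Agent.Lib.KS71.HCc Cfsg.Agent.Lib.KS71.HCd Cfsg.Agent.Lib.KS71.HCf
open Cfsg.Agent.Lib.Zsig.Basic

variable {D : ChevalleyDatum} {F : Type*} [Field F] [Fintype F]

/-- The embedding of the group over a subfield. -/
noncomputable def iotaHom {E : Type*} [Field E] (h : Tab D) (axF : Ax D F) (axE : Ax D E) (ι : F →+* E) :
    ↥(D.group F) →* ↥(D.group E) :=
  MonoidHom.codRestrict ((mapX D ι).comp (D.group F).subtype) (D.group E)
    (fun x => mapX_group axF axE ι h x.2)

lemma iotaHom_injective {E : Type*} [Field E] (h : Tab D) (axF : Ax D F) (axE : Ax D E) (ι : F →+* E) :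
    Function.Injective (iotaHom h axF axE ι) := by
  intro a b hab
  apply Subtype.ext
  exact mapX_injective ι (congrArg Subtype.val hab)

lemma sAut_iota {E : Type*} [Field E] [Finite E] (h : Tab D) (axF : Ax D F) (axE : Ax D E) (ι : F →+* E) (σ : E ≃+* E)
    (hσι : ∀ a, σ (ι a) = ι a) (g : ↥(D.group F)) : sAut h axE σ (iotaHom h axF axE ι g) = iotaHom h axF axE ι g := by
  apply Subtype.ext
  rw [coe_sAut]
  apply Units.ext
  show ((mapX D (σ : E →+* E)) ((mapX D ι) g.1) : GL D.Idx E).1 = ((mapX D ι) g.1 : GL D.Idx E).1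
  rw [coe_mapX, coe_mapX]
  refine Matrix.ext fun i j => ?_
  exact hσι _

section main

variable (h : Tab D) (h2 : Tab2 D)

/-- A primitive root gives exponents. -/
lemma exists_exp {E : Type*} [Field E] {r : ℕ} [hr : Fact r.Prime] {lam : Eˣ} (hl : orderOf lam = r) (u : Eˣ)
    (hu : u ^ r = 1) : ∃ n : ℕ, lam ^ n = u := by
  have h1 : IsPrimitiveRoot (lam : E) r := by
    have := IsPrimitiveRoot.orderOf lam
    rw [hl] at this
    exact (IsPrimitiveRoot.coe_units_iff).2 this
  have h2 : (u : E) ^ r = 1 := by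
    have := congrArg Units.val hu
    simpa using this
  obtain ⟨i, _, hi⟩ := h1.eq_pow_of_pow_eq_one h2
  refine ⟨i, ?_⟩
  apply Units.ext
  simpa using hi

lemma zpow_sum_fin {G : Type*} [CommGroup G] {n : ℕ} (c : G) (f : Fin n → ℤ) : c ^ (∑ j, f j) = ∏ j, c ^ f j := by
  classical
  have key : ∀ S : Finset (Fin n), c ^ (∑ j ∈ S, f j) = ∏ j ∈ S, c ^ f j := by
    intro S
    induction S using Finset.induction_on with
    | empty => simp
    | insert a s ha ih => rw [Finset.sum_insert ha, Finset.prod_insert ha, zpow_add, ih]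
  exact key _

include h h2 in
/-- The main theorem, given the bound on the eigenspaces. -/
theorem sylow_main (hD : D ∈ [chevG2, chevB2, chevD4, chevF4, chevE6, chevE7, chevE8]) {q : ℕ}
    (hq : Fintype.card F = q) (ds : List ℕ) {r : ℕ} [hr : Fact r.Prime] (hrq : ¬ r ∣ q) (hodd : Odd r)
    (hWc : (Wc h).card = ds.prod) (hrW : ¬ r ∣ ds.prod) (hds : ∀ e ∈ ds, 0 < e ∧ ¬ r ∣ e)
    (hcard : ∃ dd N, ¬ r ∣ dd ∧ dd * Nat.card (D.group F) = q ^ N * (ds.map fun e => q ^ e - 1).prod)
    (hdd : ∀ (K : Type) [Field K] [Fintype K], ∃ dd, ¬ r ∣ dd ∧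
      dd * Nat.card (D.diagonalSubgroup K) = (Fintype.card K - 1) ^ D.rank)
    (hcoef : ∀ s, s < D.nroots → ∃ i, i < D.rank ∧ ¬ (r : ℤ) ∣ coef D s i)
    (hbound : ∀ l : List ℕ, (∀ i ∈ l, i < D.rank) →
      finrank (ZMod r) (Module.End.eigenspace (Matrix.toLin' ((Aw D l)ᵀ.map (Int.castRingHom (ZMod r)))) (q : ZMod r)) ≤
        (ds.filter fun e => orderOf (q : ZMod r) ∣ e).length)
    (P : Sylow r ↥(D.group F)) :
    Nonempty (↥(P : Subgroup ↥(D.group F)) ≃* (Fin (ds.filter fun e => orderOf (q : ZMod r) ∣ e).length →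
      Multiplicative (ZMod (r ^ padicValNat r ((Polynomial.cyclotomic (orderOf (q : ZMod r)) ℤ).eval (q : ℤ)).natAbs)))) := by
  classical
  set d := orderOf (q : ZMod r) with hd
  set a := (ds.filter fun e => d ∣ e).length with ha
  have hq2 : 2 ≤ q := by
    rw [← hq]
    exact Fintype.one_lt_card
  have hq0 : (q : ZMod r) ≠ 0 := by
    rw [Ne, ZMod.natCast_eq_zero_iff]
    exact hrq
  have hfin : IsOfFinOrder (q : ZMod r) := by
    rw [isOfFinOrder_iff_pow_eq_one]
    exact ⟨r - 1, by have := hr.out.two_le; omega, ZMod.pow_card_sub_one_eq_one hq0⟩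
  have hd0 : 0 < d := hfin.orderOf_pos
  have hqd : (q : ZMod r) ^ d = 1 := pow_orderOf_eq_one _
  set v := padicValNat r (Phi d q) with hv
  change Nonempty (↥(P : Subgroup ↥(D.group F)) ≃* (Fin a → Multiplicative (ZMod (r ^ v))))
  have hval := val_phi (r := r) hq2 hd.symm hd0
  have hrdvd : r ∣ q ^ d - 1 := (dvd_iff_pow_eq_one hq2).2 hqd
  have hv0 : 0 < v := by
    rw [hv, ← hval]
    haveI : Fact r.Prime := hr
    exact one_le_padicValNat_of_dvd (pow_sub_one_pos hq2 hd0).ne' hrdvd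
  -- the card of `P`
  obtain ⟨dd, N, hrdd, hcG⟩ := hcard
  have hcP : Nat.card P = r ^ (v * a) := card_sylow hq2 hodd hrq hd.symm hd0 ds hds hrdd hcG P
  -- the extension
  obtain ⟨E, _, _, σ, ι, hcE, hσ, hσι⟩ := exists_extension F d hd0
  rw [hq] at hcE hσ
  have axE : Ax D E := Cfsg.Agent.Lib.Lie.AxOf.ax_of_mem (F := E) hD
  have axF : Ax D F := Cfsg.Agent.Lib.Lie.AxOf.ax_of_mem (F := F) hD
  have hE1 : ((Fintype.card E : ℕ) : ZMod r) = 1 := by
    rw [hcE]
    push_cast
    exact hqd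
  have hW : ¬ r ∣ (Wc h).card := by rw [hWc]; exact hrW
  obtain ⟨Q₀, hQ₀⟩ := exists_sylow_diag h h2 axE hE1 hW
  let H' : Subgroup ↥(D.group E) := (D.diagonalSubgroup E).subgroupOf (D.group E)
  have hQH' : (Q₀ : Subgroup ↥(D.group E)) ≤ H' := fun x hx => hQ₀ x hx
  have hH'ab : ∀ a ∈ H', ∀ b ∈ H', a * b = b * a := by
    intro a ha b hb
    apply Subtype.ext
    exact diagonal_comm axE h ha hb
  have hpow : ∀ x : ↥(D.group E), (x : GL D.Idx E) ∈ D.diagonalSubgroup E → ∀ k : ℕ, x ^ (r ^ k) = 1 →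
      x ∈ (Q₀ : Subgroup ↥(D.group E)) := fun x hx k hk => mem_sylow_of_pow Q₀ H' hQH' hH'ab hx hk
  -- an element of order `r`
  have hrE : r ∣ Nat.card Eˣ := by
    rw [Nat.card_eq_fintype_card, Fintype.card_units, hcE]
    exact hrdvd
  obtain ⟨lam, hlam⟩ : ∃ lam : Eˣ, orderOf lam = r := by
    haveI : Fact r.Prime := hr
    exact exists_prime_orderOf_dvd_card' r hrE
  have hlr : lam ^ r = 1 := by rw [← hlam]; exact pow_orderOf_eq_one _
  obtain ⟨dE, hrdE, hdE⟩ := hdd E
  -- separation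
  have hsep : ∀ s, s < D.nroots → ∃ y : ℕ → Eˣ, ∃ hy : tor D y ∈ D.group E,
      (⟨tor D y, hy⟩ : ↥(D.group E)) ∈ (Q₀ : Subgroup ↥(D.group E)) ∧ chi D y s ≠ 1 := by
    intro s hs
    obtain ⟨i, hi, hci⟩ := hcoef s hs
    let y : ℕ → Eˣ := fun j => if j = i then lam else 1
    have hy1 : ∀ j, y j ^ r = 1 := by
      intro j
      by_cases hj : j = i
      · simp [y, hj, hlr]
      · simp [y, hj]
    have hyH : tor D y ∈ D.diagonalSubgroup E := tor_mem_of_torsion h h2 axE hdE hrdE y (fun j _ => hy1 j)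
    have hyG := diagonal_le_group h axE hyH
    refine ⟨y, hyG, hpow _ hyH 1 ?_, ?_⟩
    · apply Subtype.ext
      show tor D y ^ (r ^ 1) = 1
      rw [pow_one, tor_pow]
      have : y ^ r = 1 := funext hy1
      rw [this, tor_one]
    · rw [chi, Finset.prod_eq_single i]
      · simp only [y, if_true]
        intro e
        have := orderOf_dvd_iff_zpow_eq_one.mpr e
        rw [hlam] at this
        exact hci this
      · intro j _ hj
        simp [y, hj]
      · intro hn
        exact absurd (Finset.mem_range.mpr hi) hn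
  -- the subgroup
  let ιh := iotaHom h axF axE ι
  let P' : Subgroup ↥(D.group E) := (P : Subgroup ↥(D.group F)).map ιh
  have hP' : IsPGroup r P' := P.isPGroup'.map _
  have hfix : ∀ p ∈ P', sAut h axE σ p = p := by
    rintro _ ⟨g, _, rfl⟩
    exact sAut_iota h axF axE ι σ hσι g
  obtain ⟨x, l, hl, h1, h4⟩ := twist_chev h h2 axE σ hσ Q₀ hQ₀ hpow hsep P' hP' hfix
  -- conjugation
  let c : ↥(D.group F) →* ↥(D.group E) := (MulAut.conj x⁻¹).toMonoidHom.comp ιh
  have hc : ∀ g, c g = x⁻¹ * ιh g * x := by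
    intro g
    simp [c, MulAut.conj_apply]
  have hcinj : Function.Injective c := by
    intro a b hab
    apply iotaHom_injective h axF axE ι
    exact (MulAut.conj x⁻¹).injective hab
  have hcQ : ∀ p ∈ (P : Subgroup ↥(D.group F)), c p ∈ (Q₀ : Subgroup ↥(D.group E)) := by
    intro p hp
    rw [hc]
    exact h1 _ ⟨p, hp, rfl⟩
  -- commutativity
  have hcomm : ∀ a b : ↥(P : Subgroup ↥(D.group F)), a * b = b * a := by
    intro a b
    apply Subtype.ext
    apply hcinj
    show c (a.1 * b.1) = c (b.1 * a.1)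
    rw [map_mul, map_mul]
    apply Subtype.ext
    exact diagonal_comm axE h (hQ₀ _ (hcQ a.1 a.2)) (hQ₀ _ (hcQ b.1 b.2))
  -- the exponent
  have hexpQ : ∀ t ∈ (Q₀ : Subgroup ↥(D.group E)), t ^ (r ^ v) = 1 := by
    intro t ht
    obtain ⟨k, hk⟩ := Q₀.isPGroup' ⟨t, ht⟩
    have hk' : t ^ r ^ k = 1 := congrArg Subtype.val hk
    obtain ⟨y, hy⟩ := exists_tor_of_mem axE h (hQ₀ t ht)
    have h5 : t ^ (Fintype.card E - 1) = 1 := by
      apply Subtype.ext
      show (t : GL D.Idx E) ^ (Fintype.card E - 1) = 1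
      rw [hy]
      exact pow_card_sub_one y
    have h6 : orderOf t ∣ r ^ k := orderOf_dvd_of_pow_eq_one hk'
    obtain ⟨m, _, hm⟩ := (Nat.dvd_prime_pow hr.out).1 h6
    have h7 : orderOf t ∣ q ^ d - 1 := by
      rw [← hcE]
      exact orderOf_dvd_of_pow_eq_one h5
    rw [hm] at h7
    have h8 : m ≤ v := by
      rw [hv, ← hval]
      haveI : Fact r.Prime := hr
      exact (padicValNat_dvd_iff_le (pow_sub_one_pos hq2 hd0).ne').1 h7
    apply orderOf_dvd_iff_pow_eq_one.mp
    rw [hm]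
    exact pow_dvd_pow _ h8
  have hexp : ∀ p : ↥(P : Subgroup ↥(D.group F)), p ^ (r ^ v) = 1 := by
    intro p
    apply Subtype.ext
    apply hcinj
    show c (p.1 ^ r ^ v) = c 1
    rw [map_pow, map_one]
    exact hexpQ _ (hcQ p.1 p.2)
  -- the solutions of `x ^ r = 1`
  let M := (Aw D l)ᵀ.map (Int.castRingHom (ZMod r))
  let V := Module.End.eigenspace (Matrix.toLin' M) (q : ZMod r)
  have hom : Nat.card {p : ↥(P : Subgroup ↥(D.group F)) // p ^ r = 1} ≤ r ^ a := by
    have hparam : ∀ p : {p : ↥(P : Subgroup ↥(D.group F)) // p ^ r = 1}, ∃ (y : ℕ → Eˣ) (n : ℕ → ℕ),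
        ((c p.1.1 : ↥(D.group E)) : GL D.Idx E) = tor D y ∧ ∀ j, j < D.rank → lam ^ n j = y j := by
      intro p
      obtain ⟨y, hy⟩ := exists_tor_of_mem axE h (hQ₀ _ (hcQ p.1.1 p.1.2))
      have h5 : tor D (y ^ r) = 1 := by
        rw [← tor_pow, ← hy]
        have h6 : c p.1.1 ^ r = 1 := by
          rw [← map_pow]
          have := congrArg Subtype.val p.2
          rw [show (p.1.1 ^ r) = ((p.1 ^ r : ↥(P : Subgroup ↥(D.group F))) : ↥(D.group F)) from rfl, this]
          simp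
        exact congrArg Subtype.val h6
      have h7 : ∀ j, j < D.rank → ∃ n : ℕ, lam ^ n = y j := by
        intro j hj
        have := eq_one_of_tor h h5 hj
        exact exists_exp hlam _ (by simpa using this)
      choose! n hn using h7
      exact ⟨y, n, hy, hn⟩
    choose y n hy hn using hparam
    let f : {p : ↥(P : Subgroup ↥(D.group F)) // p ^ r = 1} → V := fun p =>
      ⟨fun j => (n p j : ZMod r), by
        rw [Module.End.mem_eigenspace_iff]
        funext k
        have e1 := h4 (ιh p.1.1) ⟨p.1.1, p.1.2, rfl⟩ (y p) (by rw [← hc]; exact hy p) _ (h.simple_lt k k.isLt)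
        rw [chi_simple h _ k.isLt, ← hn p k k.isLt, chi] at e1
        have e2 : ∏ i ∈ Finset.range D.rank, y p i ^ coef D (wWord D l (D.simple k)) i =
            lam ^ (∑ j : Fin D.rank, (n p j : ℤ) * coef D (wWord D l (D.simple k)) j) := by
          rw [← Fin.prod_univ_eq_prod_range (fun i => y p i ^ coef D (wWord D l (D.simple k)) i), zpow_sum_fin]
          refine Finset.prod_congr rfl fun j _ => ?_
          rw [zpow_mul, zpow_natCast, hn p j j.isLt]
        rw [e2] at e1
        have e3 : lam ^ ((∑ j : Fin D.rank, (n p j : ℤ) * coef D (wWord D l (D.simple k)) j) - (q : ℤ) * (n p k : ℤ)) = 1 := by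
          have e0 : lam ^ ((q : ℤ) * (n p k : ℤ)) = (lam ^ n p k) ^ q := by
            rw [mul_comm, zpow_mul, zpow_natCast, zpow_natCast]
          rw [zpow_sub, e1, e0, mul_inv_cancel]
        have e4 := orderOf_dvd_iff_zpow_eq_one.mpr e3
        rw [hlam] at e4
        have e5 := (ZMod.intCast_zmod_eq_zero_iff_dvd _ r).2 e4
        push_cast at e5
        show (M.mulVec fun j => (n p j : ZMod r)) k = ((q : ZMod r) • fun j : Fin D.rank => (n p j : ZMod r)) k
        rw [Pi.smul_apply, smul_eq_mul, Matrix.mulVec, dotProduct]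
        have e6 : ∑ j : Fin D.rank, M k j * (n p j : ZMod r) = ∑ j : Fin D.rank, ((n p j : ZMod r) * ((coef D (wWord D l (D.simple k)) j : ℤ) : ZMod r)) := by
          refine Finset.sum_congr rfl fun j _ => ?_
          rw [mul_comm]
          rfl
        rw [e6]
        exact sub_eq_zero.mp e5⟩
    have hf : Function.Injective f := by
      intro p p' e
      have e1 : ∀ j : Fin D.rank, (n p j : ZMod r) = (n p' j : ZMod r) := fun j =>
        congrFun (congrArg Subtype.val e) j
      have e2 : tor D (y p) = tor D (y p') := by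
        rw [tor_eq_iff h]
        intro j hj
        have e3 := e1 ⟨j, hj⟩
        rw [ZMod.natCast_eq_natCast_iff] at e3
        rw [← hn p j hj, ← hn p' j hj]
        have e4 := (pow_eq_pow_iff_modEq (x := lam) (n := n p j) (m := n p' j)).2 (by rw [hlam]; exact e3)
        exact e4
      have e3 : c p.1.1 = c p'.1.1 := by
        apply Subtype.ext
        rw [hy p, hy p', e2]
      exact Subtype.ext (Subtype.ext (hcinj e3))
    have h5 := Nat.card_le_card_of_injective f hf
    have h6 : Nat.card V = r ^ finrank (ZMod r) V := by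
      rw [Module.natCard_eq_pow_finrank (K := ZMod r), Nat.card_zmod]
    rw [h6] at h5
    exact h5.trans (Nat.pow_le_pow_right hr.out.pos (hbound l hl))
  letI : CommGroup ↥(P : Subgroup ↥(D.group F)) := { (inferInstance : Group ↥(P : Subgroup ↥(D.group F))) with mul_comm := hcomm }
  exact iso_of_card hv0 hexp hcP hom

end main

end Cfsg.Agent.Lib.KS71.HCg
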