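/-
The bound on the eigenspaces of the Weyl group: generic lemmas.
-/
import Mathlib
import Cfsg.Agent.Lib.KS71.HCg

set_option autoImplicit false
set_option linter.unusedSectionVars false
set_option linter.unusedVariables false

namespace Cfsg.Agent.Lib.KS71.HCh

open scoped MatrixGroups Matrix
open Polynomial Module
open Cfsg Cfsg.Lie Cfsg.Lie.ChevalleyDatum
open Cfsg.Agent.Lib.Chev.Tables Cfsg.Agent.Lib.Chev.Tables2 Cfsg.Agent.Lib.Chev.Tables3 Cfsg.Agent.Lib.Chev.Raise
open Cfsg.Agent.Lib.Chev.Basic Cfsg.Agent.Lib.Chev.AxBasic Cfsg.Agent.Lib.Chev.Torus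
open Cfsg.Agent.Lib.Chev.Products Cfsg.Agent.Lib.Chev.Products2 Cfsg.Agent.Lib.Chev.Mono1
open Cfsg.Agent.Lib.Chev.Mono2 Cfsg.Agent.Lib.Chev.Mono3 Cfsg.Agent.Lib.Chev.Bn
open Cfsg.Agent.Lib.Chev.Order1 Cfsg.Agent.Lib.Chev.Order2 Cfsg.Agent.Lib.Chev.Parab
open Cfsg.Agent.Lib.Chev.Diag Cfsg.Agent.Lib.Chev.SL2 Cfsg.Agent.Lib.Chev.SL2Chev
open Cfsg.Agent.Lib.KS71.HCb Cfsg.Agent.Lib.KS71.HCc

section multiset

variable {E : Multiset ℕ}

lemma filter_split (E : Multiset ℕ) (d : ℕ) :
    E = Multiset.replicate (E.count d) d + E.filter (· ≠ d) := by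
  conv_lhs => rw [← Multiset.filter_add_not (· = d) E]
  congr 1
  ext a
  simp only [Multiset.count_filter, Multiset.count_replicate]
  by_cases h : a = d
  · subst h; simp
  · simp [h, Ne.symm h]

lemma sum_totient_split (E : Multiset ℕ) (d : ℕ) :
    (E.map Nat.totient).sum = E.count d * d.totient + ((E.filter (· ≠ d)).map Nat.totient).sum := by
  conv_lhs => rw [filter_split E d]
  rw [Multiset.map_add, Multiset.sum_add, Multiset.map_replicate, Multiset.sum_replicate, smul_eq_mul]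

lemma card_le_sum_totient {E : Multiset ℕ} (hE : ∀ e ∈ E, 0 < e) : Multiset.card E ≤ (E.map Nat.totient).sum := by
  induction E using Multiset.induction with
  | empty => simp
  | cons a s ih =>
    rw [Multiset.map_cons, Multiset.sum_cons, Multiset.card_cons]
    have h1 := ih fun e he => hE e (Multiset.mem_cons_of_mem he)
    have h2 : 0 < a.totient := Nat.totient_pos.2 (hE a (Multiset.mem_cons_self _ _))
    omega

end multiset

section generic

variable {D : ChevalleyDatum} (h : Tab D)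
variable {r : ℕ} [hr : Fact r.Prime]

include h in
/-- The factorization for the matrix of a word. -/
lemma exists_E {l : List ℕ} (hl : ∀ i ∈ l, i < D.rank) (hpos : 0 < (Wc h).card) :
    ∃ E : Multiset ℕ, (∀ e ∈ E, 0 < e ∧ e ∣ (Wc h).card) ∧
      (Aw D l).charpoly = (E.map fun e => cyclotomic e ℤ).prod ∧ ((Aw D l)ᵀ).charpoly = (E.map fun e => cyclotomic e ℤ).prod ∧
      (E.map Nat.totient).sum = D.rank := by
  obtain ⟨E, hE, hc⟩ := exists_cyclo (Aw D l) hpos (Aw_pow_card h hl)
  refine ⟨E, hE, hc, ?_, charpoly_natDegree _ hc⟩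
  rw [Matrix.charpoly_transpose, hc]

include h in
/-- The bound in the general case. -/
theorem bound_of_le {l : List ℕ} (hl : ∀ i ∈ l, i < D.rank) (hrW : ¬ r ∣ (Wc h).card) (ζ : ZMod r) {a : ℕ}
    (hd0 : 0 < orderOf ζ) (hle : D.rank / (orderOf ζ).totient ≤ a) :
    finrank (ZMod r) (Module.End.eigenspace (Matrix.toLin' ((Aw D l)ᵀ.map (Int.castRingHom (ZMod r)))) ζ) ≤ a := by
  have hpos : 0 < (Wc h).card := by
    rcases Nat.eq_zero_or_pos (Wc h).card with e | e
    · rw [e] at hrW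
      exact absurd (dvd_zero _) hrW
    · exact e
  obtain ⟨E, hE, hc, hc', hs⟩ := exists_E h hl hpos
  have h1 := eig_le (Aw D l)ᵀ hE hc' hrW ζ _ rfl
  refine h1.trans ?_
  have h2 := count_mul_totient_le (E := E) (orderOf ζ)
  rw [hs] at h2
  refine le_trans ?_ hle
  exact (Nat.le_div_iff_mul_le (Nat.totient_pos.2 hd0)).2 h2

end generic

section lattice

variable {n : ℕ}

/-- The bilinear form. -/
def B (G : Matrix (Fin n) (Fin n) ℤ) (x y : Fin n → ℤ) : ℤ := x ⬝ᵥ (G.mulVec y)

lemma B_add_left (G : Matrix (Fin n) (Fin n) ℤ) (x x' y : Fin n → ℤ) : B G (x + x') y = B G x y + B G x' y := by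
  simp [B, add_dotProduct]

lemma B_add_right (G : Matrix (Fin n) (Fin n) ℤ) (x y y' : Fin n → ℤ) : B G x (y + y') = B G x y + B G x y' := by
  simp [B, Matrix.mulVec_add, dotProduct_add]

lemma B_smul_left (G : Matrix (Fin n) (Fin n) ℤ) (c : ℤ) (x y : Fin n → ℤ) : B G (c • x) y = c * B G x y := by
  unfold B
  rw [smul_dotProduct, smul_eq_mul]

lemma B_smul_right (G : Matrix (Fin n) (Fin n) ℤ) (c : ℤ) (x y : Fin n → ℤ) : B G x (c • y) = c * B G x y := by
  unfold B
  rw [Matrix.mulVec_smul, dotProduct_smul, smul_eq_mul]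

lemma B_symm {G : Matrix (Fin n) (Fin n) ℤ} (hG : Gᵀ = G) (x y : Fin n → ℤ) : B G x y = B G y x := by
  rw [B, B, Matrix.dotProduct_mulVec, dotProduct_comm, ← Matrix.mulVec_transpose, hG]

lemma B_iso {G A : Matrix (Fin n) (Fin n) ℤ} (hA : Aᵀ * G * A = G) (x y : Fin n → ℤ) :
    B G (A.mulVec x) (A.mulVec y) = B G x y := by
  rw [B, B]
  conv_rhs => rw [← hA]
  rw [← Matrix.vecMul_transpose, ← Matrix.dotProduct_mulVec, Matrix.mulVec_mulVec, Matrix.mulVec_mulVec, Matrix.mul_assoc]

/-- Even lattices. -/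
lemma B_even {G : Matrix (Fin n) (Fin n) ℤ} (hG : Gᵀ = G) (hev : ∀ i, Even (G i i)) (x : Fin n → ℤ) : Even (B G x x) := by
  classical
  have h1 : B G x x = ∑ p : Fin n × Fin n, x p.1 * (G p.1 p.2 * x p.2) := by
    rw [B, dotProduct, Fintype.sum_prod_type]
    refine Finset.sum_congr rfl fun i _ => ?_
    rw [Matrix.mulVec, dotProduct, Finset.mul_sum]
  rw [h1, even_iff_two_dvd]
  have h2 : ((∑ p : Fin n × Fin n, x p.1 * (G p.1 p.2 * x p.2) : ℤ) : ZMod 2) = 0 := by
    push_cast
    apply Finset.sum_involution (fun p _ => (p.2, p.1))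
    · intro p _
      have e : G p.2 p.1 = G p.1 p.2 := congrFun (congrFun hG p.1) p.2
      simp only [e]
      have e2 : ∀ a : ZMod 2, a + a = 0 := by decide
      have e3 : ((x p.2 : ZMod 2) * (((G p.1 p.2 : ℤ) : ZMod 2) * (x p.1 : ZMod 2))) =
        ((x p.1 : ZMod 2) * (((G p.1 p.2 : ℤ) : ZMod 2) * (x p.2 : ZMod 2))) := by ring
      rw [e3]
      exact e2 _
    · intro p _ hne e
      apply hne
      have e1 : p.2 = p.1 := congrArg Prod.fst e
      rw [e1]
      have e2 : ((G p.1 p.1 : ℤ) : ZMod 2) = 0 := by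
        rw [ZMod.intCast_zmod_eq_zero_iff_dvd]
        exact_mod_cast (even_iff_two_dvd.mp (hev p.1))
      rw [e2]
      ring
    · intro p _
      exact Finset.mem_univ _
    · intro p _
      rfl
  have h3 := (ZMod.intCast_zmod_eq_zero_iff_dvd _ 2).1 h2
  exact_mod_cast h3

/-- The algebra of the mod 2 argument: no isometry of an even lattice squares to minus a reflection. -/
theorem no_sqrt {G A : Matrix (Fin n) (Fin n) ℤ} (hG : Gᵀ = G) (hev : ∀ i, Even (G i i)) (hiso : Aᵀ * G * A = G)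
    (α y : Fin n → ℤ) (hα : B G α α = 2)
    (hT : ∀ x : Fin n → ℤ, A.mulVec (A.mulVec x) + x = B G x α • α) (hy : Odd (B G y α)) : False := by
  classical
  set w := fun x => A.mulVec x with hw
  have hwadd : ∀ a b, w (a + b) = w a + w b := fun a b => Matrix.mulVec_add _ _ _
  have hwsmul : ∀ (c : ℤ) a, w (c • a) = c • w a := fun c a => Matrix.mulVec_smul _ _ _
  -- (1) `B (w y) α` is even
  have h1 : Even (B G (w y) α) := by
    have e1 : B G (w (w y)) (w y) = B G (w y) y := B_iso hiso _ _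
    have e2 : w (w y) = B G y α • α - y := by
      rw [eq_sub_iff_add_eq]
      exact hT y
    rw [e2, sub_eq_add_neg, B_add_left, B_smul_left] at e1
    have e3 : B G (-y) (w y) = - B G y (w y) := by
      have := B_smul_left G (-1) y (w y)
      simpa using this
    rw [e3, B_symm hG y (w y)] at e1
    rw [B_symm hG α (w y)] at e1
    have e4 : B G y α * B G (w y) α = 2 * B G (w y) y := by linarith
    have e5 : Even (B G y α * B G (w y) α) := by
      rw [e4]
      exact even_two_mul _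
    rcases Int.even_mul.mp e5 with e6 | e6
    · exact absurd e6 (Int.not_even_iff_odd.mpr hy)
    · exact e6
  -- (2) `z = w y + y`
  set z := w y + y with hz
  have h2 : Odd (B G z α) := by
    rw [hz, B_add_left]
    exact h1.add_odd hy
  -- (3) compare the two expressions
  have e3 : (w (w z) + z) + (2 : ℤ) • w z = B G z α • α + (2 : ℤ) • w z := by rw [hT z]
  have e4 : w (w z) + z + (2 : ℤ) • w z = (B G y α • (w α + α)) + (2 : ℤ) • (w (w y) + w y) := by
    have e5 : w (w y) + y = B G y α • α := hT y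
    have e6 : w z = w (w y) + w y := hwadd _ _
    have e7 : w (w z) = w (w (w y)) + w (w y) := by rw [e6, hwadd]
    have e8 : w (w (w y)) + w y = B G y α • w α := by
      rw [← hwsmul, ← e5, hwadd]
    have e9 : B G y α • α = w (w y) + y := e5.symm
    rw [e7, e6, hz, smul_add (B G y α) (w α) α, ← e8, e9]
    simp only [two_smul]
    abel
  have e5 : ∀ j, (2 : ℤ) ∣ (w α) j := by
    intro j
    have e6 := congrFun (e3.symm.trans e4) j
    simp only [Pi.add_apply, Pi.smul_apply, smul_eq_mul] at e6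
    obtain ⟨a, ha⟩ := h2
    obtain ⟨b, hb⟩ := hy
    rw [ha, hb] at e6
    refine ⟨(a - b) * α j - (b * ((w α) j)) + (w z j - (w (w y) j + w y j)), ?_⟩
    linarith
  -- (4) the norm
  choose v hv using e5
  have hv' : w α = (2 : ℤ) • v := by
    funext j
    simp [hv j]
  have e6 : B G (w α) (w α) = 2 := by
    rw [← hα]
    exact B_iso hiso _ _
  rw [hv', B_smul_left, B_smul_right] at e6
  obtain ⟨c, hc⟩ := B_even hG hev v
  rw [hc] at e6
  omega

/-- Eigenvectors for a simple eigenvalue are proportional. -/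
theorem minors_of_simple (A : Matrix (Fin n) (Fin n) ℤ) (ε : ℤ) (g : ℤ[X]) (hc : A.charpoly = g * (X - C ε))
    (hg : g.eval ε ≠ 0) (u v : Fin n → ℤ) (hu : A.mulVec u = ε • u) (hv : A.mulVec v = ε • v) (i j : Fin n) :
    u i * v j = u j * v i := by
  classical
  let φ : ℤ →+* ℚ := Int.castRingHom ℚ
  let A' : Matrix (Fin n) (Fin n) ℚ := A.map φ
  have hc' : A'.charpoly = g.map φ * (X - C (ε : ℚ)) := by
    rw [Matrix.charpoly_map, hc, Polynomial.map_mul]
    simp [φ]
  have hg' : ¬ IsRoot (g.map φ) (ε : ℚ) := by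
    rw [IsRoot, Polynomial.eval_intCast_map]
    intro e
    exact hg (by simpa [φ] using e)
  have hne : g.map φ ≠ 0 := by
    intro e
    apply hg'
    rw [e]
    simp
  have h1 := LinearMap.finrank_eigenspace_le (Matrix.toLin' A') (ε : ℚ)
  rw [Matrix.charpoly_toLin', hc', rootMultiplicity_mul (mul_ne_zero hne (X_sub_C_ne_zero _)),
    rootMultiplicity_eq_zero hg', rootMultiplicity_X_sub_C_self, zero_add] at h1
  obtain ⟨w, hw⟩ := finrank_le_one_iff.mp h1
  have hcast : ∀ x : Fin n → ℤ, A.mulVec x = ε • x → (fun i => (x i : ℚ)) ∈ Module.End.eigenspace (Matrix.toLin' A') (ε : ℚ) := by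
    intro x hx
    rw [Module.End.mem_eigenspace_iff]
    funext i
    have h2 := congrFun hx i
    simp only [Matrix.toLin'_apply, Pi.smul_apply, smul_eq_mul]
    simp only [Pi.smul_apply, smul_eq_mul, Matrix.mulVec, dotProduct] at h2
    have h3 : ((∑ j, A i j * x j : ℤ) : ℚ) = ((ε * x i : ℤ) : ℚ) := by rw [h2]
    push_cast at h3
    simpa [Matrix.mulVec, dotProduct, A', φ] using h3
  obtain ⟨c₁, hc₁⟩ := hw ⟨_, hcast u hu⟩
  obtain ⟨c₂, hc₂⟩ := hw ⟨_, hcast v hv⟩
  have e1 : ∀ k, c₁ * (w : Fin n → ℚ) k = (u k : ℚ) := fun k => congrFun (congrArg Subtype.val hc₁) k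
  have e2 : ∀ k, c₂ * (w : Fin n → ℚ) k = (v k : ℚ) := fun k => congrFun (congrArg Subtype.val hc₂) k
  have e3 : (u i : ℚ) * (v j : ℚ) = (u j : ℚ) * (v i : ℚ) := by
    rw [← e1, ← e1, ← e2, ← e2]
    ring
  exact_mod_cast e3

end lattice

section cyc

lemma n1 : (X - 1 : ℤ[X]) ≠ 0 := (cyclotomic_one ℤ) ▸ cyclotomic_ne_zero 1 ℤ
lemma n2 : (X + 1 : ℤ[X]) ≠ 0 := (cyclotomic_two ℤ) ▸ cyclotomic_ne_zero 2 ℤ
lemma n3 : (X ^ 2 + X + 1 : ℤ[X]) ≠ 0 := (cyclotomic_three ℤ) ▸ cyclotomic_ne_zero 3 ℤ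

lemma cyc4 : cyclotomic 4 ℤ = X ^ 2 + 1 := by
  have h := prod_cyclotomic_eq_X_pow_sub_one (by norm_num : 0 < 4) ℤ
  have e : Nat.divisors 4 = {1, 2, 4} := by decide
  rw [e, Finset.prod_insert (by decide), Finset.prod_insert (by decide), Finset.prod_singleton, cyclotomic_one, cyclotomic_two] at h
  have hne : ((X - 1 : ℤ[X]) * (X + 1)) ≠ 0 := mul_ne_zero n1 n2
  apply mul_left_cancel₀ hne
  rw [mul_assoc, h]
  ring

lemma cyc6 : cyclotomic 6 ℤ = X ^ 2 - X + 1 := by
  have h := prod_cyclotomic_eq_X_pow_sub_one (by norm_num : 0 < 6) ℤ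
  have e : Nat.divisors 6 = {1, 2, 3, 6} := by decide
  rw [e, Finset.prod_insert (by decide), Finset.prod_insert (by decide), Finset.prod_insert (by decide), Finset.prod_singleton, cyclotomic_one, cyclotomic_two, cyclotomic_three] at h
  have hne : ((X - 1 : ℤ[X]) * ((X + 1) * (X ^ 2 + X + 1))) ≠ 0 := mul_ne_zero n1 (mul_ne_zero n2 n3)
  apply mul_left_cancel₀ hne
  rw [mul_assoc, mul_assoc, h]
  ring

variable {n : ℕ} {E : Multiset ℕ}

/-- All the factors are the same. -/
lemma radical_single (A : Matrix (Fin n) (Fin n) ℤ) {m d : ℕ} (hm : 0 < m) (hA : A ^ m = 1)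
    (hE : ∀ e ∈ E, 0 < e ∧ e ∣ m) (hc : A.charpoly = (E.map fun e => cyclotomic e ℤ).prod)
    (hsum : (E.map Nat.totient).sum = n) (hcnt : E.count d * d.totient = n) (h0 : 0 < E.count d) :
    aeval A (cyclotomic d ℤ) = 0 := by
  classical
  have h1 := sum_totient_split E d
  rw [hsum, hcnt] at h1
  have h2 : ((E.filter (· ≠ d)).map Nat.totient).sum = 0 := by omega
  have h3 := card_le_sum_totient (E := E.filter (· ≠ d)) (fun e he => (hE e (Multiset.mem_of_mem_filter he)).1)
  rw [h2] at h3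
  have h4 : E.filter (· ≠ d) = 0 := Multiset.card_eq_zero.mp (by omega)
  have h5 : E.toFinset = {d} := by
    ext e
    simp only [Multiset.mem_toFinset, Finset.mem_singleton]
    constructor
    · intro he
      by_contra hne
      have : e ∈ E.filter (· ≠ d) := Multiset.mem_filter.mpr ⟨he, hne⟩
      rw [h4] at this
      simp at this
    · rintro rfl
      exact Multiset.count_pos.mp h0
  have h6 := aeval_radical A hm hA hE hc
  rwa [h5, Finset.prod_singleton] at h6

/-- One more factor. -/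
lemma radical_pair (A : Matrix (Fin n) (Fin n) ℤ) {m d : ℕ} (hm : 0 < m) (hA : A ^ m = 1)
    (hE : ∀ e ∈ E, 0 < e ∧ e ∣ m) (hc : A.charpoly = (E.map fun e => cyclotomic e ℤ).prod)
    (hsum : (E.map Nat.totient).sum = n) (hcnt : E.count d * d.totient + 1 = n) (h0 : 0 < E.count d) :
    ∃ e, (e = 1 ∨ e = 2) ∧ e ≠ d ∧ A.charpoly = cyclotomic d ℤ ^ E.count d * cyclotomic e ℤ ∧
      aeval A (cyclotomic d ℤ * cyclotomic e ℤ) = 0 := by
  classical
  have h1 := sum_totient_split E d
  rw [hsum, ← hcnt] at h1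
  have h2 : ((E.filter (· ≠ d)).map Nat.totient).sum = 1 := by omega
  have h3 := card_le_sum_totient (E := E.filter (· ≠ d)) (fun e he => (hE e (Multiset.mem_of_mem_filter he)).1)
  rw [h2] at h3
  have h4 : Multiset.card (E.filter (· ≠ d)) = 1 := by
    rcases Nat.lt_or_ge (Multiset.card (E.filter (· ≠ d))) 1 with h5 | h5
    · have h6 : E.filter (· ≠ d) = 0 := Multiset.card_eq_zero.mp (by omega)
      rw [h6] at h2
      simp at h2
    · omega
  obtain ⟨e, he⟩ := Multiset.card_eq_one.mp h4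
  have hemem : e ∈ E.filter (· ≠ d) := by rw [he]; simp
  have heE := Multiset.mem_of_mem_filter hemem
  have hne : e ≠ d := (Multiset.mem_filter.mp hemem).2
  rw [he] at h2
  have htot : e.totient = 1 := by simpa using h2
  have he12 : e = 1 ∨ e = 2 := Nat.totient_eq_one_iff.mp htot
  refine ⟨e, he12, hne, ?_, ?_⟩
  · rw [hc]
    conv_lhs => rw [filter_split E d, he]
    simp
  · have h5 : E.toFinset = {d, e} := by
      ext x
      simp only [Multiset.mem_toFinset, Finset.mem_insert, Finset.mem_singleton]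
      constructor
      · intro hx
        by_cases hxd : x = d
        · exact Or.inl hxd
        · right
          have : x ∈ E.filter (· ≠ d) := Multiset.mem_filter.mpr ⟨hx, hxd⟩
          rw [he] at this
          simpa using this
      · rintro (rfl | rfl)
        · exact Multiset.count_pos.mp h0
        · exact heE
    have h6 := aeval_radical A hm hA hE hc
    rwa [h5, Finset.prod_pair (Ne.symm hne)] at h6

end cyc

section chev

variable {D : ChevalleyDatum} (h : Tab D)

/-- The matrix of a reflection. -/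
def Si (D : ChevalleyDatum) (i : Fin D.rank) : Matrix (Fin D.rank) (Fin D.rank) ℤ :=
  fun j m => (if j = m then 1 else 0) - (if j = i then D.cartan i (D.simple m) else 0)

include h in
lemma Aw_cons {i : ℕ} (hi : i < D.rank) {l : List ℕ} (hl : ∀ x ∈ l, x < D.rank) :
    Aw D (i :: l) = Si D ⟨i, hi⟩ * Aw D l := by
  ext j k
  rw [Matrix.mul_apply]
  show coef D (D.reflectRoot i (wWord D l (D.simple k))) j = _
  have hv := wWord_lt h hl (h.simple_lt k k.isLt)
  rw [h.coef_reflect i hi _ hv j j.isLt]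
  simp only [Si, sub_mul, Finset.sum_sub_distrib, ite_mul, one_mul, zero_mul, Finset.sum_ite_eq, Finset.mem_univ, if_true]
  congr 1
  by_cases hji : (j : ℕ) = i
  · have hji' : j = ⟨i, hi⟩ := Fin.ext hji
    rw [if_pos hji]
    simp only [hji', if_true]
    rw [h.cartan_lin i hi _ hv, ← Fin.sum_univ_eq_sum_range (fun m => coef D (wWord D l (D.simple k)) m * D.cartan i (D.simple m))]
    exact Finset.sum_congr rfl fun m _ => mul_comm _ _
  · have hji' : j ≠ ⟨i, hi⟩ := fun e => hji (by rw [e])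
    rw [if_neg hji]
    simp [hji']

include h in
/-- A vector in the radical modulo `n` is fixed modulo `n`. -/
lemma Aw_modEq (n : ℤ) (z : Fin D.rank → ℤ) (hz : ∀ i : Fin D.rank, n ∣ ∑ m, z m * D.cartan i (D.simple m))
    {l : List ℕ} (hl : ∀ x ∈ l, x < D.rank) : ∀ j, n ∣ (Aw D l).mulVec z j - z j := by
  induction l with
  | nil =>
    intro j
    rw [Aw_nil h, Matrix.one_mulVec, sub_self]
    exact dvd_zero _
  | cons i l ih =>
    have hi := hl i (by simp)
    have hl' : ∀ x ∈ l, x < D.rank := fun x hx => hl x (by simp [hx])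
    have ih' := ih hl'
    intro j
    rw [Aw_cons h hi hl', ← Matrix.mulVec_mulVec]
    set y := (Aw D l).mulVec z with hy
    have e1 : (Si D ⟨i, hi⟩).mulVec y j = y j - if j = ⟨i, hi⟩ then ∑ m, y m * D.cartan i (D.simple m) else 0 := by
      simp only [Matrix.mulVec, dotProduct, Si, sub_mul, Finset.sum_sub_distrib, ite_mul, one_mul, zero_mul,
        Finset.sum_ite_eq, Finset.mem_univ, if_true]
      congr 1
      by_cases hji : j = ⟨i, hi⟩
      · simp only [hji, if_true]
        exact Finset.sum_congr rfl fun m _ => mul_comm _ _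
      · simp [hji]
    rw [e1]
    have e2 : y j - (if j = ⟨i, hi⟩ then ∑ m, y m * D.cartan i (D.simple m) else 0) - z j =
        (y j - z j) - (if j = ⟨i, hi⟩ then ∑ m, y m * D.cartan i (D.simple m) else 0) := by ring
    rw [e2]
    apply dvd_sub (ih' j)
    split_ifs
    · have e3 : ∑ m, y m * D.cartan i (D.simple m) = ∑ m, (y m - z m) * D.cartan i (D.simple m) + ∑ m, z m * D.cartan i (D.simple m) := by
        rw [← Finset.sum_add_distrib]
        exact Finset.sum_congr rfl fun m _ => by ring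
      rw [e3]
      apply dvd_add
      · exact Finset.dvd_sum fun m _ => Dvd.dvd.mul_right (ih' m) _
      · exact hz ⟨i, hi⟩
    · exact dvd_zero _

include h in
/-- A quadratic relation contradicts a vector in the radical. -/
theorem exc_quad {n : ℕ} (hn : n.Prime) (z : Fin D.rank → ℤ)
    (hz : ∀ i : Fin D.rank, (n : ℤ) ∣ ∑ m, z m * D.cartan i (D.simple m)) (j₀ : Fin D.rank) (hj₀ : ¬ (n : ℤ) ∣ z j₀)
    {l : List ℕ} (hl : ∀ x ∈ l, x < D.rank) (a b c : ℤ)
    (hrel : a • (Aw D l * Aw D l) + b • Aw D l + c • (1 : Matrix (Fin D.rank) (Fin D.rank) ℤ) = 0)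
    (hs : ¬ (n : ℤ) ∣ a + b + c) : False := by
  have h1 := Aw_modEq h (n : ℤ) z hz hl j₀
  have hl2 : ∀ x ∈ l ++ l, x < D.rank := by
    intro x hx
    rcases List.mem_append.mp hx with hx | hx <;> exact hl x hx
  have h2 := Aw_modEq h (n : ℤ) z hz hl2 j₀
  rw [Aw_append h hl hl] at h2
  have h3 := congrFun (congrArg (fun M => Matrix.mulVec M z) hrel) j₀
  simp only [Matrix.add_mulVec, Matrix.smul_mulVec, Matrix.one_mulVec, Matrix.zero_mulVec, Pi.add_apply, Pi.smul_apply,
    smul_eq_mul, Pi.zero_apply] at h3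
  have h4 : (n : ℤ) ∣ (a + b + c) * z j₀ := by
    have e : (a + b + c) * z j₀ = a * (z j₀ - (Aw D l * Aw D l).mulVec z j₀) + b * (z j₀ - (Aw D l).mulVec z j₀) + (a * (Aw D l * Aw D l).mulVec z j₀ + b * (Aw D l).mulVec z j₀ + c * z j₀) := by ring
    rw [e, h3, add_zero]
    apply dvd_add
    · exact Dvd.dvd.mul_left ((dvd_sub_comm).mp h2) _
    · exact Dvd.dvd.mul_left ((dvd_sub_comm).mp h1) _
  rcases (Int.prime_iff_natAbs_prime.mpr (by simpa using hn)).dvd_or_dvd h4 with h5 | h5
  · exact hs h5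
  · exact hj₀ h5

end chev

end Cfsg.Agent.Lib.KS71.HCh
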