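/-
The bound on the eigenspaces of the Weyl group: the exceptional cases of `E₆`, `E₇`.
-/
import Mathlib
import Cfsg.Agent.Lib.KS71.HCh

set_option autoImplicit false
set_option linter.unusedSectionVars false
set_option linter.unusedVariables false

namespace Cfsg.Agent.Lib.KS71.HCi

open scoped MatrixGroups Matrix
open Polynomial Module
open Cfsg Cfsg.Lie Cfsg.Lie.ChevalleyDatum
open Cfsg.Agent.Lib.Chev.Tables Cfsg.Agent.Lib.Chev.Tables2 Cfsg.Agent.Lib.Chev.Tables3 Cfsg.Agent.Lib.Chev.Raise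
open Cfsg.Agent.Lib.Chev.Basic Cfsg.Agent.Lib.Chev.AxBasic Cfsg.Agent.Lib.Chev.Torus
open Cfsg.Agent.Lib.Chev.Products Cfsg.Agent.Lib.Chev.Products2 Cfsg.Agent.Lib.Chev.Mono1
open Cfsg.Agent.Lib.Chev.Mono2 Cfsg.Agent.Lib.Chev.Mono3 Cfsg.Agent.Lib.Chev.Bn
open Cfsg.Agent.Lib.Chev.Order1 Cfsg.Agent.Lib.Chev.Order2 Cfsg.Agent.Lib.Chev.Parab
open Cfsg.Agent.Lib.Chev.Diag Cfsg.Agent.Lib.Chev.SL2 Cfsg.Agent.Lib.Chev.SL2Chev
open Cfsg.Agent.Lib.KS71.HCb Cfsg.Agent.Lib.KS71.HCc Cfsg.Agent.Lib.KS71.HCh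

variable {D : ChevalleyDatum} (h : Tab D)

include h in
lemma crd_simple (k : Fin D.rank) : crd D (D.simple k) = Pi.single k 1 := by
  funext j
  rw [crd, h.coef_simple k k.isLt j j.isLt]
  by_cases e : j = k
  · subst e; simp
  · have e' : (j : ℕ) ≠ k := fun e2 => e (Fin.ext e2)
    simp [e, e']

include h in
lemma G_crd {s : ℕ} (hs : s < D.nroots) (m : Fin D.rank) : (cartanM D).mulVec (crd D s) m = D.cartan m s := by
  rw [h.cartan_lin m m.isLt s hs, ← Fin.sum_univ_eq_sum_range (fun j => coef D s j * D.cartan m (D.simple j))]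
  simp only [Matrix.mulVec, dotProduct, cartanM, crd]
  exact Finset.sum_congr rfl fun j _ => mul_comm _ _

include h in
lemma B_simple (m : Fin D.rank) (y : Fin D.rank → ℤ) : B (cartanM D) (crd D (D.simple m)) y = (cartanM D).mulVec y m := by
  rw [B, crd_simple h, single_one_dotProduct]

include h in
lemma Aw_iso (hSi : ∀ i, (Si D i)ᵀ * cartanM D * Si D i = cartanM D) {l : List ℕ} (hl : ∀ x ∈ l, x < D.rank) :
    (Aw D l)ᵀ * cartanM D * Aw D l = cartanM D := by
  induction l with
  | nil => rw [Aw_nil h]; simp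
  | cons i l ih =>
    have hi := hl i (by simp)
    have hl' : ∀ x ∈ l, x < D.rank := fun x hx => hl x (by simp [hx])
    rw [Aw_cons h hi hl', Matrix.transpose_mul]
    calc (Aw D l)ᵀ * (Si D ⟨i, hi⟩)ᵀ * cartanM D * (Si D ⟨i, hi⟩ * Aw D l)
        = (Aw D l)ᵀ * ((Si D ⟨i, hi⟩)ᵀ * cartanM D * Si D ⟨i, hi⟩) * Aw D l := by
          simp only [Matrix.mul_assoc]
      _ = _ := by rw [hSi, ih hl']

/-- The check on the pairs of roots. -/
def ChkE (D : ChevalleyDatum) : Prop :=
  ∀ k, k < D.rank → ∀ s, s < D.nroots →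
    (D.cartan k s = -2 → s = D.neg (D.simple k)) ∧ (D.cartan k s = 2 → s = D.simple k) ∧
    (D.cartan k s = -2 ∨ D.cartan k s = -1 ∨ D.cartan k s = 0 ∨ D.cartan k s = 1 ∨ D.cartan k s = 2) ∧
    (D.cartan k s = -1 → ∃ m, m < D.rank ∧ ¬ (2 : ℤ) ∣ D.cartan m (D.simple k) + D.cartan m s) ∧
    (D.cartan k s = 2 → ∃ m, m < D.rank ∧ ¬ (2 : ℤ) ∣ D.cartan m (D.simple k)) ∧
    (D.cartan k s = 0 → ∃ m, m < D.rank ∧ ∃ i, i < D.rank ∧
      ¬ (2 : ℤ) ∣ (D.cartan m (D.simple k) + D.cartan m s) * (coef D s i + coef D (D.simple k) i)) ∧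
    (D.cartan k s = 1 → ∃ m, m < D.rank ∧ ∃ i, i < D.rank ∧
      ¬ (3 : ℤ) ∣ (D.cartan m (D.simple k) + D.cartan m s) * (coef D s i + coef D (D.simple k) i)) ∧
    (∑ i ∈ Finset.range D.rank, coef D s i * D.cartan i s = 2)

/-- The check as a computation. -/
def chkEb (D : ChevalleyDatum) : Bool :=
  (List.range D.rank).all fun k => (List.range D.nroots).all fun s =>
    (!decide (D.cartan k s = -2) || decide (s = D.neg (D.simple k))) &&
    (!decide (D.cartan k s = 2) || decide (s = D.simple k)) &&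
    (decide (D.cartan k s = -2) || decide (D.cartan k s = -1) || decide (D.cartan k s = 0) || decide (D.cartan k s = 1) || decide (D.cartan k s = 2)) &&
    (!decide (D.cartan k s = -1) || (List.range D.rank).any fun m => !decide ((2 : ℤ) ∣ D.cartan m (D.simple k) + D.cartan m s)) &&
    (!decide (D.cartan k s = 2) || (List.range D.rank).any fun m => !decide ((2 : ℤ) ∣ D.cartan m (D.simple k))) &&
    (!decide (D.cartan k s = 0) || (List.range D.rank).any fun m => (List.range D.rank).any fun i =>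
      !decide ((2 : ℤ) ∣ (D.cartan m (D.simple k) + D.cartan m s) * (coef D s i + coef D (D.simple k) i))) &&
    (!decide (D.cartan k s = 1) || (List.range D.rank).any fun m => (List.range D.rank).any fun i =>
      !decide ((3 : ℤ) ∣ (D.cartan m (D.simple k) + D.cartan m s) * (coef D s i + coef D (D.simple k) i))) &&
    decide (∑ i ∈ Finset.range D.rank, coef D s i * D.cartan i s = 2)

lemma chkE_of (D : ChevalleyDatum) (hb : chkEb D = true) : ChkE D := by
  intro k hk s hs
  simp only [chkEb, List.all_eq_true, List.mem_range] at hb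
  have h1 := hb k hk s hs
  simp only [Bool.and_eq_true, Bool.or_eq_true, Bool.not_eq_true', decide_eq_false_iff_not, decide_eq_true_eq,
    List.any_eq_true, List.mem_range] at h1
  obtain ⟨⟨⟨⟨⟨⟨⟨a1, a2⟩, a3⟩, a4⟩, a5⟩, a6⟩, a7⟩, a8⟩ := h1
  refine ⟨?_, ?_, ?_, ?_, ?_, ?_, ?_, a8⟩
  · intro e; exact a1.resolve_left (not_not.mpr e)
  · intro e; exact a2.resolve_left (not_not.mpr e)
  · rcases a3 with ((((a3 | a3) | a3) | a3) | a3)
    · exact Or.inl a3
    · exact Or.inr (Or.inl a3)
    · exact Or.inr (Or.inr (Or.inl a3))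
    · exact Or.inr (Or.inr (Or.inr (Or.inl a3)))
    · exact Or.inr (Or.inr (Or.inr (Or.inr a3)))
  · intro e; exact a4.resolve_left (not_not.mpr e)
  · intro e; exact a5.resolve_left (not_not.mpr e)
  · intro e; exact a6.resolve_left (not_not.mpr e)
  · intro e; exact a7.resolve_left (not_not.mpr e)

include h in
/-- No element of the Weyl group squares to minus a reflection, when the rank is odd. -/
theorem no_sqrt_chev (hsym : (cartanM D)ᵀ = cartanM D) (hdiag : ∀ i, cartanM D i i = 2)
    (hSi : ∀ i, (Si D i)ᵀ * cartanM D * Si D i = cartanM D) (hodd : Odd D.rank) (hchk : ChkE D)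
    {l : List ℕ} (hl : ∀ x ∈ l, x < D.rank) (ε : ℤ) (hε : ε = 1 ∨ ε = -1)
    (hrel : (Aw D l - ε • (1 : Matrix (Fin D.rank) (Fin D.rank) ℤ)) * (Aw D l * Aw D l + 1) = 0)
    (g : ℤ[X]) (hc : (Aw D l).charpoly = g * (X - C ε)) (hg : g.eval ε ≠ 0) : False := by
  classical
  set A := Aw D l with hA
  set G := cartanM D with hG
  have hiso : Aᵀ * G * A = G := Aw_iso h hSi hl
  have hev : ∀ i, Even (G i i) := fun i => by rw [hdiag]; exact even_two
  have hAT : (A * A - 1) * (A * A + 1) = 0 := by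
    rcases hε with rfl | rfl
    · have e : A * A - 1 = (A + 1) * (A - (1 : ℤ) • 1) := by noncomm_ring
      rw [e, mul_assoc, hrel, mul_zero]
    · have e : A * A - 1 = (A - 1) * (A - (-1 : ℤ) • 1) := by noncomm_ring
      rw [e, mul_assoc, hrel, mul_zero]
  have h4 : A * A * (A * A) = 1 := by
    have e : (A * A - 1) * (A * A + 1) = A * A * (A * A) - 1 := by noncomm_ring
    rw [e] at hAT
    exact sub_eq_zero.mp hAT
  let tv : (Fin D.rank → ℤ) → (Fin D.rank → ℤ) := fun x => A.mulVec (A.mulVec x) + x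
  have htv : ∀ x, (A * A + 1).mulVec x = tv x := by
    intro x
    rw [Matrix.add_mulVec, Matrix.one_mulVec, ← Matrix.mulVec_mulVec]
  have hw4 : ∀ x, A.mulVec (A.mulVec (A.mulVec (A.mulVec x))) = x := by
    intro x
    simp only [Matrix.mulVec_mulVec]
    rw [show A * (A * (A * A)) = A * A * (A * A) by noncomm_ring, h4, Matrix.one_mulVec]
  have hsymT : ∀ x y, B G (tv x) y = B G x (tv y) := by
    intro x y
    show B G (A.mulVec (A.mulVec x) + x) y = B G x (A.mulVec (A.mulVec y) + y)
    rw [B_add_left, B_add_right]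
    congr 1
    conv_lhs => rw [← hw4 y]
    rw [B_iso hiso, B_iso hiso]
  have htt : ∀ x, tv (tv x) = (2 : ℤ) • tv x := by
    intro x
    show A.mulVec (A.mulVec (A.mulVec (A.mulVec x) + x)) + (A.mulVec (A.mulVec x) + x) = (2 : ℤ) • (A.mulVec (A.mulVec x) + x)
    simp only [Matrix.mulVec_add]
    rw [hw4, two_smul]
    abel
  have heig : ∀ x, A.mulVec (tv x) = ε • tv x := by
    intro x
    have e := congrArg (fun M => Matrix.mulVec M x) hrel
    simp only [Matrix.zero_mulVec] at e
    rw [← Matrix.mulVec_mulVec, htv, Matrix.sub_mulVec, Matrix.smul_mulVec, Matrix.one_mulVec] at e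
    exact sub_eq_zero.mp e
  have hmin : ∀ x x' i j, tv x i * tv x' j = tv x j * tv x' i := fun x x' i j =>
    minors_of_simple A ε g hc hg (tv x) (tv x') (heig x) (heig x') i j
  -- a nonzero column
  have hex : ∃ k : Fin D.rank, tv (crd D (D.simple k)) ≠ 0 := by
    by_contra hne
    push Not at hne
    have hT : A * A + 1 = 0 := by
      ext i k
      have e1 := congrFun (hne k) i
      rw [← htv, crd_simple h, Matrix.mulVec_single_one] at e1
      exact e1
    have hAA : A * A = -1 := eq_neg_of_add_eq_zero_left hT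
    have hdet := congrArg Matrix.det hAA
    rw [Matrix.det_mul, Matrix.det_neg, Matrix.det_one, Fintype.card_fin, hodd.neg_one_pow] at hdet
    nlinarith [mul_self_nonneg (A.det)]
  obtain ⟨k, hk⟩ := hex
  have hk0 := h.simple_lt k k.isLt
  set s := wWord D l (wWord D l (D.simple k)) with hsdef
  have hs : s < D.nroots := wWord_lt h hl (wWord_lt h hl hk0)
  set ek := crd D (D.simple k) with hek
  set δ := tv ek with hδ
  have hδs : δ = crd D s + ek := by
    show A.mulVec (A.mulVec ek) + ek = _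
    rw [hek, hA, Aw_crd h hl hk0, Aw_crd h hl (wWord_lt h hl hk0)]
  have hsym' : ∀ x y, B G x y = B G y x := B_symm hsym
  have hBkk : B G ek ek = 2 := by
    rw [hek, hG, B_simple h, G_crd h hk0]
    exact h.cartan_self k k.isLt
  have hchk' := hchk k k.isLt s hs
  obtain ⟨c1, c2, c3, c4, c5, c6, c7, c8⟩ := hchk'
  set t := D.cartan k s with ht
  have hBks : B G ek (crd D s) = t := by
    rw [hek, hG, B_simple h, G_crd h hs]
  have hBss : B G (crd D s) (crd D s) = 2 := by
    rw [← c8, ← Fin.sum_univ_eq_sum_range (fun i => coef D s i * D.cartan i s), B, dotProduct]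
    refine Finset.sum_congr rfl fun i _ => ?_
    rw [hG, G_crd h hs]
    rfl
  have hN : B G δ δ = 4 + 2 * t := by
    rw [hδs, B_add_left, B_add_right, B_add_right, hBss, hBkk, hBks, hsym' (crd D s) ek, hBks]
    ring
  have hb : ∀ m : Fin D.rank, B G (crd D (D.simple m)) δ = D.cartan m (D.simple k) + D.cartan m s := by
    intro m
    rw [hG, B_simple h, hδs, Matrix.mulVec_add, Pi.add_apply, hek, G_crd h hs, G_crd h hk0, add_comm]
  -- the key formula
  have hkey : ∀ x j, tv x j * B G δ δ = δ j * (2 * B G x δ) := by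
    intro x j
    have e1 : tv x j • δ = δ j • tv x := by
      funext i
      simp only [Pi.smul_apply, smul_eq_mul]
      have := hmin x ek i j
      change tv x i * δ j = tv x j * δ i at this
      linarith
    have e2 := congrArg (fun v => B G v δ) e1
    simp only [B_smul_left] at e2
    rw [e2, hsymT, hδ, htt, B_smul_right]
  have hδi : ∀ i : Fin D.rank, δ i = coef D s i + coef D (D.simple k) i := by
    intro i
    rw [hδs]
    rfl
  rcases c3 with e | e | e | e | e
  · -- `t = -2`
    have hs2 := c1 e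
    apply hk
    rw [hδs]
    funext i
    simp only [Pi.add_apply, Pi.zero_apply, crd, hek]
    rw [hs2, h.coef_neg _ hk0 i i.isLt]
    ring
  · -- `t = -1`
    obtain ⟨m, hm, hmo⟩ := c4 e
    have hN2 : B G δ δ = 2 := by rw [hN, e]; norm_num
    refine no_sqrt hsym hev hiso δ (crd D (D.simple m)) hN2 ?_ ?_
    · intro x
      funext j
      have e1 := hkey x j
      rw [hN2] at e1
      simp only [Pi.smul_apply, smul_eq_mul]
      show tv x j = _
      linarith
    · rw [hb ⟨m, hm⟩]
      exact Int.not_even_iff_odd.mp (fun e9 => hmo (even_iff_two_dvd.mp e9))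
  · -- `t = 0`
    obtain ⟨m, hm, i, hi, hmo⟩ := c6 e
    apply hmo
    have e1 := hkey (crd D (D.simple m)) ⟨i, hi⟩
    rw [hN, e, hb ⟨m, hm⟩, hδi] at e1
    exact ⟨tv (crd D (D.simple m)) ⟨i, hi⟩, by linarith⟩
  · -- `t = 1`
    obtain ⟨m, hm, i, hi, hmo⟩ := c7 e
    apply hmo
    have e1 := hkey (crd D (D.simple m)) ⟨i, hi⟩
    rw [hN, e, hb ⟨m, hm⟩, hδi] at e1
    exact ⟨tv (crd D (D.simple m)) ⟨i, hi⟩, by linarith⟩
  · -- `t = 2`
    have hs2 := c2 e
    obtain ⟨m, hm, hmo⟩ := c5 e
    have hδ2 : δ = (2 : ℤ) • ek := by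
      rw [hδs, hs2, two_smul]
    refine no_sqrt hsym hev hiso ek (crd D (D.simple m)) hBkk ?_ ?_
    · intro x
      funext j
      have e1 := hkey x j
      rw [hN, e, hδ2, B_smul_right] at e1
      simp only [Pi.smul_apply, smul_eq_mul] at e1 ⊢
      show tv x j = _
      linarith
    · have e7 : B G (crd D (D.simple m)) ek = D.cartan m (D.simple k) := by
        have e8 := B_simple h (⟨m, hm⟩ : Fin D.rank) ek
        rw [hek, G_crd h hk0] at e8
        exact e8
      rw [e7]
      exact Int.not_even_iff_odd.mp (fun e9 => hmo (even_iff_two_dvd.mp e9))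

include h in
/-- The case of the eigenvalue `-1` of multiplicity `ℓ - 1` when the radical modulo `3` is nonzero. -/
theorem exc_two {n : ℕ} (hn : n.Prime) (hn2 : ¬ n ∣ 2) (z : Fin D.rank → ℤ)
    (hz : ∀ i : Fin D.rank, (n : ℤ) ∣ ∑ m, z m * D.cartan i (D.simple m)) (j₀ : Fin D.rank) (hj₀ : ¬ (n : ℤ) ∣ z j₀)
    (hchk : ∀ k, k < D.rank → ∀ s, s < D.nroots →
      (∀ m, m < D.rank → (n : ℤ) ∣ D.cartan m (D.simple k) + D.cartan m s) → s = D.neg (D.simple k))
    {l : List ℕ} (hl : ∀ x ∈ l, x < D.rank)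
    (hrel : (Aw D l - (1 : ℤ) • (1 : Matrix (Fin D.rank) (Fin D.rank) ℤ)) * (Aw D l + 1) = 0)
    (g : ℤ[X]) (hc : (Aw D l).charpoly = g * (X - C 1)) (hg : g.eval 1 ≠ 0) : False := by
  classical
  set A := Aw D l with hA
  have hnp : Prime (n : ℤ) := Nat.prime_iff_prime_int.mp hn
  let tv : (Fin D.rank → ℤ) → (Fin D.rank → ℤ) := fun x => A.mulVec x + x
  have htv : ∀ x, (A + 1).mulVec x = tv x := by
    intro x
    rw [Matrix.add_mulVec, Matrix.one_mulVec]
  have heig : ∀ x, A.mulVec (tv x) = (1 : ℤ) • tv x := by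
    intro x
    have e := congrArg (fun M => Matrix.mulVec M x) hrel
    simp only [Matrix.zero_mulVec] at e
    rw [← Matrix.mulVec_mulVec, htv, Matrix.sub_mulVec, Matrix.smul_mulVec, Matrix.one_mulVec] at e
    exact sub_eq_zero.mp e
  have hmin : ∀ x x' i j, tv x i * tv x' j = tv x j * tv x' i := fun x x' i j =>
    minors_of_simple A 1 g hc hg (tv x) (tv x') (heig x) (heig x') i j
  have hmod := Aw_modEq h (n : ℤ) z hz hl
  set zt := tv z with hzt
  have hzt2 : ∀ j, (n : ℤ) ∣ zt j - 2 * z j := by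
    intro j
    have e : zt j - 2 * z j = A.mulVec z j - z j := by
      show A.mulVec z j + z j - 2 * z j = _
      ring
    rw [e]
    exact hmod j
  have hztj : ¬ (n : ℤ) ∣ zt j₀ := by
    intro e
    have e1 := dvd_sub e (hzt2 j₀)
    have e2 : zt j₀ - (zt j₀ - 2 * z j₀) = 2 * z j₀ := by ring
    rw [e2] at e1
    rcases hnp.dvd_or_dvd e1 with e3 | e3
    · exact hn2 (by exact_mod_cast e3)
    · exact hj₀ e3
  have hGzt : ∀ m : Fin D.rank, (n : ℤ) ∣ ∑ i, zt i * D.cartan m (D.simple i) := by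
    intro m
    have e : ∑ i, zt i * D.cartan m (D.simple i) = ∑ i, (zt i - 2 * z i) * D.cartan m (D.simple i) + 2 * ∑ i, z i * D.cartan m (D.simple i) := by
      rw [Finset.mul_sum, ← Finset.sum_add_distrib]
      exact Finset.sum_congr rfl fun i _ => by ring
    rw [e]
    apply dvd_add
    · exact Finset.dvd_sum fun i _ => Dvd.dvd.mul_right (hzt2 i) _
    · exact Dvd.dvd.mul_left (hz m) _
  have hcol : ∀ k : Fin D.rank, tv (crd D (D.simple k)) = 0 := by
    intro k
    have hk0 := h.simple_lt k k.isLt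
    set s := wWord D l (D.simple k) with hsdef
    have hs : s < D.nroots := wWord_lt h hl hk0
    have hδ : tv (crd D (D.simple k)) = crd D s + crd D (D.simple k) := by
      show A.mulVec _ + _ = _
      rw [hA, Aw_crd h hl hk0]
    have hs2 : s = D.neg (D.simple k) := by
      apply hchk k k.isLt s hs
      intro m hm
      have e1 : ∀ i, tv (crd D (D.simple k)) i * zt j₀ = tv (crd D (D.simple k)) j₀ * zt i := fun i => hmin _ z i j₀
      have e2 : zt j₀ * (D.cartan m (D.simple k) + D.cartan m s) =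
          tv (crd D (D.simple k)) j₀ * ∑ i, zt i * D.cartan m (D.simple i) := by
        have e3 : D.cartan m (D.simple k) + D.cartan m s = ∑ i, tv (crd D (D.simple k)) i * D.cartan m (D.simple i) := by
          have e4 := G_crd h hk0 ⟨m, hm⟩
          have e5 := G_crd h hs ⟨m, hm⟩
          simp only [Matrix.mulVec, dotProduct, cartanM, crd] at e4 e5
          rw [← e4, ← e5, hδ, ← Finset.sum_add_distrib]
          refine Finset.sum_congr rfl fun i _ => ?_
          simp only [Pi.add_apply, crd]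
          ring
        rw [e3, Finset.mul_sum, Finset.mul_sum]
        refine Finset.sum_congr rfl fun i _ => ?_
        have := e1 i
        linear_combination (D.cartan m (D.simple i)) * this
      have e6 : (n : ℤ) ∣ zt j₀ * (D.cartan m (D.simple k) + D.cartan m s) := by
        rw [e2]
        exact Dvd.dvd.mul_left (hGzt ⟨m, hm⟩) _
      exact (hnp.dvd_or_dvd e6).resolve_left hztj
    rw [hδ, hs2]
    funext i
    simp only [Pi.add_apply, Pi.zero_apply, crd]
    rw [h.coef_neg _ hk0 i i.isLt]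
    ring
  have hT : A + 1 = 0 := by
    ext i k
    have e1 := congrFun (hcol k) i
    rw [← htv, crd_simple h, Matrix.mulVec_single_one] at e1
    exact e1
  apply hztj
  have : zt = 0 := by
    rw [hzt, ← htv, hT, Matrix.zero_mulVec]
  rw [this]
  simp

end Cfsg.Agent.Lib.KS71.HCi
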