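/-
The minuscule module of dimension 27 for the Chevalley datum of type `E₆`: the action of the Weyl group on the weights and
the relation for the elements of the group over a subfield as an equation in the parameters.
-/
import Mathlib
import Cfsg.Agent.Lib.KS71.E6f
import Cfsg.Agent.Lib.KS71.HCi

set_option autoImplicit false
set_option linter.unusedSectionVars false
set_option linter.unusedVariables false

namespace Cfsg.Agent.Lib.KS71.E6g

open scoped Matrix MatrixGroups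
open Cfsg Cfsg.Lie Cfsg.Lie.ChevalleyDatum Cfsg.Agent.Lib.Chev.Tables Cfsg.Agent.Lib.KS71.E6a Cfsg.Agent.Lib.KS71.E6b
open Cfsg.Agent.Lib.KS71.E6c Cfsg.Agent.Lib.KS71.E6d Cfsg.Agent.Lib.KS71.E6e Cfsg.Agent.Lib.KS71.E6f
open Cfsg.Agent.Lib.Chev.Torus Cfsg.Agent.Lib.Chev.Diag Cfsg.Agent.Lib.Chev.AxBasic Cfsg.Agent.Lib.Chev.Tables2
open Cfsg.Agent.Lib.Chev.Mono1 Cfsg.Agent.Lib.Chev.Mono2 Cfsg.Agent.Lib.Chev.Basic
open Cfsg.Agent.Lib.KS71.HCc Cfsg.Agent.Lib.KS71.HCh

variable {E : Type*} [Field E]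

lemma rank6 : chevE6.rank = 6 := rfl

/-- The vector of a weight. -/
def wtV (j : ℕ) : Fin chevE6.rank → ℤ := fun k => wtN j k

lemma cartan_symm : ∀ i k : Fin 6, chevE6.cartan k (chevE6.simple i) = chevE6.cartan i (chevE6.simple k) := by
  decide +kernel

lemma wt_bF {i : ℕ} (hi : i < chevE6.rank) (j : Fin 27) : wtV (bF i j) = (Si chevE6 ⟨i, hi⟩)ᵀ *ᵥ wtV j := by
  funext k
  have hi' : i < 6 := hi
  have hk : (k : ℕ) < 6 := k.isLt
  have e1 := (refl_chk hi' j).2.2 k hk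
  rw [wtV, bF_val hi' j, e1, cartan_symm ⟨i, hi'⟩ ⟨k, hk⟩]
  simp only [Matrix.mulVec, dotProduct, Matrix.transpose_apply, Si, sub_mul, Finset.sum_sub_distrib, ite_mul, one_mul, zero_mul,
    Finset.sum_ite_eq', Finset.mem_univ, if_true]
  simp only [wtV]
  ring

lemma wt_bw {l : List ℕ} (hl : ∀ i ∈ l, i < chevE6.rank) (j : Fin 27) : wtV (bw l j) = (Aw chevE6 l)ᵀ *ᵥ wtV j := by
  induction l generalizing j with
  | nil =>
    rw [Aw_nil tab6]
    simp [bw]
  | cons i l ih =>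
    have hi := hl i (by simp)
    have hl' : ∀ x ∈ l, x < chevE6.rank := fun x hx => hl x (by simp [hx])
    rw [Aw_cons tab6 hi hl', Matrix.transpose_mul, ← Matrix.mulVec_mulVec, ← wt_bF hi, ← ih hl']
    rfl

/-- The value of the parameters on a weight. -/
def ev (c : Fin chevE6.rank → Eˣ) (μ : Fin chevE6.rank → ℤ) : Eˣ := ∏ k, c k ^ μ k

lemma ev_add (c : Fin chevE6.rank → Eˣ) (μ ν : Fin chevE6.rank → ℤ) : ev c (μ + ν) = ev c μ * ev c ν := by
  simp only [ev, Pi.add_apply, zpow_add, Finset.prod_mul_distrib]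

lemma ev_smul (c : Fin chevE6.rank → Eˣ) (n : ℤ) (μ : Fin chevE6.rank → ℤ) : ev c (n • μ) = ev c μ ^ n := by
  simp only [ev, Pi.smul_apply, smul_eq_mul]
  rw [← Finset.prod_zpow]
  refine Finset.prod_congr rfl fun k _ => ?_
  rw [mul_comm, zpow_mul]

lemma ev_zero (c : Fin chevE6.rank → Eˣ) : ev c 0 = 1 := by simp [ev]

lemma ev_sum {ι : Type*} (c : Fin chevE6.rank → Eˣ) (s : Finset ι) (f : ι → Fin chevE6.rank → ℤ) :
    ev c (∑ a ∈ s, f a) = ∏ a ∈ s, ev c (f a) := by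
  classical
  induction s using Finset.induction_on with
  | empty => simp [ev_zero]
  | insert a s ha ih => rw [Finset.sum_insert ha, Finset.prod_insert ha, ev_add, ih]

lemma ev_single (c : Fin chevE6.rank → Eˣ) (k : Fin chevE6.rank) : ev c (Pi.single k 1) = c k := by
  rw [ev, Finset.prod_eq_single k]
  · simp
  · intro b _ hb
    simp [hb]
  · simp

lemma dVal_eq (c : ℕ → Eˣ) (j : Fin 27) : dVal c j = ev (fun k => c k) (wtV j) := by
  rw [dVal, ev, ← Fin.prod_univ_eq_prod_range (fun k => c k ^ wtN j k) 6]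
  rfl

/-- The fundamental weights as combinations of the weights of the module. -/
lemma single_eq (k : Fin chevE6.rank) :
    (Pi.single k 1 : Fin chevE6.rank → ℤ) = ∑ a : Fin 6, cmb k a • wtV (sel a) := by
  have h := allBelow_spec chkSpan_true k k.isLt
  funext m
  have h2 := allBelow_spec h m m.isLt
  rw [beq_iff_eq, sumRec_eq, ← Fin.sum_univ_eq_sum_range (fun a => cmb k a * wtN (sel a) m)] at h2
  rw [Finset.sum_apply]
  simp only [Pi.smul_apply, smul_eq_mul, wtV]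
  rw [h2, Pi.single_apply]
  simp [Fin.ext_iff]

/-- The relation of the module as an equation for the parameters. -/
theorem key_ker (q : ℕ) {l : List ℕ} (hl : ∀ i ∈ l, i < chevE6.rank) (c : ℕ → Eˣ)
    (hrel : ∀ j : Fin 27, dVal c j = dVal c (bw l j) ^ q) :
    (fun k : Fin chevE6.rank => c k) ∈ (mact ((q : ℤ) • (Aw chevE6 l)ᵀ - 1) (G := Eˣ)).ker := by
  classical
  set c' : Fin chevE6.rank → Eˣ := fun k => c k with hc'
  set U := (Aw chevE6 l)ᵀ with hU
  have h1 : ∀ μ : Fin chevE6.rank → ℤ, (∃ (n : Fin 6 → ℤ), μ = ∑ a, n a • wtV (sel a)) → ev c' μ = ev c' (U *ᵥ μ) ^ q := by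
    rintro μ ⟨n, rfl⟩
    rw [ev_sum, Matrix.mulVec_sum, ev_sum, ← Finset.prod_pow]
    refine Finset.prod_congr rfl fun a _ => ?_
    have ha : sel a < 27 := by
      revert a
      decide +kernel
    have e1 := hrel ⟨sel a, ha⟩
    rw [dVal_eq, dVal_eq, wt_bw hl] at e1
    rw [Matrix.mulVec_smul, ev_smul, ev_smul, e1, ← zpow_natCast, ← zpow_natCast, ← zpow_mul, ← zpow_mul, mul_comm]
  rw [MonoidHom.mem_ker]
  funext k
  have h2 := h1 (Pi.single k 1) ⟨_, single_eq k⟩
  rw [ev_single] at h2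
  rw [mact_apply, Pi.one_apply]
  have e3 : ∀ i, c' i ^ (((q : ℤ) • U - 1) i k) = (c' i ^ U i k) ^ q * (c' i ^ (if i = k then (1 : ℤ) else 0))⁻¹ := by
    intro i
    rw [Matrix.sub_apply, Matrix.smul_apply, Matrix.one_apply, smul_eq_mul, zpow_sub, mul_comm (q : ℤ), zpow_mul, zpow_natCast]
  have e4 : ev c' (U *ᵥ Pi.single k 1) = ∏ i, c' i ^ U i k := by
    rw [ev]
    refine Finset.prod_congr rfl fun i _ => ?_
    rw [Matrix.mulVec_single_one]
    rfl
  simp only [e3]
  rw [Finset.prod_mul_distrib, Finset.prod_pow, ← e4, ← h2, Finset.prod_inv_distrib, Finset.prod_eq_single k]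
  · simp
  · intro i _ hi
    simp [hi]
  · simp

end Cfsg.Agent.Lib.KS71.E6g
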