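/-
The bound on the eigenspaces of the Weyl group, type by type.
-/
import Mathlib
import Cfsg.Agent.Lib.KS71.HCi

set_option autoImplicit false
set_option linter.unusedSectionVars false
set_option linter.unusedVariables false

namespace Cfsg.Agent.Lib.KS71.HCj

open scoped MatrixGroups Matrix
open Polynomial Module
open Cfsg Cfsg.Lie Cfsg.Lie.ChevalleyDatum
open Cfsg.Agent.Lib.Chev.Tables Cfsg.Agent.Lib.Chev.Tables2 Cfsg.Agent.Lib.Chev.Tables3 Cfsg.Agent.Lib.Chev.Raise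
open Cfsg.Agent.Lib.Chev.Basic Cfsg.Agent.Lib.Chev.AxBasic Cfsg.Agent.Lib.Chev.Torus
open Cfsg.Agent.Lib.Chev.Products Cfsg.Agent.Lib.Chev.Products2 Cfsg.Agent.Lib.Chev.Mono1
open Cfsg.Agent.Lib.Chev.Mono2 Cfsg.Agent.Lib.Chev.Mono3 Cfsg.Agent.Lib.Chev.Bn
open Cfsg.Agent.Lib.Chev.Order1 Cfsg.Agent.Lib.Chev.Order2 Cfsg.Agent.Lib.Chev.Parab
open Cfsg.Agent.Lib.Chev.Diag Cfsg.Agent.Lib.Chev.SL2 Cfsg.Agent.Lib.Chev.SL2Chev
open Cfsg.Agent.Lib.KS71.HCb Cfsg.Agent.Lib.KS71.HCc Cfsg.Agent.Lib.KS71.HCh Cfsg.Agent.Lib.KS71.HCi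

section rel

variable {n : ℕ} (A : Matrix (Fin n) (Fin n) ℤ)

lemma rel2 (e : aeval A (cyclotomic 2 ℤ) = 0) :
    (0 : ℤ) • (A * A) + (1 : ℤ) • A + (1 : ℤ) • (1 : Matrix (Fin n) (Fin n) ℤ) = 0 := by
  rw [cyclotomic_two] at e
  simp only [map_add, aeval_X, map_one] at e
  simpa using e

lemma rel3 (e : aeval A (cyclotomic 3 ℤ) = 0) :
    (1 : ℤ) • (A * A) + (1 : ℤ) • A + (1 : ℤ) • (1 : Matrix (Fin n) (Fin n) ℤ) = 0 := by
  rw [cyclotomic_three] at e
  simp only [map_add, map_pow, aeval_X, map_one] at e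
  rw [pow_two] at e
  simpa using e

lemma rel4 (e : aeval A (cyclotomic 4 ℤ) = 0) :
    (1 : ℤ) • (A * A) + (0 : ℤ) • A + (1 : ℤ) • (1 : Matrix (Fin n) (Fin n) ℤ) = 0 := by
  rw [cyc4] at e
  simp only [map_add, map_pow, aeval_X, map_one] at e
  rw [pow_two] at e
  simpa using e

lemma rel6 (e : aeval A (cyclotomic 6 ℤ) = 0) :
    (1 : ℤ) • (A * A) + (-1 : ℤ) • A + (1 : ℤ) • (1 : Matrix (Fin n) (Fin n) ℤ) = 0 := by
  rw [cyc6] at e
  simp only [map_add, map_sub, map_pow, aeval_X, map_one] at e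
  rw [pow_two] at e
  rw [neg_smul, one_smul, one_smul, one_smul, ← sub_eq_add_neg]
  exact e

end rel

variable {D : ChevalleyDatum} (h : Tab D) {r : ℕ} [hr : Fact r.Prime]

include h in
lemma exc_setup {l : List ℕ} (hl : ∀ i ∈ l, i < D.rank) (hrW : ¬ r ∣ (Wc h).card) (ζ : ZMod r) {a : ℕ}
    (hlt : a < finrank (ZMod r) (Module.End.eigenspace (Matrix.toLin' ((Aw D l)ᵀ.map (Int.castRingHom (ZMod r)))) ζ)) :
    ∃ E : Multiset ℕ, (∀ e ∈ E, 0 < e ∧ e ∣ (Wc h).card) ∧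
      (Aw D l).charpoly = (E.map fun e => cyclotomic e ℤ).prod ∧ (E.map Nat.totient).sum = D.rank ∧
      a < E.count (orderOf ζ) ∧ 0 < (Wc h).card := by
  have hpos : 0 < (Wc h).card := by
    rcases Nat.eq_zero_or_pos (Wc h).card with e | e
    · rw [e] at hrW
      exact absurd (dvd_zero _) hrW
    · exact e
  obtain ⟨E, hE, hc, hc', hs⟩ := exists_E h hl hpos
  exact ⟨E, hE, hc, hs, lt_of_lt_of_le hlt (eig_le (Aw D l)ᵀ hE hc' hrW ζ _ rfl), hpos⟩

include h in
/-- A cyclotomic factor filling the whole rank gives a relation, which contradicts a radical vector. -/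
theorem exc_full {n : ℕ} (hn : n.Prime) (z : Fin D.rank → ℤ)
    (hz : ∀ i : Fin D.rank, (n : ℤ) ∣ ∑ m, z m * D.cartan i (D.simple m)) (j₀ : Fin D.rank) (hj₀ : ¬ (n : ℤ) ∣ z j₀)
    {l : List ℕ} (hl : ∀ x ∈ l, x < D.rank) (hrW : ¬ r ∣ (Wc h).card) (ζ : ZMod r) {d x : ℕ} {a' b' c' : ℤ}
    (hdz : orderOf ζ = d) (hd0 : 0 < d)
    (hrel : aeval (Aw D l) (cyclotomic d ℤ) = 0 → a' • (Aw D l * Aw D l) + b' • Aw D l + c' • (1 : Matrix (Fin D.rank) (Fin D.rank) ℤ) = 0)
    (hs : ¬ (n : ℤ) ∣ a' + b' + c')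
    (hlt : x < finrank (ZMod r) (Module.End.eigenspace (Matrix.toLin' ((Aw D l)ᵀ.map (Int.castRingHom (ZMod r)))) ζ))
    (hle : D.rank ≤ (x + 1) * d.totient) : False := by
  obtain ⟨E, hE, hc, hsum, hcnt, hpos⟩ := exc_setup h hl hrW ζ hlt
  rw [hdz] at hcnt
  have h1 := count_mul_totient_le (E := E) d
  rw [hsum] at h1
  have h2 : (x + 1) * d.totient ≤ E.count d * d.totient := Nat.mul_le_mul_right _ hcnt
  have h3 : E.count d * d.totient = D.rank := le_antisymm h1 (hle.trans h2)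
  have h4 := radical_single (Aw D l) hpos (Aw_pow_card h hl) hE hc hsum h3 (by omega)
  exact exc_quad h hn z hz j₀ hj₀ hl a' b' c' (hrel h4) hs

/-! ### `D₄` -/

def zD4 : Fin chevD4.rank → ℤ := fun i => [1, 0, 1, 0].getD i.val 0

set_option maxRecDepth 100000 in
lemma zD4_rad : ∀ i : Fin chevD4.rank, ((2 : ℕ) : ℤ) ∣ ∑ m, zD4 m * chevD4.cartan i (chevD4.simple m) := by
  decide +kernel

set_option maxRecDepth 100000 in
lemma tabD4 : ∀ e ∈ [2, 4, 4, 6], ∀ d ∈ Nat.divisors e, (d = 3 ∨ d = 6) ∨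
    chevD4.rank / d.totient ≤ ([2, 4, 4, 6].filter fun e => d ∣ e).length := by
  decide +kernel

theorem bound_D4 (h : Tab chevD4) (hrW : ¬ r ∣ (Wc h).card) (ζ : ZMod r) (hd : ∃ e ∈ [2, 4, 4, 6], orderOf ζ ∣ e)
    {l : List ℕ} (hl : ∀ i ∈ l, i < chevD4.rank) :
    finrank (ZMod r) (Module.End.eigenspace (Matrix.toLin' ((Aw chevD4 l)ᵀ.map (Int.castRingHom (ZMod r)))) ζ) ≤
      ([2, 4, 4, 6].filter fun e => orderOf ζ ∣ e).length := by
  obtain ⟨e, he, hde⟩ := hd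
  have he0 : e ≠ 0 := by
    rintro rfl
    revert he
    decide
  have hd0 : 0 < orderOf ζ := Nat.pos_of_ne_zero fun e2 => he0 (by rw [e2] at hde; exact zero_dvd_iff.mp hde)
  rcases tabD4 e he _ (Nat.mem_divisors.mpr ⟨hde, he0⟩) with (e3 | e6) | hle
  · by_contra hne
    push Not at hne
    rw [e3] at hne
    have hne' : 1 < finrank (ZMod r) (Module.End.eigenspace (Matrix.toLin' ((Aw chevD4 l)ᵀ.map (Int.castRingHom (ZMod r)))) ζ) := by
      refine lt_of_le_of_lt ?_ hne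
      decide
    exact exc_full h Nat.prime_two zD4 zD4_rad ⟨0, by decide⟩ (by decide +kernel) hl hrW ζ e3 (by norm_num)
      (rel3 _) (by decide) hne' (by decide +kernel)
  · by_contra hne
    push Not at hne
    rw [e6] at hne
    have hne' : 1 < finrank (ZMod r) (Module.End.eigenspace (Matrix.toLin' ((Aw chevD4 l)ᵀ.map (Int.castRingHom (ZMod r)))) ζ) := by
      refine lt_of_le_of_lt ?_ hne
      decide
    exact exc_full h Nat.prime_two zD4 zD4_rad ⟨0, by decide⟩ (by decide +kernel) hl hrW ζ e6 (by norm_num)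
      (rel6 _) (by decide) hne' (by decide +kernel)
  · exact bound_of_le h hl hrW ζ hd0 hle

/-! ### `E₆` -/

def zE6 : Fin chevE6.rank → ℤ := fun i => [1, 0, -1, 0, 1, -1].getD i.val 0

set_option maxRecDepth 100000 in
lemma zE6_rad : ∀ i : Fin chevE6.rank, ((3 : ℕ) : ℤ) ∣ ∑ m, zE6 m * chevE6.cartan i (chevE6.simple m) := by
  decide +kernel

set_option maxRecDepth 100000 in
lemma tabE6 : ∀ e ∈ [2, 5, 6, 8, 9, 12], ∀ d ∈ Nat.divisors e, (d = 2 ∨ d = 4 ∨ d = 6) ∨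
    chevE6.rank / d.totient ≤ ([2, 5, 6, 8, 9, 12].filter fun e => d ∣ e).length := by
  decide +kernel

set_option maxRecDepth 100000 in
lemma chkE6two : ∀ k, k < chevE6.rank → ∀ s, s < chevE6.nroots →
      (∀ m, m < chevE6.rank → ((3 : ℕ) : ℤ) ∣ chevE6.cartan m (chevE6.simple k) + chevE6.cartan m s) → s = chevE6.neg (chevE6.simple k) := by
  decide +kernel

theorem bound_E6 (h : Tab chevE6) (hrW : ¬ r ∣ (Wc h).card) (ζ : ZMod r) (hd : ∃ e ∈ [2, 5, 6, 8, 9, 12], orderOf ζ ∣ e)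
    {l : List ℕ} (hl : ∀ i ∈ l, i < chevE6.rank) :
    finrank (ZMod r) (Module.End.eigenspace (Matrix.toLin' ((Aw chevE6 l)ᵀ.map (Int.castRingHom (ZMod r)))) ζ) ≤
      ([2, 5, 6, 8, 9, 12].filter fun e => orderOf ζ ∣ e).length := by
  obtain ⟨e, he, hde⟩ := hd
  have he0 : e ≠ 0 := by
    rintro rfl
    revert he
    decide
  have hd0 : 0 < orderOf ζ := Nat.pos_of_ne_zero fun e2 => he0 (by rw [e2] at hde; exact zero_dvd_iff.mp hde)
  have hp3 : Nat.Prime 3 := by norm_num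
  have hj : ¬ (((3 : ℕ) : ℤ) ∣ zE6 ⟨0, by decide⟩) := by decide +kernel
  rcases tabE6 e he _ (Nat.mem_divisors.mpr ⟨hde, he0⟩) with (e2 | e4 | e6) | hle
  · by_contra hne
    push Not at hne
    rw [e2] at hne
    have hne' : 4 < finrank (ZMod r) (Module.End.eigenspace (Matrix.toLin' ((Aw chevE6 l)ᵀ.map (Int.castRingHom (ZMod r)))) ζ) := by
      refine lt_of_le_of_lt ?_ hne
      decide
    obtain ⟨E, hE, hc, hsum, hcnt, hpos⟩ := exc_setup h hl hrW ζ hne'
    rw [e2] at hcnt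
    have h1 := count_mul_totient_le (E := E) 2
    rw [hsum] at h1
    have ht2 : Nat.totient 2 = 1 := by decide
    have hrk : chevE6.rank = 6 := by decide
    rw [ht2, hrk] at h1
    have hcases : E.count 2 = 5 ∨ E.count 2 = 6 := by omega
    rcases hcases with h5 | h6
    · have h3 : E.count 2 * Nat.totient 2 + 1 = chevE6.rank := by rw [h5, ht2, hrk]
      obtain ⟨e', he', hne2, hc', hrel⟩ := radical_pair (Aw chevE6 l) hpos (Aw_pow_card h hl) hE hc hsum h3 (by omega)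
      have he1 : e' = 1 := by
        rcases he' with he' | he'
        · exact he'
        · exact absurd he' hne2
      subst he1
      rw [h5, cyclotomic_two, cyclotomic_one] at hc'
      rw [cyclotomic_two, cyclotomic_one] at hrel
      simp only [map_mul, map_add, map_sub, aeval_X, map_one] at hrel
      refine HCi.exc_two h hp3 (by norm_num) zE6 zE6_rad ⟨0, by decide⟩ hj chkE6two hl ?_ ((X + 1) ^ 5) ?_ ?_
      · have e9 : (Aw chevE6 l - (1 : ℤ) • (1 : Matrix (Fin chevE6.rank) (Fin chevE6.rank) ℤ)) * (Aw chevE6 l + 1) =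
            (Aw chevE6 l + 1) * (Aw chevE6 l - 1) := by
          rw [one_smul]
          noncomm_ring
        rw [e9]
        exact hrel
      · rw [hc']
        simp
      · simp
    · have h3 : E.count 2 * Nat.totient 2 = chevE6.rank := by rw [h6, ht2, hrk]
      have h4 := radical_single (Aw chevE6 l) hpos (Aw_pow_card h hl) hE hc hsum h3 (by omega)
      exact exc_quad h hp3 zE6 zE6_rad ⟨0, by decide⟩ hj hl _ _ _ (rel2 _ h4) (by decide)
  · by_contra hne
    push Not at hne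
    rw [e4] at hne
    have hne' : 2 < finrank (ZMod r) (Module.End.eigenspace (Matrix.toLin' ((Aw chevE6 l)ᵀ.map (Int.castRingHom (ZMod r)))) ζ) := by
      refine lt_of_le_of_lt ?_ hne
      decide
    exact exc_full h hp3 zE6 zE6_rad ⟨0, by decide⟩ hj hl hrW ζ e4 (by norm_num)
      (rel4 _) (by decide) hne' (by decide +kernel)
  · by_contra hne
    push Not at hne
    rw [e6] at hne
    have hne' : 2 < finrank (ZMod r) (Module.End.eigenspace (Matrix.toLin' ((Aw chevE6 l)ᵀ.map (Int.castRingHom (ZMod r)))) ζ) := by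
      refine lt_of_le_of_lt ?_ hne
      decide
    exact exc_full h hp3 zE6 zE6_rad ⟨0, by decide⟩ hj hl hrW ζ e6 (by norm_num)
      (rel6 _) (by decide) hne' (by decide +kernel)
  · exact bound_of_le h hl hrW ζ hd0 hle

/-! ### `E₇` -/

set_option maxRecDepth 100000 in
lemma tabE7 : ∀ e ∈ [2, 6, 8, 10, 12, 14, 18], ∀ d ∈ Nat.divisors e, d = 4 ∨
    chevE7.rank / d.totient ≤ ([2, 6, 8, 10, 12, 14, 18].filter fun e => d ∣ e).length := by
  decide +kernel

set_option maxRecDepth 100000 in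
lemma symE7 : (cartanM chevE7)ᵀ = cartanM chevE7 := by
  decide +kernel

set_option maxRecDepth 100000 in
lemma diagE7 : ∀ i, cartanM chevE7 i i = 2 := by decide +kernel

set_option maxRecDepth 100000 in
lemma siE7 : ∀ i, (Si chevE7 i)ᵀ * cartanM chevE7 * Si chevE7 i = cartanM chevE7 := by
  decide +kernel

set_option maxRecDepth 100000 in
set_option maxHeartbeats 0 in
lemma chkE7 : ChkE chevE7 := chkE_of _ (by decide +kernel)

theorem bound_E7 (h : Tab chevE7) (hrW : ¬ r ∣ (Wc h).card) (ζ : ZMod r) (hd : ∃ e ∈ [2, 6, 8, 10, 12, 14, 18], orderOf ζ ∣ e)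
    {l : List ℕ} (hl : ∀ i ∈ l, i < chevE7.rank) :
    finrank (ZMod r) (Module.End.eigenspace (Matrix.toLin' ((Aw chevE7 l)ᵀ.map (Int.castRingHom (ZMod r)))) ζ) ≤
      ([2, 6, 8, 10, 12, 14, 18].filter fun e => orderOf ζ ∣ e).length := by
  obtain ⟨e, he, hde⟩ := hd
  have he0 : e ≠ 0 := by
    rintro rfl
    revert he
    decide
  have hd0 : 0 < orderOf ζ := Nat.pos_of_ne_zero fun e2 => he0 (by rw [e2] at hde; exact zero_dvd_iff.mp hde)
  rcases tabE7 e he _ (Nat.mem_divisors.mpr ⟨hde, he0⟩) with e4 | hle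
  · by_contra hne
    push Not at hne
    rw [e4] at hne
    have hne' : 2 < finrank (ZMod r) (Module.End.eigenspace (Matrix.toLin' ((Aw chevE7 l)ᵀ.map (Int.castRingHom (ZMod r)))) ζ) := by
      refine lt_of_le_of_lt ?_ hne
      decide
    obtain ⟨E, hE, hc, hsum, hcnt, hpos⟩ := exc_setup h hl hrW ζ hne'
    rw [e4] at hcnt
    have h1 := count_mul_totient_le (E := E) 4
    rw [hsum] at h1
    have ht4 : Nat.totient 4 = 2 := by decide
    have hrk : chevE7.rank = 7 := by decide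
    rw [ht4, hrk] at h1
    have h3' : E.count 4 = 3 := by omega
    have h3 : E.count 4 * Nat.totient 4 + 1 = chevE7.rank := by rw [h3', ht4, hrk]
    obtain ⟨e', he', hne2, hc', hrel⟩ := radical_pair (Aw chevE7 l) hpos (Aw_pow_card h hl) hE hc hsum h3 (by omega)
    rw [h3', cyc4] at hc'
    rw [cyc4] at hrel
    rcases he' with rfl | rfl
    · rw [cyclotomic_one] at hc' hrel
      simp only [map_mul, map_add, map_sub, map_pow, aeval_X, map_one] at hrel
      rw [pow_two] at hrel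
      refine no_sqrt_chev h symE7 diagE7 siE7 (by decide) chkE7 hl 1 (Or.inl rfl) ?_ ((X ^ 2 + 1) ^ 3) ?_ ?_
      · have e9 : (Aw chevE7 l - (1 : ℤ) • (1 : Matrix (Fin chevE7.rank) (Fin chevE7.rank) ℤ)) * (Aw chevE7 l * Aw chevE7 l + 1) =
            (Aw chevE7 l * Aw chevE7 l + 1) * (Aw chevE7 l - 1) := by
          rw [one_smul]
          noncomm_ring
        rw [e9]
        exact hrel
      · rw [hc']
        simp
      · simp
    · rw [cyclotomic_two] at hc' hrel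
      simp only [map_mul, map_add, map_sub, map_pow, aeval_X, map_one] at hrel
      rw [pow_two] at hrel
      refine no_sqrt_chev h symE7 diagE7 siE7 (by decide) chkE7 hl (-1) (Or.inr rfl) ?_ ((X ^ 2 + 1) ^ 3) ?_ ?_
      · have e9 : (Aw chevE7 l - (-1 : ℤ) • (1 : Matrix (Fin chevE7.rank) (Fin chevE7.rank) ℤ)) * (Aw chevE7 l * Aw chevE7 l + 1) =
            (Aw chevE7 l * Aw chevE7 l + 1) * (Aw chevE7 l + 1) := by
          rw [neg_smul, one_smul]
          noncomm_ring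
        rw [e9]
        exact hrel
      · rw [hc']
        simp
      · simp
  · exact bound_of_le h hl hrW ζ hd0 hle

/-! ### The others -/

set_option maxRecDepth 100000 in
lemma tabG2 : ∀ e ∈ [2, 6], ∀ d ∈ Nat.divisors e,
    chevG2.rank / d.totient ≤ ([2, 6].filter fun e => d ∣ e).length := by
  decide +kernel

set_option maxRecDepth 100000 in
lemma tabB2 : ∀ e ∈ [2, 4], ∀ d ∈ Nat.divisors e,
    chevB2.rank / d.totient ≤ ([2, 4].filter fun e => d ∣ e).length := by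
  decide +kernel

set_option maxRecDepth 100000 in
lemma tabF4 : ∀ e ∈ [2, 6, 8, 12], ∀ d ∈ Nat.divisors e,
    chevF4.rank / d.totient ≤ ([2, 6, 8, 12].filter fun e => d ∣ e).length := by
  decide +kernel

set_option maxRecDepth 100000 in
lemma tabE8 : ∀ e ∈ [2, 8, 12, 14, 18, 20, 24, 30], ∀ d ∈ Nat.divisors e,
    chevE8.rank / d.totient ≤ ([2, 8, 12, 14, 18, 20, 24, 30].filter fun e => d ∣ e).length := by
  decide +kernel

include h in
theorem bound_tab {ds : List ℕ} (htab : ∀ e ∈ ds, ∀ d ∈ Nat.divisors e, D.rank / d.totient ≤ (ds.filter fun e => d ∣ e).length)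
    (h0 : ∀ e ∈ ds, e ≠ 0)
    (hrW : ¬ r ∣ (Wc h).card) (ζ : ZMod r) (hd : ∃ e ∈ ds, orderOf ζ ∣ e)
    {l : List ℕ} (hl : ∀ i ∈ l, i < D.rank) :
    finrank (ZMod r) (Module.End.eigenspace (Matrix.toLin' ((Aw D l)ᵀ.map (Int.castRingHom (ZMod r)))) ζ) ≤
      (ds.filter fun e => orderOf ζ ∣ e).length := by
  obtain ⟨e, he, hde⟩ := hd
  have he0 := h0 e he
  have hd0 : 0 < orderOf ζ := Nat.pos_of_ne_zero fun e2 => he0 (by rw [e2] at hde; exact zero_dvd_iff.mp hde)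
  exact bound_of_le h hl hrW ζ hd0 (htab e he _ (Nat.mem_divisors.mpr ⟨hde, he0⟩))

/-- The list of the types with their degrees. -/
def typeList : List (ChevalleyDatum × List ℕ) :=
  [(chevG2, [2, 6]), (chevB2, [2, 4]), (chevD4, [2, 4, 4, 6]), (chevF4, [2, 6, 8, 12]),
      (chevE6, [2, 5, 6, 8, 9, 12]), (chevE7, [2, 6, 8, 10, 12, 14, 18]), (chevE8, [2, 8, 12, 14, 18, 20, 24, 30])]

include h in
theorem bound_all {ds : List ℕ} (hp : (D, ds) ∈ typeList)
    (hrW : ¬ r ∣ (Wc h).card) (ζ : ZMod r) (hd : ∃ e ∈ ds, orderOf ζ ∣ e)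
    {l : List ℕ} (hl : ∀ i ∈ l, i < D.rank) :
    finrank (ZMod r) (Module.End.eigenspace (Matrix.toLin' ((Aw D l)ᵀ.map (Int.castRingHom (ZMod r)))) ζ) ≤
      (ds.filter fun e => orderOf ζ ∣ e).length := by
  simp only [typeList, List.mem_cons, Prod.mk.injEq, List.not_mem_nil, or_false] at hp
  rcases hp with ⟨rfl, rfl⟩ | ⟨rfl, rfl⟩ | ⟨rfl, rfl⟩ | ⟨rfl, rfl⟩ | ⟨rfl, rfl⟩ | ⟨rfl, rfl⟩ | ⟨rfl, rfl⟩
  · exact bound_tab h tabG2 (by decide) hrW ζ hd hl
  · exact bound_tab h tabB2 (by decide) hrW ζ hd hl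
  · exact bound_D4 h hrW ζ hd hl
  · exact bound_tab h tabF4 (by decide) hrW ζ hd hl
  · exact bound_E6 h hrW ζ hd hl
  · exact bound_E7 h hrW ζ hd hl
  · exact bound_tab h tabE8 (by decide) hrW ζ hd hl

end Cfsg.Agent.Lib.KS71.HCj
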