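/-
Sylow subgroups away from the characteristic and the Weyl group: the final form.
-/
import Mathlib
import Cfsg.Agent.Lib.KS71.HCj
import Cfsg.Agent.Lib.Chev.OrderData.G2
import Cfsg.Agent.Lib.Chev.OrderData.B2
import Cfsg.Agent.Lib.Chev.OrderData.D4
import Cfsg.Agent.Lib.Chev.OrderData.F4
import Cfsg.Agent.Lib.Chev.OrderData.E6
import Cfsg.Agent.Lib.Chev.OrderData.E7
import Cfsg.Agent.Lib.Chev.OrderData.E8
import Cfsg.Agent.Lib.Chev.Diag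
import Cfsg.Agent.Lib.Chev.Tables2
import Cfsg.Agent.Lib.Chev.Tables
import Cfsg.Agent.Lib.Lie.AxOf

set_option autoImplicit false
set_option linter.unusedSectionVars false
set_option linter.unusedVariables false

namespace Cfsg.Agent.Lib.KS71.HCk

open scoped MatrixGroups Matrix
open Polynomial Module
open Cfsg Cfsg.Lie Cfsg.Lie.ChevalleyDatum
open Cfsg.Agent.Lib.Chev.Tables Cfsg.Agent.Lib.Chev.Tables2 Cfsg.Agent.Lib.Chev.Tables3 Cfsg.Agent.Lib.Chev.Raise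
open Cfsg.Agent.Lib.Chev.Basic Cfsg.Agent.Lib.Chev.AxBasic Cfsg.Agent.Lib.Chev.Torus
open Cfsg.Agent.Lib.Chev.Products Cfsg.Agent.Lib.Chev.Products2 Cfsg.Agent.Lib.Chev.Mono1
open Cfsg.Agent.Lib.Chev.Mono2 Cfsg.Agent.Lib.Chev.Mono3 Cfsg.Agent.Lib.Chev.Bn
open Cfsg.Agent.Lib.Chev.Order1 Cfsg.Agent.Lib.Chev.Order2 Cfsg.Agent.Lib.Chev.Parab
open Cfsg.Agent.Lib.Chev.Diag Cfsg.Agent.Lib.Chev.SL2 Cfsg.Agent.Lib.Chev.SL2Chev Cfsg.Agent.Lib.Chev.Order3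
open Cfsg.Agent.Lib.KS71.HCb Cfsg.Agent.Lib.KS71.HCc Cfsg.Agent.Lib.KS71.HCh Cfsg.Agent.Lib.KS71.HCi Cfsg.Agent.Lib.KS71.HCj
open Cfsg.Agent.Lib.KS71.HCd Cfsg.Agent.Lib.KS71.HCg

lemma evalP_geom_one' (d : ℕ) : evalP (geomP d) 1 = d := by
  induction d with
  | zero => rfl
  | succ d ih =>
    show 1 + 1 * evalP (geomP d) 1 = d + 1
    rw [ih]
    ring

/-- The coefficient check. -/
def coefOK (D : ChevalleyDatum) (ds : List ℕ) : Prop :=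
  ∀ s, s < D.nroots → ∀ i, i < D.rank → coef D s i = 0 ∨ (coef D s i).natAbs ∣ ds.prod

set_option maxRecDepth 100000 in
set_option maxHeartbeats 0 in
lemma coefOK_all {D : ChevalleyDatum} {ds : List ℕ} (hp : (D, ds) ∈ typeList) : coefOK D ds := by
  simp only [typeList, List.mem_cons, Prod.mk.injEq, List.not_mem_nil, or_false] at hp
  rcases hp with ⟨rfl, rfl⟩ | ⟨rfl, rfl⟩ | ⟨rfl, rfl⟩ | ⟨rfl, rfl⟩ | ⟨rfl, rfl⟩ | ⟨rfl, rfl⟩ | ⟨rfl, rfl⟩ <;>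
    (unfold coefOK; decide +kernel)

lemma mem_list {D : ChevalleyDatum} {ds : List ℕ} (hp : (D, ds) ∈ typeList) :
    D ∈ [chevG2, chevB2, chevD4, chevF4, chevE6, chevE7, chevE8] := by
  simp only [typeList, List.mem_cons, Prod.mk.injEq, List.not_mem_nil, or_false] at hp
  rcases hp with ⟨rfl, rfl⟩ | ⟨rfl, rfl⟩ | ⟨rfl, rfl⟩ | ⟨rfl, rfl⟩ | ⟨rfl, rfl⟩ | ⟨rfl, rfl⟩ | ⟨rfl, rfl⟩ <;> simp

lemma two_dvd_list {D : ChevalleyDatum} {ds : List ℕ} (hp : (D, ds) ∈ typeList) : 2 ∣ ds.prod := by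
  simp only [typeList, List.mem_cons, Prod.mk.injEq, List.not_mem_nil, or_false] at hp
  rcases hp with ⟨rfl, rfl⟩ | ⟨rfl, rfl⟩ | ⟨rfl, rfl⟩ | ⟨rfl, rfl⟩ | ⟨rfl, rfl⟩ | ⟨rfl, rfl⟩ | ⟨rfl, rfl⟩ <;> decide

lemma len_list {D : ChevalleyDatum} {ds : List ℕ} (hp : (D, ds) ∈ typeList) : ds.length = D.rank := by
  simp only [typeList, List.mem_cons, Prod.mk.injEq, List.not_mem_nil, or_false] at hp
  rcases hp with ⟨rfl, rfl⟩ | ⟨rfl, rfl⟩ | ⟨rfl, rfl⟩ | ⟨rfl, rfl⟩ | ⟨rfl, rfl⟩ | ⟨rfl, rfl⟩ | ⟨rfl, rfl⟩ <;> decide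

lemma cert_list {D : ChevalleyDatum} {ds : List ℕ} (hp : (D, ds) ∈ typeList) :
    ∃ Tb ls, certOK D Tb ls ds = true := by
  simp only [typeList, List.mem_cons, Prod.mk.injEq, List.not_mem_nil, or_false] at hp
  rcases hp with ⟨rfl, rfl⟩ | ⟨rfl, rfl⟩ | ⟨rfl, rfl⟩ | ⟨rfl, rfl⟩ | ⟨rfl, rfl⟩ | ⟨rfl, rfl⟩ | ⟨rfl, rfl⟩
  · exact ⟨_, _, Cfsg.Agent.Lib.Chev.OrderData.G2.cert⟩
  · exact ⟨_, _, Cfsg.Agent.Lib.Chev.OrderData.B2.cert⟩
  · exact ⟨_, _, Cfsg.Agent.Lib.Chev.OrderData.D4.cert⟩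
  · exact ⟨_, _, Cfsg.Agent.Lib.Chev.OrderData.F4.cert⟩
  · exact ⟨_, _, Cfsg.Agent.Lib.Chev.OrderData.E6.cert⟩
  · exact ⟨_, _, Cfsg.Agent.Lib.Chev.OrderData.E7.cert⟩
  · exact ⟨_, _, Cfsg.Agent.Lib.Chev.OrderData.E8.cert⟩

universe v u

lemma dd_list {D : ChevalleyDatum} {ds : List ℕ} (hp : (D, ds) ∈ typeList) (K : Type v) [Field K] [Fintype K] :
    ∃ dd, dd ∣ ds.prod ∧ dd * Nat.card (D.diagonalSubgroup K) = (Fintype.card K - 1) ^ D.rank := by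
  have hax := Cfsg.Agent.Lib.Lie.AxOf.ax_of_mem (F := K) (mem_list hp)
  simp only [typeList, List.mem_cons, Prod.mk.injEq, List.not_mem_nil, or_false] at hp
  rcases hp with ⟨rfl, rfl⟩ | ⟨rfl, rfl⟩ | ⟨rfl, rfl⟩ | ⟨rfl, rfl⟩ | ⟨rfl, rfl⟩ | ⟨rfl, rfl⟩ | ⟨rfl, rfl⟩
  · exact ⟨1, one_dvd _, card_diagonal_final rfl (chevG2, 1) (by simp) hax⟩
  · exact ⟨_, (Nat.gcd_dvd_left 2 _).trans (by decide), card_diagonal_final rfl (chevB2, Nat.gcd 2 (Fintype.card K - 1)) (by simp) hax⟩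
  · exact ⟨_, (pow_dvd_pow_of_dvd (Nat.gcd_dvd_left 2 (Fintype.card K - 1)) 2).trans (by decide),
      card_diagonal_final rfl (chevD4, Nat.gcd 2 (Fintype.card K - 1) ^ 2) (by simp) hax⟩
  · exact ⟨1, one_dvd _, card_diagonal_final rfl (chevF4, 1) (by simp) hax⟩
  · exact ⟨_, (Nat.gcd_dvd_left 3 _).trans (by decide), card_diagonal_final rfl (chevE6, Nat.gcd 3 (Fintype.card K - 1)) (by simp) hax⟩
  · exact ⟨_, (Nat.gcd_dvd_left 2 _).trans (by decide), card_diagonal_final rfl (chevE7, Nat.gcd 2 (Fintype.card K - 1)) (by simp) hax⟩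
  · exact ⟨1, one_dvd _, card_diagonal_final rfl (chevE8, 1) (by simp) hax⟩

theorem sylow_final {F : Type u} [Field F] [Fintype F] {q : ℕ} (hq : Fintype.card F = q)
    {D : ChevalleyDatum} {ds : List ℕ} (hp : (D, ds) ∈ typeList)
    (r : ℕ) [hr : Fact r.Prime] (hrq : ¬ r ∣ q) (hrW : ¬ r ∣ ds.prod) (hrG : r ∣ Nat.card ↥(D.group F))
    (P : Sylow r ↥(D.group F)) :
    Nonempty (↥(P : Subgroup ↥(D.group F)) ≃* (Fin (ds.filter fun e => orderOf (q : ZMod r) ∣ e).length →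
      Multiplicative (ZMod (r ^ padicValNat r ((Polynomial.cyclotomic (orderOf (q : ZMod r)) ℤ).eval (q : ℤ)).natAbs)))) := by
  have hD := mem_list hp
  have h := tab_of_mem hD
  have h2 := tab2_of_mem hD
  have ax := Cfsg.Agent.Lib.Lie.AxOf.ax_of_mem (F := F) hD
  obtain ⟨Tb, ls, hcert⟩ := cert_list hp
  have hWc : (Wc h).card = ds.prod := by
    have := sum_of_cert h h2 ax hcert 1
    simp only [one_pow, Finset.sum_const, smul_eq_mul, mul_one, evalP_geom_one', List.map_id'] at this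
    exact this
  have hq2 : 2 ≤ q := by
    rw [← hq]
    exact Fintype.one_lt_card
  have hodd : Odd r := by
    refine hr.out.odd_of_ne_two ?_
    rintro rfl
    exact hrW (two_dvd_list hp)
  have hds : ∀ e ∈ ds, 0 < e ∧ ¬ r ∣ e := by
    intro e he
    have hdvd : e ∣ ds.prod := List.dvd_prod he
    constructor
    · apply Nat.pos_of_ne_zero
      rintro rfl
      rw [zero_dvd_iff] at hdvd
      rw [hdvd] at hrW
      exact hrW (dvd_zero _)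
    · exact fun e2 => hrW (e2.trans hdvd)
  obtain ⟨dd, hdd1, hdd2⟩ := dd_list hp F
  rw [hq] at hdd2
  have hkey := card_of_cert h h2 ax hcert (len_list hp) hq hdd2
  have hdex : ∃ e ∈ ds, orderOf (q : ZMod r) ∣ e := by
    have e1 : r ∣ q ^ (D.nroots / 2) * (ds.map fun e => q ^ e - 1).prod := by
      rw [← hkey]
      exact Dvd.dvd.mul_left hrG _
    have hrp : Prime r := hr.out.prime
    rcases hrp.dvd_or_dvd e1 with e2 | e2
    · exact absurd (hrp.dvd_of_dvd_pow e2) hrq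
    · obtain ⟨a, ha, hra⟩ := (hrp.dvd_prod_iff).mp e2
      obtain ⟨e, he, rfl⟩ := List.mem_map.mp ha
      exact ⟨e, he, orderOf_dvd_of_pow_eq_one ((dvd_iff_pow_eq_one hq2).mp hra)⟩
  have hcoef : ∀ s, s < D.nroots → ∃ i, i < D.rank ∧ ¬ (r : ℤ) ∣ coef D s i := by
    intro s hs
    obtain ⟨i, hi, hne⟩ := exists_coef_ne h hs
    refine ⟨i, hi, fun e2 => ?_⟩
    rcases coefOK_all hp s hs i hi with e3 | e3
    · exact hne e3
    · apply hrW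
      refine dvd_trans ?_ e3
      exact Int.natCast_dvd.mp e2
  refine sylow_main h h2 hD hq ds hrq hodd hWc hrW hds ⟨dd, D.nroots / 2, fun e2 => hrW (e2.trans hdd1), hkey⟩ ?_ hcoef ?_ P
  · intro K _ _
    obtain ⟨dd', h1, h2'⟩ := dd_list hp K
    exact ⟨dd', fun e2 => hrW (e2.trans h1), h2'⟩
  · intro l hl
    exact bound_all h hp (by rw [hWc]; exact hrW) _ hdex hl

end Cfsg.Agent.Lib.KS71.HCk
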