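/-
Linear algebra for the regular elements: cyclic vectors, an inequality of Hadamard type,
and the order of the kernel of an integer matrix on a power of a cyclic group.
-/
import Mathlib
import Cfsg.Agent.Lib.Chev.Diag

set_option autoImplicit false
set_option linter.unusedSectionVars false
set_option linter.unusedVariables false

namespace Cfsg.Agent.Lib.KS71.HCm

open scoped Matrix
open Polynomial

variable {n : ℕ}

/-- The matrix whose columns are the images of a vector under the powers of a matrix. -/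
def Mb (A : Matrix (Fin n) (Fin n) ℤ) (b : Fin n → ℤ) : Matrix (Fin n) (Fin n) ℤ :=
  fun i j => ((A ^ (j : ℕ)).mulVec b) i

/-- A nonzero vector is cyclic when the characteristic polynomial is an irreducible cyclotomic polynomial. -/
theorem det_Mb_ne {A : Matrix (Fin n) (Fin n) ℤ} {d : ℕ} (hd : 0 < d) (hc : A.charpoly = cyclotomic d ℤ)
    (hφ : d.totient = n) {b : Fin n → ℤ} (hb : b ≠ 0) : (Mb A b).det ≠ 0 := by
  classical
  intro hdet
  obtain ⟨a, ha, hMa⟩ := Matrix.exists_mulVec_eq_zero_iff.mpr hdet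
  let φ : ℤ →+* ℚ := Int.castRingHom ℚ
  let A' : Matrix (Fin n) (Fin n) ℚ := A.map φ
  let b' : Fin n → ℚ := fun i => (b i : ℚ)
  let f : ℚ[X] := ∑ j : Fin n, C (a j : ℚ) * X ^ (j : ℕ)
  have hirr : Irreducible (cyclotomic d ℚ) := cyclotomic.irreducible_rat hd
  have hf0 : f ≠ 0 := by
    intro e
    apply ha
    funext j
    have e1 := congrArg (fun p => coeff p (j : ℕ)) e
    simp only [f, finset_sum_coeff, coeff_C_mul, coeff_X_pow, coeff_zero] at e1
    rw [Finset.sum_eq_single j] at e1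
    · simpa using e1
    · intro i _ hi
      have : (j : ℕ) ≠ i := fun e2 => hi (Fin.ext e2.symm)
      simp [this]
    · simp
  have hfdeg : f.degree < (n : ℕ) := degree_sum_fin_lt (fun j : Fin n => (a j : ℚ))
  have hnd : ¬ cyclotomic d ℚ ∣ f := by
    intro e
    have h1 := degree_le_of_dvd e hf0
    rw [degree_cyclotomic, hφ] at h1
    exact absurd (lt_of_le_of_lt h1 hfdeg) (lt_irrefl _)
  have hcop : IsCoprime f (cyclotomic d ℚ) := ((hirr.coprime_iff_not_dvd).mpr hnd).symm
  obtain ⟨u, v, huv⟩ := hcop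
  have hΦ : aeval A' (cyclotomic d ℚ) = 0 := by
    have e1 : A'.charpoly = cyclotomic d ℚ := by
      show (A.map φ).charpoly = _
      rw [Matrix.charpoly_map, hc, map_cyclotomic]
    rw [← e1]
    exact Matrix.aeval_self_charpoly A'
  have huv' : aeval A' u * aeval A' f = 1 := by
    have e1 := congrArg (aeval A') huv
    simp only [map_add, map_mul, hΦ, mul_zero, add_zero, map_one] at e1
    exact e1
  have hpow : ∀ j : ℕ, ∀ i, ((A' ^ j).mulVec b') i = (((A ^ j).mulVec b) i : ℚ) := by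
    intro j i
    have e1 := RingHom.map_mulVec φ (A ^ j) b i
    have e2 : (A ^ j).map φ = A' ^ j := by
      have := map_pow (RingHom.mapMatrix φ) A j
      exact this
    rw [e2] at e1
    exact e1.symm
  have hfb : (aeval A' f).mulVec b' = 0 := by
    funext i
    have e1 : aeval A' f = ∑ j : Fin n, (a j : ℚ) • A' ^ (j : ℕ) := by
      simp only [f, map_sum, map_mul, aeval_C, aeval_X_pow, algebraMap_smul, Algebra.algebraMap_eq_smul_one,
        smul_mul_assoc, one_mul]
    rw [e1, Matrix.sum_mulVec, Finset.sum_apply]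
    simp only [Matrix.smul_mulVec, Pi.smul_apply, smul_eq_mul, hpow, Pi.zero_apply]
    have e2 := congrFun hMa i
    simp only [Matrix.mulVec, dotProduct, Pi.zero_apply, Mb] at e2
    have e3 := congrArg (fun z : ℤ => (z : ℚ)) e2
    simp only [Int.cast_sum, Int.cast_mul, Int.cast_zero] at e3
    rw [← e3]
    refine Finset.sum_congr rfl fun j _ => ?_
    rw [mul_comm]
    simp [Matrix.mulVec, dotProduct]
  have hb0 : b' = 0 := by
    have e1 : (aeval A' u * aeval A' f).mulVec b' = b' := by rw [huv', Matrix.one_mulVec]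
    rw [← Matrix.mulVec_mulVec, hfb, Matrix.mulVec_zero] at e1
    exact e1.symm
  apply hb
  funext i
  have := congrFun hb0 i
  simpa [b'] using this

/-- A matrix commuting with a matrix with irreducible characteristic polynomial is zero or invertible. -/
theorem eq_zero_or_det_ne {A e : Matrix (Fin n) (Fin n) ℤ} {d : ℕ} (hd : 0 < d) (hc : A.charpoly = cyclotomic d ℤ)
    (hφ : d.totient = n) (hAe : A * e = e * A) : e = 0 ∨ e.det ≠ 0 := by
  classical
  by_cases hdet : e.det = 0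
  · left
    obtain ⟨v, hv, hev⟩ := Matrix.exists_mulVec_eq_zero_iff.mpr hdet
    have hM := det_Mb_ne hd hc hφ hv
    have hcomm : ∀ j : ℕ, e * A ^ j = A ^ j * e := by
      intro j
      have : Commute A e := hAe
      exact ((this.pow_left j).eq).symm
    have h0 : e * Mb A v = 0 := by
      ext i j
      have e1 : (e * Mb A v) i j = (e.mulVec ((A ^ (j : ℕ)).mulVec v)) i := by
        simp [Matrix.mul_apply, Matrix.mulVec, dotProduct, Mb]
      rw [e1, Matrix.mulVec_mulVec, hcomm, ← Matrix.mulVec_mulVec, hev, Matrix.mulVec_zero]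
      rfl
    have h1 : (Mb A v).det • e = 0 := by
      have e1 : e * (Mb A v * (Mb A v).adjugate) = (Mb A v).det • e := by
        rw [Matrix.mul_adjugate, Matrix.mul_smul, mul_one]
      rw [← e1, ← mul_assoc, h0, zero_mul]
    exact (smul_eq_zero.mp h1).resolve_left hM
  · exact Or.inr hdet

/-- The arithmetic-geometric inequality for the eigenvalues. -/
lemma prod_le_of_sum_le {ι : Type*} [Fintype ι] (lam : ι → ℝ) (h0 : ∀ i, 0 ≤ lam i) (N : ℝ) (hN : 0 ≤ N)
    (hs : ∑ i, lam i ≤ Fintype.card ι * N) : ∏ i, lam i ≤ N ^ Fintype.card ι := by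
  classical
  rcases isEmpty_or_nonempty ι with hι | hι
  · simp
  have hcard : (0 : ℝ) < Fintype.card ι := by exact_mod_cast Fintype.card_pos
  have h2 := Real.geom_mean_le_arith_mean_weighted Finset.univ (fun _ : ι => (Fintype.card ι : ℝ)⁻¹) lam
    (fun _ _ => by positivity) (by simp [hcard.ne']) (fun i _ => h0 i)
  have h3 : ∑ i : ι, (Fintype.card ι : ℝ)⁻¹ * lam i ≤ N := by
    rw [← Finset.mul_sum]
    rw [inv_mul_le_iff₀ hcard]
    exact hs
  have h4 := le_trans h2 h3
  have h5 : 0 ≤ ∏ i : ι, lam i ^ (Fintype.card ι : ℝ)⁻¹ :=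
    Finset.prod_nonneg fun i _ => Real.rpow_nonneg (h0 i) _
  have h6 := pow_le_pow_left₀ h5 h4 (Fintype.card ι)
  refine le_trans (le_of_eq ?_) h6
  rw [← Finset.prod_pow]
  refine Finset.prod_congr rfl fun i _ => ?_
  rw [← Real.rpow_natCast, ← Real.rpow_mul (h0 i), inv_mul_cancel₀ hcard.ne', Real.rpow_one]

/-- An inequality of Hadamard type. -/
theorem det_sq_le (Gm M : Matrix (Fin n) (Fin n) ℤ) (hpsd : (Gm.map (Int.castRingHom ℝ)).PosSemidef)
    (hdet : 0 < Gm.det) (N : ℕ) (hdiag : ∀ i, (Mᵀ * Gm * M) i i ≤ N) : M.det ^ 2 ≤ (N : ℤ) ^ n := by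
  classical
  let φ : ℤ →+* ℝ := Int.castRingHom ℝ
  let Gr : Matrix (Fin n) (Fin n) ℝ := Gm.map φ
  let Mr : Matrix (Fin n) (Fin n) ℝ := M.map φ
  let P : Matrix (Fin n) (Fin n) ℝ := Mrᵀ * Gr * Mr
  have hP : P.PosSemidef := by
    have := hpsd.conjTranspose_mul_mul_same Mr
    rw [Matrix.conjTranspose_eq_transpose_of_trivial] at this
    exact this
  have hPmap : P = (Mᵀ * Gm * M).map φ := by
    have e1 : (Mᵀ * Gm * M).map φ = (RingHom.mapMatrix φ) (Mᵀ * Gm * M) := rfl
    rw [e1, map_mul, map_mul]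
    rfl
  have hH := hP.isHermitian
  have hdetP : P.det = ∏ i, hH.eigenvalues i := by
    have := hH.det_eq_prod_eigenvalues
    simpa using this
  have htr : P.trace = ∑ i, hH.eigenvalues i := by
    have := hH.trace_eq_sum_eigenvalues
    simpa using this
  have hnn : ∀ i, 0 ≤ hH.eigenvalues i := hP.eigenvalues_nonneg
  have htrle : ∑ i, hH.eigenvalues i ≤ Fintype.card (Fin n) * (N : ℝ) := by
    rw [← htr, Matrix.trace]
    have e1 : ∀ i, P.diag i ≤ (N : ℝ) := by
      intro i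
      rw [Matrix.diag, hPmap, Matrix.map_apply]
      have := hdiag i
      have e2 : (((Mᵀ * Gm * M) i i : ℤ) : ℝ) ≤ ((N : ℤ) : ℝ) := by exact_mod_cast this
      simpa [φ] using e2
    calc ∑ i, P.diag i ≤ ∑ _i : Fin n, (N : ℝ) := Finset.sum_le_sum fun i _ => e1 i
      _ = _ := by simp
  have h1 := prod_le_of_sum_le hH.eigenvalues hnn (N : ℝ) (Nat.cast_nonneg _) htrle
  rw [Fintype.card_fin, ← hdetP] at h1
  have h2 : P.det = ((Mᵀ * Gm * M).det : ℝ) := by
    rw [hPmap]
    have := RingHom.map_det φ (Mᵀ * Gm * M)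
    exact this.symm
  rw [h2, Matrix.det_mul, Matrix.det_mul, Matrix.det_transpose] at h1
  have h3 : M.det * Gm.det * M.det ≤ (N : ℤ) ^ n := by exact_mod_cast h1
  have h4 : M.det ^ 2 ≤ M.det * Gm.det * M.det := by
    have e1 : M.det * Gm.det * M.det = Gm.det * M.det ^ 2 := by ring
    rw [e1]
    have : 1 ≤ Gm.det := hdet
    nlinarith [sq_nonneg M.det]
  exact h4.trans h3

/-- A certificate for positive semidefiniteness. -/
lemma psd_of_cert {m : ℕ} {Gm : Matrix (Fin n) (Fin n) ℤ} (k : ℕ) (hk : 0 < k) (L : Matrix (Fin m) (Fin n) ℤ)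
    (w : Fin m → ℕ) (he : (k : ℤ) • Gm = Lᵀ * Matrix.diagonal (fun i => (w i : ℤ)) * L) :
    (Gm.map (Int.castRingHom ℝ)).PosSemidef := by
  classical
  let φ : ℤ →+* ℝ := Int.castRingHom ℝ
  let Lr : Matrix (Fin m) (Fin n) ℝ := L.map φ
  have hd : (Matrix.diagonal (fun i => (w i : ℝ))).PosSemidef :=
    Matrix.PosSemidef.diagonal (fun i => by positivity) 
  have h1 := hd.conjTranspose_mul_mul_same Lr
  have h2 : (k : ℝ) • Gm.map φ = Lrᴴ * Matrix.diagonal (fun i => (w i : ℝ)) * Lr := by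
    rw [Matrix.conjTranspose_eq_transpose_of_trivial]
    have e0 : ((k : ℤ) • Gm).map φ = (Lᵀ * Matrix.diagonal (fun i => (w i : ℤ)) * L).map φ := by rw [he]
    have e1 : ((k : ℤ) • Gm).map φ = (k : ℝ) • Gm.map φ := by
      ext i j
      rw [Matrix.map_apply, Matrix.smul_apply, Matrix.smul_apply, Matrix.map_apply, smul_eq_mul, smul_eq_mul]
      simp [φ]
    rw [e1] at e0
    rw [e0, Matrix.map_mul, Matrix.map_mul]
    have e3 : (Matrix.diagonal (fun i => (w i : ℤ))).map φ = Matrix.diagonal (fun i => (w i : ℝ)) := by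
      ext i j
      by_cases hij : i = j
      · subst hij
        simp [φ]
      · simp [hij]
    rw [e3]
    rfl
  have h3 : Gm.map φ = (k : ℝ)⁻¹ • (Lrᴴ * Matrix.diagonal (fun i => (w i : ℝ)) * Lr) := by
    rw [← h2, smul_smul, inv_mul_cancel₀ (by exact_mod_cast hk.ne'), one_smul]
  rw [show Gm.map (Int.castRingHom ℝ) = Gm.map φ from rfl, h3]
  exact h1.smul (by positivity)

section ker

variable {Γ : Type*} [CommGroup Γ]

open Cfsg.Agent.Lib.Chev.Diag

/-- The vector of powers of a fixed element. -/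
def Ev (g : Γ) (v : Fin n → ℤ) : Fin n → Γ := fun j => g ^ v j

lemma Ev_add (g : Γ) (v w : Fin n → ℤ) : Ev g (v + w) = Ev g v * Ev g w := by
  funext j
  simp [Ev, zpow_add]

lemma mact_Ev (g : Γ) (v : Fin n → ℤ) (B : Matrix (Fin n) (Fin n) ℤ) : mact B (Ev g v) = Ev g (v ᵥ* B) := by
  funext j
  rw [mact_apply]
  simp only [Ev, Matrix.vecMul, dotProduct]
  rw [zpow_sum_gen]
  refine Finset.prod_congr rfl fun i _ => ?_
  rw [zpow_mul]

lemma Ev_eq_one {g : Γ} {Q : ℕ} (hQ : orderOf g = Q) {v : Fin n → ℤ} :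
    Ev g v = 1 ↔ ∃ u : Fin n → ℤ, v = (Q : ℤ) • u := by
  constructor
  · intro e
    have h1 : ∀ j, (Q : ℤ) ∣ v j := by
      intro j
      have := congrFun e j
      rw [← hQ]
      exact orderOf_dvd_iff_zpow_eq_one.mpr this
    choose u hu using h1
    exact ⟨u, funext fun j => by simp [hu j]⟩
  · rintro ⟨u, rfl⟩
    funext j
    simp only [Ev, Pi.smul_apply, smul_eq_mul, Pi.one_apply]
    rw [zpow_mul, zpow_natCast, ← hQ, pow_orderOf_eq_one, one_zpow]

/-- The order of the kernel of an integer matrix on a power of a cyclic group, when the matrix divides the order. -/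
theorem card_ker_mact (g : Γ) {Q : ℕ} (hQ : orderOf g = Q) (hQ0 : 0 < Q) (hgen : ∀ x : Γ, ∃ k : ℤ, g ^ k = x)
    (B C : Matrix (Fin n) (Fin n) ℤ) (hBC : B * C = (Q : ℤ) • 1) (hCB : C * B = (Q : ℤ) • 1) :
    Nat.card (mact B (G := Γ)).ker = B.det.natAbs := by
  classical
  have hdet : B.det * C.det = (Q : ℤ) ^ n := by
    rw [← Matrix.det_mul, hBC, Matrix.det_smul, Matrix.det_one, mul_one, Fintype.card_fin]
  have hQn : (Q : ℤ) ^ n ≠ 0 := pow_ne_zero _ (by exact_mod_cast hQ0.ne')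
  have hB : B.det ≠ 0 := fun e => hQn (by rw [← hdet, e, zero_mul])
  have hC : C.det ≠ 0 := fun e => hQn (by rw [← hdet, e, mul_zero])
  -- the map
  let Θ₀ : (Fin n → ℤ) → (mact B (G := Γ)).ker := fun w => ⟨Ev g (w ᵥ* C), by
    rw [MonoidHom.mem_ker, mact_Ev, Matrix.vecMul_vecMul, hCB, Ev_eq_one hQ]
    exact ⟨w, by rw [Matrix.vecMul_smul, Matrix.vecMul_one]⟩⟩
  have hΘ₀ : ∀ a b, Θ₀ (a + b) = Θ₀ a * Θ₀ b := by
    intro a b
    apply Subtype.ext
    show Ev g ((a + b) ᵥ* C) = Ev g (a ᵥ* C) * Ev g (b ᵥ* C)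
    rw [Matrix.add_vecMul, Ev_add]
  let Θ : (Fin n → ℤ) →+ Additive (mact B (G := Γ)).ker :=
    AddMonoidHom.mk' (fun w => Additive.ofMul (Θ₀ w)) (fun a b => by rw [hΘ₀]; rfl)
  let f : (Fin n → ℤ) →ₗ[ℤ] Additive (mact B (G := Γ)).ker := Θ.toIntLinearMap
  have hsurj : Function.Surjective f := by
    intro y
    have hgen' : ∀ j : Fin n, ∃ k : ℤ, g ^ k = (Additive.toMul y : (mact B (G := Γ)).ker).1 j := fun j => hgen _
    choose v hv using hgen'
    have hv' : Ev g v = (Additive.toMul y : (mact B (G := Γ)).ker).1 := funext hv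
    have h1 : Ev g (v ᵥ* B) = 1 := by
      rw [← mact_Ev, hv']
      exact (Additive.toMul y : (mact B (G := Γ)).ker).2
    obtain ⟨u, hu⟩ := (Ev_eq_one hQ).1 h1
    have h2 : (v - u ᵥ* C) ᵥ* B = 0 := by
      rw [Matrix.sub_vecMul, Matrix.vecMul_vecMul, hCB, Matrix.vecMul_smul, Matrix.vecMul_one, hu, sub_self]
    have h3 := Matrix.eq_zero_of_vecMul_eq_zero hB h2
    have h4 : v = u ᵥ* C := sub_eq_zero.mp h3
    refine ⟨u, ?_⟩
    apply Additive.toMul.injective
    apply Subtype.ext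
    show Ev g (u ᵥ* C) = _
    rw [← h4, hv']
  let T : (Fin n → ℤ) →ₗ[ℤ] (Fin n → ℤ) := Matrix.toLin' Bᵀ
  have hT : ∀ u, T u = u ᵥ* B := fun u => by
    show Bᵀ *ᵥ u = _
    rw [Matrix.mulVec_transpose]
  have hker : LinearMap.ker f = LinearMap.range T := by
    ext w
    rw [LinearMap.mem_ker, LinearMap.mem_range]
    constructor
    · intro e
      have h1 : Θ₀ w = 1 := Additive.ofMul.injective e
      have h2 : Ev g (w ᵥ* C) = 1 := congrArg Subtype.val h1
      obtain ⟨u, hu⟩ := (Ev_eq_one hQ).1 h2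
      refine ⟨u, ?_⟩
      rw [hT]
      have h3 : (w - u ᵥ* B) ᵥ* C = 0 := by
        rw [Matrix.sub_vecMul, Matrix.vecMul_vecMul, hBC, Matrix.vecMul_smul, Matrix.vecMul_one, hu, sub_self]
      exact (sub_eq_zero.mp (Matrix.eq_zero_of_vecMul_eq_zero hC h3)).symm
    · rintro ⟨u, rfl⟩
      rw [hT]
      apply Additive.toMul.injective
      apply Subtype.ext
      show Ev g ((u ᵥ* B) ᵥ* C) = 1
      rw [Matrix.vecMul_vecMul, hBC, Ev_eq_one hQ]
      exact ⟨u, by rw [Matrix.vecMul_smul, Matrix.vecMul_one]⟩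
  have hinj : Function.Injective T := by
    intro a b e
    rw [hT, hT] at e
    have h1 : (a - b) ᵥ* B = 0 := by rw [Matrix.sub_vecMul, e, sub_self]
    exact sub_eq_zero.mp (Matrix.eq_zero_of_vecMul_eq_zero hB h1)
  have h1 := Submodule.natAbs_det_equiv (LinearMap.range T) (LinearEquiv.ofInjective T hinj)
  have h2 : (LinearMap.range T).subtype ∘ₗ
      AddMonoidHom.toIntLinearMap ((LinearEquiv.ofInjective T hinj : (Fin n → ℤ) ≃ₗ[ℤ] LinearMap.range T) : (Fin n → ℤ) →+ LinearMap.range T) = T := by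
    ext i j
    rfl
  rw [h2, LinearMap.det_toLin', Matrix.det_transpose] at h1
  rw [h1, ← hker]
  exact (Nat.card_congr (LinearMap.quotKerEquivOfSurjective f hsurj).toEquiv).symm

end ker

end Cfsg.Agent.Lib.KS71.HCm
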