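/-
Regular elements of the torus: the eigenvector, the characteristic polynomial, regularity,
the trivial stabilizer in the Weyl group.
-/
import Mathlib
import Cfsg.Agent.Lib.KS71.HCm
import Cfsg.Agent.Lib.KS71.HCk

set_option autoImplicit false
set_option linter.unusedSectionVars false
set_option linter.unusedVariables false

namespace Cfsg.Agent.Lib.KS71.HCn

open scoped MatrixGroups Matrix
open Polynomial Module
open Cfsg Cfsg.Lie Cfsg.Lie.ChevalleyDatum
open Cfsg.Agent.Lib.Chev.Tables Cfsg.Agent.Lib.Chev.Tables2 Cfsg.Agent.Lib.Chev.Tables3 Cfsg.Agent.Lib.Chev.Raise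
open Cfsg.Agent.Lib.Chev.Basic Cfsg.Agent.Lib.Chev.AxBasic Cfsg.Agent.Lib.Chev.Torus
open Cfsg.Agent.Lib.Chev.Products Cfsg.Agent.Lib.Chev.Products2 Cfsg.Agent.Lib.Chev.Mono1
open Cfsg.Agent.Lib.Chev.Mono2 Cfsg.Agent.Lib.Chev.Mono3 Cfsg.Agent.Lib.Chev.Bn
open Cfsg.Agent.Lib.Chev.Order1 Cfsg.Agent.Lib.Chev.Order2 Cfsg.Agent.Lib.Chev.Parab
open Cfsg.Agent.Lib.Chev.Diag Cfsg.Agent.Lib.Chev.SL2 Cfsg.Agent.Lib.Chev.SL2Chev
open Cfsg.Agent.Lib.KS71.HCb Cfsg.Agent.Lib.KS71.HCc Cfsg.Agent.Lib.KS71.HCh Cfsg.Agent.Lib.KS71.HCi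
open Cfsg.Agent.Lib.KS71.HCm Cfsg.Agent.Lib.KS71.HCg Cfsg.Agent.Lib.KS71.IVf

variable {D : ChevalleyDatum} (h : Tab D) {E : Type*} [Field E] {r : ℕ} [hr : Fact r.Prime]

/-- The value on a root in terms of exponents. -/
lemma chi_eq_zpow (y : ℕ → Eˣ) (lam : Eˣ) (c : Fin D.rank → ℤ) (hc : ∀ j : Fin D.rank, lam ^ c j = y j) (s : ℕ) :
    chi D y s = lam ^ (c ⬝ᵥ crd D s) := by
  rw [chi, ← Fin.prod_univ_eq_prod_range (fun i => y i ^ coef D s i), dotProduct, zpow_sum_fin]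
  refine Finset.prod_congr rfl fun j _ => ?_
  rw [zpow_mul, hc j]
  rfl

lemma chi_eq_one_iff {y : ℕ → Eˣ} {lam : Eˣ} (hl : orderOf lam = r) {c : Fin D.rank → ℤ}
    (hc : ∀ j : Fin D.rank, lam ^ c j = y j) (s : ℕ) : chi D y s = 1 ↔ (r : ℤ) ∣ c ⬝ᵥ crd D s := by
  rw [chi_eq_zpow y lam c hc, ← hl, orderOf_dvd_iff_zpow_eq_one]

include h in
/-- The relation between the values gives an eigenvector. -/
lemma eig_mem {y : ℕ → Eˣ} {lam : Eˣ} (hl : orderOf lam = r) {c : Fin D.rank → ℤ}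
    (hc : ∀ j : Fin D.rank, lam ^ c j = y j) {l : List ℕ} {q : ℕ}
    (hrel : ∀ k : Fin D.rank, chi D y (wWord D l (D.simple k)) = chi D y (D.simple k) ^ q) :
    (fun j => (c j : ZMod r)) ∈ Module.End.eigenspace (Matrix.toLin' ((Aw D l)ᵀ.map (Int.castRingHom (ZMod r)))) (q : ZMod r) := by
  rw [Module.End.mem_eigenspace_iff]
  funext k
  have e1 := hrel k
  rw [chi_eq_zpow y lam c hc, chi_eq_zpow y lam c hc, ← zpow_natCast, ← zpow_mul] at e1
  have e2 : lam ^ (c ⬝ᵥ crd D (wWord D l (D.simple k)) - c ⬝ᵥ crd D (D.simple k) * (q : ℤ)) = 1 := by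
    rw [zpow_sub, e1, mul_inv_cancel]
  have e3 := orderOf_dvd_iff_zpow_eq_one.mpr e2
  rw [hl] at e3
  have e4 := (ZMod.intCast_zmod_eq_zero_iff_dvd _ r).2 e3
  have e5 : c ⬝ᵥ crd D (D.simple k) = c k := by
    rw [crd_simple h, dotProduct_single, mul_one]
  rw [e5] at e4
  simp only [dotProduct, crd, Int.cast_sub, Int.cast_sum, Int.cast_mul, Int.cast_natCast] at e4
  simp only [Matrix.toLin'_apply, Pi.smul_apply, smul_eq_mul, Matrix.mulVec, dotProduct]
  have e6 : ∑ j : Fin D.rank, ((Aw D l)ᵀ.map (Int.castRingHom (ZMod r))) k j * (c j : ZMod r) =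
      ∑ j : Fin D.rank, (c j : ZMod r) * ((coef D (wWord D l (D.simple k)) j : ℤ) : ZMod r) := by
    refine Finset.sum_congr rfl fun j _ => ?_
    rw [mul_comm]
    rfl
  rw [e6, mul_comm (q : ZMod r)]
  exact sub_eq_zero.mp e4

include h in
/-- The characteristic polynomial of an element of the Weyl group with a nonzero eigenvector. -/
theorem charpoly_of_rel {y : ℕ → Eˣ} {lam : Eˣ} (hl : orderOf lam = r) {c : Fin D.rank → ℤ}
    (hc : ∀ j : Fin D.rank, lam ^ c j = y j) {l : List ℕ} (hlw : ∀ i ∈ l, i < D.rank) {q : ℕ}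
    (hrW : ¬ r ∣ (Wc h).card)
    (hrel : ∀ k : Fin D.rank, chi D y (wWord D l (D.simple k)) = chi D y (D.simple k) ^ q)
    (hcne : ∃ j, ¬ (r : ℤ) ∣ c j) {d : ℕ} (hd : orderOf (q : ZMod r) = d) (hd0 : 0 < d) (hφ : d.totient = D.rank) :
    (Aw D l).charpoly = cyclotomic d ℤ := by
  classical
  have hpos : 0 < (Wc h).card := by
    rcases Nat.eq_zero_or_pos (Wc h).card with e | e
    · rw [e] at hrW
      exact absurd (dvd_zero _) hrW
    · exact e
  obtain ⟨E', hE, hc1, hc2, hs⟩ := exists_E h hlw hpos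
  have hV := eig_mem h hl hc hrel
  set V := Module.End.eigenspace (Matrix.toLin' ((Aw D l)ᵀ.map (Int.castRingHom (ZMod r)))) (q : ZMod r) with hVdef
  have hne : (⟨_, hV⟩ : V) ≠ 0 := by
    intro e
    obtain ⟨j, hj⟩ := hcne
    have e1 := congrFun (congrArg Subtype.val e) j
    exact hj ((ZMod.intCast_zmod_eq_zero_iff_dvd _ r).1 e1)
  haveI : Nontrivial V := ⟨⟨_, 0, hne⟩⟩
  have h1 : 0 < finrank (ZMod r) V := Module.finrank_pos
  have h2 := eig_le (Aw D l)ᵀ hE hc2 hrW (q : ZMod r) _ rfl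
  rw [hd] at h2
  have h3 := count_mul_totient_le (E := E') d
  rw [hs] at h3
  have hφ0 : 0 < d.totient := Nat.totient_pos.2 hd0
  have h4 : E'.count d = 1 := by
    have h41 : 1 ≤ E'.count d := le_trans h1 h2
    have h42 : E'.count d * d.totient ≤ 1 * d.totient := by rw [one_mul]; exact h3.trans hφ.ge
    have h43 := Nat.le_of_mul_le_mul_right h42 hφ0
    omega
  have h5 := sum_totient_split E' d
  rw [hs, h4, one_mul, ← hφ] at h5
  have h6 : ((E'.filter (· ≠ d)).map Nat.totient).sum = 0 := by omega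
  have h7 := card_le_sum_totient (E := E'.filter (· ≠ d)) (fun e he => (hE e (Multiset.mem_of_mem_filter he)).1)
  rw [h6] at h7
  have h8 : E'.filter (· ≠ d) = 0 := Multiset.card_eq_zero.mp (by omega)
  have h9 := filter_split E' d
  rw [h8, h4, add_zero] at h9
  rw [hc1, h9]
  simp

include h in
/-- A root vanishing on the eigenvector is impossible, by the bound on the determinant. -/
theorem regular_of_rel {y : ℕ → Eˣ} {lam : Eˣ} (hl : orderOf lam = r) {c : Fin D.rank → ℤ}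
    (hc : ∀ j : Fin D.rank, lam ^ c j = y j) {l : List ℕ} (hlw : ∀ i ∈ l, i < D.rank) {q : ℕ}
    (hrel : ∀ t, t < D.nroots → chi D y (wWord D l t) = chi D y t ^ q)
    (hcne : ∃ j, ¬ (r : ℤ) ∣ c j) {d : ℕ} (hcp : (Aw D l).charpoly = cyclotomic d ℤ) (hd0 : 0 < d) (hφ : d.totient = D.rank)
    (Gm : Matrix (Fin D.rank) (Fin D.rank) ℤ) (hpsd : (Gm.map (Int.castRingHom ℝ)).PosSemidef) (hdet : 0 < Gm.det)
    (N : ℕ) (hnorm : ∀ s, s < D.nroots → crd D s ⬝ᵥ Gm.mulVec (crd D s) ≤ N) (hb : (N : ℤ) ^ D.rank < (r : ℤ) ^ 2)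
    {s : ℕ} (hs : s < D.nroots) : chi D y s ≠ 1 := by
  classical
  intro e
  set A := Aw D l with hA
  set b := crd D s with hbdef
  have hiter : ∀ j : ℕ, ∃ t, t < D.nroots ∧ chi D y t = 1 ∧ (A ^ j).mulVec b = crd D t := by
    intro j
    induction j with
    | zero => exact ⟨s, hs, e, by simp [hbdef]⟩
    | succ j ih =>
      obtain ⟨t, ht, h1, h2⟩ := ih
      refine ⟨wWord D l t, wWord_lt h hlw ht, ?_, ?_⟩
      · rw [hrel t ht, h1, one_pow]
      · rw [pow_succ', ← Matrix.mulVec_mulVec, h2, hA, Aw_crd h hlw ht]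
  choose t ht1 ht2 ht3 using hiter
  have hb0 : b ≠ 0 := by
    obtain ⟨i, hi, hne⟩ := exists_coef_ne h hs
    intro e1
    exact hne (congrFun e1 ⟨i, hi⟩)
  have hM0 := det_Mb_ne hd0 hcp hφ hb0
  set M := Mb A b with hM
  have hcol : ∀ i j : Fin D.rank, M i j = crd D (t j) i := fun i j => by
    show ((A ^ (j : ℕ)).mulVec b) i = _
    rw [ht3]
  -- `r` divides the determinant
  have hdvd : (r : ℤ) ∣ M.det := by
    rw [← ZMod.intCast_zmod_eq_zero_iff_dvd]
    have e1 : ((M.det : ℤ) : ZMod r) = (M.map (Int.castRingHom (ZMod r))).det := by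
      have := RingHom.map_det (Int.castRingHom (ZMod r)) M
      exact this
    rw [e1, ← Matrix.exists_vecMul_eq_zero_iff]
    refine ⟨fun j => (c j : ZMod r), ?_, ?_⟩
    · intro e2
      obtain ⟨j, hj⟩ := hcne
      exact hj ((ZMod.intCast_zmod_eq_zero_iff_dvd _ r).1 (congrFun e2 j))
    · funext j
      have e2 := (chi_eq_one_iff hl hc (t j)).1 (ht2 j)
      have e3 := (ZMod.intCast_zmod_eq_zero_iff_dvd _ r).2 e2
      simp only [dotProduct, crd, Int.cast_sum, Int.cast_mul] at e3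
      simp only [Matrix.vecMul, dotProduct, Pi.zero_apply, Matrix.map_apply]
      rw [← e3]
      refine Finset.sum_congr rfl fun i _ => ?_
      rw [hcol]
      rfl
  -- the bound
  have hdiag : ∀ i, (Mᵀ * Gm * M) i i ≤ N := by
    intro i
    have e1 : (Mᵀ * Gm * M) i i = crd D (t i) ⬝ᵥ Gm.mulVec (crd D (t i)) := by
      have e2 : ∀ j, M j i = crd D (t i) j := fun j => hcol j i
      rw [Matrix.mul_assoc, Matrix.mul_apply]
      simp only [Matrix.transpose_apply, dotProduct, e2, Matrix.mul_apply, Matrix.mulVec]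
    rw [e1]
    exact hnorm _ (ht1 i)
  have hsq := det_sq_le Gm M hpsd hdet N hdiag
  obtain ⟨k, hk⟩ := hdvd
  have hk0 : k ≠ 0 := by
    rintro rfl
    exact hM0 (by rw [hk, mul_zero])
  have hk1 : 1 ≤ k ^ 2 := by
    have : 0 < k ^ 2 := by positivity
    omega
  have hr0 : (0 : ℤ) ≤ (r : ℤ) ^ 2 := by positivity
  rw [hk, mul_pow] at hsq
  nlinarith

/-- The matrix of a permutation of the roots. -/
def Mm (h : Tab D) (π : Equiv.Perm (Fin D.nroots)) : Matrix (Fin D.rank) (Fin D.rank) ℤ :=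
  fun j k => coef D (π ⟨D.simple k, h.simple_lt k k.isLt⟩) j

lemma Mm_wPw {l : List ℕ} (hl : ∀ i ∈ l, i < D.rank) : Mm h (wPw h l) = Aw D l := by
  ext j k
  show coef D (wPw h l ⟨D.simple k, h.simple_lt k k.isLt⟩) j = coef D (wWord D l (D.simple k)) j
  rw [wPw_val h hl]

lemma Mm_one : Mm h 1 = 1 := by
  have e : (1 : Equiv.Perm (Fin D.nroots)) = wPw h [] := by simp [wPw]
  rw [e, Mm_wPw h (by simp), Aw_nil h]

lemma Mm_mul {π₁ π₂ : Equiv.Perm (Fin D.nroots)} (h1 : π₁ ∈ Wp h (Set.Iio D.rank)) (h2 : π₂ ∈ Wp h (Set.Iio D.rank)) :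
    Mm h (π₁ * π₂) = Mm h π₁ * Mm h π₂ := by
  obtain ⟨l₁, hl₁, rfl⟩ := (mem_Wp_iff h).1 h1
  obtain ⟨l₂, hl₂, rfl⟩ := (mem_Wp_iff h).1 h2
  have hl₁' : ∀ i ∈ l₁, i < D.rank := fun i hi => hl₁ i hi
  have hl₂' : ∀ i ∈ l₂, i < D.rank := fun i hi => hl₂ i hi
  have hl : ∀ i ∈ l₁ ++ l₂, i < D.rank := by
    intro i hi
    rcases List.mem_append.mp hi with hi | hi
    · exact hl₁' i hi
    · exact hl₂' i hi
  rw [← wPw_append, Mm_wPw h hl, Mm_wPw h hl₁', Mm_wPw h hl₂', Aw_append h hl₁' hl₂']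

lemma Mm_crd {π : Equiv.Perm (Fin D.nroots)} (hπ : π ∈ Wp h (Set.Iio D.rank)) (s : Fin D.nroots) :
    (Mm h π).mulVec (crd D s) = crd D (π s) := by
  obtain ⟨l, hl, rfl⟩ := (mem_Wp_iff h).1 hπ
  have hl' : ∀ i ∈ l, i < D.rank := fun i hi => hl i hi
  rw [Mm_wPw h hl', Aw_crd h hl' s.isLt, wPw_val h hl']

include h in
/-- The stabilizer in the Weyl group of a nonzero eigenvector is trivial. -/
theorem stab_trivial {y : ℕ → Eˣ} {lam : Eˣ} (hl : orderOf lam = r) {c : Fin D.rank → ℤ}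
    (hc : ∀ j : Fin D.rank, lam ^ c j = y j) {l : List ℕ} (hlw : ∀ i ∈ l, i < D.rank) {q : ℕ}
    (hrW : ¬ r ∣ (Wc h).card)
    (hrel : ∀ t, t < D.nroots → chi D y (wWord D l t) = chi D y t ^ q)
    (hcne : ∃ j, ¬ (r : ℤ) ∣ c j) {d : ℕ} (hcp : (Aw D l).charpoly = cyclotomic d ℤ) (hd0 : 0 < d) (hφ : d.totient = D.rank)
    {π₀ : Equiv.Perm (Fin D.nroots)} (hπ₀W : π₀ ∈ Wp h (Set.Iio D.rank))
    (hπ₀ : ∀ s : Fin D.nroots, chi D y (π₀ s) = chi D y s) : π₀ = 1 := by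
  classical
  let S : Subgroup (Equiv.Perm (Fin D.nroots)) :=
    { carrier := {π | π ∈ Wp h (Set.Iio D.rank) ∧ ∀ s : Fin D.nroots, chi D y (π s) = chi D y s}
      mul_mem' := by
        rintro a b ⟨ha, ha'⟩ ⟨hb, hb'⟩
        refine ⟨Subgroup.mul_mem _ ha hb, fun s => ?_⟩
        rw [Equiv.Perm.mul_apply, ha', hb']
      one_mem' := ⟨Subgroup.one_mem _, fun s => rfl⟩
      inv_mem' := by
        rintro a ⟨ha, ha'⟩
        refine ⟨Subgroup.inv_mem _ ha, fun s => ?_⟩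
        have := ha' (a⁻¹ s)
        rw [show a (a⁻¹ s) = s by simp] at this
        exact this.symm }
  haveI : Fintype S := Fintype.ofFinite S
  let e : Matrix (Fin D.rank) (Fin D.rank) ℤ := ∑ π : S, Mm h π.1
  set πA := wPw h l with hπA
  have hπAW : πA ∈ Wp h (Set.Iio D.rank) := (mem_Wp_iff h).2 ⟨l, fun i hi => hlw i hi, rfl⟩
  have hA : Mm h πA = Aw D l := Mm_wPw h hlw
  have hrelπ : ∀ s : Fin D.nroots, chi D y (πA s) = chi D y s ^ q := by
    intro s
    rw [hπA, wPw_val h hlw]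
    exact hrel s s.isLt
  -- `A` normalizes `S`
  let τ : S → S := fun π => ⟨πA * π.1 * πA⁻¹, Subgroup.mul_mem _ (Subgroup.mul_mem _ hπAW π.2.1) (Subgroup.inv_mem _ hπAW), by
    intro s
    rw [Equiv.Perm.mul_apply, Equiv.Perm.mul_apply, hrelπ, π.2.2, ← hrelπ, show πA (πA⁻¹ s) = s by simp]⟩
  have hτ : Function.Bijective τ := by
    apply Finite.injective_iff_bijective.mp
    intro a b hab
    have h1 : πA * a.1 * πA⁻¹ = πA * b.1 * πA⁻¹ := congrArg Subtype.val hab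
    apply Subtype.ext
    exact mul_left_cancel (mul_right_cancel h1)
  have hAe : Aw D l * e = e * Aw D l := by
    rw [Finset.mul_sum, Finset.sum_mul, ← hτ.sum_comp (fun π : S => Mm h π.1 * Aw D l)]
    refine Finset.sum_congr rfl fun π _ => ?_
    rw [← hA, ← Mm_mul h hπAW π.2.1, ← Mm_mul h (τ π).2.1 hπAW]
    congr 1
    show πA * π.1 = πA * π.1 * πA⁻¹ * πA
    group
  -- `e` is not zero
  have he0 : e ≠ 0 := by
    intro e0
    obtain ⟨j, hj⟩ := hcne
    have h1 : ∀ (π : S), (((c ᵥ* Mm h π.1) j : ℤ) : ZMod r) = (c j : ZMod r) := by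
      intro π
      have hs := h.simple_lt j j.isLt
      have e1 := π.2.2 ⟨D.simple j, hs⟩
      rw [chi_eq_zpow y lam c hc, chi_eq_zpow y lam c hc] at e1
      have e2 : lam ^ (c ⬝ᵥ crd D (π.1 ⟨D.simple j, hs⟩) - c ⬝ᵥ crd D (D.simple j)) = 1 := by
        rw [zpow_sub, e1, mul_inv_cancel]
      have e3 := orderOf_dvd_iff_zpow_eq_one.mpr e2
      rw [hl] at e3
      have e4 := (ZMod.intCast_zmod_eq_zero_iff_dvd _ r).2 e3
      rw [crd_simple h, dotProduct_single, mul_one, Int.cast_sub, sub_eq_zero] at e4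
      rw [← e4]
      rfl
    have h2 : ((c ᵥ* e) j : ℤ) = ∑ π : S, (c ᵥ* Mm h π.1) j := by
      show (c ᵥ* (∑ π : S, Mm h π.1)) j = _
      simp only [Matrix.vecMul, dotProduct, Matrix.sum_apply, Finset.mul_sum]
      exact Finset.sum_comm
    have h3 : (((c ᵥ* e) j : ℤ) : ZMod r) = (Fintype.card S : ZMod r) * (c j : ZMod r) := by
      rw [h2, Int.cast_sum]
      simp only [h1, Finset.sum_const, Finset.card_univ, nsmul_eq_mul]
    rw [e0, Matrix.vecMul_zero] at h3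
    have h4 : (Fintype.card S : ZMod r) * (c j : ZMod r) = 0 := h3.symm.trans (by simp)
    rcases mul_eq_zero.mp h4 with h5 | h5
    · rw [ZMod.natCast_eq_zero_iff] at h5
      apply hrW
      refine h5.trans ?_
      have hle : S ≤ Wp h (Set.Iio D.rank) := fun π hπ => hπ.1
      have h6 := Subgroup.card_dvd_of_le hle
      have hcW : Nat.card (Wp h (Set.Iio D.rank)) = (Wc h).card := by
        rw [Nat.card_eq_fintype_card]
        exact Fintype.card_of_subtype (Wc h) (fun w => mem_Wc h)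
      rw [hcW, Nat.card_eq_fintype_card] at h6
      exact h6
    · exact hj ((ZMod.intCast_zmod_eq_zero_iff_dvd _ r).1 h5)
  have hdet : e.det ≠ 0 := (eq_zero_or_det_ne hd0 hcp hφ hAe).resolve_left he0
  -- the left multiplication
  have hπe : Mm h π₀ * e = e := by
    rw [Finset.mul_sum]
    have hmem : π₀ ∈ S := ⟨hπ₀W, hπ₀⟩
    refine Eq.trans ?_ (Equiv.sum_comp (Equiv.mulLeft (⟨π₀, hmem⟩ : S)) (fun π : S => Mm h π.1))
    refine Finset.sum_congr rfl fun π _ => ?_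
    rw [← Mm_mul h hπ₀W π.2.1]
    rfl
  have hM1 : Mm h π₀ = 1 := by
    have e1 : (Mm h π₀ - 1) * e = 0 := by rw [sub_mul, one_mul, hπe, sub_self]
    have e2 : e.det • (Mm h π₀ - 1) = 0 := by
      have e3 : (Mm h π₀ - 1) * (e * e.adjugate) = e.det • (Mm h π₀ - 1) := by
        rw [Matrix.mul_adjugate, Matrix.mul_smul, mul_one]
      rw [← e3, ← mul_assoc, e1, zero_mul]
    exact sub_eq_zero.mp ((smul_eq_zero.mp e2).resolve_left hdet)
  ext s
  have e1 := Mm_crd h hπ₀W s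
  rw [hM1, Matrix.one_mulVec] at e1
  have e2 : ((π₀ s : Fin D.nroots) : ℕ) = s := by
    apply eq_of_coef_eq h (Fin.isLt _) s.isLt
    intro i hi
    exact (congrFun e1 ⟨i, hi⟩).symm
  simpa using e2

section group

variable (h2 : Tab2 D) (ax : Ax D E)

include h h2 ax in
/-- An element commuting with a regular torus element with trivial stabilizer lies in the torus. -/
theorem mem_H_of_comm [Finite E] {y : ℕ → Eˣ} (hyH : tor D y ∈ D.diagonalSubgroup E)
    (hreg : ∀ s, s < D.nroots → chi D y s ≠ 1)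
    (hstab : ∀ π ∈ Wp h (Set.Iio D.rank), (∀ s : Fin D.nroots, chi D y (π s) = chi D y s) → π = 1)
    {g : GL D.Idx E} (hg : g ∈ D.group E) (hcomm : g * tor D y = tor D y * g) : g ∈ D.diagonalSubgroup E := by
  classical
  have hcz : ∀ a ∈ Subgroup.zpowers (tor D y), g * a * g⁻¹ = a := by
    rintro _ ⟨k, rfl⟩
    have e : Commute g (tor D y) := hcomm
    have e2 := (e.zpow_right k).eq
    show g * tor D y ^ k * g⁻¹ = tor D y ^ k
    rw [e2]
    group
  have hnm : g ∈ D.monomialSubgroup E := by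
    refine mem_monomial_of_normalize h h2 ax hg (Subgroup.zpowers (tor D y)) ?_ ?_ ?_ ?_
    · exact (Subgroup.zpowers_le).2 hyH
    · intro a ha
      rw [hcz a ha]
      exact ha
    · intro a ha
      have e1 := hcz a ha
      have e2 : g⁻¹ * a * g = a := by
        conv_lhs => rw [← e1]
        group
      rw [e2]
      exact ha
    · intro s hs
      exact ⟨y, Subgroup.mem_zpowers _, hreg s hs⟩
  obtain ⟨π, c0, Hn⟩ := exists_isNor h h2 ax hnm
  have hπ : π ∈ Wp h (Set.Iio D.rank) := by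
    have := piN_mem_Wp h h2 ax ⟨g, hnm⟩
    rwa [piN_of_isNor h h2 ax (g := ⟨g, hnm⟩) Hn] at this
  have hfix : ∀ s : Fin D.nroots, chi D y (π s) = chi D y s :=
    conj_tor_chi h h2 ax Hn y y (hcz _ (Subgroup.mem_zpowers _))
  have h1 := hstab π hπ hfix
  have h3 : piN h h2 ax ⟨g, hnm⟩ = 1 := by rw [piN_of_isNor h h2 ax (g := ⟨g, hnm⟩) Hn, h1]
  exact (piN_eq_one_iff h h2 ax ⟨g, hnm⟩).1 h3

end group

end Cfsg.Agent.Lib.KS71.HCn
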