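/-
The stabilizer in the Weyl group of a regular element of order prime to the order of the Weyl group is trivial.
-/
import Mathlib
import Cfsg.Agent.Lib.KS71.HCn

set_option autoImplicit false
set_option linter.unusedSectionVars false
set_option linter.unusedVariables false

namespace Cfsg.Agent.Lib.KS71.E6h

open scoped MatrixGroups Matrix
open Polynomial Module
open Cfsg Cfsg.Lie Cfsg.Lie.ChevalleyDatum
open Cfsg.Agent.Lib.Chev.Tables Cfsg.Agent.Lib.Chev.Tables2 Cfsg.Agent.Lib.Chev.Tables3 Cfsg.Agent.Lib.Chev.Raise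
open Cfsg.Agent.Lib.Chev.Basic Cfsg.Agent.Lib.Chev.AxBasic Cfsg.Agent.Lib.Chev.Torus
open Cfsg.Agent.Lib.Chev.Products Cfsg.Agent.Lib.Chev.Products2 Cfsg.Agent.Lib.Chev.Mono1
open Cfsg.Agent.Lib.Chev.Mono2 Cfsg.Agent.Lib.Chev.Mono3 Cfsg.Agent.Lib.Chev.Bn
open Cfsg.Agent.Lib.Chev.Order1 Cfsg.Agent.Lib.Chev.Order2 Cfsg.Agent.Lib.Chev.Parab
open Cfsg.Agent.Lib.Chev.Diag Cfsg.Agent.Lib.Chev.SL2 Cfsg.Agent.Lib.Chev.SL2Chev
open Cfsg.Agent.Lib.KS71.HCb Cfsg.Agent.Lib.KS71.HCc Cfsg.Agent.Lib.KS71.HCh Cfsg.Agent.Lib.KS71.HCi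
open Cfsg.Agent.Lib.KS71.HCm Cfsg.Agent.Lib.KS71.HCg Cfsg.Agent.Lib.KS71.IVf Cfsg.Agent.Lib.KS71.HCn

variable {D : ChevalleyDatum} (h : Tab D) {E : Type*} [Field E] {r : ℕ} [hr : Fact r.Prime]

/-- The matrix of a fundamental reflection. -/
lemma Mm_wP {i : ℕ} (hi : i < D.rank) : Mm h (wP h i) = Si D ⟨i, hi⟩ := by
  have e : wP h i = wPw h [i] := by simp [wPw]
  rw [e, Mm_wPw h (by simpa using hi), Aw_cons h hi (by simp), Aw_nil h, mul_one]

/-- A functional without zeros on the roots which is fixed by an element of the Weyl group: the element is trivial. -/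
theorem eq_one_of_fixed_functional (h2 : Tab2 D) (ax : Ax D E) (f : Fin D.rank → ℤ) (hne : ∀ s, s < D.nroots → f ⬝ᵥ crd D s ≠ 0)
    (ρ : Fin D.rank → ℤ) (hρ : ∀ i, (cartanM D).mulVec ρ i = 2)
    {π₀ : Equiv.Perm (Fin D.nroots)} (hπ₀W : π₀ ∈ Wp h (Set.Iio D.rank))
    (hπ₀ : ∀ s : Fin D.nroots, f ⬝ᵥ crd D (π₀ s) = f ⬝ᵥ crd D s) : π₀ = 1 := by
  classical
  have hWne : (Wc h).Nonempty := ⟨1, (mem_Wc h).2 (Subgroup.one_mem _)⟩
  obtain ⟨w₀, hw₀, hmax⟩ := Finset.exists_max_image (Wc h) (fun w => f ⬝ᵥ (Mm h w *ᵥ ρ)) hWne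
  have hw₀W : w₀ ∈ Wp h (Set.Iio D.rank) := (mem_Wc h).1 hw₀
  set g : Fin D.rank → ℤ := f ᵥ* Mm h w₀ with hg
  -- the functional on a fundamental root
  have hgi : ∀ i : Fin D.rank, g i = f ⬝ᵥ crd D (w₀ ⟨D.simple i, h.simple_lt i i.isLt⟩) := by
    intro i
    rw [← Mm_crd h hw₀W, crd_simple h, Matrix.dotProduct_mulVec, ← hg, dotProduct_single, mul_one]
  have hpos : ∀ i : Fin D.rank, 0 < g i := by
    intro i
    have hs : wP h i * 1 ∈ Wp h (Set.Iio D.rank) := by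
      rw [mul_one]
      exact wP_mem_Wp h i.isLt
    have hmem : w₀ * wP h i ∈ Wc h := (mem_Wc h).2 (Subgroup.mul_mem _ hw₀W (by simpa using hs))
    have h1 := hmax _ hmem
    rw [Mm_mul h hw₀W (by simpa using hs), Mm_wP h i.isLt, ← Matrix.mulVec_mulVec] at h1
    have e1 : Si D ⟨i, i.isLt⟩ *ᵥ ρ = ρ - (2 : ℤ) • Pi.single i 1 := by
      funext j
      have e2 := hρ i
      simp only [Matrix.mulVec, dotProduct, Si, sub_mul, Finset.sum_sub_distrib, ite_mul, one_mul, zero_mul,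
        Finset.sum_ite_eq, Finset.mem_univ, if_true, Pi.sub_apply, Pi.smul_apply, Pi.single_apply, smul_eq_mul]
      have e3 : (⟨i, i.isLt⟩ : Fin D.rank) = i := rfl
      rw [e3]
      by_cases hji : j = i
      · subst hji
        simp only [if_true, mul_one]
        congr 1
      · simp [hji]
    rw [e1, Matrix.mulVec_sub, Matrix.mulVec_smul, dotProduct_sub, dotProduct_smul, Matrix.dotProduct_mulVec f _ (Pi.single i 1), ← hg,
      dotProduct_single, mul_one, smul_eq_mul] at h1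
    have h3 : 0 ≤ g i := by linarith
    have h4 : g i ≠ 0 := by
      rw [hgi]
      exact hne _ (Fin.isLt _)
    exact lt_of_le_of_ne h3 (Ne.symm h4)
  -- the extension
  let g' : ℕ → ℤ := fun i => if hi : i < D.rank then g ⟨i, hi⟩ else 0
  have hg'pos : ∀ i, i < D.rank → 0 < g' i := by
    intro i hi
    simp only [g', hi, dif_pos]
    exact hpos _
  have hg'lin : ∀ s, lin D g' s = g ⬝ᵥ crd D s := by
    intro s
    rw [lin, ← Fin.sum_univ_eq_sum_range (fun i => g' i * coef D s i), dotProduct]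
    refine Finset.sum_congr rfl fun i _ => ?_
    simp only [g', i.isLt, dif_pos, crd]
  have hgpos : ∀ s, D.IsPosRoot s → 0 < g ⬝ᵥ crd D s := by
    intro s hs
    rw [← hg'lin]
    exact lin_pos_of_isPos h hg'pos hs
  have hcrdW : ∀ (s : Fin D.nroots), g ⬝ᵥ crd D s = f ⬝ᵥ crd D (w₀ s) := by
    intro s
    rw [← Mm_crd h hw₀W, Matrix.dotProduct_mulVec, ← hg]
  -- the conjugate
  set π₁ := w₀⁻¹ * π₀ * w₀ with hπ₁
  have hπ₁W : π₁ ∈ Wp h (Set.Iio D.rank) :=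
    Subgroup.mul_mem _ (Subgroup.mul_mem _ (Subgroup.inv_mem _ hw₀W) hπ₀W) hw₀W
  have hπ₁f : ∀ s : Fin D.nroots, g ⬝ᵥ crd D (π₁ s) = g ⬝ᵥ crd D s := by
    intro s
    rw [hcrdW, hcrdW]
    have e1 : w₀ (π₁ s) = π₀ (w₀ s) := by
      simp [hπ₁]
    rw [e1, hπ₀]
  have h0 : Nw D π₁ = 0 := by
    rw [Nw, Finset.card_eq_zero, Finset.filter_eq_empty_iff]
    rintro s - ⟨hs1, hs2⟩
    have e1 := hgpos s hs1
    rw [← hπ₁f] at e1
    have e2 : D.IsNegRoot (π₁ s) := (not_isPos_iff h (Fin.isLt _)).1 hs2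
    have e3 : D.IsPosRoot (D.neg (π₁ s)) := (isPosRoot_neg h (Fin.isLt _)).2 e2
    have e4 := hgpos _ e3
    have e5 : g ⬝ᵥ crd D (D.neg (π₁ s)) = - (g ⬝ᵥ crd D (π₁ s)) := by
      simp only [dotProduct, crd]
      rw [← Finset.sum_neg_distrib]
      refine Finset.sum_congr rfl fun i _ => ?_
      rw [h.coef_neg _ (Fin.isLt _) i i.isLt]
      ring
    omega
  have h1 := eq_one_of_Nw_eq_zero h h2 ax hπ₁W h0
  have e2 : π₀ = w₀ * π₁ * w₀⁻¹ := by
    rw [hπ₁]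
    group
  rw [e2, h1]
  group

include h in
/-- The stabilizer in the Weyl group of a regular element is trivial when the prime does not divide the order of the Weyl group. -/
theorem stab_trivial' (h2 : Tab2 D) (ax : Ax D E) {y : ℕ → Eˣ} {lam : Eˣ} (hl : orderOf lam = r) {c : Fin D.rank → ℤ}
    (hc : ∀ j : Fin D.rank, lam ^ c j = y j) (hrW : ¬ r ∣ (Wc h).card)
    (hreg : ∀ s, s < D.nroots → chi D y s ≠ 1)
    (ρ : Fin D.rank → ℤ) (hρ : ∀ i, (cartanM D).mulVec ρ i = 2)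
    {π₀ : Equiv.Perm (Fin D.nroots)} (hπ₀W : π₀ ∈ Wp h (Set.Iio D.rank))
    (hπ₀ : ∀ s : Fin D.nroots, chi D y (π₀ s) = chi D y s) : π₀ = 1 := by
  classical
  let S : Subgroup (Equiv.Perm (Fin D.nroots)) :=
    { carrier := {π | π ∈ Wp h (Set.Iio D.rank) ∧ ∀ s : Fin D.nroots, chi D y (π s) = chi D y s}
      mul_mem' := by
        rintro a b ⟨ha, ha'⟩ ⟨hb, hb'⟩
        refine ⟨Subgroup.mul_mem _ ha hb, fun s => ?_⟩
        rw [Equiv.Perm.mul_apply, ha', hb']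
      one_mem' := ⟨Subgroup.one_mem _, fun s => rfl⟩
      inv_mem' := by
        rintro a ⟨ha, ha'⟩
        refine ⟨Subgroup.inv_mem _ ha, fun s => ?_⟩
        have := ha' (a⁻¹ s)
        rw [show a (a⁻¹ s) = s by simp] at this
        exact this.symm }
  haveI : Fintype S := Fintype.ofFinite S
  let e : Matrix (Fin D.rank) (Fin D.rank) ℤ := ∑ π : S, Mm h π.1
  set f : Fin D.rank → ℤ := c ᵥ* e with hf
  have hrS : ¬ r ∣ Fintype.card S := by
    intro h5
    apply hrW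
    refine h5.trans ?_
    have hle : S ≤ Wp h (Set.Iio D.rank) := fun π hπ => hπ.1
    have h6 := Subgroup.card_dvd_of_le hle
    have hcW : Nat.card (Wp h (Set.Iio D.rank)) = (Wc h).card := by
      rw [Nat.card_eq_fintype_card]
      exact Fintype.card_of_subtype (Wc h) (fun w => mem_Wc h)
    rw [hcW, Nat.card_eq_fintype_card] at h6
    exact h6
  -- the value of the functional modulo the prime
  have hval : ∀ s : Fin D.nroots, (((f ⬝ᵥ crd D s : ℤ)) : ZMod r) = (Fintype.card S : ZMod r) * ((c ⬝ᵥ crd D s : ℤ) : ZMod r) := by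
    intro s
    have e1 : f ⬝ᵥ crd D s = ∑ π : S, c ⬝ᵥ crd D (π.1 s) := by
      rw [hf, ← Matrix.dotProduct_mulVec]
      have e2 : e *ᵥ crd D s = ∑ π : S, crd D (π.1 s) := by
        show (∑ π : S, Mm h π.1) *ᵥ crd D s = _
        rw [Matrix.sum_mulVec]
        exact Finset.sum_congr rfl fun π _ => Mm_crd h π.2.1 s
      rw [e2, dotProduct_sum]
    rw [e1, Int.cast_sum]
    have e3 : ∀ π : S, ((c ⬝ᵥ crd D (π.1 s) : ℤ) : ZMod r) = ((c ⬝ᵥ crd D s : ℤ) : ZMod r) := by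
      intro π
      have e4 := π.2.2 s
      rw [chi_eq_zpow y lam c hc, chi_eq_zpow y lam c hc] at e4
      have e5 : lam ^ (c ⬝ᵥ crd D (π.1 s) - c ⬝ᵥ crd D s) = 1 := by
        rw [zpow_sub, e4, mul_inv_cancel]
      have e6 := orderOf_dvd_iff_zpow_eq_one.mpr e5
      rw [hl] at e6
      have e7 := (ZMod.intCast_zmod_eq_zero_iff_dvd _ r).2 e6
      rw [Int.cast_sub, sub_eq_zero] at e7
      exact e7
    simp only [e3, Finset.sum_const, Finset.card_univ, nsmul_eq_mul]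
  have hne : ∀ s, s < D.nroots → f ⬝ᵥ crd D s ≠ 0 := by
    intro s hs e0
    have e1 := hval ⟨s, hs⟩
    simp only [e0, Int.cast_zero] at e1
    rcases mul_eq_zero.mp e1.symm with e2 | e2
    · exact hrS ((ZMod.natCast_eq_zero_iff _ _).1 e2)
    · apply hreg s hs
      rw [chi_eq_one_iff hl hc]
      exact (ZMod.intCast_zmod_eq_zero_iff_dvd _ r).1 e2
  have hmem : π₀ ∈ S := ⟨hπ₀W, hπ₀⟩
  have he : e * Mm h π₀ = e := by
    rw [Finset.sum_mul]
    refine Eq.trans ?_ (Equiv.sum_comp (Equiv.mulRight (⟨π₀, hmem⟩ : S)) (fun π : S => Mm h π.1))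
    refine Finset.sum_congr rfl fun π _ => ?_
    rw [← Mm_mul h π.2.1 hπ₀W]
    rfl
  refine eq_one_of_fixed_functional h h2 ax f hne ρ hρ hπ₀W ?_
  intro s
  rw [← Mm_crd h hπ₀W, Matrix.dotProduct_mulVec, hf, Matrix.vecMul_vecMul, he]

end Cfsg.Agent.Lib.KS71.E6h
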