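/-
A lattice with an even positive definite form and an isometry annihilated by `Φ₃ Φ₁₂`:
the inner products of a vector of norm two with its images.
-/
import Mathlib
import Cfsg.Agent.Lib.KS71.HCi
import Cfsg.Agent.Lib.KS71.HCm

set_option autoImplicit false
set_option linter.unusedSectionVars false
set_option linter.unusedVariables false

namespace Cfsg.Agent.Lib.KS71.E6j

open scoped Matrix
open Cfsg.Agent.Lib.KS71.HCh

variable {n : ℕ} {G A : Matrix (Fin n) (Fin n) ℤ}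

/-- The images of a vector under the powers of a matrix. -/
def av (A : Matrix (Fin n) (Fin n) ℤ) (α : Fin n → ℤ) (k : ℕ) : Fin n → ℤ := (A ^ k) *ᵥ α

@[simp] lemma av_zero (α : Fin n → ℤ) : av A α 0 = α := by simp [av]

lemma av_succ (α : Fin n → ℤ) (k : ℕ) : av A α (k + 1) = A *ᵥ av A α k := by
  rw [av, av, pow_succ', Matrix.mulVec_mulVec]

/-- The inner products with the images. -/
def tt (G A : Matrix (Fin n) (Fin n) ℤ) (α : Fin n → ℤ) (k : ℕ) : ℤ := B G α (av A α k)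

lemma bb_add (hiso : Aᵀ * G * A = G) (α : Fin n → ℤ) (i k : ℕ) : B G (av A α i) (av A α (i + k)) = tt G A α k := by
  induction i with
  | zero => simp [tt]
  | succ i ih =>
    rw [show i + 1 + k = (i + k) + 1 by ring, av_succ, av_succ, B_iso hiso, ih]

lemma bb_add' (hG : Gᵀ = G) (hiso : Aᵀ * G * A = G) (α : Fin n → ℤ) (i k : ℕ) : B G (av A α (i + k)) (av A α i) = tt G A α k := by
  rw [B_symm hG, bb_add hiso]

section relation

variable (hG : Gᵀ = G) (hiso : Aᵀ * G * A = G) (hpsd : ∀ x : Fin n → ℤ, 0 ≤ B G x x) (hdef : ∀ x : Fin n → ℤ, B G x x = 0 → x = 0)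
variable {α : Fin n → ℤ} (hα : B G α α = 2)

include hG hiso hpsd hα in
/-- The bound on the inner products. -/
lemma tt_bound (k : ℕ) : -2 ≤ tt G A α k ∧ tt G A α k ≤ 2 := by
  have h1 : B G (av A α k) (av A α k) = 2 := by
    have := bb_add hiso α k 0
    rw [add_zero] at this
    rw [this, tt, av_zero, hα]
  have e1 := hpsd (α + av A α k)
  have e2 := hpsd (α - av A α k)
  have e3 : α - av A α k = α + (-1 : ℤ) • av A α k := by
    funext j
    simp [sub_eq_add_neg]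
  rw [B_add_left, B_add_right, B_add_right, hα, h1, B_symm hG (av A α k) α] at e1
  rw [e3, B_add_left, B_add_right, B_add_right, B_smul_left, B_smul_right, B_smul_right, B_smul_left, hα, h1, B_symm hG (av A α k) α] at e2
  rw [tt]
  constructor <;> linarith

include hG hiso hpsd hdef hα in
/-- When the inner product is two the vectors agree. -/
lemma av_eq_of_tt (k : ℕ) (ht : tt G A α k = 2) : av A α k = α := by
  have h1 : B G (av A α k) (av A α k) = 2 := by
    have := bb_add hiso α k 0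
    rw [add_zero] at this
    rw [this, tt, av_zero, hα]
  have e3 : α - av A α k = α + (-1 : ℤ) • av A α k := by
    funext j
    simp [sub_eq_add_neg]
  have e2 : B G (α - av A α k) (α - av A α k) = 0 := by
    rw [e3, B_add_left, B_add_right, B_add_right, B_smul_left, B_smul_right, B_smul_right, B_smul_left, hα, h1, B_symm hG (av A α k) α]
    rw [tt] at ht
    rw [ht]
    ring
  have := hdef _ e2
  exact (sub_eq_zero.1 this).symm

include hG hiso hpsd hdef hα in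
/-- When the inner product is minus two the vectors are opposite. -/
lemma av_eq_neg_of_tt (k : ℕ) (ht : tt G A α k = -2) : av A α k = -α := by
  have h1 : B G (av A α k) (av A α k) = 2 := by
    have := bb_add hiso α k 0
    rw [add_zero] at this
    rw [this, tt, av_zero, hα]
  have e2 : B G (α + av A α k) (α + av A α k) = 0 := by
    rw [B_add_left, B_add_right, B_add_right, hα, h1, B_symm hG (av A α k) α]
    rw [tt] at ht
    rw [ht]
    ring
  have := hdef _ e2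
  exact eq_neg_of_add_eq_zero_right this

lemma B_sub_left' (x x' y : Fin n → ℤ) : B G (x - x') y = B G x y - B G x' y := by
  simp [B, sub_dotProduct]

lemma B_sub_right' (x y y' : Fin n → ℤ) : B G x (y - y') = B G x y - B G x y' := by
  simp [B, Matrix.mulVec_sub, dotProduct_sub]

variable (hP : A ^ 6 + A ^ 5 - A ^ 3 + A + 1 = 0)

include hP in
lemma rel_vec (α : Fin n → ℤ) : av A α 6 + av A α 5 - av A α 3 + av A α 1 + av A α 0 = 0 := by
  have e : (A ^ 6 + A ^ 5 - A ^ 3 + A + 1) *ᵥ α = 0 := by rw [hP]; simp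
  simp only [Matrix.add_mulVec, Matrix.sub_mulVec, Matrix.one_mulVec] at e
  simpa [av] using e

include hG hiso hP hα in
/-- The values of the inner products. -/
lemma t_vals : tt G A α 0 = 2 ∧ tt G A α 3 = 1 - tt G A α 2 ∧ tt G A α 4 = -1 ∧ tt G A α 5 = tt G A α 2 - tt G A α 1 - 1 ∧
    tt G A α 6 = -2 * tt G A α 2 := by
  have h0 : tt G A α 0 = 2 := by simpa [tt] using hα
  have key : ∀ j, B G (av A α j) (av A α 6) + B G (av A α j) (av A α 5) - B G (av A α j) (av A α 3) +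
      B G (av A α j) (av A α 1) + B G (av A α j) (av A α 0) = 0 := by
    intro j
    have e := congrArg (B G (av A α j)) (rel_vec hP α)
    rw [B_add_right, B_add_right, B_sub_right', B_add_right] at e
    simpa [B] using e
  have k0 := key 0
  have k1 := key 1
  have k2 := key 2
  have k3 := key 3
  have b01 : B G (av A α 0) (av A α 1) = tt G A α 1 := bb_add hiso α 0 1
  have b03 : B G (av A α 0) (av A α 3) = tt G A α 3 := bb_add hiso α 0 3
  have b05 : B G (av A α 0) (av A α 5) = tt G A α 5 := bb_add hiso α 0 5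
  have b06 : B G (av A α 0) (av A α 6) = tt G A α 6 := bb_add hiso α 0 6
  have b00 : B G (av A α 0) (av A α 0) = tt G A α 0 := bb_add hiso α 0 0
  have b10 : B G (av A α 1) (av A α 0) = tt G A α 1 := bb_add' hG hiso α 0 1
  have b11 : B G (av A α 1) (av A α 1) = tt G A α 0 := bb_add hiso α 1 0
  have b13 : B G (av A α 1) (av A α 3) = tt G A α 2 := bb_add hiso α 1 2
  have b15 : B G (av A α 1) (av A α 5) = tt G A α 4 := bb_add hiso α 1 4
  have b16 : B G (av A α 1) (av A α 6) = tt G A α 5 := bb_add hiso α 1 5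
  have b20 : B G (av A α 2) (av A α 0) = tt G A α 2 := bb_add' hG hiso α 0 2
  have b21 : B G (av A α 2) (av A α 1) = tt G A α 1 := bb_add' hG hiso α 1 1
  have b23 : B G (av A α 2) (av A α 3) = tt G A α 1 := bb_add hiso α 2 1
  have b25 : B G (av A α 2) (av A α 5) = tt G A α 3 := bb_add hiso α 2 3
  have b26 : B G (av A α 2) (av A α 6) = tt G A α 4 := bb_add hiso α 2 4
  have b30 : B G (av A α 3) (av A α 0) = tt G A α 3 := bb_add' hG hiso α 0 3
  have b31 : B G (av A α 3) (av A α 1) = tt G A α 2 := bb_add' hG hiso α 1 2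
  have b33 : B G (av A α 3) (av A α 3) = tt G A α 0 := bb_add hiso α 3 0
  have b35 : B G (av A α 3) (av A α 5) = tt G A α 2 := bb_add hiso α 3 2
  have b36 : B G (av A α 3) (av A α 6) = tt G A α 3 := bb_add hiso α 3 3
  rw [b06, b05, b03, b01, b00] at k0
  rw [b16, b15, b13, b11, b10] at k1
  rw [b26, b25, b23, b21, b20] at k2
  rw [b36, b35, b33, b31, b30] at k3
  refine ⟨h0, ?_, ?_, ?_, ?_⟩ <;> omega

include hG hiso in
/-- Periodicity of the inner products. -/
lemma t_per (hA : A ^ 12 = 1) {k : ℕ} (hk : k ≤ 12) : tt G A α (12 - k) = tt G A α k := by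
  have e1 := bb_add hiso α k (12 - k)
  rw [show k + (12 - k) = 12 by omega] at e1
  have e2 : av A α 12 = α := by simp [av, hA]
  rw [e2, B_symm hG] at e1
  exact e1.symm

include hG hiso hpsd hdef hP hα in
/-- The classification of the vectors of norm two. -/
theorem t_class : (av A α 2 + av A α 1 + av A α 0 = 0 ∧ tt G A α 1 = -1 ∧ tt G A α 2 = -1) ∨
    (av A α 4 - av A α 2 + av A α 0 = 0 ∧ tt G A α 2 = 1) ∨ tt G A α 2 = 0 := by
  obtain ⟨h0, h3, h4, h5, h6⟩ := t_vals hG hiso hα hP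
  have b00 : B G (av A α 0) (av A α 0) = tt G A α 0 := bb_add hiso α 0 0
  have b02 : B G (av A α 0) (av A α 2) = tt G A α 2 := bb_add hiso α 0 2
  have b04 : B G (av A α 0) (av A α 4) = tt G A α 4 := bb_add hiso α 0 4
  have b20 : B G (av A α 2) (av A α 0) = tt G A α 2 := bb_add' hG hiso α 0 2
  have b22 : B G (av A α 2) (av A α 2) = tt G A α 0 := bb_add hiso α 2 0
  have b24 : B G (av A α 2) (av A α 4) = tt G A α 2 := bb_add hiso α 2 2
  have b40 : B G (av A α 4) (av A α 0) = tt G A α 4 := bb_add' hG hiso α 0 4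
  have b42 : B G (av A α 4) (av A α 2) = tt G A α 2 := bb_add' hG hiso α 2 2
  have b44 : B G (av A α 4) (av A α 4) = tt G A α 0 := bb_add hiso α 4 0
  have n12 : B G (av A α 4 - av A α 2 + av A α 0) (av A α 4 - av A α 2 + av A α 0) = 4 - 4 * tt G A α 2 := by
    simp only [B_add_left, B_add_right, B_sub_left', B_sub_right']
    rw [b00, b02, b04, b20, b22, b24, b40, b42, b44]
    omega
  have h12 := hpsd (av A α 4 - av A α 2 + av A α 0)
  rw [n12] at h12
  have hb3 := tt_bound hG hiso hpsd hα 3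
  have h2l : tt G A α 2 ≤ 1 := by omega
  have h2g : -1 ≤ tt G A α 2 := by omega
  by_cases e1 : tt G A α 2 = 1
  · right
    left
    exact ⟨hdef _ (by rw [n12, e1]; norm_num), e1⟩
  by_cases e0 : tt G A α 2 = 0
  · right
    right
    exact e0
  have em : tt G A α 2 = -1 := by omega
  left
  have e3 : tt G A α 3 = 2 := by omega
  have e4 : av A α 3 = α := av_eq_of_tt hG hiso hpsd hdef hα 3 e3
  have e5 : av A α 4 = av A α 1 := by
    rw [show (4 : ℕ) = 3 + 1 from rfl, av_succ, e4]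
    rw [show (1 : ℕ) = 0 + 1 from rfl, av_succ, av_zero]
  have e6 : tt G A α 1 = -1 := by
    rw [tt, ← e5]
    exact h4
  refine ⟨?_, e6, em⟩
  apply hdef
  have b01 : B G (av A α 0) (av A α 1) = tt G A α 1 := bb_add hiso α 0 1
  have b10 : B G (av A α 1) (av A α 0) = tt G A α 1 := bb_add' hG hiso α 0 1
  have b11 : B G (av A α 1) (av A α 1) = tt G A α 0 := bb_add hiso α 1 0
  have b12 : B G (av A α 1) (av A α 2) = tt G A α 1 := bb_add hiso α 1 1
  have b21 : B G (av A α 2) (av A α 1) = tt G A α 1 := bb_add' hG hiso α 1 1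
  simp only [B_add_left, B_add_right]
  rw [b00, b01, b02, b10, b11, b12, b20, b21, b22]
  omega

end relation

section modp

/-- The reduction of a vector. -/
def cv (p : ℕ) (x : Fin n → ℤ) : Fin n → ZMod p := fun i => (x i : ZMod p)

/-- The reduction of a matrix. -/
abbrev mmp (p : ℕ) (M : Matrix (Fin n) (Fin n) ℤ) : Matrix (Fin n) (Fin n) (ZMod p) := M.map (Int.castRingHom (ZMod p))

lemma cv_mulVec (p : ℕ) (M : Matrix (Fin n) (Fin n) ℤ) (x : Fin n → ℤ) : cv p (M *ᵥ x) = mmp p M *ᵥ cv p x := by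
  funext i
  exact RingHom.map_mulVec (Int.castRingHom (ZMod p)) M x i

lemma cv_B (p : ℕ) (G : Matrix (Fin n) (Fin n) ℤ) (x y : Fin n → ℤ) : ((B G x y : ℤ) : ZMod p) = cv p x ⬝ᵥ mmp p G *ᵥ cv p y := by
  rw [← cv_mulVec, B]
  simp [dotProduct, cv]

lemma cv_av (p : ℕ) (M : Matrix (Fin n) (Fin n) ℤ) (x : Fin n → ℤ) (k : ℕ) : cv p (av M x k) = (mmp p M) ^ k *ᵥ cv p x := by
  rw [av, cv_mulVec, mmp, ← Matrix.map_pow]

lemma cv_eq_zero_iff {p : ℕ} (x : Fin n → ℤ) : cv p x = 0 ↔ ∀ j, (p : ℤ) ∣ x j := by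
  constructor
  · intro e j
    exact (ZMod.intCast_zmod_eq_zero_iff_dvd _ p).1 (congrFun e j)
  · intro e
    funext j
    exact (ZMod.intCast_zmod_eq_zero_iff_dvd _ p).2 (e j)

variable {r : ℕ} [hr : Fact r.Prime]

/-- The sum of the images of an element of a field under the powers of a matrix of order dividing twelve. -/
def eM (Ab : Matrix (Fin n) (Fin n) (ZMod r)) (u : ZMod r) : Matrix (Fin n) (Fin n) (ZMod r) :=
  ∑ i ∈ Finset.range 12, u ^ i • Ab ^ i

lemma eM_eig {Ab : Matrix (Fin n) (Fin n) (ZMod r)} {qb u : ZMod r} (hqu : qb * u = 1) (hu : u ^ 12 = 1) (hA : Ab ^ 12 = 1) :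
    Ab * eM Ab u = qb • eM Ab u := by
  have e1 : ∀ i, Ab * (u ^ i • Ab ^ i) = qb • (u ^ (i + 1) • Ab ^ (i + 1)) := by
    intro i
    rw [smul_smul, pow_succ' u i, ← mul_assoc, hqu, one_mul, Matrix.mul_smul, pow_succ' Ab i]
  have e2 := Finset.sum_range_succ' (fun i => u ^ i • Ab ^ i) 12
  have e3 := Finset.sum_range_succ (fun i => u ^ i • Ab ^ i) 12
  simp only [hu, hA, pow_zero, one_smul] at e2 e3
  have e4 := add_right_cancel (e2.symm.trans e3)
  rw [eM, Finset.mul_sum, Finset.sum_congr rfl (fun i _ => e1 i), ← Finset.smul_sum, e4]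

lemma dot_eM {Ab : Matrix (Fin n) (Fin n) (ZMod r)} {qb u : ZMod r} (hqu : qb * u = 1) {cb : Fin n → ZMod r}
    (hcA : cb ᵥ* Ab = qb • cb) (x : Fin n → ZMod r) : cb ⬝ᵥ eM Ab u *ᵥ x = 12 * (cb ⬝ᵥ x) := by
  have e0 : ∀ i : ℕ, cb ᵥ* Ab ^ i = qb ^ i • cb := by
    intro i
    induction i with
    | zero => simp
    | succ i ih =>
      rw [pow_succ, ← Matrix.vecMul_vecMul, ih, Matrix.smul_vecMul, hcA, smul_smul, pow_succ]
  rw [eM, Matrix.sum_mulVec, dotProduct_sum]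
  have e1 : ∀ i ∈ Finset.range 12, cb ⬝ᵥ (u ^ i • Ab ^ i) *ᵥ x = cb ⬝ᵥ x := by
    intro i _
    rw [Matrix.smul_mulVec, dotProduct_smul, Matrix.dotProduct_mulVec, e0, smul_dotProduct, smul_smul, smul_eq_mul,
      ← mul_pow, mul_comm u qb, hqu, one_pow, one_mul]
  rw [Finset.sum_congr rfl e1]
  simp

/-- A vector orthogonal to an eigenvector of the transpose is killed by the sum. -/
theorem eM_zero {Ab : Matrix (Fin n) (Fin n) (ZMod r)} {qb u : ZMod r} (hqu : qb * u = 1) (hu : u ^ 12 = 1) (hA : Ab ^ 12 = 1)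
    (h12 : (12 : ZMod r) ≠ 0) {cb : Fin n → ZMod r} (hc : cb ≠ 0) (hcA : cb ᵥ* Ab = qb • cb)
    (hV : Module.finrank (ZMod r) (Module.End.eigenspace (Matrix.toLin' Ab) qb) ≤ 1)
    {x : Fin n → ZMod r} (hx : cb ⬝ᵥ x = 0) : eM Ab u *ᵥ x = 0 := by
  classical
  obtain ⟨j, hj⟩ : ∃ j, cb j ≠ 0 := by
    by_contra hn
    push Not at hn
    exact hc (funext hn)
  have hmem : ∀ y : Fin n → ZMod r, eM Ab u *ᵥ y ∈ Module.End.eigenspace (Matrix.toLin' Ab) qb := by
    intro y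
    rw [Module.End.mem_eigenspace_iff, Matrix.toLin'_apply, Matrix.mulVec_mulVec, eM_eig hqu hu hA, Matrix.smul_mulVec]
  set V := Module.End.eigenspace (Matrix.toLin' Ab) qb with hVd
  let w : V := ⟨_, hmem (Pi.single j 1)⟩
  have hw : cb ⬝ᵥ (w : Fin n → ZMod r) = 12 * cb j := by
    show cb ⬝ᵥ eM Ab u *ᵥ Pi.single j 1 = _
    rw [dot_eM hqu hcA, dotProduct_single, mul_one]
  have hw0 : w ≠ 0 := by
    intro e
    rw [e] at hw
    simp only [ZeroMemClass.coe_zero, dotProduct_zero] at hw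
    exact (mul_ne_zero h12 hj) hw.symm
  haveI : Nontrivial V := ⟨⟨w, 0, hw0⟩⟩
  have h1 : Module.finrank (ZMod r) V = 1 := le_antisymm hV Module.finrank_pos
  obtain ⟨t, ht⟩ := (finrank_eq_one_iff_of_nonzero' w hw0).1 h1 ⟨_, hmem x⟩
  have e2 : t • (w : Fin n → ZMod r) = eM Ab u *ᵥ x := congrArg Subtype.val ht
  have e3 := congrArg (fun y => cb ⬝ᵥ y) e2
  simp only [dotProduct_smul, hw, dot_eM hqu hcA, hx, mul_zero, smul_eq_mul] at e3
  have e4 : t = 0 := by
    rcases mul_eq_zero.1 e3 with e5 | e5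
    · exact e5
    · exact absurd e5 (mul_ne_zero h12 hj)
  rw [← e2, e4, zero_smul]

lemma sum_tt_of_eM (G : Matrix (Fin n) (Fin n) ℤ) (A : Matrix (Fin n) (Fin n) ℤ) (α : Fin n → ℤ) (u : ZMod r)
    (h : eM (mmp r A) u *ᵥ cv r α = 0) : ∑ i ∈ Finset.range 12, u ^ i * ((tt G A α i : ℤ) : ZMod r) = 0 := by
  have e1 : ∀ i, ((tt G A α i : ℤ) : ZMod r) = cv r α ⬝ᵥ mmp r G *ᵥ ((mmp r A) ^ i *ᵥ cv r α) := by
    intro i
    rw [tt, cv_B, cv_av]
  have e2 := congrArg (fun y => cv r α ⬝ᵥ mmp r G *ᵥ y) h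
  simp only [Matrix.mulVec_zero, dotProduct_zero] at e2
  rw [← e2, eM, Matrix.sum_mulVec, Matrix.mulVec_sum, dotProduct_sum]
  refine Finset.sum_congr rfl fun i _ => ?_
  rw [e1, Matrix.smul_mulVec, Matrix.mulVec_smul, dotProduct_smul, smul_eq_mul]

/-- The value of the sum. -/
lemma sum_value {t : ℕ → ℤ} {u : ZMod r} (h6 : u ^ 6 = -1) (h4 : u ^ 4 = u ^ 2 - 1)
    (h0 : t 0 = 2) (h3 : t 3 = 1 - t 2) (h4' : t 4 = -1) (h5 : t 5 = t 2 - t 1 - 1) (h6' : t 6 = -2 * t 2)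
    (h7 : t 7 = t 5) (h8 : t 8 = t 4) (h9 : t 9 = t 3) (h10 : t 10 = t 2) (h11 : t 11 = t 1) :
    ∑ i ∈ Finset.range 12, u ^ i * ((t i : ℤ) : ZMod r) =
      3 * (1 + (t 2 : ZMod r)) + (2 * (t 1 : ZMod r) - (t 2 : ZMod r) + 1) * (2 * u - u ^ 3) := by
  simp only [Finset.sum_range_succ, Finset.sum_range_zero]
  rw [h7, h8, h9, h10, h11, h0, h3, h4', h5, h6']
  push_cast
  set a : ZMod r := (t 1 : ZMod r)
  set b : ZMod r := (t 2 : ZMod r)
  have h6'' : u ^ 6 + 1 = 0 := by rw [h6]; ring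
  have h4'' : u ^ 4 - u ^ 2 + 1 = 0 := by rw [h4]; ring
  linear_combination (-2 * b + (b - a - 1) * u - u ^ 2 + (1 - b) * u ^ 3 + b * u ^ 4 + a * u ^ 5) * h6'' +
    (-(1 + b) + (b - 2 * a - 1) * u) * h4''

/-- The norm of the value. -/
lemma sum_zero_imp {t1 t2 : ℤ} {u : ZMod r} (h6 : u ^ 6 = -1) (h4 : u ^ 4 = u ^ 2 - 1)
    (he : 3 * (1 + (t2 : ZMod r)) + (2 * (t1 : ZMod r) - (t2 : ZMod r) + 1) * (2 * u - u ^ 3) = 0) :
    (r : ℤ) ∣ 9 * (1 + t2) ^ 2 - 3 * (2 * t1 - t2 + 1) ^ 2 := by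
  rw [← ZMod.intCast_zmod_eq_zero_iff_dvd]
  push_cast
  set a : ZMod r := (t1 : ZMod r)
  set b : ZMod r := (t2 : ZMod r)
  have hv : (2 * u - u ^ 3) ^ 2 = 3 := by
    have e : (2 * u - u ^ 3) ^ 2 = 4 * u ^ 2 - 4 * u ^ 4 + u ^ 6 := by ring
    rw [e, h6, h4]
    ring
  have e1 : 3 * (1 + b) = -((2 * a - b + 1) * (2 * u - u ^ 3)) := by linear_combination he
  have e2 : 9 * (1 + b) ^ 2 = (3 * (1 + b)) ^ 2 := by ring
  rw [e2, e1, neg_sq, mul_pow, hv]
  ring

/-- The numerical conclusion. -/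
lemma num_concl {t1 t2 : ℤ} (hr13 : 13 ≤ r) (h1l : -2 ≤ t1) (h1u : t1 ≤ 2) (h2l : -1 ≤ t2) (h2u : t2 ≤ 1)
    (h : (r : ℤ) ∣ 9 * (1 + t2) ^ 2 - 3 * (2 * t1 - t2 + 1) ^ 2) : t1 = -1 ∧ t2 = -1 := by
  have hd : ¬ r ∣ 4752 := by
    have e : (4752 : ℕ) = 2 ^ 4 * (3 ^ 3 * 11) := by norm_num
    rw [e]
    intro hd
    have hp := hr.out
    rcases (Nat.Prime.dvd_mul hp).1 hd with h1 | h1
    · have := hp.dvd_of_dvd_pow h1
      have := Nat.le_of_dvd (by norm_num) this
      omega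
    · rcases (Nat.Prime.dvd_mul hp).1 h1 with h2 | h2
      · have := hp.dvd_of_dvd_pow h2
        have := Nat.le_of_dvd (by norm_num) this
        omega
      · have := Nat.le_of_dvd (by norm_num) h2
        omega
  have hk : ∀ x : ℤ, x ∣ 4752 → ¬ (r : ℤ) ∣ x := by
    intro x hx e
    exact hd (Int.natCast_dvd_natCast.1 (e.trans (by exact_mod_cast hx)))
  interval_cases t1 <;> interval_cases t2 <;> first
    | exact ⟨rfl, rfl⟩
    | exact absurd h (hk _ (by norm_num))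

/-- Properties of an element of order twelve. -/
lemma prim12 {x : ZMod r} (hx : orderOf x = 12) : x ^ 6 = -1 ∧ x ^ 4 = x ^ 2 - 1 := by
  have h12 : x ^ 12 = 1 := by rw [← hx]; exact pow_orderOf_eq_one x
  have h6 : x ^ 6 = -1 := by
    have e : (x ^ 6 - 1) * (x ^ 6 + 1) = 0 := by linear_combination h12
    rcases mul_eq_zero.1 e with e1 | e1
    · have e2 : x ^ 6 = 1 := sub_eq_zero.1 e1
      have := orderOf_dvd_of_pow_eq_one e2
      rw [hx] at this
      omega
    · exact eq_neg_of_add_eq_zero_left e1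
  refine ⟨h6, ?_⟩
  have e : (x ^ 2 + 1) * (x ^ 4 - x ^ 2 + 1) = 0 := by linear_combination h6
  rcases mul_eq_zero.1 e with e1 | e1
  · have e2 : x ^ 4 = 1 := by linear_combination (x ^ 2 - 1) * e1
    have := orderOf_dvd_of_pow_eq_one e2
    rw [hx] at this
    omega
  · linear_combination e1

/-- The regularity of the eigenvector of the transpose. -/
theorem not_perp (hG : Gᵀ = G) (hiso : Aᵀ * G * A = G) (hpsd : ∀ x : Fin n → ℤ, 0 ≤ B G x x)
    (hdef : ∀ x : Fin n → ℤ, B G x x = 0 → x = 0) {α : Fin n → ℤ} (hα : B G α α = 2)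
    (hP : A ^ 6 + A ^ 5 - A ^ 3 + A + 1 = 0) (hA12 : A ^ 12 = 1)
    (hnP3 : ¬ (av A α 2 + av A α 1 + av A α 0 = 0)) (hr13 : 13 ≤ r)
    {qb : ZMod r} (hqb : orderOf qb = 12) {cb : Fin n → ZMod r} (hc : cb ≠ 0) (hcA : cb ᵥ* mmp r A = qb • cb)
    (hV : Module.finrank (ZMod r) (Module.End.eigenspace (Matrix.toLin' (mmp r A)) qb) ≤ 1) :
    cb ⬝ᵥ cv r α ≠ 0 := by
  intro hx
  obtain ⟨h6, h4⟩ := prim12 hqb
  set u : ZMod r := -qb ^ 5 with hu
  have hqu : qb * u = 1 := by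
    rw [hu]
    linear_combination -h6
  have hu6 : u ^ 6 = -1 := by
    rw [hu]
    linear_combination (qb ^ 24 - qb ^ 18 + qb ^ 12 - qb ^ 6 + 1) * h6
  have hu12 : u ^ 12 = 1 := by
    linear_combination (u ^ 6 - 1) * hu6
  have hu4 : u ^ 4 = u ^ 2 - 1 := by
    rw [hu]
    linear_combination (qb ^ 14 - qb ^ 8 + qb ^ 2 - qb ^ 4) * h6 + h4
  have hAb : (mmp r A) ^ 12 = 1 := by
    rw [mmp, ← Matrix.map_pow, hA12]
    simp
  have h12 : (12 : ZMod r) ≠ 0 := by
    intro e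
    have e1 : r ∣ 12 := (ZMod.natCast_eq_zero_iff _ _).1 (by exact_mod_cast e)
    have := Nat.le_of_dvd (by norm_num) e1
    omega
  have e1 := eM_zero hqu hu12 hAb h12 hc hcA hV hx
  have e2 := sum_tt_of_eM G A α u e1
  obtain ⟨h0, h3, h4', h5, h6'⟩ := t_vals hG hiso hα hP
  have p7 : tt G A α 7 = tt G A α 5 := t_per hG hiso hA12 (k := 5) (by norm_num)
  have p8 : tt G A α 8 = tt G A α 4 := t_per hG hiso hA12 (k := 4) (by norm_num)
  have p9 : tt G A α 9 = tt G A α 3 := t_per hG hiso hA12 (k := 3) (by norm_num)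
  have p10 : tt G A α 10 = tt G A α 2 := t_per hG hiso hA12 (k := 2) (by norm_num)
  have p11 : tt G A α 11 = tt G A α 1 := t_per hG hiso hA12 (k := 1) (by norm_num)
  rw [sum_value hu6 hu4 h0 h3 h4' h5 h6' p7 p8 p9 p10 p11] at e2
  have e3 := sum_zero_imp hu6 hu4 e2
  have b1 := tt_bound hG hiso hpsd hα 1
  have b3 := tt_bound hG hiso hpsd hα 3
  rcases t_class hG hiso hpsd hdef hα hP with ⟨e4, -, -⟩ | ⟨-, e4⟩ | e4
  · exact hnP3 e4
  · have e5 := num_concl hr13 b1.1 b1.2 (by omega) (by omega) e3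
    omega
  · have e5 := num_concl hr13 b1.1 b1.2 (by omega) (by omega) e3
    omega

end modp

section seven

instance fact7 : Fact (Nat.Prime 7) := ⟨by norm_num⟩

/-- The matrix `A² + A + 1`. -/
def P3m (A : Matrix (Fin n) (Fin n) ℤ) : Matrix (Fin n) (Fin n) ℤ := A ^ 2 + A + 1

lemma P3m_mulVec (α : Fin n → ℤ) : P3m A *ᵥ α = av A α 2 + av A α 1 + av A α 0 := by
  simp [P3m, Matrix.add_mulVec, av]

lemma exists_smul_of_finrank {V : Type*} [AddCommGroup V] [Module (ZMod 7) V] [Module.Finite (ZMod 7) V]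
    (hV : Module.finrank (ZMod 7) V ≤ 1) {a : V} (ha : a ≠ 0) (x : V) : ∃ s : ZMod 7, x = s • a := by
  haveI : Nontrivial V := ⟨⟨a, 0, ha⟩⟩
  have h1 : Module.finrank (ZMod 7) V = 1 := le_antisymm hV Module.finrank_pos
  obtain ⟨t, ht⟩ := (finrank_eq_one_iff_of_nonzero' a ha).1 h1 x
  exact ⟨t, ht.symm⟩

lemma P3b_of {v : Fin n → ℤ} (hv : P3m A *ᵥ v = 0) :
    mmp 7 A *ᵥ (mmp 7 A *ᵥ cv 7 v) + mmp 7 A *ᵥ cv 7 v + cv 7 v = 0 := by
  have e := congrArg (cv 7) hv
  rw [cv_mulVec] at e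
  have e2 : mmp 7 (P3m A) = mmp 7 A * mmp 7 A + mmp 7 A + 1 := by
    rw [P3m]
    ext i j
    simp [Matrix.map_apply, pow_two, Matrix.mul_apply, Matrix.add_apply, Matrix.one_apply]
  rw [e2, Matrix.add_mulVec, Matrix.add_mulVec, Matrix.one_mulVec, ← Matrix.mulVec_mulVec] at e
  rw [e]
  funext j
  simp [cv]

lemma mem_eig2 {Ab : Matrix (Fin n) (Fin n) (ZMod 7)} {v : Fin n → ZMod 7} (hv : Ab *ᵥ (Ab *ᵥ v) + Ab *ᵥ v + v = 0) :
    Ab *ᵥ v - (4 : ZMod 7) • v ∈ Module.End.eigenspace (Matrix.toLin' Ab) 2 := by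
  rw [Module.End.mem_eigenspace_iff, Matrix.toLin'_apply, Matrix.mulVec_sub, Matrix.mulVec_smul]
  funext j
  have e := congrFun hv j
  have e7 : (7 : ZMod 7) = 0 := by decide
  simp only [Pi.add_apply, Pi.zero_apply, Pi.sub_apply, Pi.smul_apply, smul_eq_mul] at e ⊢
  linear_combination e + (-(Ab *ᵥ v) j + v j) * e7

lemma mem_eig4 {Ab : Matrix (Fin n) (Fin n) (ZMod 7)} {v : Fin n → ZMod 7} (hv : Ab *ᵥ (Ab *ᵥ v) + Ab *ᵥ v + v = 0) :
    Ab *ᵥ v - (2 : ZMod 7) • v ∈ Module.End.eigenspace (Matrix.toLin' Ab) 4 := by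
  rw [Module.End.mem_eigenspace_iff, Matrix.toLin'_apply, Matrix.mulVec_sub, Matrix.mulVec_smul]
  funext j
  have e := congrFun hv j
  have e7 : (7 : ZMod 7) = 0 := by decide
  simp only [Pi.add_apply, Pi.zero_apply, Pi.sub_apply, Pi.smul_apply, smul_eq_mul] at e ⊢
  linear_combination e + (-(Ab *ᵥ v) j + v j) * e7

/-- The reduction modulo seven: a vector in the kernel of `A² + A + 1` orthogonal to a vector of norm two and its image. -/
lemma mod7_zero {α y : Fin n → ℤ} (hα : B G α α = 2) (ht1 : B G α (av A α 1) = -1) (hG : Gᵀ = G) (hiso : Aᵀ * G * A = G)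
    (hP3 : P3m A *ᵥ α = 0) (hy : P3m A *ᵥ y = 0) (h1 : B G y α = 0) (h2 : B G y (av A α 1) = 0)
    (hV2 : Module.finrank (ZMod 7) (Module.End.eigenspace (Matrix.toLin' (mmp 7 A)) 2) ≤ 1)
    (hV4 : Module.finrank (ZMod 7) (Module.End.eigenspace (Matrix.toLin' (mmp 7 A)) 4) ≤ 1) : cv 7 y = 0 := by
  classical
  set Ab := mmp 7 A with hAb
  set Gb := mmp 7 G with hGb
  set x := cv 7 y with hx
  set a := cv 7 α with ha
  have e7 : (7 : ZMod 7) = 0 := by decide
  have hPx := P3b_of hy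
  have hPa := P3b_of hP3
  have hav1 : cv 7 (av A α 1) = Ab *ᵥ a := by
    rw [cv_av, pow_one]
  have hav1' : av A α 1 = A *ᵥ α := by
    rw [show (1 : ℕ) = 0 + 1 from rfl, av_succ, av_zero]
  have caa : a ⬝ᵥ Gb *ᵥ a = 2 := by
    have := cv_B 7 G α α
    rw [hα] at this
    rw [← this]
    norm_num
  have cab : a ⬝ᵥ Gb *ᵥ (Ab *ᵥ a) = -1 := by
    have := cv_B 7 G α (av A α 1)
    rw [ht1, hav1] at this
    rw [← this]
    norm_num
  have cba : (Ab *ᵥ a) ⬝ᵥ Gb *ᵥ a = -1 := by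
    have := cv_B 7 G (av A α 1) α
    rw [B_symm hG, ht1, hav1] at this
    rw [← this]
    norm_num
  have cbb : (Ab *ᵥ a) ⬝ᵥ Gb *ᵥ (Ab *ᵥ a) = 2 := by
    have := cv_B 7 G (av A α 1) (av A α 1)
    rw [hav1', B_iso hiso, hα, ← hav1', hav1] at this
    rw [← this]
    norm_num
  have cxa : x ⬝ᵥ Gb *ᵥ a = 0 := by
    have := cv_B 7 G y α
    rw [h1] at this
    rw [← this]
    norm_num
  have cxb : x ⬝ᵥ Gb *ᵥ (Ab *ᵥ a) = 0 := by
    have := cv_B 7 G y (av A α 1)
    rw [h2, hav1] at this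
    rw [← this]
    norm_num
  -- the eigenvectors of the vector of norm two are not zero
  have ha2 : Ab *ᵥ a - (4 : ZMod 7) • a ≠ 0 := by
    intro e
    have e1 : Ab *ᵥ a = (4 : ZMod 7) • a := sub_eq_zero.1 e
    rw [e1, Matrix.mulVec_smul, dotProduct_smul, caa] at cab
    revert cab
    decide
  have ha4 : Ab *ᵥ a - (2 : ZMod 7) • a ≠ 0 := by
    intro e
    have e1 : Ab *ᵥ a = (2 : ZMod 7) • a := sub_eq_zero.1 e
    rw [e1, Matrix.mulVec_smul, dotProduct_smul, caa] at cab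
    revert cab
    decide
  obtain ⟨s, hs⟩ := exists_smul_of_finrank hV2 (a := ⟨_, mem_eig2 hPa⟩) (by
    intro e
    exact ha2 (congrArg Subtype.val e)) ⟨_, mem_eig2 hPx⟩
  obtain ⟨s', hs'⟩ := exists_smul_of_finrank hV4 (a := ⟨_, mem_eig4 hPa⟩) (by
    intro e
    exact ha4 (congrArg Subtype.val e)) ⟨_, mem_eig4 hPx⟩
  have hs1 : Ab *ᵥ x - (4 : ZMod 7) • x = s • (Ab *ᵥ a - (4 : ZMod 7) • a) := congrArg Subtype.val hs
  have hs2 : Ab *ᵥ x - (2 : ZMod 7) • x = s' • (Ab *ᵥ a - (2 : ZMod 7) • a) := congrArg Subtype.val hs'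
  set A₁ : ZMod 7 := 4 * (-2 * s' + 4 * s) with hA₁
  set B₁ : ZMod 7 := 4 * (s' - s) with hB₁
  have hxe : x = A₁ • a + B₁ • (Ab *ᵥ a) := by
    funext j
    have e1 := congrFun hs1 j
    have e2 := congrFun hs2 j
    simp only [Pi.sub_apply, Pi.smul_apply, smul_eq_mul, Pi.add_apply] at e1 e2 ⊢
    rw [hA₁, hB₁]
    linear_combination 4 * e2 - 4 * e1 - x j * e7
  rw [hxe, add_dotProduct, smul_dotProduct, smul_dotProduct, caa, cba] at cxa
  rw [hxe, add_dotProduct, smul_dotProduct, smul_dotProduct, cab, cbb] at cxb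
  simp only [smul_eq_mul] at cxa cxb
  have hA0 : A₁ = 0 := by
    have e3 : (3 : ZMod 7) * A₁ = 0 := by linear_combination 2 * cxa + cxb
    rcases mul_eq_zero.1 e3 with e4 | e4
    · exact absurd e4 (by decide)
    · exact e4
  have hB0 : B₁ = 0 := by
    rw [hA0] at cxa
    linear_combination -cxa
  rw [hxe, hA0, hB0, zero_smul, zero_smul, add_zero]

/-- A vector in the kernel of `A² + A + 1` orthogonal to a vector of norm two in the kernel and its image is zero. -/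
theorem rank_lemma {α : Fin n → ℤ} (hα : B G α α = 2) (ht1 : B G α (av A α 1) = -1) (hG : Gᵀ = G) (hiso : Aᵀ * G * A = G)
    (hP3 : P3m A *ᵥ α = 0)
    (hV2 : Module.finrank (ZMod 7) (Module.End.eigenspace (Matrix.toLin' (mmp 7 A)) 2) ≤ 1)
    (hV4 : Module.finrank (ZMod 7) (Module.End.eigenspace (Matrix.toLin' (mmp 7 A)) 4) ≤ 1)
    {y : Fin n → ℤ} (hy : P3m A *ᵥ y = 0) (h1 : B G y α = 0) (h2 : B G y (av A α 1) = 0) : y = 0 := by
  have key : ∀ k : ℕ, ∀ y : Fin n → ℤ, P3m A *ᵥ y = 0 → B G y α = 0 → B G y (av A α 1) = 0 → ∀ j, (7 : ℤ) ^ k ∣ y j := by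
    intro k
    induction k with
    | zero =>
      intro y _ _ _ j
      simp
    | succ k ih =>
      intro y hy h1 h2 j
      have e1 := (cv_eq_zero_iff y).1 (mod7_zero hα ht1 hG hiso hP3 hy h1 h2 hV2 hV4)
      choose y' hy' using e1
      have e2 : y = (7 : ℤ) • y' := by
        funext i
        rw [hy' i]
        simp
      have e3 : P3m A *ᵥ y' = 0 := by
        rw [e2, Matrix.mulVec_smul] at hy
        exact (smul_eq_zero.1 hy).resolve_left (by norm_num)
      have e4 : B G y' α = 0 := by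
        rw [e2, B_smul_left] at h1
        exact (mul_eq_zero.1 h1).resolve_left (by norm_num)
      have e5 : B G y' (av A α 1) = 0 := by
        rw [e2, B_smul_left] at h2
        exact (mul_eq_zero.1 h2).resolve_left (by norm_num)
      have e6 := ih y' e3 e4 e5 j
      rw [hy' j, pow_succ', ]
      exact_mod_cast mul_dvd_mul_left _ e6
  funext j
  have e1 := key (y j).natAbs y hy h1 h2 j
  refine Int.eq_zero_of_abs_lt_dvd e1 ?_
  have e2 : (y j).natAbs < 7 ^ (y j).natAbs := Nat.lt_pow_self (by norm_num)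
  rw [Int.abs_eq_natAbs]
  exact_mod_cast e2

lemma no_sol9 : ∀ a b : ZMod 9, a ^ 2 - a * b + b ^ 2 ≠ 6 := by decide

/-- There is no vector of norm two in the kernel of `A² + A + 1`. -/
theorem no_root_P3 {α : Fin n → ℤ} (hα : B G α α = 2) (hG : Gᵀ = G) (hiso : Aᵀ * G * A = G)
    (hev : ∀ x : Fin n → ℤ, Even (B G x x)) (hP : A ^ 6 + A ^ 5 - A ^ 3 + A + 1 = 0)
    {z : Fin n → ℤ} (hz3 : ∀ x, (3 : ℤ) ∣ B G z x) (hzA : ∃ w : Fin n → ℤ, A *ᵥ z = z + (3 : ℤ) • w) (hzz : B G z z = 12)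
    (hV2 : Module.finrank (ZMod 7) (Module.End.eigenspace (Matrix.toLin' (mmp 7 A)) 2) ≤ 1)
    (hV4 : Module.finrank (ZMod 7) (Module.End.eigenspace (Matrix.toLin' (mmp 7 A)) 4) ≤ 1)
    (hP3 : P3m A *ᵥ α = 0) : False := by
  classical
  -- the inner product of the vector with its image
  have ht1 : B G α (av A α 1) = -1 := by
    have e1 := congrArg (B G (av A α 1)) hP3
    rw [P3m_mulVec, B_add_right, B_add_right] at e1
    have b10 : B G (av A α 1) (av A α 0) = tt G A α 1 := bb_add' hG hiso α 0 1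
    have b11 : B G (av A α 1) (av A α 1) = tt G A α 0 := bb_add hiso α 1 0
    have b12 : B G (av A α 1) (av A α 2) = tt G A α 1 := bb_add hiso α 1 1
    rw [b10, b11, b12] at e1
    have e2 : tt G A α 0 = 2 := by simpa [tt] using hα
    have e3 : B G (av A α 1) 0 = 0 := by simp [B]
    rw [e3, e2] at e1
    show tt G A α 1 = -1
    omega
  -- the powers on the radical
  obtain ⟨w₁, hw₁⟩ := hzA
  have hpow : ∀ k : ℕ, ∃ w : Fin n → ℤ, A ^ k *ᵥ z = z + (3 : ℤ) • w := by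
    intro k
    induction k with
    | zero => exact ⟨0, by simp⟩
    | succ k ih =>
      obtain ⟨w, hw⟩ := ih
      refine ⟨w₁ + A *ᵥ w, ?_⟩
      rw [pow_succ', ← Matrix.mulVec_mulVec, hw, Matrix.mulVec_add, hw₁, Matrix.mulVec_smul, smul_add, add_assoc]
  obtain ⟨w5, hw5⟩ := hpow 5
  obtain ⟨w3, hw3⟩ := hpow 3
  obtain ⟨w1, hw1⟩ := hpow 1
  let Pm : Matrix (Fin n) (Fin n) ℤ := -(A ^ 5) + A ^ 3 - A
  let z₁ : Fin n → ℤ := Pm *ᵥ z
  let w : Fin n → ℤ := -w5 + w3 - w1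
  have hz₁ : z₁ = -z + (3 : ℤ) • w := by
    have e1 : A *ᵥ z = A ^ 1 *ᵥ z := by rw [pow_one]
    show (-(A ^ 5) + A ^ 3 - A) *ᵥ z = _
    rw [Matrix.sub_mulVec, Matrix.add_mulVec, Matrix.neg_mulVec, e1, hw5, hw3, hw1]
    funext j
    simp only [w, Pi.add_apply, Pi.neg_apply, Pi.sub_apply, Pi.smul_apply, smul_eq_mul]
    ring
  have hP3z : P3m A *ᵥ z₁ = 0 := by
    have e1 : P3m A * Pm = -(A * (A ^ 6 + A ^ 5 - A ^ 3 + A + 1)) := by
      simp only [P3m, Pm]
      noncomm_ring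
    show P3m A *ᵥ (Pm *ᵥ z) = 0
    rw [Matrix.mulVec_mulVec, e1, hP]
    simp
  -- the divisibility
  have hB3 : ∀ x, (3 : ℤ) ∣ B G z₁ x := by
    intro x
    have e1 : z₁ = (-1 : ℤ) • z + (3 : ℤ) • w := by rw [hz₁]; simp
    rw [e1, B_add_left, B_smul_left, B_smul_left]
    exact dvd_add (Dvd.dvd.mul_left (hz3 x) _) (Dvd.intro _ rfl)
  obtain ⟨m', hm'⟩ := hB3 α
  obtain ⟨n', hn'⟩ := hB3 (av A α 1)
  set a : ℤ := 2 * m' + n' with ha
  set b : ℤ := m' + 2 * n' with hb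
  have hA1 : av A α 1 = A *ᵥ α := by
    rw [show (1 : ℕ) = 0 + 1 from rfl, av_succ, av_zero]
  have h11 : B G (av A α 1) (av A α 1) = 2 := by
    rw [hA1, B_iso hiso, hα]
  have h10 : B G (av A α 1) α = -1 := by rw [B_symm hG, ht1]
  let y : Fin n → ℤ := z₁ + (-a) • α + (-b) • av A α 1
  have hy0 : y = 0 := by
    refine rank_lemma hα ht1 hG hiso hP3 hV2 hV4 ?_ ?_ ?_
    · have e1 : P3m A *ᵥ av A α 1 = 0 := by
        have e2 : P3m A * A = A * P3m A := by
          simp only [P3m]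
          noncomm_ring
        rw [hA1, Matrix.mulVec_mulVec, e2, ← Matrix.mulVec_mulVec, hP3]
        simp
      show P3m A *ᵥ (z₁ + (-a) • α + (-b) • av A α 1) = 0
      rw [Matrix.mulVec_add, Matrix.mulVec_add, Matrix.mulVec_smul, Matrix.mulVec_smul, hP3z, hP3, e1]
      simp
    · show B G (z₁ + (-a) • α + (-b) • av A α 1) α = 0
      rw [B_add_left, B_add_left, B_smul_left, B_smul_left, hm', hα, h10, ha, hb]
      ring
    · show B G (z₁ + (-a) • α + (-b) • av A α 1) (av A α 1) = 0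
      rw [B_add_left, B_add_left, B_smul_left, B_smul_left, hn', ht1, h11, ha, hb]
      ring
  have hz₁e : z₁ = a • α + b • av A α 1 := by
    have e1 : z₁ + (-a) • α + (-b) • av A α 1 = 0 := hy0
    funext j
    have e2 := congrFun e1 j
    simp only [Pi.add_apply, Pi.smul_apply, smul_eq_mul, Pi.zero_apply] at e2 ⊢
    linarith
  -- the two values of the norm
  have hn1 : B G z₁ z₁ = 2 * a ^ 2 - 2 * a * b + 2 * b ^ 2 := by
    rw [hz₁e]
    simp only [B_add_left, B_add_right, B_smul_left, B_smul_right]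
    rw [hα, ht1, h10, h11]
    ring
  obtain ⟨k, hk⟩ := hz3 w
  obtain ⟨j, hj⟩ := hev w
  have hn2 : B G z₁ z₁ = 12 - 18 * k + 18 * j := by
    have e1 : z₁ = (-1 : ℤ) • z + (3 : ℤ) • w := by rw [hz₁]; simp
    rw [e1]
    simp only [B_add_left, B_add_right, B_smul_left, B_smul_right]
    rw [hzz, B_symm hG w z, hk, hj]
    ring
  have e9 : a ^ 2 - a * b + b ^ 2 = 6 - 9 * k + 9 * j := by linarith
  have e10 := congrArg (fun x : ℤ => (x : ZMod 9)) e9
  simp only [Int.cast_add, Int.cast_sub, Int.cast_mul, Int.cast_pow] at e10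
  have e11 : ((9 : ℤ) : ZMod 9) = 0 := by decide
  rw [e11] at e10
  apply no_sol9 (a : ZMod 9) (b : ZMod 9)
  rw [e10]
  have e12 : ((6 : ℤ) : ZMod 9) = 6 := by decide
  rw [e12]
  ring

end seven

section definite

/-- A form given by a sum of squares. -/
theorem form_of_cert {L L' : Matrix (Fin n) (Fin n) ℤ} (k : ℕ) (hk : 0 < k) (w : Fin n → ℕ) (hw : ∀ i, 0 < w i)
    (he : (k : ℤ) • G = Lᵀ * Matrix.diagonal (fun i => (w i : ℤ)) * L) (d : ℤ) (hd : d ≠ 0) (hL : L' * L = d • 1) :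
    (∀ x : Fin n → ℤ, 0 ≤ B G x x) ∧ (∀ x : Fin n → ℤ, B G x x = 0 → x = 0) := by
  have key : ∀ x : Fin n → ℤ, (k : ℤ) * B G x x = ∑ i, (w i : ℤ) * (L *ᵥ x) i ^ 2 := by
    intro x
    have e1 : (k : ℤ) * B G x x = x ⬝ᵥ ((k : ℤ) • G) *ᵥ x := by
      rw [Matrix.smul_mulVec, dotProduct_smul, smul_eq_mul, B]
    rw [e1, he, ← Matrix.mulVec_mulVec, ← Matrix.mulVec_mulVec, Matrix.dotProduct_mulVec, Matrix.vecMul_transpose]
    simp only [dotProduct, Matrix.mulVec_diagonal]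
    refine Finset.sum_congr rfl fun i _ => ?_
    ring
  have hk' : (0 : ℤ) < k := by exact_mod_cast hk
  have hnn : ∀ x : Fin n → ℤ, 0 ≤ (k : ℤ) * B G x x := by
    intro x
    rw [key]
    exact Finset.sum_nonneg fun i _ => by positivity
  refine ⟨fun x => nonneg_of_mul_nonneg_right (by simpa using hnn x) hk', ?_⟩
  intro x hx
  have e0 := key x
  rw [hx, mul_zero] at e0
  have e1 := (Finset.sum_eq_zero_iff_of_nonneg (fun i _ => by positivity)).1 e0.symm
  have e2 : L *ᵥ x = 0 := by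
    funext i
    have e3 := e1 i (Finset.mem_univ i)
    have e4 : (w i : ℤ) ≠ 0 := by exact_mod_cast (hw i).ne'
    exact pow_eq_zero_iff (by norm_num) |>.1 ((mul_eq_zero.1 e3).resolve_left e4)
  have e3 : (L' * L) *ᵥ x = 0 := by rw [← Matrix.mulVec_mulVec, e2, Matrix.mulVec_zero]
  rw [hL, Matrix.smul_mulVec, Matrix.one_mulVec] at e3
  exact (smul_eq_zero.1 e3).resolve_left hd

end definite

section gram

variable (hG : Gᵀ = G) (hiso : Aᵀ * G * A = G) (hpsd : ∀ x : Fin n → ℤ, 0 ≤ B G x x) (hdef : ∀ x : Fin n → ℤ, B G x x = 0 → x = 0)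
variable {α : Fin n → ℤ} (hα : B G α α = 2)

lemma av_add (α : Fin n → ℤ) (i j : ℕ) : av A α (i + j) = A ^ i *ᵥ av A α j := by
  rw [av, av, Matrix.mulVec_mulVec, pow_add]

include hG hiso hpsd hdef hα in
/-- The second case of the annihilating polynomial. -/
lemma dichotomy (hP' : A ^ 6 - 2 • A ^ 4 + 2 • A ^ 2 - 1 = 0) : av A α 2 = α ∨ av A α 4 - av A α 2 + av A α 0 = 0 := by
  have hrel : av A α 6 - 2 • av A α 4 + 2 • av A α 2 - av A α 0 = 0 := by
    have e : (A ^ 6 - 2 • A ^ 4 + 2 • A ^ 2 - 1) *ᵥ α = 0 := by rw [hP']; simp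
    simp only [Matrix.add_mulVec, Matrix.sub_mulVec, Matrix.one_mulVec, Matrix.smul_mulVec] at e
    simpa [av] using e
  have h0 : tt G A α 0 = 2 := by simpa [tt] using hα
  have e1 := congrArg (B G (av A α 2)) hrel
  have e2 : (av A α 6 - 2 • av A α 4 + 2 • av A α 2 - av A α 0) = av A α 6 + (-2 : ℤ) • av A α 4 + (2 : ℤ) • av A α 2 + (-1 : ℤ) • av A α 0 := by
    funext j
    simp only [Pi.add_apply, Pi.sub_apply, Pi.smul_apply]
    simp only [smul_eq_mul, nsmul_eq_mul]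
    push_cast
    ring
  rw [e2] at e1
  simp only [B_add_right, B_smul_right] at e1
  have b20 : B G (av A α 2) (av A α 0) = tt G A α 2 := bb_add' hG hiso α 0 2
  have b22 : B G (av A α 2) (av A α 2) = tt G A α 0 := bb_add hiso α 2 0
  have b24 : B G (av A α 2) (av A α 4) = tt G A α 2 := bb_add hiso α 2 2
  have b26 : B G (av A α 2) (av A α 6) = tt G A α 4 := bb_add hiso α 2 4
  rw [b20, b22, b24, b26] at e1
  have e3 : B G (av A α 2) 0 = 0 := by simp [B]
  rw [e3, h0] at e1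
  have b4 := tt_bound hG hiso hpsd hα 4
  have b2 := tt_bound hG hiso hpsd hα 2
  by_cases e4 : tt G A α 2 = 2
  · left
    exact av_eq_of_tt hG hiso hpsd hdef hα 2 e4
  right
  have e5 : tt G A α 2 = 1 := by omega
  have e6 : tt G A α 4 = -1 := by omega
  apply hdef
  have b00 : B G (av A α 0) (av A α 0) = tt G A α 0 := bb_add hiso α 0 0
  have b02 : B G (av A α 0) (av A α 2) = tt G A α 2 := bb_add hiso α 0 2
  have b04 : B G (av A α 0) (av A α 4) = tt G A α 4 := bb_add hiso α 0 4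
  have b40 : B G (av A α 4) (av A α 0) = tt G A α 4 := bb_add' hG hiso α 0 4
  have b42 : B G (av A α 4) (av A α 2) = tt G A α 2 := bb_add' hG hiso α 2 2
  have b44 : B G (av A α 4) (av A α 4) = tt G A α 0 := bb_add hiso α 4 0
  simp only [B_add_left, B_add_right, B_sub_left', B_sub_right']
  rw [b00, b02, b04, b20, b22, b24, b40, b42, b44]
  omega

include hG hiso in
/-- The orthogonality in the second case. -/
lemma orth_dichotomy {x y : Fin n → ℤ} (hx : av A x 2 = x) (hy : av A y 4 - av A y 2 + av A y 0 = 0) : B G x y = 0 := by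
  have e1 : B G x (av A y 2) = B G x y := by
    have e2 : ∀ u v : Fin n → ℤ, B G (A ^ 2 *ᵥ u) (A ^ 2 *ᵥ v) = B G u v := by
      intro u v
      rw [pow_two, ← Matrix.mulVec_mulVec, ← Matrix.mulVec_mulVec, B_iso hiso, B_iso hiso]
    have e3 := e2 x y
    have e4 : A ^ 2 *ᵥ x = x := hx
    rw [e4] at e3
    exact e3
  have e5 : B G x (av A y 4) = B G x (av A y 2) := by
    have e2 : ∀ u v : Fin n → ℤ, B G (A ^ 2 *ᵥ u) (A ^ 2 *ᵥ v) = B G u v := by
      intro u v
      rw [pow_two, ← Matrix.mulVec_mulVec, ← Matrix.mulVec_mulVec, B_iso hiso, B_iso hiso]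
    have e3 := e2 x (av A y 2)
    have e4 : A ^ 2 *ᵥ x = x := hx
    rw [e4, ← av_add] at e3
    exact e3
  have e6 := congrArg (B G x) hy
  simp only [B_add_right, B_sub_right'] at e6
  rw [e5, e1, av_zero] at e6
  have e7 : B G x 0 = 0 := by simp [B]
  rw [e7] at e6
  linarith

end gram

section det

/-- The Gram matrix of the images, as a function of the inner products. -/
def Tz {n : ℕ} (t : ℕ → ℤ) : Matrix (Fin n) (Fin n) ℤ := fun i j => t (if i.val ≤ j.val then j.val - i.val else i.val - j.val)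

lemma gram_Mb (hG : Gᵀ = G) (hiso : Aᵀ * G * A = G) (α : Fin n → ℤ) :
    (Cfsg.Agent.Lib.KS71.HCm.Mb A α)ᵀ * G * Cfsg.Agent.Lib.KS71.HCm.Mb A α = Tz (tt G A α) := by
  ext i j
  have e1 : ((Cfsg.Agent.Lib.KS71.HCm.Mb A α)ᵀ * G * Cfsg.Agent.Lib.KS71.HCm.Mb A α) i j = B G (av A α i) (av A α j) := by
    rw [Matrix.mul_assoc, Matrix.mul_apply]
    simp only [Matrix.transpose_apply, B, dotProduct, Matrix.mul_apply, Matrix.mulVec, Cfsg.Agent.Lib.KS71.HCm.Mb, av]
  rw [e1, Tz]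
  by_cases hij : i.val ≤ j.val
  · rw [if_pos hij]
    have e2 := bb_add hiso α i (j.val - i.val)
    rwa [Nat.add_sub_cancel' hij] at e2
  · rw [if_neg hij]
    have hji : j.val ≤ i.val := by omega
    have e2 := bb_add' hG hiso α j (i.val - j.val)
    rwa [Nat.add_sub_cancel' hji] at e2

set_option maxRecDepth 100000 in
set_option maxHeartbeats 0 in
lemma detT0 : (Tz (n := 6) (fun k => ([2, 0, 0, 1, -1, -1] : List ℤ).getD k 0)).det = 3 := by decide +kernel

set_option maxRecDepth 100000 in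
set_option maxHeartbeats 0 in
lemma detT1 : (Tz (n := 6) (fun k => ([2, -1, 0, 1, -1, 0] : List ℤ).getD k 0)).det = 3 := by decide +kernel

lemma Tz_congr {n : ℕ} (hn : n = 6) {t t' : ℕ → ℤ} (h : ∀ k, k < 6 → t k = t' k) : Tz (n := n) t = Tz t' := by
  ext i j
  rw [Tz, Tz]
  apply h
  have := i.isLt
  have := j.isLt
  split_ifs <;> omega

/-- A vector of norm two with vanishing second inner product is a cyclic vector. -/
theorem det_sq_of_t2 {G A : Matrix (Fin 6) (Fin 6) ℤ} (hG : Gᵀ = G) (hiso : Aᵀ * G * A = G) (hpsd : ∀ x : Fin 6 → ℤ, 0 ≤ B G x x)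
    (hdef : ∀ x : Fin 6 → ℤ, B G x x = 0 → x = 0) {α : Fin 6 → ℤ} (hα : B G α α = 2)
    (hP : A ^ 6 + A ^ 5 - A ^ 3 + A + 1 = 0) (hA12 : A ^ 12 = 1) (hdetG : G.det = 3) (ht2 : tt G A α 2 = 0) :
    (Cfsg.Agent.Lib.KS71.HCm.Mb A α).det ^ 2 = 1 := by
  obtain ⟨h0, h3, h4, h5, h6⟩ := t_vals hG hiso hα hP
  have hne2 : av A α 2 ≠ α := by
    intro e
    have e1 : tt G A α 2 = 2 := by rw [tt, e, hα]
    omega
  have b1 := tt_bound hG hiso hpsd hα 1
  have h1 : tt G A α 1 = 0 ∨ tt G A α 1 = -1 := by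
    have n2 : tt G A α 1 ≠ 2 := by
      intro e
      have e1 := av_eq_of_tt hG hiso hpsd hdef hα 1 e
      apply hne2
      rw [show (2 : ℕ) = 1 + 1 from rfl, av_add, e1, pow_one]
      have e2 : A *ᵥ α = α := by
        have := e1
        simpa [av] using this
      exact e2
    have nm2 : tt G A α 1 ≠ -2 := by
      intro e
      have e1 := av_eq_neg_of_tt hG hiso hpsd hdef hα 1 e
      have e2 : A *ᵥ α = -α := by simpa [av] using e1
      apply hne2
      rw [show (2 : ℕ) = 1 + 1 from rfl, av_add, e1, pow_one, Matrix.mulVec_neg, e2, neg_neg]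
    have n1 : tt G A α 1 ≠ 1 := by
      intro e
      have e5 : tt G A α 5 = -2 := by omega
      have e1 := av_eq_neg_of_tt hG hiso hpsd hdef hα 5 e5
      have e2 : A ^ 5 *ᵥ α = -α := by simpa [av] using e1
      apply hne2
      have e3 : A ^ 10 *ᵥ α = α := by
        rw [show (10 : ℕ) = 5 + 5 from rfl, pow_add, ← Matrix.mulVec_mulVec, e2, Matrix.mulVec_neg, e2, neg_neg]
      have e4 : A ^ 2 *ᵥ (A ^ 10 *ᵥ α) = α := by
        rw [Matrix.mulVec_mulVec, ← pow_add, show 2 + 10 = 12 from rfl, hA12, Matrix.one_mulVec]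
      rw [e3] at e4
      exact e4
    omega
  have hGr : (Cfsg.Agent.Lib.KS71.HCm.Mb A α)ᵀ * G * Cfsg.Agent.Lib.KS71.HCm.Mb A α = Tz (tt G A α) := gram_Mb hG hiso α
  have hdT : (Tz (n := 6) (tt G A α)).det = 3 := by
    rcases h1 with e1 | e1
    · rw [← detT0]
      congr 1
      apply Tz_congr rfl
      intro k hk
      interval_cases k <;> simp <;> omega
    · rw [← detT1]
      congr 1
      apply Tz_congr rfl
      intro k hk
      interval_cases k <;> simp <;> omega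
  have e := congrArg Matrix.det hGr
  rw [Matrix.det_mul, Matrix.det_mul, Matrix.det_transpose, hdetG, hdT] at e
  nlinarith

end det

end Cfsg.Agent.Lib.KS71.E6j
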