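/-
The centralizer of a regular element in the group over the small field and the twisted torus.
-/
import Mathlib
import Cfsg.Agent.Lib.KS71.HCn

set_option autoImplicit false
set_option linter.unusedSectionVars false
set_option linter.unusedVariables false

namespace Cfsg.Agent.Lib.KS71.HCo

open scoped MatrixGroups Matrix
open Polynomial Module
open Cfsg Cfsg.Lie Cfsg.Lie.ChevalleyDatum
open Cfsg.Agent.Lib.Chev.Tables Cfsg.Agent.Lib.Chev.Tables2 Cfsg.Agent.Lib.Chev.Tables3 Cfsg.Agent.Lib.Chev.Raise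
open Cfsg.Agent.Lib.Chev.Basic Cfsg.Agent.Lib.Chev.AxBasic Cfsg.Agent.Lib.Chev.Torus
open Cfsg.Agent.Lib.Chev.Products Cfsg.Agent.Lib.Chev.Products2 Cfsg.Agent.Lib.Chev.Mono1
open Cfsg.Agent.Lib.Chev.Mono2 Cfsg.Agent.Lib.Chev.Mono3 Cfsg.Agent.Lib.Chev.Bn
open Cfsg.Agent.Lib.Chev.Order1 Cfsg.Agent.Lib.Chev.Order2 Cfsg.Agent.Lib.Chev.Parab
open Cfsg.Agent.Lib.Chev.Diag Cfsg.Agent.Lib.Chev.SL2 Cfsg.Agent.Lib.Chev.SL2Chev
open Cfsg.Agent.Lib.KS71.ChevFix Cfsg.Agent.Lib.KS71.IVf Cfsg.Agent.Lib.KS71.HCa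
open Cfsg.Agent.Lib.KS71.HCb Cfsg.Agent.Lib.KS71.HCc Cfsg.Agent.Lib.KS71.HCf Cfsg.Agent.Lib.KS71.HCg
open Cfsg.Agent.Lib.KS71.HCm Cfsg.Agent.Lib.KS71.HCn

variable {D : ChevalleyDatum} {E : Type*} [Field E]

lemma chi_word (h : Tab D) (v : ℕ → Eˣ) {l : List ℕ} (hl : ∀ i ∈ l, i < D.rank) {t : ℕ} (ht : t < D.nroots) :
    chi D v (wWord D l t) = ∏ k : Fin D.rank, chi D v (wWord D l (D.simple k)) ^ coef D t k := by
  simp only [chi]
  have e : ∀ i ∈ Finset.range D.rank, v i ^ coef D (wWord D l t) i =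
      ∏ k : Fin D.rank, (v i ^ coef D (wWord D l (D.simple k)) i) ^ coef D t k := by
    intro i hi
    rw [coef_wWord h hl ht (Finset.mem_range.mp hi),
      ← Fin.sum_univ_eq_sum_range (fun k => coef D t k * coef D (wWord D l (D.simple k)) i), zpow_sum_gen]
    refine Finset.prod_congr rfl fun k _ => ?_
    rw [mul_comm, zpow_mul]
  rw [Finset.prod_congr rfl e, Finset.prod_comm]
  refine Finset.prod_congr rfl fun k _ => ?_
  rw [Finset.prod_zpow]

lemma chi_ext (v' : Fin D.rank → Eˣ) (s : ℕ) : chi D (extU D v') s = ∏ i : Fin D.rank, v' i ^ coef D s i := by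
  rw [chi, ← Fin.prod_univ_eq_prod_range (fun i => extU D v' i ^ coef D s i)]
  refine Finset.prod_congr rfl fun i _ => ?_
  simp [extU]

lemma extU_apply (v' : Fin D.rank → Eˣ) (i : Fin D.rank) : extU D v' i = v' i := by
  simp [extU]

/-- The kernel of the twisted action. -/
lemma mem_ker_iff (h : Tab D) {l : List ℕ} (hl : ∀ i ∈ l, i < D.rank) (q : ℕ) (v' : Fin D.rank → Eˣ) :
    v' ∈ (mact ((q : ℤ) • (1 : Matrix (Fin D.rank) (Fin D.rank) ℤ) - Aw D l) (G := Eˣ)).ker ↔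
      ∀ t, t < D.nroots → chi D (extU D v') (wWord D l t) = chi D (extU D v') t ^ q := by
  classical
  have key : ∀ k : Fin D.rank, mact ((q : ℤ) • (1 : Matrix (Fin D.rank) (Fin D.rank) ℤ) - Aw D l) v' k =
      v' k ^ q * (chi D (extU D v') (wWord D l (D.simple k)))⁻¹ := by
    intro k
    rw [mact_apply, chi_ext]
    have e1 : ∀ i, v' i ^ (((q : ℤ) • (1 : Matrix (Fin D.rank) (Fin D.rank) ℤ) - Aw D l) i k) =
        v' i ^ ((q : ℤ) * (if i = k then 1 else 0)) * (v' i ^ coef D (wWord D l (D.simple k)) i)⁻¹ := by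
      intro i
      rw [Matrix.sub_apply, Matrix.smul_apply, Matrix.one_apply, smul_eq_mul, zpow_sub, zpow_mul (v' i) (q : ℤ)]
      rfl
    simp only [e1]
    rw [Finset.prod_mul_distrib, Finset.prod_inv_distrib, Finset.prod_eq_single k]
    · simp
    · intro i _ hi
      simp [hi]
    · simp
  rw [MonoidHom.mem_ker]
  constructor
  · intro hk t ht
    have hs : ∀ k : Fin D.rank, chi D (extU D v') (wWord D l (D.simple k)) = v' k ^ q := by
      intro k
      have e1 := congrFun hk k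
      rw [key] at e1
      exact (mul_inv_eq_one.mp e1).symm
    rw [chi_word h _ hl ht, chi_ext]
    simp only [hs]
    rw [← Finset.prod_pow]
    refine Finset.prod_congr rfl fun k _ => ?_
    rw [← zpow_natCast, ← zpow_natCast, ← zpow_mul, ← zpow_mul, mul_comm]
  · intro hk
    funext k
    have hs := h.simple_lt k k.isLt
    rw [key, hk _ hs, chi_simple h _ k.isLt, extU_apply]
    simp

section main

variable {F : Type*} [Field F] [Fintype F] [Fintype E]
variable (h : Tab D) (h2 : Tab2 D) (axF : Ax D F) (axE : Ax D E) (ι : F →+* E) (σ : E ≃+* E)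

include h2 in
/-- The centralizer of a regular element in the group over the small field is the twisted torus. -/
theorem torus_struct {q : ℕ} (hσ : ∀ x, σ x = x ^ q) (hι₀ : ∀ x, σ x = x ↔ x ∈ Set.range ι)
    (hHF : ∀ y : ℕ → Fˣ, tor D y ∈ D.diagonalSubgroup F)
    (hHE : ∀ y : ℕ → Eˣ, tor D y ∈ D.diagonalSubgroup E)
    (p₀ : ↥(D.group F)) (x : ↥(D.group E)) (y₀ : ℕ → Eˣ)
    (hy₀ : ((x⁻¹ * iotaHom h axF axE ι p₀ * x : ↥(D.group E)) : GL D.Idx E) = tor D y₀)
    (hreg : ∀ s, s < D.nroots → chi D y₀ s ≠ 1)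
    (hstab : ∀ π ∈ Wp h (Set.Iio D.rank), (∀ s : Fin D.nroots, chi D y₀ (π s) = chi D y₀ s) → π = 1) :
    ∃ l : List ℕ, (∀ i ∈ l, i < D.rank) ∧ (∀ t, t < D.nroots → chi D y₀ (wWord D l t) = chi D y₀ t ^ q) ∧
      Nat.card ↥(Subgroup.centralizer ({p₀} : Set ↥(D.group F))) =
        Nat.card (mact ((q : ℤ) • (1 : Matrix (Fin D.rank) (Fin D.rank) ℤ) - Aw D l) (G := Eˣ)).ker ∧
      ∀ a ∈ Subgroup.centralizer ({p₀} : Set ↥(D.group F)), ∀ b ∈ Subgroup.centralizer ({p₀} : Set ↥(D.group F)),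
        a * b = b * a := by
  classical
  set s₀ := sAut h axE σ with hs₀
  set ιh := iotaHom h axF axE ι with hιh
  let t : (ℕ → Eˣ) → ↥(D.group E) := fun v => ⟨tor D v, diagonal_le_group h axE (hHE v)⟩
  have hts : ∀ v, s₀ (t v) = t (v ^ q) := by
    intro v
    apply Subtype.ext
    rw [hs₀, coe_sAut]
    exact mapX_tor_frob σ hσ v
  have hty : x⁻¹ * ιh p₀ * x = t y₀ := Subtype.ext hy₀
  have hιfix : ∀ g, s₀ (ιh g) = ιh g := sAut_iota h axF axE ι σ (fun a => (hι₀ _).2 ⟨a, rfl⟩)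
  have hA : ∀ g : ↥(D.group E), g * t y₀ = t y₀ * g → (g : GL D.Idx E) ∈ D.diagonalSubgroup E := by
    intro g hg
    exact mem_H_of_comm h h2 axE (hHE y₀) hreg hstab g.2 (congrArg Subtype.val hg)
  have hcommH : ∀ a b : ↥(D.group E), (a : GL D.Idx E) ∈ D.diagonalSubgroup E → (b : GL D.Idx E) ∈ D.diagonalSubgroup E →
      a * b = b * a := fun a b ha hb => Subtype.ext (diagonal_comm axE h ha hb)
  have hycomm : ∀ u : ↥(D.group E), (u : GL D.Idx E) ∈ D.diagonalSubgroup E → u * t y₀ = t y₀ * u :=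
    fun u hu => hcommH _ _ hu (hHE y₀)
  have hp₀ : ιh p₀ = x * t y₀ * x⁻¹ := by rw [← hty]; group
  set n₀ := x⁻¹ * s₀ x with hn₀
  -- the conjugation by `n₀` on the torus
  let H' : Subgroup ↥(D.group E) := (D.diagonalSubgroup E).subgroupOf (D.group E)
  have hsH : ∀ a ∈ H', s₀ a ∈ H' := by
    intro a ha
    show ((s₀ a : ↥(D.group E)) : GL D.Idx E) ∈ D.diagonalSubgroup E
    rw [hs₀, coe_sAut]
    exact mapX_H axE axE (σ : E →+* E) ha
  have hconj1 : ∀ u ∈ H', n₀ * u * n₀⁻¹ ∈ H' := by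
    intro u hu
    obtain ⟨u₁, hu₁, rfl⟩ := map_sylow_surj s₀ hsH hu
    have e1 : n₀ * s₀ u₁ * n₀⁻¹ = x⁻¹ * s₀ (x * u₁ * x⁻¹) * x := by
      rw [hn₀]
      simp only [map_mul, map_inv]
      group
    rw [e1]
    refine (hA _ ?_ : ((x⁻¹ * s₀ (x * u₁ * x⁻¹) * x : ↥(D.group E)) : GL D.Idx E) ∈ D.diagonalSubgroup E)
    have e2 : (x * u₁ * x⁻¹) * ιh p₀ = ιh p₀ * (x * u₁ * x⁻¹) := by
      rw [hp₀]
      have e3 := hycomm u₁ hu₁
      calc x * u₁ * x⁻¹ * (x * t y₀ * x⁻¹) = x * (u₁ * t y₀) * x⁻¹ := by group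
        _ = x * (t y₀ * u₁) * x⁻¹ := by rw [e3]
        _ = _ := by group
    have e4 := congrArg s₀ e2
    rw [map_mul s₀ (x * u₁ * x⁻¹) (ιh p₀), map_mul s₀ (ιh p₀) (x * u₁ * x⁻¹), hιfix] at e4
    rw [← hty]
    calc x⁻¹ * s₀ (x * u₁ * x⁻¹) * x * (x⁻¹ * ιh p₀ * x) = x⁻¹ * (s₀ (x * u₁ * x⁻¹) * ιh p₀) * x := by group
      _ = x⁻¹ * (ιh p₀ * s₀ (x * u₁ * x⁻¹)) * x := by rw [e4]
      _ = _ := by group
  have hconj2 : ∀ u ∈ H', n₀⁻¹ * u * n₀ ∈ H' := by
    intro u hu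
    obtain ⟨b, hb, rfl⟩ := map_sylow_surj (MulAut.conj n₀) (by
      intro c hc
      rw [MulAut.conj_apply]
      exact hconj1 c hc) hu
    rw [MulAut.conj_apply]
    have e : n₀⁻¹ * (n₀ * b * n₀⁻¹) * n₀ = b := by group
    rw [e]
    exact hb
  have hnm : (n₀ : GL D.Idx E) ∈ D.monomialSubgroup E := by
    refine mem_monomial_of_normalize h h2 axE n₀.2 (D.diagonalSubgroup E) le_rfl ?_ ?_ ?_
    · intro a ha
      exact hconj1 ⟨a, diagonal_le_group h axE ha⟩ ha
    · intro a ha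
      exact hconj2 ⟨a, diagonal_le_group h axE ha⟩ ha
    · intro s hs
      exact ⟨y₀, hHE y₀, hreg s hs⟩
  obtain ⟨π, c0, Hn⟩ := exists_isNor h h2 axE hnm
  have hπ : π ∈ Wp h (Set.Iio D.rank) := by
    have := piN_mem_Wp h h2 axE ⟨(n₀ : GL D.Idx E), hnm⟩
    rwa [piN_of_isNor h h2 axE (g := ⟨(n₀ : GL D.Idx E), hnm⟩) Hn] at this
  obtain ⟨l, hl, rfl⟩ := (mem_Wp_iff h).1 hπ
  have hl' : ∀ i ∈ l, i < D.rank := fun i hi => hl i hi
  -- the relation on values
  have hval : ∀ (v v₁ : ℕ → Eˣ), n₀ * t (v ^ q) * n₀⁻¹ = t v₁ → ∀ s, s < D.nroots →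
      chi D v₁ (wWord D l s) = chi D v s ^ q := by
    intro v v₁ e s hs
    have e1 : (n₀ : GL D.Idx E) * tor D (v ^ q) * (n₀ : GL D.Idx E)⁻¹ = tor D v₁ := congrArg Subtype.val e
    have e2 := conj_tor_chi h h2 axE Hn (v ^ q) v₁ e1 ⟨s, hs⟩
    rw [chi_pow, wPw_val h hl'] at e2
    exact e2
  have hyrel : ∀ s, s < D.nroots → chi D y₀ (wWord D l s) = chi D y₀ s ^ q := by
    apply hval
    have e1 : s₀ (t y₀) = (s₀ x)⁻¹ * ιh p₀ * s₀ x := by
      rw [← hty]
      simp only [map_mul, map_inv, hιfix]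
    rw [← hts, e1, hn₀, ← hty]
    group
  refine ⟨l, hl', hyrel, ?_⟩
  -- the two images
  set B := (q : ℤ) • (1 : Matrix (Fin D.rank) (Fin D.rank) ℤ) - Aw D l with hB
  set K := (mact B (G := Eˣ)).ker with hK
  set T := Subgroup.centralizer ({p₀} : Set ↥(D.group F)) with hT
  let Λ₀ : (Fin D.rank → Eˣ) →* ↥(D.group E) :=
    MonoidHom.codRestrict ((torHom D).comp (extU D)) (D.group E) (fun v => diagonal_le_group h axE (hHE _))
  have hΛ₀ : ∀ v, Λ₀ v = t (extU D v) := fun v => rfl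
  let Λ : (Fin D.rank → Eˣ) →* ↥(D.group E) := (MulAut.conj x).toMonoidHom.comp Λ₀
  have hΛ : ∀ v, Λ v = x * t (extU D v) * x⁻¹ := fun v => by
    show MulAut.conj x (Λ₀ v) = _
    rw [MulAut.conj_apply, hΛ₀]
  have hΛinj : Function.Injective Λ := by
    intro a b e
    rw [hΛ, hΛ] at e
    have e1 : t (extU D a) = t (extU D b) := by
      have := mul_left_cancel (mul_right_cancel e)
      exact this
    have e2 : tor D (extU D a) = tor D (extU D b) := congrArg Subtype.val e1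
    funext j
    have e3 := (tor_eq_iff h).1 e2 j j.isLt
    rwa [extU_apply, extU_apply] at e3
  have hιinj : Function.Injective ιh := iotaHom_injective h axF axE ι
  have hmain : T.map ιh = K.map Λ := by
    apply le_antisymm
    · rintro _ ⟨g, hg, rfl⟩
      have hg' : g * p₀ = p₀ * g := Subgroup.mem_centralizer_singleton_iff.1 hg
      set u := x⁻¹ * ιh g * x with hu
      have hu1 : u * t y₀ = t y₀ * u := by
        rw [← hty, hu]
        have e := congrArg ιh hg'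
        rw [map_mul, map_mul] at e
        calc x⁻¹ * ιh g * x * (x⁻¹ * ιh p₀ * x) = x⁻¹ * (ιh g * ιh p₀) * x := by group
          _ = x⁻¹ * (ιh p₀ * ιh g) * x := by rw [e]
          _ = _ := by group
      obtain ⟨v, hv⟩ := exists_tor_of_mem axE h (hA u hu1)
      let v' : Fin D.rank → Eˣ := fun j => v j
      have hv' : u = t (extU D v') := by
        apply Subtype.ext
        rw [hv]
        refine (tor_eq_iff h).2 fun j hj => ?_
        exact (extU_apply v' ⟨j, hj⟩).symm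
      have hΛg : Λ v' = ιh g := by
        rw [hΛ, ← hv', hu]
        group
      refine ⟨v', ?_, hΛg⟩
      rw [SetLike.mem_coe, hK, mem_ker_iff h hl' q v']
      apply hval
      -- the fixed point equation
      have e1 : s₀ u = (s₀ x)⁻¹ * ιh g * s₀ x := by
        rw [hu]
        simp only [map_mul, map_inv, hιfix]
      rw [← hts, ← hv', e1, hn₀, hu]
      group
    · rintro _ ⟨v', hv', rfl⟩
      have hv'' := (mem_ker_iff h hl' q v').1 hv'
      set v := extU D v' with hv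
      -- the image is fixed
      obtain ⟨v₁, hv₁⟩ := exists_tor_of_mem axE h (hconj1 (t (v ^ q)) (hHE _))
      have hv₁' : n₀ * t (v ^ q) * n₀⁻¹ = t v₁ := Subtype.ext hv₁
      have hvv₁ : t v₁ = t v := by
        apply Subtype.ext
        apply tor_eq_of_chi
        intro s hs
        have e1 := hval v v₁ hv₁'
        let s' : Fin D.nroots := (wPw h l)⁻¹ ⟨s, hs⟩
        have e2 : wWord D l s' = s := by
          rw [← wPw_val h hl']
          simp [s']
        have e3 := e1 s' s'.isLt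
        have e4 := hv'' s' s'.isLt
        rw [e2] at e3 e4
        rw [e3, e4]
      have hfix : s₀ (x * t v * x⁻¹) = x * t v * x⁻¹ := by
        simp only [map_mul, map_inv, hts]
        rw [← hvv₁, ← hv₁', hn₀]
        group
      have hfix' : mapX D (σ : E →+* E) (x * t v * x⁻¹ : ↥(D.group E)) = (x * t v * x⁻¹ : ↥(D.group E)) := by
        have e1 := congrArg Subtype.val hfix
        rw [hs₀, coe_sAut] at e1
        exact e1
      obtain ⟨u, hu, hue⟩ := fixed_mem_range h h2 axE axF σ ι hι₀ hHF (x * t v * x⁻¹ : ↥(D.group E)).2 hfix'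
      have hιg : ιh ⟨u, hu⟩ = x * t v * x⁻¹ := Subtype.ext hue
      refine ⟨⟨u, hu⟩, ?_, ?_⟩
      · show (⟨u, hu⟩ : ↥(D.group F)) ∈ T
        rw [hT, Subgroup.mem_centralizer_singleton_iff]
        apply hιinj
        rw [map_mul, map_mul, hιg, hp₀]
        have e3 := hycomm (t v) (hHE v)
        calc x * t v * x⁻¹ * (x * t y₀ * x⁻¹) = x * (t v * t y₀) * x⁻¹ := by group
          _ = x * (t y₀ * t v) * x⁻¹ := by rw [e3]
          _ = _ := by group
      · rw [hιg, hΛ]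
  constructor
  · rw [← Subgroup.card_map_of_injective hιinj, hmain, Subgroup.card_map_of_injective hΛinj]
  · intro a ha b hb
    obtain ⟨v₁, _, hv₁⟩ : ιh a ∈ K.map Λ := by
      rw [← hmain]
      exact ⟨a, ha, rfl⟩
    obtain ⟨v₂, _, hv₂⟩ : ιh b ∈ K.map Λ := by
      rw [← hmain]
      exact ⟨b, hb, rfl⟩
    apply hιinj
    rw [map_mul, map_mul, ← hv₁, ← hv₂, ← map_mul, ← map_mul, mul_comm]

end main

end Cfsg.Agent.Lib.KS71.HCo
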