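/-
A cyclic self-centralizing subgroup of order `Φ_d(q)`, for a degree `d` whose totient is the rank.
-/
import Mathlib
import Cfsg.Agent.Lib.KS71.HCo

set_option autoImplicit false
set_option linter.unusedSectionVars false
set_option linter.unusedVariables false

namespace Cfsg.Agent.Lib.KS71.HCp

open scoped MatrixGroups Matrix
open Polynomial Module
open Cfsg Cfsg.Lie Cfsg.Lie.ChevalleyDatum
open Cfsg.Agent.Lib.Chev.Tables Cfsg.Agent.Lib.Chev.Tables2 Cfsg.Agent.Lib.Chev.Tables3 Cfsg.Agent.Lib.Chev.Raise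
open Cfsg.Agent.Lib.Chev.Basic Cfsg.Agent.Lib.Chev.AxBasic Cfsg.Agent.Lib.Chev.Torus
open Cfsg.Agent.Lib.Chev.Products Cfsg.Agent.Lib.Chev.Products2 Cfsg.Agent.Lib.Chev.Mono1
open Cfsg.Agent.Lib.Chev.Mono2 Cfsg.Agent.Lib.Chev.Mono3 Cfsg.Agent.Lib.Chev.Bn
open Cfsg.Agent.Lib.Chev.Order1 Cfsg.Agent.Lib.Chev.Order2 Cfsg.Agent.Lib.Chev.Parab
open Cfsg.Agent.Lib.Chev.Diag Cfsg.Agent.Lib.Chev.SL2 Cfsg.Agent.Lib.Chev.SL2Chev Cfsg.Agent.Lib.Chev.Order3
open Cfsg.Agent.Lib.KS71.ChevFix Cfsg.Agent.Lib.KS71.IVf Cfsg.Agent.Lib.KS71.HCa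
open Cfsg.Agent.Lib.KS71.HCb Cfsg.Agent.Lib.KS71.HCc Cfsg.Agent.Lib.KS71.HCd Cfsg.Agent.Lib.KS71.HCf Cfsg.Agent.Lib.KS71.HCg
open Cfsg.Agent.Lib.KS71.HCj Cfsg.Agent.Lib.KS71.HCk
open Cfsg.Agent.Lib.KS71.HCm Cfsg.Agent.Lib.KS71.HCn Cfsg.Agent.Lib.KS71.HCo
open Cfsg.Agent.Lib.Zsig.Basic

/-- The subfield of an extension as the fixed points of the Frobenius map. -/
lemma fixed_iff {F E : Type*} [Field F] [Fintype F] [Field E] [Fintype E] {q : ℕ} (hq : Fintype.card F = q) (hq2 : 2 ≤ q)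
    (σ : E ≃+* E) (ι : F →+* E) (hσ : ∀ x, σ x = x ^ q) (hσι : ∀ a, σ (ι a) = ι a) (x : E) :
    σ x = x ↔ x ∈ Set.range ι := by
  classical
  constructor
  · intro e
    let f : E[X] := X ^ q - X
    have hf : f ≠ 0 := FiniteField.X_pow_card_sub_X_ne_zero E (by omega)
    have hdeg : f.natDegree = q := FiniteField.X_pow_card_sub_X_natDegree_eq E (by omega)
    have hroot : ∀ z : E, z ^ q = z → z ∈ f.roots.toFinset := by
      intro z hz
      rw [Multiset.mem_toFinset, mem_roots hf, IsRoot, eval_sub, eval_pow, eval_X, hz, sub_self]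
    have hS : Finset.univ.image ι ⊆ f.roots.toFinset := by
      intro z hz
      obtain ⟨a, _, rfl⟩ := Finset.mem_image.mp hz
      apply hroot
      rw [← hσ, hσι]
    have hcS : (Finset.univ.image ι).card = q := by
      rw [Finset.card_image_of_injective _ ι.injective, Finset.card_univ, hq]
    have hcR : f.roots.toFinset.card ≤ q := by
      rw [← hdeg]
      exact (Multiset.toFinset_card_le _).trans (card_roots' f)
    have heq := Finset.eq_of_subset_of_card_le hS (by rw [hcS]; exact hcR)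
    have hx : x ∈ Finset.univ.image ι := by
      rw [heq]
      apply hroot
      rw [← hσ, e]
    obtain ⟨a, _, rfl⟩ := Finset.mem_image.mp hx
    exact ⟨a, rfl⟩
  · rintro ⟨a, rfl⟩
    exact hσι a

/-- The order of the kernel for the matrix of the Weyl element. -/
theorem card_ker_eq {n : ℕ} {E : Type*} [Field E] [Fintype E] {q d : ℕ} (hq2 : 2 ≤ q) (hd0 : 0 < d)
    (hcE : Fintype.card E = q ^ d)
    (A : Matrix (Fin n) (Fin n) ℤ) (hcp : A.charpoly = cyclotomic d ℤ) :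
    Nat.card (mact ((q : ℤ) • (1 : Matrix (Fin n) (Fin n) ℤ) - A) (G := Eˣ)).ker = Phi d q := by
  classical
  have hΦ : aeval A (cyclotomic d ℤ) = 0 := by
    rw [← hcp]
    exact Matrix.aeval_self_charpoly A
  have hAd : A ^ d = 1 := by
    have e1 : cyclotomic d ℤ ∣ X ^ d - 1 := cyclotomic.dvd_X_pow_sub_one d ℤ
    obtain ⟨g, hg⟩ := e1
    have e2 := congrArg (aeval A) hg
    simp only [map_sub, map_pow, aeval_X, map_one, map_mul, hΦ, zero_mul] at e2
    exact sub_eq_zero.mp e2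
  have hQ0 : 0 < q ^ d - 1 := pow_sub_one_pos hq2 hd0
  obtain ⟨g, hg⟩ := IsCyclic.exists_generator (α := Eˣ)
  have hord : orderOf g = q ^ d - 1 := by
    rw [orderOf_eq_card_of_forall_mem_zpowers hg, Nat.card_eq_fintype_card, Fintype.card_units, hcE]
  set B := (q : ℤ) • (1 : Matrix (Fin n) (Fin n) ℤ) - A with hB
  let sc : Matrix (Fin n) (Fin n) ℤ := (q : ℤ) • 1
  have hsc : Commute sc A := by
    show sc * A = A * sc
    simp only [sc, smul_mul_assoc, mul_smul_comm, one_mul, mul_one]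
  let C : Matrix (Fin n) (Fin n) ℤ := ∑ i ∈ Finset.range d, sc ^ i * A ^ (d - 1 - i)
  have hscd : sc ^ d = ((q : ℤ) ^ d) • (1 : Matrix (Fin n) (Fin n) ℤ) := by
    simp only [sc, _root_.smul_pow, one_pow]
  have hBC : B * C = (((q ^ d - 1 : ℕ) : ℤ)) • 1 := by
    have e1 := hsc.mul_geom_sum₂ d
    show (sc - A) * C = _
    rw [e1, hscd, hAd, natCast_pow_sub_one (by omega), sub_smul, one_smul]
  have hCB : C * B = (((q ^ d - 1 : ℕ) : ℤ)) • 1 := by
    have e1 : Commute B C := by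
      apply Commute.sum_right
      intro i _
      apply Commute.sub_left
      · exact (Commute.refl sc |>.pow_right i).mul_right (hsc.pow_right _)
      · exact (hsc.symm.pow_right i).mul_right (Commute.refl A |>.pow_right _)
    rw [← e1.eq]
    exact hBC
  rw [card_ker_mact g hord hQ0 (fun x => by
    obtain ⟨k, hk⟩ := hg x
    exact ⟨k, hk⟩) B C hBC hCB]
  rw [Phi, ← hcp, Matrix.eval_charpoly, hB, Matrix.smul_one_eq_diagonal, Matrix.scalar_apply]

universe u

lemma order_of_prim {r q d : ℕ} [hr : Fact r.Prime] (hq2 : 2 ≤ q) (hd0 : 0 < d) (h1 : r ∣ q ^ d - 1)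
    (hprim : ∀ k, 0 < k → k < d → ¬ r ∣ q ^ k - 1) : orderOf (q : ZMod r) = d := by
  have hqd : (q : ZMod r) ^ d = 1 := (dvd_iff_pow_eq_one hq2).1 h1
  have h2 : orderOf (q : ZMod r) ∣ d := orderOf_dvd_of_pow_eq_one hqd
  have h3 : 0 < orderOf (q : ZMod r) := Nat.pos_of_dvd_of_pos h2 hd0
  by_contra hne
  have h4 : orderOf (q : ZMod r) < d := lt_of_le_of_ne (Nat.le_of_dvd hd0 h2) hne
  exact hprim _ h3 h4 ((dvd_iff_pow_eq_one hq2).2 (pow_orderOf_eq_one _))

lemma lt_of_order {r q d : ℕ} [hr : Fact r.Prime] (hd0 : 0 < d) (h : orderOf (q : ZMod r) = d) : d ∣ r - 1 ∧ d + 1 ≤ r ∧ ¬ r ∣ q := by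
  have hq0 : (q : ZMod r) ≠ 0 := by
    intro e
    rw [e] at h
    rw [orderOf_zero] at h
    omega
  have h1 : d ∣ r - 1 := by
    rw [← h]
    exact ZMod.orderOf_dvd_card_sub_one hq0
  have h2 := hr.out.two_le
  have h3 := Nat.le_of_dvd (by omega) h1
  refine ⟨h1, by omega, ?_⟩
  intro e
  exact hq0 ((ZMod.natCast_eq_zero_iff _ _).2 e)

lemma cyc_of_iso {Q : Type*} [Group Q] {a m : ℕ} (ha : a = 1) (iso : Q ≃* (Fin a → Multiplicative (ZMod m))) : IsCyclic Q := by
  subst ha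
  let f : Q →* Multiplicative (ZMod m) := (Pi.evalMonoidHom _ (0 : Fin 1)).comp iso.toMonoidHom
  refine isCyclic_of_injective f ?_
  intro x y e
  apply iso.injective
  funext i
  have : i = 0 := Subsingleton.elim _ _
  subst this
  exact e

/-- The centralizer of a regular element is cyclic, from the structure of the Sylow subgroups. -/
theorem cyclic_of_card {F : Type u} [Field F] [Fintype F] {q : ℕ} (hq : Fintype.card F = q) (hq2 : 2 ≤ q)
    {D : ChevalleyDatum} {ds : List ℕ} (hp : (D, ds) ∈ typeList) {d : ℕ} (hd0 : 0 < d)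
    (hprime : ∀ p : ℕ, p.Prime → p ∣ ds.prod → p < d + 1)
    (hcount : (ds.filter fun e => d ∣ e).length = 1)
    (hbad : ∀ p : ℕ, p.Prime → p ∣ d → padicValNat p (Phi d q) ≤ 1)
    (T : Subgroup ↥(D.group F)) (hcomm : ∀ a ∈ T, ∀ b ∈ T, a * b = b * a) (hT : Nat.card T = Phi d q) :
    IsCyclic T := by
  classical
  haveI : IsZGroup T := by
    refine ⟨fun p hpp P => ?_⟩
    haveI : Fact p.Prime := ⟨hpp⟩
    have hlow : padicValNat p (Phi d q) ≤ 1 → IsCyclic P := by
      intro hv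
      apply isCyclic_of_card_dvd_prime (p := p)
      rw [Sylow.card_eq_multiplicity, hT, Nat.factorization_def _ hpp]
      simpa using pow_dvd_pow p hv
    by_cases h1 : p ∣ Phi d q
    · by_cases h2 : p ∣ d
      · exact hlow (hbad p hpp h2)
      · have hprim := primitive_of_not_dvd (by omega : 1 ≤ q) h1 h2
        have hpd : p ∣ q ^ d - 1 := h1.trans (Phi_dvd (by omega) hd0)
        have hord := order_of_prim hq2 hd0 hpd hprim
        obtain ⟨_, h4, hpq⟩ := lt_of_order hd0 hord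
        have hpW : ¬ p ∣ ds.prod := fun e => by
          have := hprime p hpp e
          omega
        have hpG : p ∣ Nat.card ↥(D.group F) := by
          refine dvd_trans ?_ (Subgroup.card_subgroup_dvd_card T)
          rw [hT]
          exact h1
        have hP₁ : IsPGroup p ((P : Subgroup T).map T.subtype) := P.isPGroup'.map _
        obtain ⟨Q₁, hQ₁⟩ := hP₁.exists_le_sylow
        obtain ⟨iso⟩ := sylow_final hq hp p hpq hpW hpG Q₁
        have hlen : (ds.filter fun e => orderOf (q : ZMod p) ∣ e).length = 1 := by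
          rw [hord]
          exact hcount
        haveI : IsCyclic ↥(Q₁ : Subgroup ↥(D.group F)) := cyc_of_iso hlen iso
        let φ : ↥(P : Subgroup T) →* ↥(Q₁ : Subgroup ↥(D.group F)) :=
          MonoidHom.codRestrict (T.subtype.comp (P : Subgroup T).subtype) _ (fun g => hQ₁ ⟨g.1, g.2, rfl⟩)
        refine isCyclic_of_injective φ ?_
        intro a b e
        have e1 : ((φ a : ↥(Q₁ : Subgroup ↥(D.group F))) : ↥(D.group F)) = φ b := congrArg Subtype.val e
        exact Subtype.ext (Subtype.ext e1)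
    · exact hlow (by rw [padicValNat.eq_zero_of_not_dvd h1]; omega)
  haveI : Group.IsNilpotent T := by
    letI c : CommGroup T := { (inferInstance : Group T) with mul_comm := fun a b => Subtype.ext (hcomm _ a.2 _ b.2) }
    exact (inferInstance : Group.IsNilpotent T)
  infer_instance

/-- The main construction. -/
theorem regular_torus {F : Type u} [Field F] [Fintype F] {q : ℕ} (hq : Fintype.card F = q)
    {D : ChevalleyDatum} {ds : List ℕ} (hp : (D, ds) ∈ typeList) {d : ℕ} (hd3 : 3 ≤ d) (hd6 : d ≠ 6) (hdd : d ∈ ds)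
    (hφ : d.totient = D.rank)
    (hHF : ∀ y : ℕ → Fˣ, tor D y ∈ D.diagonalSubgroup F)
    (hHE : ∀ (K : Type) [Field K] [Fintype K], ∀ y : ℕ → Kˣ, tor D y ∈ D.diagonalSubgroup K)
    (Gm : Matrix (Fin D.rank) (Fin D.rank) ℤ) (hpsd : (Gm.map (Int.castRingHom ℝ)).PosSemidef) (hdet : 0 < Gm.det)
    (N : ℕ) (hnorm : ∀ s, s < D.nroots → crd D s ⬝ᵥ Gm.mulVec (crd D s) ≤ N)
    (hb : ∀ r : ℕ, r.Prime → d ∣ r - 1 → (N : ℤ) ^ D.rank < (r : ℤ) ^ 2)
    (hprime : ∀ p : ℕ, p.Prime → p ∣ ds.prod → p < d + 1)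
    (hcount : (ds.filter fun e => d ∣ e).length = 1)
    (hbad : ∀ p : ℕ, p.Prime → p ∣ d → padicValNat p (Phi d q) ≤ 1) :
    ∃ H : Subgroup ↥(D.group F), IsCyclic ↥H ∧ Nat.card ↥H = Phi d q ∧
      Subgroup.centralizer (H : Set ↥(D.group F)) = H := by
  classical
  have hD := mem_list hp
  have h := tab_of_mem hD
  have h2 := tab2_of_mem hD
  have axF := Cfsg.Agent.Lib.Lie.AxOf.ax_of_mem (F := F) hD
  have hq2 : 2 ≤ q := by
    rw [← hq]
    exact Fintype.one_lt_card
  have hd0 : 0 < d := by omega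
  obtain ⟨r, hrp, hrd, hrk⟩ := zsigmondy_large q d hq2 hd3 (fun e => hd6 e.2)
  haveI hrf : Fact r.Prime := ⟨hrp⟩
  have hrord := order_of_prim hq2 hd0 hrd hrk
  obtain ⟨hdr, hr_ge, hrq⟩ := lt_of_order hd0 hrord
  have hrW : ¬ r ∣ ds.prod := fun e => by
    have := hprime r hrp e
    omega
  obtain ⟨Tb, ls, hcert⟩ := cert_list hp
  have hWc : (Wc h).card = ds.prod := by
    have := sum_of_cert h h2 axF hcert 1
    simp only [one_pow, Finset.sum_const, smul_eq_mul, mul_one, evalP_geom_one', List.map_id'] at this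
    exact this
  have hrW' : ¬ r ∣ (Wc h).card := by rw [hWc]; exact hrW
  obtain ⟨dd, hdd1, hdd2⟩ := dd_list hp F
  rw [hq] at hdd2
  have hkey := card_of_cert h h2 axF hcert (len_list hp) hq hdd2
  have hrG : r ∣ Nat.card ↥(D.group F) := by
    have e1 : r ∣ dd * Nat.card ↥(D.group F) := by
      rw [hkey]
      refine Dvd.dvd.mul_left (hrd.trans ?_) _
      exact List.dvd_prod (List.mem_map.2 ⟨d, hdd, rfl⟩)
    rcases (hrp.dvd_mul).1 e1 with e2 | e2
    · exact absurd (e2.trans hdd1) hrW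
    · exact e2
  obtain ⟨p₀, hp₀⟩ := exists_prime_orderOf_dvd_card' r hrG
  -- the extension
  obtain ⟨E, _, _, σ, ι, hcE, hσ, hσι⟩ := exists_extension F d hd0
  rw [hq] at hcE hσ
  have axE : Ax D E := Cfsg.Agent.Lib.Lie.AxOf.ax_of_mem (F := E) hD
  have hqd : (q : ZMod r) ^ d = 1 := (dvd_iff_pow_eq_one hq2).1 hrd
  have hE1 : ((Fintype.card E : ℕ) : ZMod r) = 1 := by
    rw [hcE]
    push_cast
    exact hqd
  obtain ⟨Q₀, hQ₀⟩ := exists_sylow_diag h h2 axE hE1 hrW'
  let H' : Subgroup ↥(D.group E) := (D.diagonalSubgroup E).subgroupOf (D.group E)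
  have hQH' : (Q₀ : Subgroup ↥(D.group E)) ≤ H' := fun x hx => hQ₀ x hx
  have hH'ab : ∀ a ∈ H', ∀ b ∈ H', a * b = b * a := by
    intro a ha b hb
    apply Subtype.ext
    exact diagonal_comm axE h ha hb
  have hpow : ∀ x : ↥(D.group E), (x : GL D.Idx E) ∈ D.diagonalSubgroup E → ∀ k : ℕ, x ^ (r ^ k) = 1 →
      x ∈ (Q₀ : Subgroup ↥(D.group E)) := fun x hx k hk => mem_sylow_of_pow Q₀ H' hQH' hH'ab hx hk
  have hrE : r ∣ Nat.card Eˣ := by
    rw [Nat.card_eq_fintype_card, Fintype.card_units, hcE]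
    exact hrd
  obtain ⟨lam, hlam⟩ : ∃ lam : Eˣ, orderOf lam = r := exists_prime_orderOf_dvd_card' r hrE
  have hlr : lam ^ r = 1 := by rw [← hlam]; exact pow_orderOf_eq_one _
  have hsep : ∀ s, s < D.nroots → ∃ y : ℕ → Eˣ, ∃ hy : tor D y ∈ D.group E,
      (⟨tor D y, hy⟩ : ↥(D.group E)) ∈ (Q₀ : Subgroup ↥(D.group E)) ∧ chi D y s ≠ 1 := by
    intro s hs
    obtain ⟨i, hi, hne⟩ := exists_coef_ne h hs
    have hci : ¬ (r : ℤ) ∣ coef D s i := by
      intro e2
      rcases coefOK_all hp s hs i hi with e3 | e3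
      · exact hne e3
      · apply hrW
        refine dvd_trans ?_ e3
        exact Int.natCast_dvd.mp e2
    let y : ℕ → Eˣ := fun j => if j = i then lam else 1
    have hy1 : ∀ j, y j ^ r = 1 := by
      intro j
      by_cases hj : j = i
      · simp [y, hj, hlr]
      · simp [y, hj]
    have hyH : tor D y ∈ D.diagonalSubgroup E := hHE E y
    have hyG := diagonal_le_group h axE hyH
    refine ⟨y, hyG, hpow _ hyH 1 ?_, ?_⟩
    · apply Subtype.ext
      show tor D y ^ (r ^ 1) = 1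
      rw [pow_one, tor_pow]
      have : y ^ r = 1 := funext hy1
      rw [this, tor_one]
    · rw [chi, Finset.prod_eq_single i]
      · simp only [y, if_true]
        intro e
        have := orderOf_dvd_iff_zpow_eq_one.mpr e
        rw [hlam] at this
        exact hci this
      · intro j _ hj
        simp [y, hj]
      · intro hn
        exact absurd (Finset.mem_range.mpr hi) hn
  -- the element
  let ιh := iotaHom h axF axE ι
  have hιinj : Function.Injective ιh := iotaHom_injective h axF axE ι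
  have hordι : orderOf (ιh p₀) = r := by
    rw [orderOf_injective ιh hιinj, hp₀]
  let P' : Subgroup ↥(D.group E) := Subgroup.zpowers (ιh p₀)
  have hP' : IsPGroup r P' := by
    apply IsPGroup.of_card (n := 1)
    rw [pow_one, Nat.card_zpowers, hordι]
  have hfix : ∀ p ∈ P', sAut h axE σ p = p := by
    rintro _ ⟨k, rfl⟩
    show sAut h axE σ (ιh p₀ ^ k) = ιh p₀ ^ k
    rw [map_zpow, sAut_iota h axF axE ι σ hσι]
  obtain ⟨x, l, hl, h1, h4⟩ := twist_chev h h2 axE σ hσ Q₀ hQ₀ hpow hsep P' hP' hfix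
  have hmem : ιh p₀ ∈ P' := Subgroup.mem_zpowers _
  obtain ⟨y₀, hy₀⟩ := exists_tor_of_mem axE h (hQ₀ _ (h1 _ hmem))
  have hrel : ∀ t, t < D.nroots → chi D y₀ (wWord D l t) = chi D y₀ t ^ q := fun t ht => h4 _ hmem y₀ hy₀ t ht
  have hrels : ∀ k : Fin D.rank, chi D y₀ (wWord D l (D.simple k)) = chi D y₀ (D.simple k) ^ q :=
    fun k => hrel _ (h.simple_lt k k.isLt)
  have hy₀pow : ∀ j, j < D.rank → y₀ j ^ r = 1 := by
    intro j hj
    have e1 : (x⁻¹ * ιh p₀ * x) ^ r = 1 := by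
      have e2 : x⁻¹ * ιh p₀ * x = MulAut.conj x⁻¹ (ιh p₀) := by
        rw [MulAut.conj_apply, inv_inv]
      rw [e2, ← map_pow, ← map_pow, ← hp₀, pow_orderOf_eq_one]
      simp
    have e3 : tor D (y₀ ^ r) = 1 := by
      rw [← tor_pow, ← hy₀]
      exact congrArg Subtype.val e1
    simpa using eq_one_of_tor h e3 hj
  have hn : ∀ j : Fin D.rank, ∃ k : ℕ, lam ^ k = y₀ j := fun j => exists_exp hlam _ (hy₀pow j j.isLt)
  choose n hn using hn
  let c : Fin D.rank → ℤ := fun j => n j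
  have hc : ∀ j : Fin D.rank, lam ^ c j = y₀ j := fun j => by
    show lam ^ ((n j : ℕ) : ℤ) = _
    rw [zpow_natCast, hn]
  have hcne : ∃ j, ¬ (r : ℤ) ∣ c j := by
    by_contra hne
    push Not at hne
    have e1 : ∀ j, j < D.rank → y₀ j = (1 : ℕ → Eˣ) j := by
      intro j hj
      rw [← hc ⟨j, hj⟩, Pi.one_apply]
      exact orderOf_dvd_iff_zpow_eq_one.mp (by rw [hlam]; exact hne ⟨j, hj⟩)
    have e2 : tor D y₀ = tor D 1 := (tor_eq_iff h).2 e1
    rw [tor_one] at e2
    have e3 : x⁻¹ * ιh p₀ * x = 1 := Subtype.ext (hy₀.trans e2)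
    have e4 : ιh p₀ = 1 := by
      have e5 : ιh p₀ = x * (x⁻¹ * ιh p₀ * x) * x⁻¹ := by group
      rw [e5, e3]
      group
    rw [e4, orderOf_one] at hordι
    exact hrp.one_lt.ne hordι
  have hcp := charpoly_of_rel h hlam hc hl hrW' hrels hcne hrord hd0 hφ
  have hreg : ∀ s, s < D.nroots → chi D y₀ s ≠ 1 := fun s hs =>
    regular_of_rel h hlam hc hl hrel hcne hcp hd0 hφ Gm hpsd hdet N hnorm (hb r hrp hdr) hs
  have hstab : ∀ π ∈ Wp h (Set.Iio D.rank), (∀ s : Fin D.nroots, chi D y₀ (π s) = chi D y₀ s) → π = 1 :=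
    fun π hπ hf => stab_trivial h hlam hc hl hrW' hrel hcne hcp hd0 hφ hπ hf
  obtain ⟨l₂, hl₂, hrel₂, hcardT, hcomm⟩ := torus_struct h h2 axF axE ι σ hσ (fixed_iff hq hq2 σ ι hσ hσι) hHF (hHE E)
    p₀ x y₀ hy₀ hreg hstab
  have hcp₂ := charpoly_of_rel h hlam hc hl₂ hrW' (fun k => hrel₂ _ (h.simple_lt k k.isLt)) hcne hrord hd0 hφ
  have hT := hcardT.trans (card_ker_eq hq2 hd0 hcE _ hcp₂)
  refine ⟨_, cyclic_of_card hq hq2 hp hd0 hprime hcount hbad _ hcomm hT, hT, ?_⟩
  apply le_antisymm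
  · intro g hg
    rw [Subgroup.mem_centralizer_singleton_iff]
    have := Subgroup.mem_centralizer_iff.1 hg p₀ (Subgroup.mem_centralizer_singleton_iff.2 rfl)
    exact this.symm
  · intro g hg
    rw [Subgroup.mem_centralizer_iff]
    intro a ha
    exact hcomm a ha g hg

end Cfsg.Agent.Lib.KS71.HCp
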