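/-
The cyclic self-centralizing subgroups of order `Φ₈(q)` in `F₄(q)` and `Φ₃₀(q)` in `E₈(q)`.
-/
import Mathlib
import Cfsg.Agent.Lib.KS71.HCp

set_option autoImplicit false
set_option linter.unusedSectionVars false
set_option linter.unusedVariables false

namespace Cfsg.Agent.Lib.KS71.HCq

open scoped MatrixGroups Matrix
open Polynomial Module
open Cfsg Cfsg.Lie Cfsg.Lie.ChevalleyDatum
open Cfsg.Agent.Lib.Chev.Tables Cfsg.Agent.Lib.Chev.Tables2 Cfsg.Agent.Lib.Chev.Tables3 Cfsg.Agent.Lib.Chev.Raise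
open Cfsg.Agent.Lib.Chev.Basic Cfsg.Agent.Lib.Chev.AxBasic Cfsg.Agent.Lib.Chev.Torus
open Cfsg.Agent.Lib.Chev.Diag
open Cfsg.Agent.Lib.KS71.ChevFix
open Cfsg.Agent.Lib.KS71.HCc Cfsg.Agent.Lib.KS71.HCh
open Cfsg.Agent.Lib.KS71.HCj Cfsg.Agent.Lib.KS71.HCk
open Cfsg.Agent.Lib.KS71.HCm Cfsg.Agent.Lib.KS71.HCp
open Cfsg.Agent.Lib.Zsig.Basic

/-- A matrix from a table. -/
def matOf (n : ℕ) (T : List (List ℤ)) : Matrix (Fin n) (Fin n) ℤ := fun i j => (T.getD i.val []).getD j.val 0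

lemma det_pos_of_inv {n : ℕ} {Gm : Matrix (Fin n) (Fin n) ℤ} (hpsd : (Gm.map (Int.castRingHom ℝ)).PosSemidef)
    (Inv : Matrix (Fin n) (Fin n) ℤ) (κ : ℤ) (hκ : κ ≠ 0) (he : Gm * Inv = κ • 1) : 0 < Gm.det := by
  have h1 : Gm.det * Inv.det = κ ^ n := by
    rw [← Matrix.det_mul, he, Matrix.det_smul, Matrix.det_one, mul_one, Fintype.card_fin]
  have h2 : Gm.det ≠ 0 := fun e => pow_ne_zero n hκ (by rw [← h1, e, zero_mul])
  have h3 := hpsd.det_nonneg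
  have h4 : (Gm.map (Int.castRingHom ℝ)).det = ((Gm.det : ℤ) : ℝ) := (RingHom.map_det (Int.castRingHom ℝ) Gm).symm
  rw [h4] at h3
  have h5 : 0 ≤ Gm.det := by exact_mod_cast h3
  omega

/-! ### `F₄` -/

def GF4 : Matrix (Fin chevF4.rank) (Fin chevF4.rank) ℤ :=
  matOf _ [[2, -1, 0, 0], [-1, 2, -2, 0], [0, -2, 4, -2], [0, 0, -2, 4]]

set_option maxRecDepth 100000 in
lemma psdF4 : (GF4.map (Int.castRingHom ℝ)).PosSemidef :=
  psd_of_cert (m := chevF4.rank) 6 (by norm_num)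
    (matOf _ [[2, -1, 0, 0], [0, 3, -4, 0], [0, 0, 2, -3], [0, 0, 0, 1]])
    (fun i => [3, 1, 2, 6].getD i.val 0) (by decide +kernel)

set_option maxRecDepth 100000 in
lemma detF4 : 0 < GF4.det :=
  det_pos_of_inv psdF4 (matOf _ [[4, 6, 4, 2], [6, 12, 8, 4], [4, 8, 6, 3], [2, 4, 3, 2]]) 2 (by norm_num) (by decide +kernel)

set_option maxRecDepth 100000 in
lemma normF4 : ∀ s, s < chevF4.nroots → crd chevF4 s ⬝ᵥ GF4.mulVec (crd chevF4 s) ≤ ((4 : ℕ) : ℤ) := by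
  decide +kernel

/-! ### `E₈` -/

def GE8 : Matrix (Fin chevE8.rank) (Fin chevE8.rank) ℤ := cartanM chevE8

set_option maxRecDepth 100000 in
lemma psdE8 : (GE8.map (Int.castRingHom ℝ)).PosSemidef :=
  psd_of_cert (m := chevE8.rank) 60 (by norm_num)
    (matOf _ [[2, 0, -1, 0, 0, 0, 0, 0], [0, 2, 0, -1, 0, 0, 0, 0], [0, 0, 3, -2, 0, 0, 0, 0], [0, 0, 0, 5, -6, 0, 0, 0],
      [0, 0, 0, 0, 4, -5, 0, 0], [0, 0, 0, 0, 0, 3, -4, 0], [0, 0, 0, 0, 0, 0, 2, -3], [0, 0, 0, 0, 0, 0, 0, 1]])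
    (fun i => [30, 30, 10, 2, 3, 5, 10, 30].getD i.val 0) (by decide +kernel)

set_option maxRecDepth 100000 in
lemma detE8 : 0 < GE8.det :=
  det_pos_of_inv psdE8 (matOf _ [[4, 5, 7, 10, 8, 6, 4, 2], [5, 8, 10, 15, 12, 9, 6, 3], [7, 10, 14, 20, 16, 12, 8, 4],
    [10, 15, 20, 30, 24, 18, 12, 6], [8, 12, 16, 24, 20, 15, 10, 5], [6, 9, 12, 18, 15, 12, 8, 4],
    [4, 6, 8, 12, 10, 8, 6, 3], [2, 3, 4, 6, 5, 4, 3, 2]]) 1 (by norm_num) (by decide +kernel)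

set_option maxRecDepth 100000 in
lemma normE8 : ∀ s, s < chevE8.nroots → crd chevE8 s ⬝ᵥ GE8.mulVec (crd chevE8 s) ≤ ((2 : ℕ) : ℤ) := by
  decide +kernel

/-! ### The cyclotomic polynomials -/

lemma n1 : (X - 1 : ℤ[X]) ≠ 0 := (cyclotomic_one ℤ) ▸ cyclotomic_ne_zero 1 ℤ
lemma n2 : (X + 1 : ℤ[X]) ≠ 0 := (cyclotomic_two ℤ) ▸ cyclotomic_ne_zero 2 ℤ

lemma cyc8 : cyclotomic 8 ℤ = X ^ 4 + 1 := by
  have h := prod_cyclotomic_eq_X_pow_sub_one (by norm_num : 0 < 8) ℤ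
  have e : Nat.divisors 8 = {1, 2, 4, 8} := by decide
  rw [e, Finset.prod_insert (by decide), Finset.prod_insert (by decide), Finset.prod_insert (by decide),
    Finset.prod_singleton, cyclotomic_one, cyclotomic_two, cyc4] at h
  have hne : ((X - 1 : ℤ[X]) * ((X + 1) * (X ^ 2 + 1))) ≠ 0 :=
    mul_ne_zero n1 (mul_ne_zero n2 ((cyc4) ▸ cyclotomic_ne_zero 4 ℤ))
  apply mul_left_cancel₀ hne
  rw [mul_assoc, mul_assoc, h]
  ring

lemma cyc5 : cyclotomic 5 ℤ = X ^ 4 + X ^ 3 + X ^ 2 + X + 1 := by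
  haveI : Fact (Nat.Prime 5) := ⟨by norm_num⟩
  rw [cyclotomic_prime, Finset.sum_range_succ, Finset.sum_range_succ, Finset.sum_range_succ, Finset.sum_range_succ,
    Finset.sum_range_one]
  ring

lemma cyc10 : cyclotomic 10 ℤ = X ^ 4 - X ^ 3 + X ^ 2 - X + 1 := by
  have h := prod_cyclotomic_eq_X_pow_sub_one (by norm_num : 0 < 10) ℤ
  have e : Nat.divisors 10 = {1, 2, 5, 10} := by decide
  rw [e, Finset.prod_insert (by decide), Finset.prod_insert (by decide), Finset.prod_insert (by decide),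
    Finset.prod_singleton, cyclotomic_one, cyclotomic_two, cyc5] at h
  have hne : ((X - 1 : ℤ[X]) * ((X + 1) * (X ^ 4 + X ^ 3 + X ^ 2 + X + 1))) ≠ 0 :=
    mul_ne_zero n1 (mul_ne_zero n2 ((cyc5) ▸ cyclotomic_ne_zero 5 ℤ))
  apply mul_left_cancel₀ hne
  rw [mul_assoc, mul_assoc, h]
  ring

lemma cyc15 : cyclotomic 15 ℤ = X ^ 8 - X ^ 7 + X ^ 5 - X ^ 4 + X ^ 3 - X + 1 := by
  have h := prod_cyclotomic_eq_X_pow_sub_one (by norm_num : 0 < 15) ℤ
  have e : Nat.divisors 15 = {1, 3, 5, 15} := by decide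
  rw [e, Finset.prod_insert (by decide), Finset.prod_insert (by decide), Finset.prod_insert (by decide),
    Finset.prod_singleton, cyclotomic_one, cyclotomic_three, cyc5] at h
  have hne : ((X - 1 : ℤ[X]) * ((X ^ 2 + X + 1) * (X ^ 4 + X ^ 3 + X ^ 2 + X + 1))) ≠ 0 :=
    mul_ne_zero n1 (mul_ne_zero ((cyclotomic_three ℤ) ▸ cyclotomic_ne_zero 3 ℤ) ((cyc5) ▸ cyclotomic_ne_zero 5 ℤ))
  apply mul_left_cancel₀ hne
  rw [mul_assoc, mul_assoc, h]
  ring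

lemma cyc30 : cyclotomic 30 ℤ = X ^ 8 + X ^ 7 - X ^ 5 - X ^ 4 - X ^ 3 + X + 1 := by
  have h := prod_cyclotomic_eq_X_pow_sub_one (by norm_num : 0 < 30) ℤ
  have e : Nat.divisors 30 = {1, 2, 3, 5, 6, 10, 15, 30} := by decide
  rw [e, Finset.prod_insert (by decide), Finset.prod_insert (by decide), Finset.prod_insert (by decide),
    Finset.prod_insert (by decide), Finset.prod_insert (by decide), Finset.prod_insert (by decide),
    Finset.prod_insert (by decide), Finset.prod_singleton, cyclotomic_one, cyclotomic_two, cyclotomic_three, cyc5, cyc6,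
    cyc10, cyc15] at h
  have hne : ((X - 1 : ℤ[X]) * ((X + 1) * ((X ^ 2 + X + 1) * ((X ^ 4 + X ^ 3 + X ^ 2 + X + 1) * ((X ^ 2 - X + 1) *
      ((X ^ 4 - X ^ 3 + X ^ 2 - X + 1) * (X ^ 8 - X ^ 7 + X ^ 5 - X ^ 4 + X ^ 3 - X + 1))))))) ≠ 0 :=
    mul_ne_zero n1 (mul_ne_zero n2 (mul_ne_zero ((cyclotomic_three ℤ) ▸ cyclotomic_ne_zero 3 ℤ)
      (mul_ne_zero ((cyc5) ▸ cyclotomic_ne_zero 5 ℤ) (mul_ne_zero ((cyc6) ▸ cyclotomic_ne_zero 6 ℤ)
      (mul_ne_zero ((cyc10) ▸ cyclotomic_ne_zero 10 ℤ) ((cyc15) ▸ cyclotomic_ne_zero 15 ℤ))))))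
  apply mul_left_cancel₀ hne
  simp only [mul_assoc] at h ⊢
  rw [h]
  ring

lemma Phi8 (q : ℕ) : Phi 8 q = q ^ 4 + 1 := by
  rw [Phi, cyc8]
  simp only [eval_add, eval_pow, eval_X, eval_one]
  exact_mod_cast Int.natAbs_natCast (q ^ 4 + 1)

lemma Phi30 {q : ℕ} (hq : 2 ≤ q) : Phi 30 q = q ^ 8 + q ^ 7 - q ^ 5 - q ^ 4 - q ^ 3 + q + 1 := by
  have h1 : q ^ 5 ≤ q ^ 7 := Nat.pow_le_pow_right (by omega) (by norm_num)
  have h2 : q ^ 3 ≤ q ^ 4 := Nat.pow_le_pow_right (by omega) (by norm_num)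
  have h3 : 2 * q ^ 4 ≤ q ^ 8 := by
    have e : q ^ 8 = q ^ 4 * q ^ 4 := by ring
    have e2 : 2 ≤ q ^ 4 := le_trans hq (Nat.le_self_pow (by norm_num) q)
    rw [e]
    exact Nat.mul_le_mul_right _ e2
  rw [Phi, cyc30]
  simp only [eval_add, eval_sub, eval_pow, eval_X, eval_one]
  have e : ((q : ℤ) ^ 8 + (q : ℤ) ^ 7 - (q : ℤ) ^ 5 - (q : ℤ) ^ 4 - (q : ℤ) ^ 3 + (q : ℤ) + 1) =
      ((q ^ 8 + q ^ 7 - q ^ 5 - q ^ 4 - q ^ 3 + q + 1 : ℕ) : ℤ) := by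
    have e1 : ((q ^ 8 + q ^ 7 - q ^ 5 - q ^ 4 - q ^ 3 : ℕ) : ℤ) = (q : ℤ) ^ 8 + (q : ℤ) ^ 7 - (q : ℤ) ^ 5 - (q : ℤ) ^ 4 - (q : ℤ) ^ 3 := by
      rw [Nat.cast_sub (by omega), Nat.cast_sub (by omega), Nat.cast_sub (by omega)]
      push_cast
      ring
    rw [Nat.cast_add, Nat.cast_add, e1]
    push_cast
    ring
  rw [e, Int.natAbs_natCast]

/-! ### The numerical hypotheses -/

lemma hbF4 : ∀ r : ℕ, r.Prime → 8 ∣ r - 1 → (((4 : ℕ) : ℤ)) ^ chevF4.rank < (r : ℤ) ^ 2 := by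
  intro r hr hd
  have hrk : chevF4.rank = 4 := by decide
  rw [hrk]
  obtain ⟨k, hk⟩ := hd
  have h2 := hr.two_le
  have h3 : r = 8 * k + 1 := by omega
  have h4 : k ≠ 0 := by
    rintro rfl
    omega
  have h5 : k ≠ 1 := by
    rintro rfl
    have : r = 9 := by omega
    rw [this] at hr
    norm_num at hr
  have h6 : 17 ≤ r := by omega
  have h7 : (17 : ℤ) ≤ r := by exact_mod_cast h6
  norm_num
  nlinarith

lemma hbE8 : ∀ r : ℕ, r.Prime → 30 ∣ r - 1 → (((2 : ℕ) : ℤ)) ^ chevE8.rank < (r : ℤ) ^ 2 := by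
  intro r hr hd
  have hrk : chevE8.rank = 8 := by decide
  rw [hrk]
  obtain ⟨k, hk⟩ := hd
  have h2 := hr.two_le
  have h3 : r = 30 * k + 1 := by omega
  have h4 : k ≠ 0 := by
    rintro rfl
    omega
  have h6 : 31 ≤ r := by omega
  have h7 : (31 : ℤ) ≤ r := by exact_mod_cast h6
  norm_num
  nlinarith

lemma primeF4 : ∀ p : ℕ, p.Prime → p ∣ [2, 6, 8, 12].prod → p < 8 + 1 := by
  intro p hp e
  have e1 : [2, 6, 8, 12].prod = 2 ^ 7 * 3 ^ 2 := by norm_num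
  rw [e1] at e
  rcases (hp.dvd_mul).1 e with e2 | e2
  · have := (Nat.prime_dvd_prime_iff_eq hp Nat.prime_two).1 (hp.dvd_of_dvd_pow e2)
    omega
  · have := (Nat.prime_dvd_prime_iff_eq hp Nat.prime_three).1 (hp.dvd_of_dvd_pow e2)
    omega

lemma primeE8 : ∀ p : ℕ, p.Prime → p ∣ [2, 8, 12, 14, 18, 20, 24, 30].prod → p < 30 + 1 := by
  intro p hp e
  have e1 : [2, 8, 12, 14, 18, 20, 24, 30].prod = 2 ^ 14 * 3 ^ 5 * 5 ^ 2 * 7 := by norm_num
  rw [e1] at e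
  rcases (hp.dvd_mul).1 e with e2 | e2
  · rcases (hp.dvd_mul).1 e2 with e3 | e3
    · rcases (hp.dvd_mul).1 e3 with e4 | e4
      · have := (Nat.prime_dvd_prime_iff_eq hp Nat.prime_two).1 (hp.dvd_of_dvd_pow e4)
        omega
      · have := (Nat.prime_dvd_prime_iff_eq hp Nat.prime_three).1 (hp.dvd_of_dvd_pow e4)
        omega
    · have := (Nat.prime_dvd_prime_iff_eq hp Nat.prime_five).1 (hp.dvd_of_dvd_pow e3)
      omega
  · have := (Nat.prime_dvd_prime_iff_eq hp (by norm_num : Nat.Prime 7)).1 e2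
    omega

lemma badF4 (q : ℕ) : ∀ p : ℕ, p.Prime → p ∣ 8 → padicValNat p (Phi 8 q) ≤ 1 := by
  intro p hp e
  have e1 : p ∣ 2 := hp.dvd_of_dvd_pow (show p ∣ 2 ^ 3 by simpa using e)
  have e2 := (Nat.prime_dvd_prime_iff_eq hp Nat.prime_two).1 e1
  subst e2
  haveI : Fact (Nat.Prime 2) := ⟨Nat.prime_two⟩
  rw [Phi8]
  by_contra hc
  have h2 : 2 ≤ padicValNat 2 (q ^ 4 + 1) := by omega
  have h3 := (padicValNat_dvd_iff_le (p := 2) (a := q ^ 4 + 1) (n := 2) (by positivity)).2 h2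
  have h4 : (q ^ 4 + 1) % 4 = 0 := Nat.mod_eq_zero_of_dvd (by simpa using h3)
  have h5 : q % 4 = 0 ∨ q % 4 = 1 ∨ q % 4 = 2 ∨ q % 4 = 3 := by omega
  rw [Nat.add_mod, Nat.pow_mod] at h4
  rcases h5 with h5 | h5 | h5 | h5 <;> rw [h5] at h4 <;> norm_num at h4

lemma badE8 (q : ℕ) : ∀ p : ℕ, p.Prime → p ∣ 30 → padicValNat p (Phi 30 q) ≤ 1 := by
  intro p hp e
  haveI : Fact p.Prime := ⟨hp⟩
  suffices hn : ¬ p ∣ Phi 30 q by
    rw [padicValNat.eq_zero_of_not_dvd hn]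
    omega
  intro hd
  obtain ⟨k, m, hk, hm, hn, hm1, _⟩ := struct_of_dvd hd e (by norm_num)
  have hp30 : p = 2 ∨ p = 3 ∨ p = 5 := by
    have e1 : 30 = 2 * 3 * 5 := by norm_num
    rw [e1] at e
    rcases (hp.dvd_mul).1 e with e2 | e2
    · rcases (hp.dvd_mul).1 e2 with e3 | e3
      · exact Or.inl ((Nat.prime_dvd_prime_iff_eq hp Nat.prime_two).1 e3)
      · exact Or.inr (Or.inl ((Nat.prime_dvd_prime_iff_eq hp Nat.prime_three).1 e3))
    · exact Or.inr (Or.inr ((Nat.prime_dvd_prime_iff_eq hp Nat.prime_five).1 e2))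
  have hk1 : k = 1 := by
    by_contra hne
    have hk2 : 2 ≤ k := by omega
    have h3 : p ^ 2 ∣ 30 := by
      rw [hn]
      exact Dvd.dvd.mul_right (pow_dvd_pow p hk2) m
    rcases hp30 with rfl | rfl | rfl <;> revert h3 <;> decide
  subst hk1
  rw [pow_one] at hn
  rcases hp30 with rfl | rfl | rfl
  · have : m = 15 := by omega
    subst this
    revert hm1
    decide
  · have : m = 10 := by omega
    subst this
    revert hm1
    decide
  · have : m = 6 := by omega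
    subst this
    revert hm1
    decide

universe u

/-- All the torus elements lie in the diagonal subgroup. -/
lemma hHF4 (K : Type u) [Field K] [Fintype K] (y : ℕ → Kˣ) : tor chevF4 y ∈ chevF4.diagonalSubgroup K := by
  have hD : chevF4 ∈ [chevG2, chevB2, chevD4, chevF4, chevE6, chevE7, chevE8] := by simp
  have ax := Cfsg.Agent.Lib.Lie.AxOf.ax_of_mem (F := K) hD
  have h1 := card_diagonal_final (F := K) rfl (chevF4, 1) (by simp) ax
  rw [one_mul] at h1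
  refine tor_mem_of_card (tab_of_mem hD) (tab2_of_mem hD) ax ?_ y
  rw [Nat.card_eq_fintype_card (α := K)]
  exact h1

lemma hHE8 (K : Type u) [Field K] [Fintype K] (y : ℕ → Kˣ) : tor chevE8 y ∈ chevE8.diagonalSubgroup K := by
  have hD : chevE8 ∈ [chevG2, chevB2, chevD4, chevF4, chevE6, chevE7, chevE8] := by simp
  have ax := Cfsg.Agent.Lib.Lie.AxOf.ax_of_mem (F := K) hD
  have h1 := card_diagonal_final (F := K) rfl (chevE8, 1) (by simp) ax
  rw [one_mul] at h1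
  refine tor_mem_of_card (tab_of_mem hD) (tab2_of_mem hD) ax ?_ y
  rw [Nat.card_eq_fintype_card (α := K)]
  exact h1

theorem main_F4 {F : Type u} [Field F] [Fintype F] (q : ℕ) (hF : Fintype.card F = q) :
    ∃ H : Subgroup ↥(chevF4.group F), IsCyclic ↥H ∧ Nat.card ↥H = q ^ 4 + 1 ∧
      Subgroup.centralizer (H : Set ↥(chevF4.group F)) = H := by
  have := regular_torus hF (D := chevF4) (ds := [2, 6, 8, 12]) (by simp [typeList]) (d := 8) (by norm_num) (by norm_num) (by simp)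
    (by decide) (hHF4 F) (fun K _ _ => hHF4 K) GF4 psdF4 detF4 4 normF4 hbF4 primeF4 (by decide) (badF4 q)
  rwa [Phi8] at this

theorem main_E8 {F : Type u} [Field F] [Fintype F] (q : ℕ) (hF : Fintype.card F = q) :
    ∃ H : Subgroup ↥(chevE8.group F), IsCyclic ↥H ∧ Nat.card ↥H = q ^ 8 + q ^ 7 - q ^ 5 - q ^ 4 - q ^ 3 + q + 1 ∧
      Subgroup.centralizer (H : Set ↥(chevE8.group F)) = H := by
  have hq2 : 2 ≤ q := by
    rw [← hF]
    exact Fintype.one_lt_card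
  have := regular_torus hF (D := chevE8) (ds := [2, 8, 12, 14, 18, 20, 24, 30]) (by simp [typeList]) (d := 30) (by norm_num) (by norm_num) (by simp)
    (by decide) (hHE8 F) (fun K _ _ => hHE8 K) GE8 psdE8 detE8 2 normE8 hbE8 primeE8 (by decide) (badE8 q)
  rwa [Phi30 hq2] at this

end Cfsg.Agent.Lib.KS71.HCq
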