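/-
An element of the Weyl group of type `E₆` with an eigenvalue of order twelve modulo a prime: its characteristic
polynomial, regularity of the eigenvector, a cyclic root.
-/
import Mathlib
import Cfsg.Agent.Lib.KS71.E6j
import Cfsg.Agent.Lib.KS71.HCq

set_option autoImplicit false
set_option linter.unusedSectionVars false
set_option linter.unusedVariables false

namespace Cfsg.Agent.Lib.KS71.E6k

open scoped MatrixGroups Matrix
open Polynomial Module
open Cfsg Cfsg.Lie Cfsg.Lie.ChevalleyDatum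
open Cfsg.Agent.Lib.Chev.Tables Cfsg.Agent.Lib.Chev.Diag Cfsg.Agent.Lib.Chev.Order1
open Cfsg.Agent.Lib.KS71.HCb Cfsg.Agent.Lib.KS71.HCc Cfsg.Agent.Lib.KS71.HCh Cfsg.Agent.Lib.KS71.HCi
open Cfsg.Agent.Lib.KS71.HCm Cfsg.Agent.Lib.KS71.HCn Cfsg.Agent.Lib.KS71.HCj Cfsg.Agent.Lib.KS71.HCq
open Cfsg.Agent.Lib.KS71.E6j

/-! ### The form -/

abbrev GE6 : Matrix (Fin chevE6.rank) (Fin chevE6.rank) ℤ := cartanM chevE6

set_option maxRecDepth 100000 in
lemma symE6 : GE6ᵀ = GE6 := by decide +kernel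

set_option maxRecDepth 100000 in
lemma siE6 : ∀ i, (Si chevE6 i)ᵀ * cartanM chevE6 * Si chevE6 i = cartanM chevE6 := by
  decide +kernel

set_option maxRecDepth 100000 in
lemma diagE6 : ∀ i, GE6 i i = 2 := by decide +kernel

set_option maxRecDepth 100000 in
set_option maxHeartbeats 0 in
lemma detE6 : GE6.det = 3 := by decide +kernel

set_option maxRecDepth 100000 in
set_option maxHeartbeats 0 in
lemma normE6 : ∀ s, s < chevE6.nroots → B GE6 (crd chevE6 s) (crd chevE6 s) = 2 := by decide +kernel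

set_option maxRecDepth 100000 in
lemma certE6 : ((60 : ℕ) : ℤ) • GE6 = (matOf 6 [[2, 0, -1, 0, 0, 0], [0, 2, 0, -1, 0, 0], [0, 0, 3, -2, 0, 0], [0, 0, 0, 5, -6, 0], [0, 0, 0, 0, 4, -5], [0, 0, 0, 0, 0, 1]])ᵀ *
    Matrix.diagonal (fun i => (([30, 30, 10, 2, 3, 45].getD i.val 0 : ℕ) : ℤ)) *
    matOf 6 [[2, 0, -1, 0, 0, 0], [0, 2, 0, -1, 0, 0], [0, 0, 3, -2, 0, 0], [0, 0, 0, 5, -6, 0], [0, 0, 0, 0, 4, -5], [0, 0, 0, 0, 0, 1]] := by
  decide +kernel

set_option maxRecDepth 100000 in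
lemma invE6 : (matOf 6 [[30, 0, 10, 4, 6, 30], [0, 30, 0, 6, 9, 45], [0, 0, 20, 8, 12, 60], [0, 0, 0, 12, 18, 90], [0, 0, 0, 0, 15, 75], [0, 0, 0, 0, 0, 60]]) *
    matOf 6 [[2, 0, -1, 0, 0, 0], [0, 2, 0, -1, 0, 0], [0, 0, 3, -2, 0, 0], [0, 0, 0, 5, -6, 0], [0, 0, 0, 0, 4, -5], [0, 0, 0, 0, 0, 1]] = (60 : ℤ) • (1 : Matrix (Fin 6) (Fin 6) ℤ) := by
  decide +kernel

lemma formE6 : (∀ x : Fin chevE6.rank → ℤ, 0 ≤ B GE6 x x) ∧ (∀ x : Fin chevE6.rank → ℤ, B GE6 x x = 0 → x = 0) :=
  form_of_cert (n := chevE6.rank) (G := GE6) 60 (by norm_num) (fun i => [30, 30, 10, 2, 3, 45].getD i.val 0)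
    (by decide +kernel) certE6 60 (by norm_num) invE6

lemma evE6 (x : Fin chevE6.rank → ℤ) : Even (B GE6 x x) :=
  B_even symE6 (fun i => by rw [diagE6 i]; decide) x

set_option maxRecDepth 100000 in
lemma zzE6 : B GE6 zE6 zE6 = 12 := by decide +kernel

lemma z3E6 (x : Fin chevE6.rank → ℤ) : (3 : ℤ) ∣ B GE6 zE6 x := by
  rw [B_symm symE6, B, dotProduct]
  refine Finset.dvd_sum fun i _ => Dvd.dvd.mul_left ?_ _
  have e := zE6_rad i
  have e1 : GE6 *ᵥ zE6 = fun i : Fin chevE6.rank => ∑ m, zE6 m * chevE6.cartan i (chevE6.simple m) := by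
    funext j
    simp only [Matrix.mulVec, dotProduct]
    exact Finset.sum_congr rfl fun m _ => mul_comm _ _
  rw [e1]
  exact_mod_cast e

/-- The vector of weights for the height. -/
def rhoE6 : Fin chevE6.rank → ℤ := fun i => [16, 22, 30, 42, 30, 16].getD i.val 0

set_option maxRecDepth 100000 in
lemma rhoE6_spec : ∀ i, (cartanM chevE6).mulVec rhoE6 i = 2 := by decide +kernel

/-! ### Totients -/

lemma totient_two {e : ℕ} (h : e.totient = 2) : e = 3 ∨ e = 4 ∨ e = 6 := by
  by_contra hn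
  push Not at hn
  obtain ⟨h3, h4, h6⟩ := hn
  by_cases hle : e ≤ 6
  · interval_cases e <;> first | omega | (revert h; decide)
  have h7 : 7 ≤ e := by omega
  have key : ∃ k, k < e ∧ 1 < k ∧ k ≠ e - 1 ∧ Nat.Coprime e k := by
    rcases Nat.even_or_odd e with he | he
    · obtain ⟨m, hm⟩ := he
      have hm' : e = 2 * m := by omega
      rcases Nat.even_or_odd m with hm2 | hm2
      · refine ⟨m - 1, by omega, ?_, by omega, ?_⟩
        · obtain ⟨c, hc⟩ := hm2
          omega
        · rw [hm', Nat.coprime_mul_iff_left]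
          constructor
          · obtain ⟨c, hc⟩ := hm2
            rw [Nat.coprime_two_left]
            exact ⟨c - 1, by omega⟩
          · have : m - 1 + 1 = m := by
              obtain ⟨c, hc⟩ := hm2
              omega
            have e1 := Nat.coprime_self_add_right (m := m - 1) (n := 1) |>.2 (Nat.coprime_one_right _)
            rw [this] at e1
            exact e1.symm
      · have hm5 : 5 ≤ m := by
          obtain ⟨c, hc⟩ := hm2
          omega
        refine ⟨m + 2, by omega, by omega, by omega, ?_⟩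
        rw [hm', Nat.coprime_mul_iff_left]
        constructor
        · rw [Nat.coprime_two_left]
          exact hm2.add_even (by decide)
        · have e1 : Nat.Coprime m 2 := by
            rw [Nat.coprime_two_right]
            exact hm2
          exact (Nat.coprime_self_add_right).2 e1
    · refine ⟨2, by omega, by norm_num, by omega, ?_⟩
      rw [Nat.coprime_two_right]
      exact he
  obtain ⟨k, hk1, hk2, hk3, hk4⟩ := key
  have hsub : ({1, e - 1, k} : Finset ℕ) ⊆ (Finset.range e).filter e.Coprime := by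
    intro x hx
    simp only [Finset.mem_insert, Finset.mem_singleton] at hx
    rw [Finset.mem_filter, Finset.mem_range]
    rcases hx with rfl | rfl | rfl
    · exact ⟨by omega, Nat.coprime_one_right _⟩
    · refine ⟨by omega, ?_⟩
      have e1 := (Nat.coprime_self_sub_right (m := 1) (by omega)).2 (Nat.coprime_one_right e)
      exact e1
    · exact ⟨hk1, hk4⟩
  have hcard : ({1, e - 1, k} : Finset ℕ).card = 3 := by
    rw [Finset.card_insert_of_notMem, Finset.card_insert_of_notMem, Finset.card_singleton]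
    · simpa using hk3.symm
    · simp only [Finset.mem_insert, Finset.mem_singleton]
      push Not
      exact ⟨by omega, by omega⟩
  have h3' := Finset.card_le_card hsub
  rw [hcard, ← Nat.totient_eq_card_coprime, h] at h3'
  omega

/-! ### The cyclotomic factors -/

lemma cyc12 : cyclotomic 12 ℤ = X ^ 4 - X ^ 2 + 1 := by
  have h := prod_cyclotomic_eq_X_pow_sub_one (by norm_num : 0 < 12) ℤ
  have e : Nat.divisors 12 = {1, 2, 3, 4, 6, 12} := by decide
  rw [e, Finset.prod_insert (by decide), Finset.prod_insert (by decide), Finset.prod_insert (by decide),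
    Finset.prod_insert (by decide), Finset.prod_insert (by decide), Finset.prod_singleton, cyclotomic_one, cyclotomic_two,
    cyclotomic_three, cyc4, cyc6] at h
  have hne : ((X - 1 : ℤ[X]) * ((X + 1) * ((X ^ 2 + X + 1) * ((X ^ 2 + 1) * (X ^ 2 - X + 1))))) ≠ 0 :=
    mul_ne_zero HCq.n1 (mul_ne_zero HCq.n2 (mul_ne_zero ((cyclotomic_three ℤ) ▸ cyclotomic_ne_zero 3 ℤ)
      (mul_ne_zero ((cyc4) ▸ cyclotomic_ne_zero 4 ℤ) ((cyc6) ▸ cyclotomic_ne_zero 6 ℤ))))
  apply mul_left_cancel₀ hne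
  simp only [mul_assoc] at h ⊢
  rw [h]
  ring

lemma E_struct {E : Multiset ℕ} (hs : (E.map Nat.totient).sum = 6) (h1 : 1 ≤ E.count 12) (hpos : ∀ e ∈ E, 0 < e) :
    E = 12 ::ₘ {3} ∨ E = 12 ::ₘ {4} ∨ E = 12 ::ₘ {6} ∨ E = 12 ::ₘ 1 ::ₘ {1} ∨ E = 12 ::ₘ 1 ::ₘ {2} ∨ E = 12 ::ₘ 2 ::ₘ {2} := by
  have ht12 : Nat.totient 12 = 4 := by decide
  have e1 := sum_totient_split E 12
  rw [hs, ht12] at e1
  have e2 : E.count 12 = 1 := by omega
  have e3 := filter_split E 12
  rw [e2] at e3
  set E' := E.filter (· ≠ 12) with hE'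
  have hpos' : ∀ e ∈ E', 0 < e := fun e he => hpos e (Multiset.mem_of_mem_filter he)
  have e4 : (E'.map Nat.totient).sum = 2 := by omega
  have e5 : E = 12 ::ₘ E' := by
    rw [e3]
    simp [Multiset.replicate_succ]
  clear_value E'
  rw [e5]
  induction E' using Multiset.induction with
  | empty => simp at e4
  | cons a s ih =>
    rw [Multiset.map_cons, Multiset.sum_cons] at e4
    have ha : 0 < a.totient := Nat.totient_pos.2 (hpos' a (Multiset.mem_cons_self _ _))
    have hs' := card_le_sum_totient (E := s) (fun e he => hpos' e (Multiset.mem_cons_of_mem he))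
    have hs0 : (s.map Nat.totient).sum = 0 ∨ (s.map Nat.totient).sum = 1 := by omega
    rcases hs0 with e6 | e6
    · have e7 : s = 0 := Multiset.card_eq_zero.1 (by omega)
      subst e7
      have e8 : a.totient = 2 := by simpa using e4
      have e9 : a ::ₘ (0 : Multiset ℕ) = {a} := rfl
      rw [e9]
      rcases totient_two e8 with rfl | rfl | rfl <;> simp
    · have e7 : Multiset.card s = 1 ∨ Multiset.card s = 0 := by omega
      rcases e7 with e7 | e7
      · obtain ⟨b, rfl⟩ := Multiset.card_eq_one.1 e7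
        have e8 : a.totient = 1 := by omega
        have e9 : b.totient = 1 := by simpa using e6
        rcases Nat.totient_eq_one_iff.1 e8 with rfl | rfl <;> rcases Nat.totient_eq_one_iff.1 e9 with rfl | rfl
        · simp
        · simp
        · right; right; right; right; left
          congr 1
          exact Multiset.pair_comm 2 1
        · simp
      · have e10 : s = 0 := Multiset.card_eq_zero.1 e7
        subst e10
        simp at e6

variable {r : ℕ} [hr : Fact r.Prime]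

variable (h : Tab chevE6) {l : List ℕ} (hl : ∀ i ∈ l, i < chevE6.rank)

include h hl in
lemma three_dvd : (3 : ℤ) ∣ ((Aw chevE6 l).charpoly).eval 1 := by
  classical
  haveI : Fact (Nat.Prime 3) := ⟨Nat.prime_three⟩
  set A := Aw chevE6 l with hA
  rw [Matrix.eval_charpoly]
  have e0 : Matrix.scalar (Fin chevE6.rank) (1 : ℤ) = 1 := by simp
  rw [e0]
  have e1 : ((1 - A).det : ZMod 3) = (mmp 3 (1 - A)).det := RingHom.map_det (Int.castRingHom (ZMod 3)) (1 - A)
  have e2 : (mmp 3 (1 - A)) *ᵥ cv 3 zE6 = 0 := by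
    rw [← cv_mulVec, cv_eq_zero_iff]
    intro j
    have e3 := Aw_modEq h 3 zE6 (fun i => by exact_mod_cast zE6_rad i) hl j
    rw [Matrix.sub_mulVec, Matrix.one_mulVec, Pi.sub_apply]
    have e4 : zE6 j - (A *ᵥ zE6) j = -((A *ᵥ zE6) j - zE6 j) := by ring
    rw [e4]
    exact (dvd_neg.2 e3)
  have e3 : cv 3 zE6 ≠ 0 := by
    intro e
    have e5 : ((zE6 ⟨0, by decide⟩ : ℤ) : ZMod 3) = 0 := congrFun e _
    have e6 : zE6 ⟨0, by decide⟩ = 1 := by decide
    rw [e6, Int.cast_one] at e5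
    exact one_ne_zero e5
  have e4 : (mmp 3 (1 - A)).det = 0 := Matrix.exists_mulVec_eq_zero_iff.1 ⟨_, e3, e2⟩
  have e5 := (ZMod.intCast_zmod_eq_zero_iff_dvd (1 - A).det 3).1 (e1.trans e4)
  exact_mod_cast e5

include h in
/-- The images of the fundamental roots determine a matrix. -/
lemma mat_ext_simple {M N : Matrix (Fin chevE6.rank) (Fin chevE6.rank) ℤ}
    (e : ∀ k : Fin chevE6.rank, M *ᵥ crd chevE6 (chevE6.simple k) = N *ᵥ crd chevE6 (chevE6.simple k)) : M = N := by
  ext i k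
  have e1 := congrFun (e k) i
  rw [crd_simple h, Matrix.mulVec_single_one, Matrix.mulVec_single_one] at e1
  exact e1

include h in
lemma norm_simple (k : Fin chevE6.rank) : B GE6 (crd chevE6 (chevE6.simple k)) (crd chevE6 (chevE6.simple k)) = 2 :=
  normE6 _ (h.simple_lt k k.isLt)

include h in
lemma B_simple_simple (i j : Fin chevE6.rank) :
    B GE6 (crd chevE6 (chevE6.simple i)) (crd chevE6 (chevE6.simple j)) = GE6 i j := by
  rw [crd_simple h, crd_simple h, B, Matrix.mulVec_single_one]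
  simp

include h in
/-- The case where the eigenvalue one occurs is impossible. -/
theorem no_case_two {A : Matrix (Fin chevE6.rank) (Fin chevE6.rank) ℤ} (hiso : Aᵀ * GE6 * A = GE6)
    (hP' : A ^ 6 - 2 • A ^ 4 + 2 • A ^ 2 - 1 = 0) (h1 : A ^ 2 ≠ 1) (h2 : A ^ 4 - A ^ 2 + 1 ≠ 0) : False := by
  classical
  set p : Fin chevE6.rank → (Fin chevE6.rank → ℤ) := fun k => crd chevE6 (chevE6.simple k) with hp
  have hn : ∀ k, B GE6 (p k) (p k) = 2 := norm_simple h
  have hd : ∀ k, av A (p k) 2 = p k ∨ av A (p k) 4 - av A (p k) 2 + av A (p k) 0 = 0 := fun k =>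
    dichotomy symE6 hiso formE6.1 formE6.2 (hn k) hP'
  have hadj : ∀ i j, GE6 i j ≠ 0 → (av A (p i) 2 = p i → av A (p j) 2 = p j) ∧
      (av A (p i) 4 - av A (p i) 2 + av A (p i) 0 = 0 → av A (p j) 4 - av A (p j) 2 + av A (p j) 0 = 0) := by
    intro i j hij
    constructor
    · intro hS
      refine (hd j).resolve_right fun hT => hij ?_
      rw [← B_simple_simple h]
      exact orth_dichotomy symE6 hiso hS hT
    · intro hT
      refine (hd j).resolve_left fun hS => hij ?_
      rw [← B_simple_simple h, B_symm symE6]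
      exact orth_dichotomy symE6 hiso hS hT
  have n13 : GE6 ⟨3, by decide⟩ ⟨1, by decide⟩ ≠ 0 := by decide +kernel
  have n23 : GE6 ⟨3, by decide⟩ ⟨2, by decide⟩ ≠ 0 := by decide +kernel
  have n34 : GE6 ⟨3, by decide⟩ ⟨4, by decide⟩ ≠ 0 := by decide +kernel
  have n20 : GE6 ⟨2, by decide⟩ ⟨0, by decide⟩ ≠ 0 := by decide +kernel
  have n45 : GE6 ⟨4, by decide⟩ ⟨5, by decide⟩ ≠ 0 := by decide +kernel
  have hall : ∀ (Q : Fin chevE6.rank → Prop), (∀ i j, GE6 i j ≠ 0 → Q i → Q j) → Q ⟨3, by decide⟩ → ∀ k, Q k := by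
    intro Q hQ h3 k
    have q1 := hQ _ _ n13 h3
    have q2 := hQ _ _ n23 h3
    have q4 := hQ _ _ n34 h3
    have q0 := hQ _ _ n20 q2
    have q5 := hQ _ _ n45 q4
    obtain ⟨k, hk⟩ := k
    have hk' : k < 6 := hk
    interval_cases k
    · exact q0
    · exact q1
    · exact q2
    · exact h3
    · exact q4
    · exact q5
  rcases hd ⟨3, by decide⟩ with h3 | h3
  · apply h1
    apply mat_ext_simple h
    intro k
    have := hall (fun k => av A (p k) 2 = p k) (fun i j hij => (hadj i j hij).1) h3 k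
    rw [Matrix.one_mulVec]
    exact this
  · apply h2
    apply mat_ext_simple h
    intro k
    have := hall (fun k => av A (p k) 4 - av A (p k) 2 + av A (p k) 0 = 0) (fun i j hij => (hadj i j hij).2) h3 k
    rw [Matrix.zero_mulVec, Matrix.add_mulVec, Matrix.sub_mulVec, Matrix.one_mulVec]
    simpa [av] using this

/-- The first consequences of the existence of the eigenvector. -/
theorem charpoly_E6 (h : Tab chevE6) (hW : (Wc h).card = 51840) {l : List ℕ} (hl : ∀ i ∈ l, i < chevE6.rank) {q : ℕ}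
    (hord : orderOf (q : ZMod r) = 12) {c : Fin chevE6.rank → ℤ} (hcne : ∃ j, ¬ (r : ℤ) ∣ c j)
    (hV : (fun j => (c j : ZMod r)) ∈ Module.End.eigenspace (Matrix.toLin' ((Aw chevE6 l)ᵀ.map (Int.castRingHom (ZMod r)))) (q : ZMod r)) :
    ∃ E : Multiset ℕ, (∀ e ∈ E, 0 < e ∧ e ∣ (Wc h).card) ∧ (Aw chevE6 l).charpoly = (E.map fun e => cyclotomic e ℤ).prod ∧
      E = 12 ::ₘ {3} := by
  classical
  obtain ⟨hd12, hr13, -⟩ := Cfsg.Agent.Lib.KS71.HCp.lt_of_order (by norm_num : 0 < 12) hord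
  have hrW : ¬ r ∣ (Wc h).card := by
    rw [hW]
    have e : (51840 : ℕ) = 2 ^ 7 * (3 ^ 4 * 5) := by norm_num
    rw [e]
    intro hd
    have hp := hr.out
    rcases (Nat.Prime.dvd_mul hp).1 hd with h1 | h1
    · have := hp.dvd_of_dvd_pow h1
      have := Nat.le_of_dvd (by norm_num) this
      omega
    · rcases (Nat.Prime.dvd_mul hp).1 h1 with h2 | h2
      · have := hp.dvd_of_dvd_pow h2
        have := Nat.le_of_dvd (by norm_num) this
        omega
      · have := Nat.le_of_dvd (by norm_num) h2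
        omega
  have hpos : 0 < (Wc h).card := by rw [hW]; norm_num
  obtain ⟨E, hE, hc, hc', hs⟩ := exists_E h hl hpos
  refine ⟨E, hE, hc, ?_⟩
  set A := Aw chevE6 l with hA
  set V := Module.End.eigenspace (Matrix.toLin' ((Aw chevE6 l)ᵀ.map (Int.castRingHom (ZMod r)))) (q : ZMod r) with hVdef
  have hne : (⟨_, hV⟩ : V) ≠ 0 := by
    intro e
    obtain ⟨j, hj⟩ := hcne
    have e1 := congrFun (congrArg Subtype.val e) j
    exact hj ((ZMod.intCast_zmod_eq_zero_iff_dvd _ r).1 e1)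
  haveI : Nontrivial V := ⟨⟨_, 0, hne⟩⟩
  have h1 : 0 < finrank (ZMod r) V := Module.finrank_pos
  have h2 := eig_le (Aw chevE6 l)ᵀ hE hc' hrW (q : ZMod r) _ hord
  have hcount : 1 ≤ E.count 12 := le_trans h1 h2
  have hs6 : (E.map Nat.totient).sum = 6 := hs
  have hA12 : A ^ (Wc h).card = 1 := Aw_pow_card h hl
  have hrad := aeval_radical A hpos hA12 hE hc
  have h3 := three_dvd h hl
  rw [← hA, hc] at h3
  have hiso : Aᵀ * GE6 * A = GE6 := Aw_iso h siE6 hl
  have hno2 : A ^ 2 ≠ 1 := by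
    intro e2
    have hcA : (fun j => (c j : ZMod r)) ᵥ* mmp r A = (q : ZMod r) • (fun j => (c j : ZMod r)) := by
      have e3 := Module.End.mem_eigenspace_iff.1 hV
      rw [Matrix.toLin'_apply, Matrix.transpose_map, Matrix.mulVec_transpose] at e3
      exact e3
    have e4 : (fun j => (c j : ZMod r)) ᵥ* (mmp r A) ^ 2 = (q : ZMod r) ^ 2 • (fun j => (c j : ZMod r)) := by
      rw [pow_two, ← Matrix.vecMul_vecMul, hcA, Matrix.smul_vecMul, hcA, smul_smul, pow_two]
    have e5 : (mmp r A) ^ 2 = 1 := by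
      rw [mmp, ← Matrix.map_pow, e2]
      simp
    rw [e5, Matrix.vecMul_one] at e4
    obtain ⟨j, hj⟩ := hcne
    have e6 := congrFun e4 j
    simp only [Pi.smul_apply, smul_eq_mul] at e6
    have hcj : (c j : ZMod r) ≠ 0 := fun e7 => hj ((ZMod.intCast_zmod_eq_zero_iff_dvd _ r).1 e7)
    have e7 : (q : ZMod r) ^ 2 = 1 := by
      apply mul_right_cancel₀ hcj
      rw [one_mul]
      exact e6.symm
    have e8 := orderOf_dvd_of_pow_eq_one e7
    rw [hord] at e8
    omega
  have hnoT : (1 - A).det = 0 → A ^ 4 - A ^ 2 + 1 ≠ 0 := by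
    intro hd e2
    obtain ⟨x, hx0, hx⟩ := Matrix.exists_mulVec_eq_zero_iff.2 hd
    have e3 : A *ᵥ x = x := by
      rw [Matrix.sub_mulVec, Matrix.one_mulVec] at hx
      exact (sub_eq_zero.1 hx).symm
    have e4 : ∀ k : ℕ, A ^ k *ᵥ x = x := by
      intro k
      induction k with
      | zero => simp
      | succ k ih => rw [pow_succ, ← Matrix.mulVec_mulVec, e3, ih]
    apply hx0
    have e5 := congrArg (fun M => M *ᵥ x) e2
    simp only [Matrix.add_mulVec, Matrix.sub_mulVec, Matrix.one_mulVec, e4, Matrix.zero_mulVec] at e5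
    simpa using e5
  have hone : ∀ (f : ℤ[X]), (A.charpoly).eval 1 = f.eval 1 → f.eval 1 = 0 → (1 - A).det = 0 := by
    intro f e1 e2
    have e3 := Matrix.eval_charpoly A (1 : ℤ)
    have e0 : Matrix.scalar (Fin chevE6.rank) (1 : ℤ) = 1 := by simp
    rw [e0] at e3
    rw [← e3, e1, e2]
  rcases E_struct hs6 hcount (fun e he => (hE e he).1) with e | e | e | e | e | e
  · exact e
  · exfalso
    subst e
    simp [cyc12, cyc4] at h3
  · exfalso
    subst e
    simp [cyc12, cyc6] at h3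
  · exfalso
    subst e
    have e7 : (12 ::ₘ 1 ::ₘ ({1} : Multiset ℕ)).toFinset = {12, 1} := by decide
    rw [e7, Finset.prod_pair (by decide), cyc12, cyclotomic_one] at hrad
    simp only [map_mul, map_add, map_sub, map_pow, aeval_X, map_one] at hrad
    have hP' : A ^ 6 - 2 • A ^ 4 + 2 • A ^ 2 - 1 = 0 := by
      have e8 : A ^ 6 - 2 • A ^ 4 + 2 • A ^ 2 - 1 = ((A ^ 4 - A ^ 2 + 1) * (A - 1)) * (A + 1) := by
        noncomm_ring
      rw [e8, hrad, zero_mul]
    refine no_case_two h hiso hP' hno2 (hnoT (hone _ (by rw [hc]) ?_))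
    simp [cyclotomic_one]
  · exfalso
    subst e
    have e7 : (12 ::ₘ 1 ::ₘ ({2} : Multiset ℕ)).toFinset = {12, 1, 2} := by decide
    rw [e7, Finset.prod_insert (by decide), Finset.prod_pair (by decide), cyc12, cyclotomic_one, cyclotomic_two] at hrad
    simp only [map_mul, map_add, map_sub, map_pow, aeval_X, map_one] at hrad
    have hP' : A ^ 6 - 2 • A ^ 4 + 2 • A ^ 2 - 1 = 0 := by
      have e8 : A ^ 6 - 2 • A ^ 4 + 2 • A ^ 2 - 1 = (A ^ 4 - A ^ 2 + 1) * ((A - 1) * (A + 1)) := by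
        noncomm_ring
      rw [e8, hrad]
    refine no_case_two h hiso hP' hno2 (hnoT (hone _ (by rw [hc]) ?_))
    simp [cyclotomic_one]
  · exfalso
    subst e
    simp [cyc12, cyclotomic_two] at h3

instance fact3' : Fact (Nat.Prime 3) := ⟨Nat.prime_three⟩

lemma ord2 : orderOf (2 : ZMod 7) = 3 := orderOf_eq_prime (by decide) (by decide)
lemma ord4 : orderOf (4 : ZMod 7) = 3 := orderOf_eq_prime (by decide) (by decide)

/-- The package of facts on the matrix of the Weyl element. -/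
theorem lattice_E6 (h : Tab chevE6) (hW : (Wc h).card = 51840) {l : List ℕ} (hl : ∀ i ∈ l, i < chevE6.rank) {q : ℕ}
    (hord : orderOf (q : ZMod r) = 12) {c : Fin chevE6.rank → ℤ} (hcne : ∃ j, ¬ (r : ℤ) ∣ c j)
    (hV : (fun j => (c j : ZMod r)) ∈ Module.End.eigenspace (Matrix.toLin' ((Aw chevE6 l)ᵀ.map (Int.castRingHom (ZMod r)))) (q : ZMod r)) :
    (Aw chevE6 l).charpoly = (X ^ 4 - X ^ 2 + 1) * (X ^ 2 + X + 1) ∧
    (Aw chevE6 l) ^ 12 = 1 ∧
    (∀ s, s < chevE6.nroots → ¬ (r : ℤ) ∣ c ⬝ᵥ crd chevE6 s) ∧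
    ∃ k : Fin chevE6.rank, (Mb (Aw chevE6 l) (crd chevE6 (chevE6.simple k))).det ^ 2 = 1 := by
  classical
  obtain ⟨hd12, hr13, -⟩ := Cfsg.Agent.Lib.KS71.HCp.lt_of_order (by norm_num : 0 < 12) hord
  have hrW : ¬ r ∣ (Wc h).card := by
    rw [hW]
    have e : (51840 : ℕ) = 2 ^ 7 * (3 ^ 4 * 5) := by norm_num
    rw [e]
    intro hd
    have hp := hr.out
    rcases (Nat.Prime.dvd_mul hp).1 hd with h1 | h1
    · have := hp.dvd_of_dvd_pow h1
      have := Nat.le_of_dvd (by norm_num) this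
      omega
    · rcases (Nat.Prime.dvd_mul hp).1 h1 with h2 | h2
      · have := hp.dvd_of_dvd_pow h2
        have := Nat.le_of_dvd (by norm_num) this
        omega
      · have := Nat.le_of_dvd (by norm_num) h2
        omega
  have h7W : ¬ 7 ∣ (Wc h).card := by
    rw [hW]
    norm_num
  obtain ⟨E, hE, hc, hEe⟩ := charpoly_E6 h hW hl hord hcne hV
  subst hEe
  have hpos : 0 < (Wc h).card := by rw [hW]; norm_num
  set A := Aw chevE6 l with hA
  have hcp : A.charpoly = (X ^ 4 - X ^ 2 + 1) * (X ^ 2 + X + 1) := by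
    rw [hc]
    simp [cyc12, cyclotomic_three]
  have hA12c : A ^ (Wc h).card = 1 := Aw_pow_card h hl
  have hrad := aeval_radical A hpos hA12c hE hc
  have e7 : (12 ::ₘ ({3} : Multiset ℕ)).toFinset = {12, 3} := by decide
  rw [e7, Finset.prod_pair (by decide), cyc12, cyclotomic_three] at hrad
  simp only [map_mul, map_add, map_sub, map_pow, aeval_X, map_one] at hrad
  have hP : A ^ 6 + A ^ 5 - A ^ 3 + A + 1 = 0 := by
    have e8 : A ^ 6 + A ^ 5 - A ^ 3 + A + 1 = (A ^ 4 - A ^ 2 + 1) * (A ^ 2 + A + 1) := by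
      noncomm_ring
    rw [e8, hrad]
  have hA12 : A ^ 12 = 1 := by
    have e8 : A ^ 12 - 1 = (A ^ 6 - A ^ 5 + A ^ 4 - A ^ 2 + A - 1) * (A ^ 6 + A ^ 5 - A ^ 3 + A + 1) := by
      noncomm_ring
    rw [hP, mul_zero] at e8
    exact sub_eq_zero.1 e8
  have hiso : Aᵀ * GE6 * A = GE6 := Aw_iso h siE6 hl
  have hV2 : finrank (ZMod 7) (Module.End.eigenspace (Matrix.toLin' (mmp 7 A)) 2) ≤ 1 := by
    have := eig_le A hE hc h7W (2 : ZMod 7) 3 ord2
    have e : (12 ::ₘ ({3} : Multiset ℕ)).count 3 = 1 := by decide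
    rw [e] at this
    exact this
  have hV4 : finrank (ZMod 7) (Module.End.eigenspace (Matrix.toLin' (mmp 7 A)) 4) ≤ 1 := by
    have := eig_le A hE hc h7W (4 : ZMod 7) 3 ord4
    have e : (12 ::ₘ ({3} : Multiset ℕ)).count 3 = 1 := by decide
    rw [e] at this
    exact this
  have hVr : finrank (ZMod r) (Module.End.eigenspace (Matrix.toLin' (mmp r A)) (q : ZMod r)) ≤ 1 := by
    have := eig_le A hE hc hrW (q : ZMod r) 12 hord
    have e : (12 ::ₘ ({3} : Multiset ℕ)).count 12 = 1 := by decide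
    rw [e] at this
    exact this
  have hzA : ∃ w : Fin chevE6.rank → ℤ, A *ᵥ zE6 = zE6 + (3 : ℤ) • w := by
    have e1 : ∀ j, (3 : ℤ) ∣ (A *ᵥ zE6) j - zE6 j := Aw_modEq h 3 zE6 (fun i => by exact_mod_cast zE6_rad i) hl
    choose w hw using e1
    refine ⟨w, ?_⟩
    funext j
    simp only [Pi.add_apply, Pi.smul_apply, smul_eq_mul]
    linarith [hw j]
  have hnoP3 : ∀ α : Fin chevE6.rank → ℤ, B GE6 α α = 2 → ¬ (av A α 2 + av A α 1 + av A α 0 = 0) := by
    intro α hα e
    refine no_root_P3 hα symE6 hiso evE6 hP z3E6 hzA zzE6 hV2 hV4 ?_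
    rw [P3m_mulVec]
    exact e
  have hcb : (cv r c) ≠ 0 := by
    intro e
    obtain ⟨j, hj⟩ := hcne
    exact hj ((cv_eq_zero_iff c).1 e j)
  have hcA : cv r c ᵥ* mmp r A = (q : ZMod r) • cv r c := by
    have e3 := Module.End.mem_eigenspace_iff.1 hV
    rw [Matrix.toLin'_apply, Matrix.transpose_map, Matrix.mulVec_transpose] at e3
    exact e3
  refine ⟨hcp, hA12, ?_, ?_⟩
  · intro s hs hd
    have hα := normE6 s hs
    apply not_perp symE6 hiso formE6.1 formE6.2 hα hP hA12 (hnoP3 _ hα) hr13 hord hcb hcA hVr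
    have e1 := (ZMod.intCast_zmod_eq_zero_iff_dvd _ r).2 hd
    rw [← e1]
    simp [dotProduct, cv]
  · by_contra hno
    push Not at hno
    have hall : ∀ k : Fin chevE6.rank, tt GE6 A (crd chevE6 (chevE6.simple k)) 2 ≠ 0 := by
      intro k e
      exact hno k (det_sq_of_t2 symE6 hiso formE6.1 formE6.2 (norm_simple h k) hP hA12 detE6 e)
    have hP12 : A ^ 4 - A ^ 2 + 1 = 0 := by
      apply mat_ext_simple h
      intro k
      rcases t_class symE6 hiso formE6.1 formE6.2 (norm_simple h k) hP with ⟨e, -, -⟩ | ⟨e, -⟩ | e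
      · exact absurd e (hnoP3 _ (norm_simple h k))
      · rw [Matrix.zero_mulVec, Matrix.add_mulVec, Matrix.sub_mulVec, Matrix.one_mulVec]
        simpa [av] using e
      · exact absurd e (hall k)
    -- an eigenvector modulo seven
    have e0 : Matrix.scalar (Fin chevE6.rank) (2 : ℤ) = (2 : ℤ) • 1 := by
      rw [Matrix.scalar_apply, Matrix.smul_one_eq_diagonal]
    have e1 := Matrix.eval_charpoly A (2 : ℤ)
    rw [e0, hcp] at e1
    have e2 : (((2 : ℤ) • (1 : Matrix (Fin chevE6.rank) (Fin chevE6.rank) ℤ) - A).det : ZMod 7) = 0 := by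
      rw [← e1]
      simp
      norm_num
      decide
    have e3 : (mmp 7 ((2 : ℤ) • (1 : Matrix (Fin chevE6.rank) (Fin chevE6.rank) ℤ) - A)).det = 0 := by
      rw [← e2]
      exact (RingHom.map_det (Int.castRingHom (ZMod 7)) _).symm
    obtain ⟨x, hx0, hx⟩ := Matrix.exists_mulVec_eq_zero_iff.2 e3
    have hx1 : mmp 7 A *ᵥ x = (2 : ZMod 7) • x := by
      have e4 : mmp 7 ((2 : ℤ) • (1 : Matrix (Fin chevE6.rank) (Fin chevE6.rank) ℤ) - A) = (2 : ZMod 7) • 1 - mmp 7 A := by
        ext i j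
        show (((((2 : ℤ) • (1 : Matrix (Fin chevE6.rank) (Fin chevE6.rank) ℤ) - A) i j : ℤ)) : ZMod 7) = _
        rw [Matrix.sub_apply, Matrix.sub_apply, Matrix.smul_apply, Matrix.smul_apply, Matrix.one_apply, Matrix.one_apply]
        by_cases hij : i = j
        · simp [hij]
        · simp [hij]
      rw [e4, Matrix.sub_mulVec, Matrix.smul_mulVec, Matrix.one_mulVec] at hx
      exact (sub_eq_zero.1 hx).symm
    have hx2 : ∀ k : ℕ, (mmp 7 A) ^ k *ᵥ x = (2 : ZMod 7) ^ k • x := by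
      intro k
      induction k with
      | zero => simp
      | succ k ih => rw [pow_succ, ← Matrix.mulVec_mulVec, hx1, Matrix.mulVec_smul, ih, smul_smul, pow_succ, mul_comm]
    have e5 : ((mmp 7 A) ^ 4 - (mmp 7 A) ^ 2 + 1) = 0 := by
      have e6 := congrArg (mmp 7) hP12
      have e7 : mmp 7 (A ^ 4 - A ^ 2 + 1) = (mmp 7 A) ^ 4 - (mmp 7 A) ^ 2 + 1 := by
        rw [mmp, mmp, ← Matrix.map_pow, ← Matrix.map_pow]
        ext i j
        simp [Matrix.map_apply, Matrix.one_apply]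
      rw [← e7, e6]
      ext i j
      simp
    have e6 := congrArg (fun M => M *ᵥ x) e5
    simp only [Matrix.add_mulVec, Matrix.sub_mulVec, Matrix.one_mulVec, hx2, Matrix.zero_mulVec] at e6
    apply hx0
    funext j
    have e8 := congrFun e6 j
    simp only [Pi.add_apply, Pi.sub_apply, Pi.smul_apply, smul_eq_mul, Pi.zero_apply] at e8 ⊢
    have e9 : (2 : ZMod 7) ^ 4 * x j - 2 ^ 2 * x j + x j = 6 * x j := by
      have : (2 : ZMod 7) ^ 4 - 2 ^ 2 + 1 = 6 := by decide
      linear_combination x j * this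
    rw [e9] at e8
    rcases mul_eq_zero.1 e8 with e10 | e10
    · exact absurd e10 (by decide)
    · exact e10

end Cfsg.Agent.Lib.KS71.E6k
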