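/-
The fixed points of the Frobenius map in a Chevalley group without the assumption on the torus, and
the centralizer of a regular element for the type `E₆`.
-/
import Mathlib
import Cfsg.Agent.Lib.KS71.E6g
import Cfsg.Agent.Lib.KS71.E6h
import Cfsg.Agent.Lib.KS71.E6k

set_option autoImplicit false
set_option linter.unusedSectionVars false
set_option linter.unusedVariables false

namespace Cfsg.Agent.Lib.KS71.E6m

open scoped MatrixGroups Matrix
open Polynomial Module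
open Cfsg Cfsg.Lie Cfsg.Lie.ChevalleyDatum
open Cfsg.Agent.Lib.Chev.Tables Cfsg.Agent.Lib.Chev.Tables2 Cfsg.Agent.Lib.Chev.Tables3 Cfsg.Agent.Lib.Chev.Raise
open Cfsg.Agent.Lib.Chev.Basic Cfsg.Agent.Lib.Chev.AxBasic Cfsg.Agent.Lib.Chev.Torus
open Cfsg.Agent.Lib.Chev.Products Cfsg.Agent.Lib.Chev.Products2 Cfsg.Agent.Lib.Chev.Mono1
open Cfsg.Agent.Lib.Chev.Mono2 Cfsg.Agent.Lib.Chev.Mono3 Cfsg.Agent.Lib.Chev.Bn
open Cfsg.Agent.Lib.Chev.Order1 Cfsg.Agent.Lib.Chev.Order2 Cfsg.Agent.Lib.Chev.Parab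
open Cfsg.Agent.Lib.Chev.Diag Cfsg.Agent.Lib.Chev.SL2 Cfsg.Agent.Lib.Chev.SL2Chev
open Cfsg.Agent.Lib.KS71.ChevFix Cfsg.Agent.Lib.KS71.IVf Cfsg.Agent.Lib.KS71.HCa
open Cfsg.Agent.Lib.KS71.HCb Cfsg.Agent.Lib.KS71.HCc Cfsg.Agent.Lib.KS71.HCf Cfsg.Agent.Lib.KS71.HCg
open Cfsg.Agent.Lib.KS71.HCm Cfsg.Agent.Lib.KS71.HCn Cfsg.Agent.Lib.KS71.HCo

variable {D : ChevalleyDatum}

section fixed

variable {F : Type*} [Field F] {F₀ : Type*} [Field F₀]
variable (h : Tab D) (h2 : Tab2 D) (ax : Ax D F) (ax₀ : Ax D F₀)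
variable (σ : F ≃+* F) (ι₀ : F₀ →+* F) (hι₀ : ∀ x, σ x = x ↔ x ∈ Set.range ι₀)

include h h2 ax ax₀ hι₀ in
/-- An element of the torus fixed by the automorphism has values in the fixed field. -/
theorem H_form {a : GL D.Idx F} (ha : a ∈ D.diagonalSubgroup F) (haf : mapX D (σ : F →+* F) a = a) :
    ∃ y₀ : ℕ → F₀ˣ, a = mapX D ι₀ (tor D y₀) := by
  obtain ⟨c, rfl⟩ := exists_psi h h2 ax ha
  set y := psi D c with hy
  rw [mapX_tor] at haf
  have h1 := diagG_inj haf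
  have h3 : ∀ j, j < D.rank → σ ((y j : Fˣ) : F) = y j := by
    intro j hj
    have hp := h.simple_lt j hj
    have h4 := congrFun h1 (Sum.inr ⟨D.simple j, hp⟩)
    have h5 : chi D (fun i => Units.map ((σ : F →+* F) : F →* F) (y i)) (D.simple j) = chi D y (D.simple j) := h4
    rw [chi_simple h _ hj, chi_simple h _ hj] at h5
    exact congrArg Units.val h5
  have h4 : ∀ j, ∃ z : F₀ˣ, j < D.rank → Units.map (ι₀ : F₀ →* F) z = y j := by
    intro j
    by_cases hj : j < D.rank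
    · obtain ⟨z, hz⟩ := (hι₀ _).1 (h3 j hj)
      have hz0 : z ≠ 0 := by
        rintro rfl
        rw [map_zero] at hz
        exact (y j).ne_zero hz.symm
      refine ⟨Units.mk0 z hz0, fun _ => ?_⟩
      apply Units.ext
      exact hz
    · exact ⟨1, fun h' => absurd h' hj⟩
  choose y₀ hy₀ using h4
  refine ⟨y₀, ?_⟩
  rw [mapX_tor]
  apply tor_eq_of_chi
  intro s _
  unfold chi
  refine Finset.prod_congr rfl fun i hi => ?_
  beta_reduce
  rw [hy₀ i (Finset.mem_range.mp hi)]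

include h h2 ax ax₀ hι₀ in
/-- The fixed points of the automorphism: an element of the group over the fixed field times an element of the torus. -/
theorem fixed_form [Finite F] {g : GL D.Idx F} (hg : g ∈ D.group F) (hfix : mapX D (σ : F →+* F) g = g) :
    ∃ g' ∈ D.group F₀, ∃ y₀ : ℕ → F₀ˣ, g = mapX D ι₀ (g' * tor D y₀) := by
  obtain ⟨l, hl, a, ha, b, hb, rfl⟩ := exists_normal_form h h2 ax hg
  set S := (D.group F₀).map (mapX D ι₀) with hS
  have hnσ : mapX D (σ : F →+* F) (nw D ax l) = nw D ax l := mapX_nw ax ax _ l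
  have e1 : mapX D (σ : F →+* F) a * (nw D ax l)⁻¹ * mapX D (σ : F →+* F) b = a * (nw D ax l)⁻¹ * b := by
    rw [← hfix]
    simp only [map_mul, map_inv, hnσ]
  obtain ⟨e2, e3⟩ := normal_form_unique h h2 ax hl (mapX_rootClosure ax ax _ ha) ha
    (mapX_B ax ax _ hb) hb e1
  have haS : a ∈ S := U_fixed h h2 ax ax₀ σ ι₀ hι₀ (Um_le_U h h2 ax l ha) e2
  have hnS : nw D ax l ∈ S := by
    refine ⟨nw D ax₀ l, ?_, mapX_nw ax₀ ax _ l⟩
    exact monomial_le_group h ax₀ (nw_mem_monomial_aux h h2 ax₀ hl)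
  obtain ⟨u, hu, e, he, rfl⟩ := (mem_borel_iff ax h).mp hb
  rw [map_mul] at e3
  have e4 : u⁻¹ * mapX D (σ : F →+* F) u = e * (mapX D (σ : F →+* F) e)⁻¹ := by
    calc u⁻¹ * mapX D (σ : F →+* F) u
        = u⁻¹ * (mapX D (σ : F →+* F) u * mapX D (σ : F →+* F) e) * (mapX D (σ : F →+* F) e)⁻¹ := by group
      _ = u⁻¹ * (u * e) * (mapX D (σ : F →+* F) e)⁻¹ := by rw [e3]
      _ = _ := by group
  have e5 : u⁻¹ * mapX D (σ : F →+* F) u ∈ D.posUnipotent F ⊓ D.diagonalSubgroup F := by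
    constructor
    · exact Subgroup.mul_mem _ (Subgroup.inv_mem _ hu) (mapX_U ax ax _ hu)
    · rw [e4]
      exact Subgroup.mul_mem _ he (Subgroup.inv_mem _ (mapX_H ax ax _ he))
  rw [U_inf_H ax h, Subgroup.mem_bot] at e5
  have huf : mapX D (σ : F →+* F) u = u := (inv_mul_eq_one.mp e5).symm
  have hef : mapX D (σ : F →+* F) e = e := by
    rw [huf] at e3
    exact mul_left_cancel e3
  have huS := U_fixed h h2 ax ax₀ σ ι₀ hι₀ hu huf
  obtain ⟨y₀, rfl⟩ := H_form h h2 ax ax₀ σ ι₀ hι₀ he hef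
  have hS' : a * (nw D ax l)⁻¹ * u ∈ S := S.mul_mem (S.mul_mem haS (S.inv_mem hnS)) huS
  obtain ⟨g', hg', e6⟩ := hS'
  refine ⟨g', hg', y₀, ?_⟩
  rw [map_mul, e6, mul_assoc, mul_assoc, mul_assoc]

include h ax₀ in
/-- The torus normalizes the group. -/
lemma tor_conj_group (y : ℕ → F₀ˣ) {g : GL D.Idx F₀} (hg : g ∈ D.group F₀) : tor D y * g * (tor D y)⁻¹ ∈ D.group F₀ := by
  have hle : D.group F₀ ≤ (D.group F₀).comap (MulAut.conj (tor D y)).toMonoidHom := by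
    rw [ChevalleyDatum.group, Subgroup.closure_le]
    rintro g ⟨r, t, hg⟩
    have e : g = xG ax₀ r.1 t := Units.ext (by
      rw [hg, xG_val, ChevalleyDatum.x, dif_pos r.2])
    rw [SetLike.mem_coe, Subgroup.mem_comap, e]
    show tor D y * xG ax₀ r.1 t * (tor D y)⁻¹ ∈ _
    rw [tor_conj_xG ax₀ h y r.2 t]
    exact xG_mem_group ax₀ r.2 _
  exact hle hg

include h h2 ax₀ in
/-- The cube of an element in the group times the torus lies in the group. -/
lemma cube_mem (hcube : ∀ y : ℕ → F₀ˣ, tor D (y ^ 3) ∈ D.diagonalSubgroup F₀) {g' : GL D.Idx F₀} (hg' : g' ∈ D.group F₀)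
    (y : ℕ → F₀ˣ) : (g' * tor D y) ^ 3 ∈ D.group F₀ := by
  set τ := tor D y with hτ
  have h1 : τ * g' * τ⁻¹ ∈ D.group F₀ := tor_conj_group h ax₀ y hg'
  have h3 : τ * (τ * g' * τ⁻¹) * τ⁻¹ ∈ D.group F₀ := tor_conj_group h ax₀ y h1
  have h4 : τ ^ 3 ∈ D.group F₀ := by
    rw [hτ, tor_pow]
    exact diagonal_le_group h ax₀ (hcube y)
  have e : (g' * τ) ^ 3 = g' * (τ * g' * τ⁻¹) * (τ * (τ * g' * τ⁻¹) * τ⁻¹) * τ ^ 3 := by
    have e0 : (g' * τ) ^ 3 = g' * τ * (g' * τ) * (g' * τ) := by rw [pow_succ, pow_two]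
    rw [e0]
    group
  rw [e]
  exact Subgroup.mul_mem _ (Subgroup.mul_mem _ (Subgroup.mul_mem _ hg' h1) h3) h4

include h h2 ax ax₀ hι₀ in
/-- The cube of a fixed point lies in the group over the fixed field. -/
theorem cube_fixed_mem [Finite F] (hcube : ∀ y : ℕ → F₀ˣ, tor D (y ^ 3) ∈ D.diagonalSubgroup F₀) {g : GL D.Idx F}
    (hg : g ∈ D.group F) (hfix : mapX D (σ : F →+* F) g = g) : g ^ 3 ∈ (D.group F₀).map (mapX D ι₀) := by
  obtain ⟨g', hg', y, rfl⟩ := fixed_form h h2 ax ax₀ σ ι₀ hι₀ hg hfix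
  exact ⟨_, cube_mem h h2 ax₀ hcube hg' y, (map_pow _ _ _)⟩

end fixed

section E6

variable {K : Type*} [Field K]

/-- Three times the inverse of the Cartan matrix. -/
def Jcube : Matrix (Fin chevE6.rank) (Fin chevE6.rank) ℤ :=
  Cfsg.Agent.Lib.KS71.HCq.matOf _ [[4, 3, 5, 6, 4, 2], [3, 6, 6, 9, 6, 3], [5, 6, 10, 12, 8, 4], [6, 9, 12, 18, 12, 6], [4, 6, 8, 12, 10, 5], [2, 3, 4, 6, 5, 4]]

set_option maxRecDepth 100000 in
lemma Jcube_spec : Jcube * cartanM chevE6 = (3 : ℤ) • (1 : Matrix (Fin chevE6.rank) (Fin chevE6.rank) ℤ) := by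
  decide +kernel

/-- The cubes of the torus are in the diagonal group. -/
theorem tor_cube (h : Tab chevE6) (h2 : Tab2 chevE6) (ax : Ax chevE6 K) (y : ℕ → Kˣ) :
    tor chevE6 (y ^ 3) ∈ chevE6.diagonalSubgroup K := by
  classical
  let y' : Fin chevE6.rank → Kˣ := fun j => y j
  let c' : Fin chevE6.rank → Kˣ := mact Jcube y'
  have e1 : mact (cartanM chevE6) c' = mact (Jcube * cartanM chevE6) y' := (mact_mul _ _ _).symm
  rw [Jcube_spec] at e1
  have e2 : tor chevE6 (y ^ 3) = tor chevE6 (psi chevE6 (extU chevE6 c')) := by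
    rw [tor_eq_iff h]
    intro j hj
    rw [psi_apply, ← Fin.prod_univ_eq_prod_range (fun i => (extU chevE6 c' i) ^ pair chevE6 (chevE6.simple i) (chevE6.simple j)) chevE6.rank]
    have e3 := congrFun e1 ⟨j, hj⟩
    rw [mact_apply, mact_apply] at e3
    have e4 : ∀ i : Fin chevE6.rank, (extU chevE6 c' i) ^ pair chevE6 (chevE6.simple i) (chevE6.simple j) = c' i ^ (cartanM chevE6) i ⟨j, hj⟩ := by
      intro i
      rw [pair_simple h2 i.isLt]
      simp [extU, cartanM]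
    simp only [e4]
    rw [e3, Finset.prod_eq_single (⟨j, hj⟩ : Fin chevE6.rank)]
    · simp [y']
    · intro b _ hb
      simp [hb]
    · simp
  rw [e2]
  exact tor_psi_mem h h2 ax _

variable {F E : Type*} [Field F] [Fintype F] [Field E] [Fintype E]
variable (h : Tab chevE6) (h2 : Tab2 chevE6) (axF : Ax chevE6 F) (axE : Ax chevE6 E) (ι : F →+* E) (σ : E ≃+* E)

include h2 in
/-- The structure of the centralizer of a regular element: the two inclusions. -/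
theorem torus_struct' {q : ℕ} (hσ : ∀ x, σ x = x ^ q) (hι₀ : ∀ x, σ x = x ↔ x ∈ Set.range ι)
    (p₀ : ↥(chevE6.group F)) (x : ↥(chevE6.group E)) (y₀ : ℕ → Eˣ) (hyH : tor chevE6 y₀ ∈ chevE6.diagonalSubgroup E)
    (hy₀ : ((x⁻¹ * iotaHom h axF axE ι p₀ * x : ↥(chevE6.group E)) : GL chevE6.Idx E) = tor chevE6 y₀)
    (hreg : ∀ s, s < chevE6.nroots → chi chevE6 y₀ s ≠ 1)
    (hstab : ∀ π ∈ Wp h (Set.Iio chevE6.rank), (∀ s : Fin chevE6.nroots, chi chevE6 y₀ (π s) = chi chevE6 y₀ s) → π = 1) :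
    ∃ l : List ℕ, (∀ i ∈ l, i < chevE6.rank) ∧ (∀ t, t < chevE6.nroots → chi chevE6 y₀ (wWord chevE6 l t) = chi chevE6 y₀ t ^ q) ∧
      -- every element of the centralizer comes from the kernel
      (∀ g ∈ Subgroup.centralizer ({p₀} : Set ↥(chevE6.group F)), ∃ v' ∈ (mact ((q : ℤ) • (1 : Matrix (Fin chevE6.rank) (Fin chevE6.rank) ℤ) - Aw chevE6 l) (G := Eˣ)).ker,
        mapX chevE6 ι (g : GL chevE6.Idx F) = (x : GL chevE6.Idx E) * tor chevE6 (extU chevE6 v') * (x : GL chevE6.Idx E)⁻¹ ∧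
        ((∀ s : E, s ^ 3 = 1 → σ s = s) → ∃ c' ∈ (mact ((q : ℤ) • (Aw chevE6 l)ᵀ - 1) (G := Eˣ)).ker, v' = mact (cartanM chevE6) c')) ∧
      -- the ninth powers of the kernel come from the centralizer
      (∀ v' ∈ (mact ((q : ℤ) • (1 : Matrix (Fin chevE6.rank) (Fin chevE6.rank) ℤ) - Aw chevE6 l) (G := Eˣ)).ker,
        ∃ g ∈ Subgroup.centralizer ({p₀} : Set ↥(chevE6.group F)), mapX chevE6 ι (g : GL chevE6.Idx F) = (x : GL chevE6.Idx E) * tor chevE6 (extU chevE6 (v' ^ 9)) * (x : GL chevE6.Idx E)⁻¹) := by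
  classical
  set s₀ := sAut h axE σ with hs₀
  set ιh := iotaHom h axF axE ι with hιh
  have hcub : ∀ v : ℕ → Eˣ, tor chevE6 (v ^ 3) ∈ chevE6.diagonalSubgroup E := tor_cube h h2 axE
  let t : ∀ v : ℕ → Eˣ, tor chevE6 v ∈ chevE6.diagonalSubgroup E → ↥(chevE6.group E) := fun v hv => ⟨tor chevE6 v, diagonal_le_group h axE hv⟩
  have hqm : ∀ v : ℕ → Eˣ, tor chevE6 v ∈ chevE6.diagonalSubgroup E → tor chevE6 (v ^ q) ∈ chevE6.diagonalSubgroup E := by
    intro v hv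
    rw [← tor_pow]
    exact Subgroup.pow_mem _ hv _
  have hts : ∀ v (hv : tor chevE6 v ∈ chevE6.diagonalSubgroup E), s₀ (t v hv) = t (v ^ q) (hqm v hv) := by
    intro v hv
    apply Subtype.ext
    rw [hs₀, coe_sAut]
    exact mapX_tor_frob σ hσ v
  have hty : x⁻¹ * ιh p₀ * x = t y₀ hyH := Subtype.ext hy₀
  have hιfix : ∀ g, s₀ (ιh g) = ιh g := sAut_iota h axF axE ι σ (fun a => (hι₀ _).2 ⟨a, rfl⟩)
  have hA : ∀ g : ↥(chevE6.group E), g * t y₀ hyH = t y₀ hyH * g → (g : GL chevE6.Idx E) ∈ chevE6.diagonalSubgroup E := by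
    intro g hg
    exact mem_H_of_comm h h2 axE hyH hreg hstab g.2 (congrArg Subtype.val hg)
  have hcommH : ∀ a b : ↥(chevE6.group E), (a : GL chevE6.Idx E) ∈ chevE6.diagonalSubgroup E → (b : GL chevE6.Idx E) ∈ chevE6.diagonalSubgroup E →
      a * b = b * a := fun a b ha hb => Subtype.ext (diagonal_comm axE h ha hb)
  have hycomm : ∀ u : ↥(chevE6.group E), (u : GL chevE6.Idx E) ∈ chevE6.diagonalSubgroup E → u * t y₀ hyH = t y₀ hyH * u :=
    fun u hu => hcommH _ _ hu hyH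
  have hp₀ : ιh p₀ = x * t y₀ hyH * x⁻¹ := by rw [← hty]; group
  set n₀ := x⁻¹ * s₀ x with hn₀
  -- the conjugation by `n₀` on the torus
  let H' : Subgroup ↥(chevE6.group E) := (chevE6.diagonalSubgroup E).subgroupOf (chevE6.group E)
  have hsH : ∀ a ∈ H', s₀ a ∈ H' := by
    intro a ha
    show ((s₀ a : ↥(chevE6.group E)) : GL chevE6.Idx E) ∈ chevE6.diagonalSubgroup E
    rw [hs₀, coe_sAut]
    exact mapX_H axE axE (σ : E →+* E) ha
  have hconj1 : ∀ u ∈ H', n₀ * u * n₀⁻¹ ∈ H' := by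
    intro u hu
    obtain ⟨u₁, hu₁, rfl⟩ := map_sylow_surj s₀ hsH hu
    have e1 : n₀ * s₀ u₁ * n₀⁻¹ = x⁻¹ * s₀ (x * u₁ * x⁻¹) * x := by
      rw [hn₀]
      simp only [map_mul, map_inv]
      group
    rw [e1]
    refine (hA _ ?_ : ((x⁻¹ * s₀ (x * u₁ * x⁻¹) * x : ↥(chevE6.group E)) : GL chevE6.Idx E) ∈ chevE6.diagonalSubgroup E)
    have e2 : (x * u₁ * x⁻¹) * ιh p₀ = ιh p₀ * (x * u₁ * x⁻¹) := by
      rw [hp₀]
      have e3 := hycomm u₁ hu₁
      calc x * u₁ * x⁻¹ * (x * t y₀ hyH * x⁻¹) = x * (u₁ * t y₀ hyH) * x⁻¹ := by group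
        _ = x * (t y₀ hyH * u₁) * x⁻¹ := by rw [e3]
        _ = _ := by group
    have e4 := congrArg s₀ e2
    rw [map_mul s₀ (x * u₁ * x⁻¹) (ιh p₀), map_mul s₀ (ιh p₀) (x * u₁ * x⁻¹), hιfix] at e4
    rw [← hty]
    calc x⁻¹ * s₀ (x * u₁ * x⁻¹) * x * (x⁻¹ * ιh p₀ * x) = x⁻¹ * (s₀ (x * u₁ * x⁻¹) * ιh p₀) * x := by group
      _ = x⁻¹ * (ιh p₀ * s₀ (x * u₁ * x⁻¹)) * x := by rw [e4]
      _ = _ := by group
  have hconj2 : ∀ u ∈ H', n₀⁻¹ * u * n₀ ∈ H' := by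
    intro u hu
    obtain ⟨b, hb, rfl⟩ := map_sylow_surj (MulAut.conj n₀) (by
      intro c hc
      rw [MulAut.conj_apply]
      exact hconj1 c hc) hu
    rw [MulAut.conj_apply]
    have e : n₀⁻¹ * (n₀ * b * n₀⁻¹) * n₀ = b := by group
    rw [e]
    exact hb
  have hnm : (n₀ : GL chevE6.Idx E) ∈ chevE6.monomialSubgroup E := by
    refine mem_monomial_of_normalize h h2 axE n₀.2 (chevE6.diagonalSubgroup E) le_rfl ?_ ?_ ?_
    · intro a ha
      exact hconj1 ⟨a, diagonal_le_group h axE ha⟩ ha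
    · intro a ha
      exact hconj2 ⟨a, diagonal_le_group h axE ha⟩ ha
    · intro s hs
      exact ⟨y₀, hyH, hreg s hs⟩
  obtain ⟨π, c0, Hn⟩ := exists_isNor h h2 axE hnm
  have hπ : π ∈ Wp h (Set.Iio chevE6.rank) := by
    have := piN_mem_Wp h h2 axE ⟨(n₀ : GL chevE6.Idx E), hnm⟩
    rwa [piN_of_isNor h h2 axE (g := ⟨(n₀ : GL chevE6.Idx E), hnm⟩) Hn] at this
  obtain ⟨l, hl, rfl⟩ := (mem_Wp_iff h).1 hπ
  have hl' : ∀ i ∈ l, i < chevE6.rank := fun i hi => hl i hi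
  -- the element as a product
  have hnform : ∃ c₀ : ℕ → Eˣ, (n₀ : GL chevE6.Idx E) = tor chevE6 (psi chevE6 c₀) * nw chevE6 axE l := by
    have hg := nw_mem_monomial_aux h h2 axE hl'
    let m₁ : ↥(chevE6.monomialSubgroup E) := ⟨(n₀ : GL chevE6.Idx E), hnm⟩
    let m₂ : ↥(chevE6.monomialSubgroup E) := ⟨nw chevE6 axE l, hg⟩
    have e1 : piN h h2 axE (m₁ * m₂⁻¹) = 1 := by
      rw [map_mul, map_inv, piN_of_isNor h h2 axE (g := m₁) Hn, piN_nw h h2 axE hl']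
      group
    have e2 := (piN_eq_one_iff h h2 axE _).1 e1
    obtain ⟨c₀, hc₀⟩ := exists_psi h h2 axE e2
    refine ⟨c₀, ?_⟩
    rw [← hc₀]
    show (n₀ : GL chevE6.Idx E) = (n₀ : GL chevE6.Idx E) * (nw chevE6 axE l)⁻¹ * nw chevE6 axE l
    group
  -- the relation on values
  have hval : ∀ (v v₁ : ℕ → Eˣ) (hv : tor chevE6 v ∈ chevE6.diagonalSubgroup E) (hv₁ : tor chevE6 v₁ ∈ chevE6.diagonalSubgroup E),
      n₀ * t (v ^ q) (hqm v hv) * n₀⁻¹ = t v₁ hv₁ → ∀ s, s < chevE6.nroots →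
      chi chevE6 v₁ (wWord chevE6 l s) = chi chevE6 v s ^ q := by
    intro v v₁ hv hv₁ e s hs
    have e1 : (n₀ : GL chevE6.Idx E) * tor chevE6 (v ^ q) * (n₀ : GL chevE6.Idx E)⁻¹ = tor chevE6 v₁ := congrArg Subtype.val e
    have e2 := conj_tor_chi h h2 axE Hn (v ^ q) v₁ e1 ⟨s, hs⟩
    rw [chi_pow, wPw_val h hl'] at e2
    exact e2
  have hyrel : ∀ s, s < chevE6.nroots → chi chevE6 y₀ (wWord chevE6 l s) = chi chevE6 y₀ s ^ q := by
    apply hval y₀ y₀ hyH hyH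
    have e1 : s₀ (t y₀ hyH) = (s₀ x)⁻¹ * ιh p₀ * s₀ x := by
      rw [← hty]
      simp only [map_mul, map_inv, hιfix]
    rw [← hts y₀ hyH, e1, hn₀, ← hty]
    group
  refine ⟨l, hl', hyrel, ?_, ?_⟩
  · -- the first inclusion
    intro g hg
    have hg' : g * p₀ = p₀ * g := Subgroup.mem_centralizer_singleton_iff.1 hg
    set u := x⁻¹ * ιh g * x with hu
    have hu1 : u * t y₀ hyH = t y₀ hyH * u := by
      rw [← hty, hu]
      have e := congrArg ιh hg'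
      rw [map_mul, map_mul] at e
      calc x⁻¹ * ιh g * x * (x⁻¹ * ιh p₀ * x) = x⁻¹ * (ιh g * ιh p₀) * x := by group
        _ = x⁻¹ * (ιh p₀ * ιh g) * x := by rw [e]
        _ = _ := by group
    have huH := hA u hu1
    obtain ⟨c, hc⟩ := exists_psi h h2 axE huH
    let v' : Fin chevE6.rank → Eˣ := fun j => psi chevE6 c j
    have hvt : (u : GL chevE6.Idx E) = tor chevE6 (extU chevE6 v') := by
      rw [hc]
      refine (tor_eq_iff h).2 fun j hj => ?_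
      exact (extU_apply v' ⟨j, hj⟩).symm
    have hvH : tor chevE6 (extU chevE6 v') ∈ chevE6.diagonalSubgroup E := hvt ▸ huH
    have hvu : u = t (extU chevE6 v') hvH := Subtype.ext hvt
    have hgx : mapX chevE6 ι (g : GL chevE6.Idx F) = (x : GL chevE6.Idx E) * tor chevE6 (extU chevE6 v') * (x : GL chevE6.Idx E)⁻¹ := by
      have e1 : ιh g = x * u * x⁻¹ := by
        rw [hu]
        group
      have e2 := congrArg Subtype.val e1
      rw [hvu] at e2
      exact e2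
    refine ⟨v', ?_, hgx, ?_⟩
    · rw [mem_ker_iff h hl' q v']
      apply hval _ _ hvH hvH
      have e1 : s₀ u = (s₀ x)⁻¹ * ιh g * s₀ x := by
        rw [hu]
        simp only [map_mul, map_inv, hιfix]
      rw [← hts _ hvH, ← hvu, e1, hn₀, hu]
      group
    · intro hs3
      obtain ⟨c₀, hc₀⟩ := hnform
      have hσι : ∀ a, σ (ι a) = ι a := fun a => (hι₀ _).2 ⟨a, rfl⟩
      have hrel := Cfsg.Agent.Lib.KS71.E6f.key_rep axE h h2 σ hσ hs3 ι hσι x.2 (n₀ := (n₀ : GL chevE6.Idx E)) (by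
        show mapX chevE6 (σ : E →+* E) (x : GL chevE6.Idx E) = (x : GL chevE6.Idx E) * (x⁻¹ * s₀ x : ↥(chevE6.group E))
        have e : ((x⁻¹ * s₀ x : ↥(chevE6.group E)) : GL chevE6.Idx E) = (x : GL chevE6.Idx E)⁻¹ * mapX chevE6 (σ : E →+* E) (x : GL chevE6.Idx E) := rfl
        rw [e]
        group) hl' hc₀ c g.2 (by
        have e1 : ιh g = x * u * x⁻¹ := by
          rw [hu]
          group
        have e2 : mapX chevE6 ι (g : GL chevE6.Idx F) = (x : GL chevE6.Idx E) * u * (x : GL chevE6.Idx E)⁻¹ := congrArg Subtype.val e1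
        rw [hc] at e2
        exact e2)
      refine ⟨_, Cfsg.Agent.Lib.KS71.E6g.key_ker q hl' c hrel, ?_⟩
      funext j
      show psi chevE6 c j = _
      rw [psi_apply, mact_apply, ← Fin.prod_univ_eq_prod_range (fun i => c i ^ pair chevE6 (chevE6.simple i) (chevE6.simple j)) chevE6.rank]
      refine Finset.prod_congr rfl fun i _ => ?_
      rw [pair_simple h2 i.isLt]
      rfl
  · -- the second inclusion
    intro v' hv'
    set v₁ := v' ^ 3 with hv₁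
    have hv₁K : v₁ ∈ (mact ((q : ℤ) • (1 : Matrix (Fin chevE6.rank) (Fin chevE6.rank) ℤ) - Aw chevE6 l) (G := Eˣ)).ker := Subgroup.pow_mem _ hv' 3
    have hv'' := (mem_ker_iff h hl' q v₁).1 hv₁K
    set v := extU chevE6 v₁ with hv
    have hvH : tor chevE6 v ∈ chevE6.diagonalSubgroup E := by
      rw [hv, hv₁, map_pow]
      exact hcub _
    obtain ⟨v₂, hv₂⟩ := exists_tor_of_mem axE h (hconj1 (t (v ^ q) (hqm v hvH)) (hqm v hvH))
    have hv₂H : tor chevE6 v₂ ∈ chevE6.diagonalSubgroup E := hv₂ ▸ hconj1 (t (v ^ q) (hqm v hvH)) (hqm v hvH)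
    have hv₂' : n₀ * t (v ^ q) (hqm v hvH) * n₀⁻¹ = t v₂ hv₂H := Subtype.ext hv₂
    have hvv₂ : t v₂ hv₂H = t v hvH := by
      apply Subtype.ext
      apply tor_eq_of_chi
      intro s hs
      have e1 := hval v v₂ hvH hv₂H hv₂'
      let s' : Fin chevE6.nroots := (wPw h l)⁻¹ ⟨s, hs⟩
      have e2 : wWord chevE6 l s' = s := by
        rw [← wPw_val h hl']
        simp [s']
      have e3 := e1 s' s'.isLt
      have e4 := hv'' s' s'.isLt
      rw [e2] at e3 e4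
      rw [e3, e4]
    have hfix : s₀ (x * t v hvH * x⁻¹) = x * t v hvH * x⁻¹ := by
      simp only [map_mul, map_inv, hts]
      rw [← hvv₂, ← hv₂', hn₀]
      group
    have hfix' : mapX chevE6 (σ : E →+* E) (x * t v hvH * x⁻¹ : ↥(chevE6.group E)) = (x * t v hvH * x⁻¹ : ↥(chevE6.group E)) := by
      have e1 := congrArg Subtype.val hfix
      rw [hs₀, coe_sAut] at e1
      exact e1
    obtain ⟨u, hu, hue⟩ := cube_fixed_mem h h2 axE axF σ ι hι₀ (tor_cube h h2 axF) (x * t v hvH * x⁻¹ : ↥(chevE6.group E)).2 hfix'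
    have hιg : ιh ⟨u, hu⟩ = (x * t v hvH * x⁻¹) ^ 3 := Subtype.ext hue
    have hinj := iotaHom_injective h axF axE ι
    refine ⟨⟨u, hu⟩, ?_, ?_⟩
    · rw [Subgroup.mem_centralizer_singleton_iff]
      apply hinj
      rw [map_mul, map_mul, hιg, hp₀]
      have e3 : (x * t v hvH * x⁻¹) ^ 3 = x * (t v hvH) ^ 3 * x⁻¹ := by
        have e4 := map_pow (MulAut.conj x) (t v hvH) 3
        simpa [MulAut.conj_apply] using e4.symm
      have e5 := hycomm ((t v hvH) ^ 3) (Subgroup.pow_mem _ hvH 3)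
      rw [e3]
      calc x * t v hvH ^ 3 * x⁻¹ * (x * t y₀ hyH * x⁻¹) = x * (t v hvH ^ 3 * t y₀ hyH) * x⁻¹ := by group
        _ = x * (t y₀ hyH * t v hvH ^ 3) * x⁻¹ := by rw [e5]
        _ = _ := by group
    · have e6 : mapX chevE6 ι u = ((x * t v hvH * x⁻¹ : ↥(chevE6.group E)) : GL chevE6.Idx E) ^ 3 := hue
      show mapX chevE6 ι u = _
      rw [e6]
      have e7 : ((x * t v hvH * x⁻¹ : ↥(chevE6.group E)) : GL chevE6.Idx E) = (x : GL chevE6.Idx E) * tor chevE6 v * (x : GL chevE6.Idx E)⁻¹ := rfl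
      rw [e7]
      have e8 := map_pow (MulAut.conj (x : GL chevE6.Idx E)) (tor chevE6 v) 3
      simp only [MulAut.conj_apply] at e8
      rw [← e8, tor_pow]
      have e9 : v ^ 3 = extU chevE6 (v' ^ 9) := by
        rw [hv, hv₁, ← map_pow, ← pow_mul]
      rw [e9]

end E6

end Cfsg.Agent.Lib.KS71.E6m
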