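/-
The cyclic self-centralizing subgroup of order `(q⁴ - q² + 1)(q² + q + 1) / gcd(3, q - 1)` in `E₆(q)`.
-/
import Mathlib
import Cfsg.Agent.Lib.KS71.E6m

set_option autoImplicit false
set_option linter.unusedSectionVars false
set_option linter.unusedVariables false

namespace Cfsg.Agent.Lib.KS71.E6n

open scoped MatrixGroups Matrix
open Polynomial Module
open Cfsg Cfsg.Lie Cfsg.Lie.ChevalleyDatum
open Cfsg.Agent.Lib.Chev.Tables Cfsg.Agent.Lib.Chev.Tables2 Cfsg.Agent.Lib.Chev.Tables3 Cfsg.Agent.Lib.Chev.Raise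
open Cfsg.Agent.Lib.Chev.Basic Cfsg.Agent.Lib.Chev.AxBasic Cfsg.Agent.Lib.Chev.Torus
open Cfsg.Agent.Lib.Chev.Products Cfsg.Agent.Lib.Chev.Products2 Cfsg.Agent.Lib.Chev.Mono1
open Cfsg.Agent.Lib.Chev.Mono2 Cfsg.Agent.Lib.Chev.Mono3 Cfsg.Agent.Lib.Chev.Bn
open Cfsg.Agent.Lib.Chev.Order1 Cfsg.Agent.Lib.Chev.Order2 Cfsg.Agent.Lib.Chev.Parab
open Cfsg.Agent.Lib.Chev.Diag Cfsg.Agent.Lib.Chev.SL2 Cfsg.Agent.Lib.Chev.SL2Chev Cfsg.Agent.Lib.Chev.Order3
open Cfsg.Agent.Lib.KS71.ChevFix Cfsg.Agent.Lib.KS71.IVf Cfsg.Agent.Lib.KS71.HCa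
open Cfsg.Agent.Lib.KS71.HCb Cfsg.Agent.Lib.KS71.HCc Cfsg.Agent.Lib.KS71.HCd Cfsg.Agent.Lib.KS71.HCf Cfsg.Agent.Lib.KS71.HCg
open Cfsg.Agent.Lib.KS71.HCh Cfsg.Agent.Lib.KS71.HCi
open Cfsg.Agent.Lib.KS71.HCj Cfsg.Agent.Lib.KS71.HCk
open Cfsg.Agent.Lib.KS71.HCm Cfsg.Agent.Lib.KS71.HCn Cfsg.Agent.Lib.KS71.HCo Cfsg.Agent.Lib.KS71.HCp
open Cfsg.Agent.Lib.KS71.E6g Cfsg.Agent.Lib.KS71.E6h Cfsg.Agent.Lib.KS71.E6j Cfsg.Agent.Lib.KS71.E6k Cfsg.Agent.Lib.KS71.E6m
open Cfsg.Agent.Lib.Zsig.Basic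

/-! ### The orders of the kernels -/

/-- The order of the kernel of `x ↦ x ^ q / U x`. -/
theorem card_ker_gen {n : ℕ} {E : Type*} [Field E] [Fintype E] {q d : ℕ} (hq2 : 2 ≤ q) (hd0 : 0 < d)
    (hcE : Fintype.card E = q ^ d) (A : Matrix (Fin n) (Fin n) ℤ) (hAd : A ^ d = 1) :
    Nat.card (mact ((q : ℤ) • (1 : Matrix (Fin n) (Fin n) ℤ) - A) (G := Eˣ)).ker = ((q : ℤ) • (1 : Matrix (Fin n) (Fin n) ℤ) - A).det.natAbs := by
  classical
  have hQ0 : 0 < q ^ d - 1 := pow_sub_one_pos hq2 hd0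
  obtain ⟨g, hg⟩ := IsCyclic.exists_generator (α := Eˣ)
  have hord : orderOf g = q ^ d - 1 := by
    rw [orderOf_eq_card_of_forall_mem_zpowers hg, Nat.card_eq_fintype_card, Fintype.card_units, hcE]
  set B := (q : ℤ) • (1 : Matrix (Fin n) (Fin n) ℤ) - A with hB
  let sc : Matrix (Fin n) (Fin n) ℤ := (q : ℤ) • 1
  have hsc : Commute sc A := by
    show sc * A = A * sc
    simp only [sc, smul_mul_assoc, mul_smul_comm, one_mul, mul_one]
  let C : Matrix (Fin n) (Fin n) ℤ := ∑ i ∈ Finset.range d, sc ^ i * A ^ (d - 1 - i)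
  have hscd : sc ^ d = ((q : ℤ) ^ d) • (1 : Matrix (Fin n) (Fin n) ℤ) := by
    simp only [sc, _root_.smul_pow, one_pow]
  have hBC : B * C = (((q ^ d - 1 : ℕ) : ℤ)) • 1 := by
    have e1 := hsc.mul_geom_sum₂ d
    show (sc - A) * C = _
    rw [e1, hscd, hAd, natCast_pow_sub_one (by omega), sub_smul, one_smul]
  have hCB : C * B = (((q ^ d - 1 : ℕ) : ℤ)) • 1 := by
    have e1 : Commute B C := by
      apply Commute.sum_right
      intro i _
      apply Commute.sub_left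
      · exact (Commute.refl sc |>.pow_right i).mul_right (hsc.pow_right _)
      · exact (hsc.symm.pow_right i).mul_right (Commute.refl A |>.pow_right _)
    rw [← e1.eq]
    exact hBC
  exact card_ker_mact g hord hQ0 (fun x => by
    obtain ⟨k, hk⟩ := hg x
    exact ⟨k, hk⟩) B C hBC hCB

/-- The order of the kernel of `x ↦ U x ^ q / x`. -/
theorem card_ker_gen' {n : ℕ} {E : Type*} [Field E] [Fintype E] {q d : ℕ} (hq2 : 2 ≤ q) (hd0 : 0 < d)
    (hcE : Fintype.card E = q ^ d) (U : Matrix (Fin n) (Fin n) ℤ) (hUd : U ^ d = 1) :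
    Nat.card (mact ((q : ℤ) • U - 1) (G := Eˣ)).ker = ((q : ℤ) • U - 1).det.natAbs := by
  classical
  have hQ0 : 0 < q ^ d - 1 := pow_sub_one_pos hq2 hd0
  obtain ⟨g, hg⟩ := IsCyclic.exists_generator (α := Eˣ)
  have hord : orderOf g = q ^ d - 1 := by
    rw [orderOf_eq_card_of_forall_mem_zpowers hg, Nat.card_eq_fintype_card, Fintype.card_units, hcE]
  set B := (q : ℤ) • U - 1 with hB
  let C : Matrix (Fin n) (Fin n) ℤ := ∑ i ∈ Finset.range d, ((q : ℤ) • U) ^ i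
  have hBC : B * C = (((q ^ d - 1 : ℕ) : ℤ)) • 1 := by
    have e1 := mul_geom_sum ((q : ℤ) • U) d
    show ((q : ℤ) • U - 1) * C = _
    rw [e1, _root_.smul_pow, hUd, natCast_pow_sub_one (by omega), sub_smul, one_smul]
  have hCB : C * B = (((q ^ d - 1 : ℕ) : ℤ)) • 1 := by
    have e1 := geom_sum_mul ((q : ℤ) • U) d
    show C * ((q : ℤ) • U - 1) = _
    rw [e1, _root_.smul_pow, hUd, natCast_pow_sub_one (by omega), sub_smul, one_smul]
  exact card_ker_mact g hord hQ0 (fun x => by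
    obtain ⟨k, hk⟩ := hg x
    exact ⟨k, hk⟩) B C hBC hCB

/-- The order of the torus. -/
def MM (q : ℕ) : ℕ := (q ^ 4 - q ^ 2 + 1) * (q ^ 2 + q + 1)

lemma MM_cast {q : ℕ} (hq : 1 ≤ q) : ((MM q : ℕ) : ℤ) = ((q : ℤ) ^ 4 - (q : ℤ) ^ 2 + 1) * ((q : ℤ) ^ 2 + (q : ℤ) + 1) := by
  have h1 : q ^ 2 ≤ q ^ 4 := Nat.pow_le_pow_right hq (by norm_num)
  rw [MM, Nat.cast_mul, Nat.cast_add, Nat.cast_sub h1]
  push_cast
  ring

lemma det1 {n : ℕ} {A : Matrix (Fin n) (Fin n) ℤ} (hc : A.charpoly = (X ^ 4 - X ^ 2 + 1) * (X ^ 2 + X + 1)) {q : ℕ} (hq : 1 ≤ q) :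
    ((q : ℤ) • (1 : Matrix (Fin n) (Fin n) ℤ) - A).det.natAbs = MM q := by
  have e1 := Matrix.eval_charpoly A (q : ℤ)
  rw [hc, Matrix.scalar_apply, ← Matrix.smul_one_eq_diagonal] at e1
  rw [← e1]
  have e2 : eval (q : ℤ) ((X ^ 4 - X ^ 2 + 1) * (X ^ 2 + X + 1) : ℤ[X]) = ((MM q : ℕ) : ℤ) := by
    rw [MM_cast hq]
    simp
  rw [e2, Int.natAbs_natCast]

lemma det2 {n : ℕ} {G A : Matrix (Fin n) (Fin n) ℤ} (hiso : Aᵀ * G * A = G) (hG : G.det ≠ 0) (hA : A ^ 12 = 1) (q : ℕ) :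
    ((q : ℤ) • Aᵀ - 1).det.natAbs = ((q : ℤ) • (1 : Matrix (Fin n) (Fin n) ℤ) - A).det.natAbs := by
  have e1 : ((q : ℤ) • Aᵀ - 1) * G * A = G * ((q : ℤ) • (1 : Matrix (Fin n) (Fin n) ℤ) - A) := by
    rw [sub_mul, sub_mul, smul_mul_assoc, smul_mul_assoc, hiso, one_mul, mul_sub, mul_smul_comm, mul_one]
  have e2 := congrArg Matrix.det e1
  rw [Matrix.det_mul, Matrix.det_mul, Matrix.det_mul] at e2
  have e3 : (A.det.natAbs) ^ 12 = 1 := by
    rw [← Int.natAbs_pow, ← Matrix.det_pow, hA, Matrix.det_one]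
    rfl
  have e4 : A.det.natAbs = 1 := (Nat.pow_eq_one.1 e3).resolve_right (by norm_num)
  have e5 := congrArg Int.natAbs e2
  rw [Int.natAbs_mul, Int.natAbs_mul, Int.natAbs_mul, e4, mul_one, mul_comm] at e5
  exact Nat.eq_of_mul_eq_mul_left (Int.natAbs_pos.2 hG) e5

/-! ### The kernel is cyclic -/

section cyc

variable {E : Type*} [Field E]

lemma ev_mulVec {U : Matrix (Fin chevE6.rank) (Fin chevE6.rank) ℤ} (v : Fin chevE6.rank → Eˣ) (w : Fin chevE6.rank → ℤ) :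
    ev v (U *ᵥ w) = ∏ k, ev v (fun i => U i k) ^ w k := by
  simp only [ev, Matrix.mulVec, dotProduct]
  have e1 : ∀ i, v i ^ ∑ k, U i k * w k = ∏ k, (v i ^ U i k) ^ w k := by
    intro i
    rw [zpow_sum_fin]
    refine Finset.prod_congr rfl fun k _ => ?_
    rw [zpow_mul]
  simp only [e1]
  rw [Finset.prod_comm]
  refine Finset.prod_congr rfl fun k _ => ?_
  rw [Finset.prod_zpow]

lemma ev_A {A : Matrix (Fin chevE6.rank) (Fin chevE6.rank) ℤ} {q : ℕ} {v : Fin chevE6.rank → Eˣ}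
    (hv : v ∈ (mact ((q : ℤ) • (1 : Matrix (Fin chevE6.rank) (Fin chevE6.rank) ℤ) - A) (G := Eˣ)).ker) (w : Fin chevE6.rank → ℤ) :
    ev v (A *ᵥ w) = ev v w ^ q := by
  classical
  have h1 : ∀ k, ev v (fun i => A i k) = v k ^ q := by
    intro k
    have e1 := congrFun (MonoidHom.mem_ker.1 hv) k
    rw [mact_apply, Pi.one_apply] at e1
    have e2 : ∀ i, v i ^ (((q : ℤ) • (1 : Matrix (Fin chevE6.rank) (Fin chevE6.rank) ℤ) - A) i k) =
        v i ^ ((q : ℤ) * (if i = k then 1 else 0)) * (v i ^ A i k)⁻¹ := by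
      intro i
      rw [Matrix.sub_apply, Matrix.smul_apply, Matrix.one_apply, smul_eq_mul, zpow_sub]
    simp only [e2] at e1
    rw [Finset.prod_mul_distrib, Finset.prod_inv_distrib, Finset.prod_eq_single k] at e1
    · simp only [if_true, mul_one, zpow_natCast] at e1
      exact (mul_inv_eq_one.1 e1).symm
    · intro i _ hi
      simp [hi]
    · simp
  rw [ev_mulVec]
  simp only [h1]
  rw [ev, ← Finset.prod_pow]
  refine Finset.prod_congr rfl fun k _ => ?_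
  rw [← zpow_natCast, ← zpow_natCast, ← zpow_mul, ← zpow_mul, mul_comm]

/-- A cyclic vector gives an injective map from the kernel. -/
lemma eq_one_of_ev {A : Matrix (Fin chevE6.rank) (Fin chevE6.rank) ℤ} {q : ℕ} {γ : Fin chevE6.rank → ℤ}
    (hdet : (Mb A γ).det ^ 2 = 1) {v : Fin chevE6.rank → Eˣ}
    (hv : v ∈ (mact ((q : ℤ) • (1 : Matrix (Fin chevE6.rank) (Fin chevE6.rank) ℤ) - A) (G := Eˣ)).ker) (h1 : ev v γ = 1) : v = 1 := by
  classical
  have hpow : ∀ i : ℕ, ev v (A ^ i *ᵥ γ) = 1 := by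
    intro i
    induction i with
    | zero => simpa using h1
    | succ i ih =>
      rw [pow_succ', ← Matrix.mulVec_mulVec, ev_A hv, ih, one_pow]
  set M := Mb A γ with hM
  funext j
  let u : Fin chevE6.rank → ℤ := M.det • (M.adjugate *ᵥ Pi.single j 1)
  have hu : M *ᵥ u = Pi.single j 1 := by
    show M *ᵥ (M.det • (M.adjugate *ᵥ Pi.single j 1)) = _
    rw [Matrix.mulVec_smul, Matrix.mulVec_mulVec, Matrix.mul_adjugate, Matrix.smul_mulVec, Matrix.one_mulVec, smul_smul, ← pow_two, hdet, one_smul]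
  have e1 : ev v (M *ᵥ u) = 1 := by
    rw [ev_mulVec]
    apply Finset.prod_eq_one
    intro k _
    have e2 : (fun i => M i k) = A ^ (k : ℕ) *ᵥ γ := rfl
    rw [e2, hpow, one_zpow]
  rw [hu, ev_single] at e1
  exact e1

/-- The kernel is cyclic when there is a cyclic root. -/
theorem isCyclic_ker [Finite E] (h : Tab chevE6) {A : Matrix (Fin chevE6.rank) (Fin chevE6.rank) ℤ} {q : ℕ} {k : Fin chevE6.rank}
    (hdet : (Mb A (crd chevE6 (chevE6.simple k))).det ^ 2 = 1) :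
    IsCyclic ↥(mact ((q : ℤ) • (1 : Matrix (Fin chevE6.rank) (Fin chevE6.rank) ℤ) - A) (G := Eˣ)).ker := by
  set K := (mact ((q : ℤ) • (1 : Matrix (Fin chevE6.rank) (Fin chevE6.rank) ℤ) - A) (G := Eˣ)).ker with hK
  let f : ↥K →* Eˣ := (Pi.evalMonoidHom _ k).comp K.subtype
  refine isCyclic_of_injective f ?_
  rw [injective_iff_map_eq_one]
  intro a ha
  apply Subtype.ext
  refine eq_one_of_ev hdet a.2 ?_
  rw [crd_simple h, ev_single]
  exact ha

end cyc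

/-! ### The exponent of the image -/

section expo

variable {E : Type*} [Field E] [Fintype E]

/-- When three divides `q - 1` the image of the kernel under the Cartan matrix has smaller exponent. -/
theorem pow_eq_one_of_image (h : Tab chevE6) {l : List ℕ} (hl : ∀ i ∈ l, i < chevE6.rank) {q M' : ℕ} (hq3 : q % 3 = 1)
    (h3E : 3 ∣ Nat.card Eˣ)
    (hc : Nat.card (mact ((q : ℤ) • (Aw chevE6 l)ᵀ - 1) (G := Eˣ)).ker = 3 * M')
    {c' : Fin chevE6.rank → Eˣ} (hc' : c' ∈ (mact ((q : ℤ) • (Aw chevE6 l)ᵀ - 1) (G := Eˣ)).ker) :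
    (mact (cartanM chevE6) c') ^ M' = 1 := by
  classical
  haveI : Fact (Nat.Prime 3) := ⟨Nat.prime_three⟩
  obtain ⟨ω, hω⟩ : ∃ ω : Eˣ, orderOf ω = 3 := exists_prime_orderOf_dvd_card' 3 h3E
  set K := (mact ((q : ℤ) • (Aw chevE6 l)ᵀ - 1) (G := Eˣ)).ker with hK
  let φ : ↥K →* (Fin chevE6.rank → Eˣ) := (mact (cartanM chevE6)).comp K.subtype
  -- the element of the kernel
  have hz1 : Ev ω zE6 ∈ K := by
    rw [hK, MonoidHom.mem_ker, mact_Ev, Ev_eq_one hω]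
    have e1 : ∀ j, (3 : ℤ) ∣ (Aw chevE6 l *ᵥ zE6) j - zE6 j := Aw_modEq h 3 zE6 (fun i => by exact_mod_cast zE6_rad i) hl
    have e2 : ∀ j, ((3 : ℕ) : ℤ) ∣ (zE6 ᵥ* ((q : ℤ) • (Aw chevE6 l)ᵀ - 1)) j := by
      intro j
      have e3 : (zE6 ᵥ* ((q : ℤ) • (Aw chevE6 l)ᵀ - 1)) j = (q : ℤ) * (Aw chevE6 l *ᵥ zE6) j - zE6 j := by
        rw [Matrix.vecMul_sub, Matrix.vecMul_smul, Matrix.vecMul_transpose, Matrix.vecMul_one]
        rfl
      rw [e3]
      obtain ⟨a, ha⟩ := e1 j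
      have e4 : ((q : ℤ)) % 3 = 1 := by omega
      obtain ⟨b, hb⟩ : ∃ b : ℤ, (q : ℤ) = 3 * b + 1 := ⟨(q : ℤ) / 3, by omega⟩
      refine ⟨b * (Aw chevE6 l *ᵥ zE6) j + a, ?_⟩
      rw [hb]
      push_cast
      linear_combination ha
    choose u hu using e2
    exact ⟨u, funext fun j => by rw [hu j]; simp⟩
  have hz2 : φ ⟨_, hz1⟩ = 1 := by
    show mact (cartanM chevE6) (Ev ω zE6) = 1
    rw [mact_Ev, Ev_eq_one hω]
    have e2 : ∀ j, ((3 : ℕ) : ℤ) ∣ (zE6 ᵥ* cartanM chevE6) j := by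
      intro j
      have e3 := zE6_rad j
      have e4 : (zE6 ᵥ* cartanM chevE6) j = ∑ m, zE6 m * chevE6.cartan j (chevE6.simple m) := by
        rw [← Matrix.mulVec_transpose, symE6]
        simp only [Matrix.mulVec, dotProduct]
        exact Finset.sum_congr rfl fun m _ => mul_comm _ _
      rw [e4]
      exact e3
    choose u hu using e2
    exact ⟨u, funext fun j => by rw [hu j]; simp⟩
  have hz3 : (⟨_, hz1⟩ : ↥K) ≠ 1 := by
    intro e
    have e1 : Ev ω zE6 = 1 := congrArg Subtype.val e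
    obtain ⟨u, hu⟩ := (Ev_eq_one hω).1 e1
    have e2 := congrFun hu ⟨0, by decide⟩
    have e3 : zE6 ⟨0, by decide⟩ = 1 := by decide
    rw [e3] at e2
    simp only [Pi.smul_apply, smul_eq_mul] at e2
    omega
  have hz4 : (⟨_, hz1⟩ : ↥K) ^ 3 = 1 := by
    apply Subtype.ext
    funext j
    show (ω ^ zE6 j) ^ 3 = 1
    rw [← zpow_natCast, ← zpow_mul, mul_comm, zpow_mul, zpow_natCast, ← hω, pow_orderOf_eq_one, one_zpow]
  -- the kernel of the map has order divisible by three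
  have hord3 : orderOf (⟨_, hz1⟩ : ↥K) = 3 := orderOf_eq_prime hz4 hz3
  have h3ker : 3 ∣ Nat.card φ.ker := by
    have e1 : orderOf (⟨⟨_, hz1⟩, hz2⟩ : ↥φ.ker) = 3 := by
      rw [← hord3]
      exact Subgroup.orderOf_mk _ _
    rw [← e1]
    exact orderOf_dvd_natCard _
  have hcard : Nat.card φ.ker * Nat.card φ.range = 3 * M' := by
    rw [← Subgroup.index_ker, Subgroup.card_mul_index, hc]
  obtain ⟨d, hd⟩ := h3ker
  have hdvd : Nat.card φ.range ∣ M' := by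
    rw [hd, mul_assoc] at hcard
    exact ⟨d, by
      have := Nat.eq_of_mul_eq_mul_left (by norm_num : 0 < 3) hcard
      rw [← this, mul_comm]⟩
  have e1 : φ ⟨c', hc'⟩ ∈ φ.range := ⟨_, rfl⟩
  have e2 : (⟨_, e1⟩ : ↥φ.range) ^ M' = 1 := by
    obtain ⟨a, ha⟩ := hdvd
    rw [ha, pow_mul, pow_card_eq_one', one_pow]
  exact congrArg Subtype.val e2

end expo

/-! ### The numbers -/

lemma key9 : ∀ x : ZMod 9, (x.val % 3 = 1 → ((x ^ 4 - x ^ 2 + 1) * (x ^ 2 + x + 1)).val = 3) ∧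
    (x.val % 3 ≠ 1 → ((x ^ 4 - x ^ 2 + 1) * (x ^ 2 + x + 1)).val % 3 = 1) := by decide

lemma arith {q : ℕ} (hq : 2 ≤ q) : (q % 3 = 1 ∧ Nat.gcd 3 (q - 1) = 3 ∧ MM q = 3 * (MM q / 3) ∧ (MM q / 3) % 3 = 1) ∨
    (q % 3 ≠ 1 ∧ Nat.gcd 3 (q - 1) = 1 ∧ MM q % 3 = 1) := by
  have h1 : q ^ 2 ≤ q ^ 4 := Nat.pow_le_pow_right (by omega) (by norm_num)
  have e1 : ((MM q : ℕ) : ZMod 9) = (((q : ZMod 9)) ^ 4 - ((q : ZMod 9)) ^ 2 + 1) * (((q : ZMod 9)) ^ 2 + ((q : ZMod 9)) + 1) := by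
    rw [MM, Nat.cast_mul, Nat.cast_add, Nat.cast_sub h1]
    push_cast
    ring
  have e2 : ((MM q : ℕ) : ZMod 9).val = MM q % 9 := ZMod.val_natCast _ _
  have e3 : ((q : ℕ) : ZMod 9).val = q % 9 := ZMod.val_natCast _ _
  have e4 : (q % 9) % 3 = q % 3 := Nat.mod_mod_of_dvd _ (by norm_num)
  obtain ⟨k1, k2⟩ := key9 (q : ZMod 9)
  rw [← e1, e2, e3, e4] at k1 k2
  by_cases hq3 : q % 3 = 1
  · left
    have e5 := k1 hq3
    refine ⟨hq3, ?_, by omega, by omega⟩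
    apply Nat.gcd_eq_left
    omega
  · right
    have e5 := k2 hq3
    refine ⟨hq3, ?_, by omega⟩
    refine (Nat.Prime.coprime_iff_not_dvd Nat.prime_three).2 ?_
    omega

lemma MM_ge {q : ℕ} (hq : 2 ≤ q) : 7 ≤ MM q := by
  have h3 : 1 ≤ q ^ 4 - q ^ 2 + 1 := by omega
  have h4 : 7 ≤ q ^ 2 + q + 1 := by nlinarith
  rw [MM]
  exact h4.trans (Nat.le_mul_of_pos_left _ h3)

universe u

/-- The main construction for `E₆`. -/
theorem main_E6 {F : Type u} [Field F] [Fintype F] (q : ℕ) (hq : Fintype.card F = q) :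
    ∃ H : Subgroup ↥(chevE6.group F), IsCyclic ↥H ∧ Nat.card ↥H = (q ^ 4 - q ^ 2 + 1) * (q ^ 2 + q + 1) / Nat.gcd 3 (q - 1) ∧
      Subgroup.centralizer (H : Set ↥(chevE6.group F)) = H := by
  classical
  have hp : (chevE6, [2, 5, 6, 8, 9, 12]) ∈ typeList := by simp [typeList]
  have hD := mem_list hp
  have h := tab_of_mem hD
  have h2 := tab2_of_mem hD
  have axF := Cfsg.Agent.Lib.Lie.AxOf.ax_of_mem (F := F) hD
  have hq2 : 2 ≤ q := by
    rw [← hq]
    exact Fintype.one_lt_card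
  obtain ⟨r, hrp, hrd, hrk⟩ := zsigmondy_large q 12 hq2 (by norm_num) (fun e => by omega)
  haveI hrf : Fact r.Prime := ⟨hrp⟩
  have hrord := order_of_prim hq2 (by norm_num : 0 < 12) hrd hrk
  obtain ⟨hdr, hr_ge, hrq⟩ := lt_of_order (by norm_num : 0 < 12) hrord
  obtain ⟨Tb, ls, hcert⟩ := cert_list hp
  have hWc : (Wc h).card = [2, 5, 6, 8, 9, 12].prod := by
    have := sum_of_cert h h2 axF hcert 1
    simp only [one_pow, Finset.sum_const, smul_eq_mul, mul_one, evalP_geom_one', List.map_id'] at this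
    exact this
  have hW : (Wc h).card = 51840 := by
    rw [hWc]
    norm_num
  have hrW' : ¬ r ∣ (Wc h).card := by
    rw [hW]
    have e : (51840 : ℕ) = 2 ^ 7 * (3 ^ 4 * 5) := by norm_num
    rw [e]
    intro hd
    rcases (Nat.Prime.dvd_mul hrp).1 hd with h1 | h1
    · have := hrp.dvd_of_dvd_pow h1
      have := Nat.le_of_dvd (by norm_num) this
      omega
    · rcases (Nat.Prime.dvd_mul hrp).1 h1 with h3 | h3
      · have := hrp.dvd_of_dvd_pow h3
        have := Nat.le_of_dvd (by norm_num) this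
        omega
      · have := Nat.le_of_dvd (by norm_num) h3
        omega
  have hrW : ¬ r ∣ [2, 5, 6, 8, 9, 12].prod := by
    rw [← hWc]
    exact hrW'
  obtain ⟨dd, hdd1, hdd2⟩ := dd_list hp F
  rw [hq] at hdd2
  have hkey := card_of_cert h h2 axF hcert (len_list hp) hq hdd2
  have hrG : r ∣ Nat.card ↥(chevE6.group F) := by
    have e1 : r ∣ dd * Nat.card ↥(chevE6.group F) := by
      rw [hkey]
      refine Dvd.dvd.mul_left (hrd.trans ?_) _
      exact List.dvd_prod (List.mem_map.2 ⟨12, by simp, rfl⟩)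
    rcases (hrp.dvd_mul).1 e1 with e2 | e2
    · exact absurd (e2.trans hdd1) hrW
    · exact e2
  obtain ⟨p₀, hp₀⟩ := exists_prime_orderOf_dvd_card' r hrG
  -- the extension
  obtain ⟨E, _, _, σ, ι, hcE, hσ, hσι⟩ := exists_extension F 36 (by norm_num)
  rw [hq] at hcE hσ
  have axE : Ax chevE6 E := Cfsg.Agent.Lib.Lie.AxOf.ax_of_mem (F := E) hD
  have hq12 : (q : ZMod r) ^ 12 = 1 := (dvd_iff_pow_eq_one hq2).1 hrd
  have hE1 : ((Fintype.card E : ℕ) : ZMod r) = 1 := by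
    rw [hcE]
    push_cast
    have e : (q : ZMod r) ^ 36 = ((q : ZMod r) ^ 12) ^ 3 := by ring
    rw [e, hq12, one_pow]
  obtain ⟨Q₀, hQ₀⟩ := exists_sylow_diag h h2 axE hE1 hrW'
  let H' : Subgroup ↥(chevE6.group E) := (chevE6.diagonalSubgroup E).subgroupOf (chevE6.group E)
  have hQH' : (Q₀ : Subgroup ↥(chevE6.group E)) ≤ H' := fun x hx => hQ₀ x hx
  have hH'ab : ∀ a ∈ H', ∀ b ∈ H', a * b = b * a := by
    intro a ha b hb
    apply Subtype.ext
    exact diagonal_comm axE h ha hb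
  have hpow : ∀ x : ↥(chevE6.group E), (x : GL chevE6.Idx E) ∈ chevE6.diagonalSubgroup E → ∀ k : ℕ, x ^ (r ^ k) = 1 →
      x ∈ (Q₀ : Subgroup ↥(chevE6.group E)) := fun x hx k hk => mem_sylow_of_pow Q₀ H' hQH' hH'ab hx hk
  have hrE : r ∣ Nat.card Eˣ := by
    rw [Nat.card_eq_fintype_card, Fintype.card_units, hcE]
    have e : (q ^ 12 - 1) ∣ (q ^ 12) ^ 3 - 1 := by simpa using Nat.sub_one_dvd_pow_sub_one (q ^ 12) 3 |>.trans (dvd_refl _)
    rw [show q ^ 36 = (q ^ 12) ^ 3 by ring]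
    exact hrd.trans e
  obtain ⟨lam, hlam⟩ : ∃ lam : Eˣ, orderOf lam = r := exists_prime_orderOf_dvd_card' r hrE
  have hlr : lam ^ r = 1 := by rw [← hlam]; exact pow_orderOf_eq_one _
  -- the elements of order prime to three are in the torus
  have hcubeR : ∀ y : ℕ → Eˣ, y ^ r = 1 → tor chevE6 y ∈ chevE6.diagonalSubgroup E := by
    intro y hy
    have hc3 : Nat.Coprime 3 r := (Nat.Prime.coprime_iff_not_dvd Nat.prime_three).2 (fun e => by
      have := (Nat.prime_dvd_prime_iff_eq Nat.prime_three hrp).1 e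
      omega)
    obtain ⟨m, -, hm⟩ := Nat.exists_mul_mod_eq_one_of_coprime hc3 (by omega)
    have e1 : y = (y ^ m) ^ 3 := by
      rw [← pow_mul, mul_comm, pow_eq_pow_mod _ hy, hm, pow_one]
    rw [e1]
    exact tor_cube h h2 axE _
  have hsep : ∀ s, s < chevE6.nroots → ∃ y : ℕ → Eˣ, ∃ hy : tor chevE6 y ∈ chevE6.group E,
      (⟨tor chevE6 y, hy⟩ : ↥(chevE6.group E)) ∈ (Q₀ : Subgroup ↥(chevE6.group E)) ∧ chi chevE6 y s ≠ 1 := by
    intro s hs
    obtain ⟨i, hi, hne⟩ := exists_coef_ne h hs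
    have hci : ¬ (r : ℤ) ∣ coef chevE6 s i := by
      intro e2
      rcases coefOK_all hp s hs i hi with e3 | e3
      · exact hne e3
      · apply hrW
        refine dvd_trans ?_ e3
        exact Int.natCast_dvd.mp e2
    let y : ℕ → Eˣ := fun j => if j = i then lam else 1
    have hy1 : ∀ j, y j ^ r = 1 := by
      intro j
      by_cases hj : j = i
      · simp [y, hj, hlr]
      · simp [y, hj]
    have hyH : tor chevE6 y ∈ chevE6.diagonalSubgroup E := hcubeR y (funext hy1)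
    have hyG := diagonal_le_group h axE hyH
    refine ⟨y, hyG, hpow _ hyH 1 ?_, ?_⟩
    · apply Subtype.ext
      show tor chevE6 y ^ (r ^ 1) = 1
      rw [pow_one, tor_pow]
      have : y ^ r = 1 := funext hy1
      rw [this, tor_one]
    · rw [chi, Finset.prod_eq_single i]
      · simp only [y, if_true]
        intro e
        have := orderOf_dvd_iff_zpow_eq_one.mpr e
        rw [hlam] at this
        exact hci this
      · intro j _ hj
        simp [y, hj]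
      · intro hn
        exact absurd (Finset.mem_range.mpr hi) hn
  -- the element
  let ιh := iotaHom h axF axE ι
  have hιinj : Function.Injective ιh := iotaHom_injective h axF axE ι
  have hordι : orderOf (ιh p₀) = r := by
    rw [orderOf_injective ιh hιinj, hp₀]
  let P' : Subgroup ↥(chevE6.group E) := Subgroup.zpowers (ιh p₀)
  have hP' : IsPGroup r P' := by
    apply IsPGroup.of_card (n := 1)
    rw [pow_one, Nat.card_zpowers, hordι]
  have hfix : ∀ p ∈ P', sAut h axE σ p = p := by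
    rintro _ ⟨k, rfl⟩
    show sAut h axE σ (ιh p₀ ^ k) = ιh p₀ ^ k
    rw [map_zpow, sAut_iota h axF axE ι σ hσι]
  obtain ⟨x, l, hl, h1, h4⟩ := twist_chev h h2 axE σ hσ Q₀ hQ₀ hpow hsep P' hP' hfix
  have hmem : ιh p₀ ∈ P' := Subgroup.mem_zpowers _
  have hyH₀ : ((x⁻¹ * ιh p₀ * x : ↥(chevE6.group E)) : GL chevE6.Idx E) ∈ chevE6.diagonalSubgroup E := hQ₀ _ (h1 _ hmem)
  obtain ⟨y₀, hy₀⟩ := exists_tor_of_mem axE h hyH₀
  have hyH : tor chevE6 y₀ ∈ chevE6.diagonalSubgroup E := hy₀ ▸ hyH₀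
  have hrel : ∀ t, t < chevE6.nroots → chi chevE6 y₀ (wWord chevE6 l t) = chi chevE6 y₀ t ^ q := fun t ht => h4 _ hmem y₀ hy₀ t ht
  have hrels : ∀ k : Fin chevE6.rank, chi chevE6 y₀ (wWord chevE6 l (chevE6.simple k)) = chi chevE6 y₀ (chevE6.simple k) ^ q :=
    fun k => hrel _ (h.simple_lt k k.isLt)
  have hy₀pow : ∀ j, j < chevE6.rank → y₀ j ^ r = 1 := by
    intro j hj
    have e1 : (x⁻¹ * ιh p₀ * x) ^ r = 1 := by
      have e2 : x⁻¹ * ιh p₀ * x = MulAut.conj x⁻¹ (ιh p₀) := by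
        rw [MulAut.conj_apply, inv_inv]
      rw [e2, ← map_pow, ← map_pow, ← hp₀, pow_orderOf_eq_one]
      simp
    have e3 : tor chevE6 (y₀ ^ r) = 1 := by
      rw [← tor_pow, ← hy₀]
      exact congrArg Subtype.val e1
    simpa using eq_one_of_tor h e3 hj
  have hn : ∀ j : Fin chevE6.rank, ∃ k : ℕ, lam ^ k = y₀ j := fun j => exists_exp hlam _ (hy₀pow j j.isLt)
  choose n hn using hn
  let c : Fin chevE6.rank → ℤ := fun j => n j
  have hc : ∀ j : Fin chevE6.rank, lam ^ c j = y₀ j := fun j => by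
    show lam ^ ((n j : ℕ) : ℤ) = _
    rw [zpow_natCast, hn]
  have hcne : ∃ j, ¬ (r : ℤ) ∣ c j := by
    by_contra hne
    push Not at hne
    have e1 : ∀ j, j < chevE6.rank → y₀ j = (1 : ℕ → Eˣ) j := by
      intro j hj
      rw [← hc ⟨j, hj⟩, Pi.one_apply]
      exact orderOf_dvd_iff_zpow_eq_one.mp (by rw [hlam]; exact hne ⟨j, hj⟩)
    have e2 : tor chevE6 y₀ = tor chevE6 1 := (tor_eq_iff h).2 e1
    rw [tor_one] at e2
    have e3 : x⁻¹ * ιh p₀ * x = 1 := Subtype.ext (hy₀.trans e2)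
    have e4 : ιh p₀ = 1 := by
      have e5 : ιh p₀ = x * (x⁻¹ * ιh p₀ * x) * x⁻¹ := by group
      rw [e5, e3]
      group
    rw [e4, orderOf_one] at hordι
    exact hrp.one_lt.ne hordι
  obtain ⟨-, -, hnz, -⟩ := lattice_E6 h hW hl hrord hcne (eig_mem h hlam hc hrels)
  have hreg : ∀ s, s < chevE6.nroots → chi chevE6 y₀ s ≠ 1 := by
    intro s hs e
    exact hnz s hs ((chi_eq_one_iff hlam hc s).1 e)
  have hstab : ∀ π ∈ Wp h (Set.Iio chevE6.rank), (∀ s : Fin chevE6.nroots, chi chevE6 y₀ (π s) = chi chevE6 y₀ s) → π = 1 :=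
    fun π hπ hf => stab_trivial' h h2 axE hlam hc hrW' hreg rhoE6 rhoE6_spec hπ hf
  obtain ⟨l₂, hl₂, hrel₂, hI, hII⟩ := torus_struct' h h2 axF axE ι σ hσ (fixed_iff hq hq2 σ ι hσ hσι) p₀ x y₀ hyH hy₀ hreg hstab
  obtain ⟨hcp, hA12, -, k₀, hdet⟩ := lattice_E6 h hW hl₂ hrord hcne (eig_mem h hlam hc (fun k => hrel₂ _ (h.simple_lt k k.isLt)))
  -- the kernels
  set A := Aw chevE6 l₂ with hA
  have hA36 : A ^ 36 = 1 := by
    rw [show (36 : ℕ) = 12 * 3 from rfl, pow_mul, hA12, one_pow]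
  have hAT36 : Aᵀ ^ 36 = 1 := by
    rw [← Matrix.transpose_pow, hA36, Matrix.transpose_one]
  set K := (mact ((q : ℤ) • (1 : Matrix (Fin chevE6.rank) (Fin chevE6.rank) ℤ) - A) (G := Eˣ)).ker with hK
  have hcardK : Nat.card K = MM q := by
    rw [hK, card_ker_gen hq2 (by norm_num) hcE A hA36, det1 hcp (by omega)]
  have hcardP : Nat.card (mact ((q : ℤ) • Aᵀ - 1) (G := Eˣ)).ker = MM q := by
    rw [card_ker_gen' hq2 (by norm_num) hcE Aᵀ hAT36, det2 (Aw_iso h siE6 hl₂) (by rw [detE6]; norm_num) hA12 q, det1 hcp (by omega)]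
  haveI hcycK : IsCyclic ↥K := isCyclic_ker h hdet
  -- the arithmetic
  set M' := MM q / Nat.gcd 3 (q - 1) with hM'
  have hMge : 7 ≤ MM q := MM_ge hq2
  have hM'3 : M' % 3 = 1 ∧ 1 < M' ∧ M' ∣ MM q := by
    rcases arith hq2 with ⟨-, e2, e3, e4⟩ | ⟨-, e2, e3⟩
    · rw [hM', e2]
      exact ⟨e4, by omega, ⟨3, by omega⟩⟩
    · rw [hM', e2, Nat.div_one]
      exact ⟨e3, by omega, dvd_rfl⟩
  obtain ⟨hM1, hM2, hM3⟩ := hM'3
  have hgcd : Nat.gcd (Nat.card K) M' = M' := by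
    rw [hcardK]
    exact Nat.gcd_eq_right hM3
  -- the subgroup of the kernel
  let K₁ : Subgroup ↥K := (powMonoidHom M' : ↥K →* ↥K).ker
  have hcardK₁ : Nat.card K₁ = M' := by
    have := IsCyclic.card_powMonoidHom_ker (G := ↥K) M'
    rw [hgcd] at this
    exact this
  let Λ : (Fin chevE6.rank → Eˣ) →* GL chevE6.Idx E :=
    (MulAut.conj (x : GL chevE6.Idx E)).toMonoidHom.comp ((torHom chevE6).comp (extU chevE6))
  have hΛ : ∀ v, Λ v = (x : GL chevE6.Idx E) * tor chevE6 (extU chevE6 v) * (x : GL chevE6.Idx E)⁻¹ := fun v => rfl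
  have hΛinj : Function.Injective Λ := by
    intro a b e
    rw [hΛ, hΛ] at e
    have e1 := mul_left_cancel (mul_right_cancel e)
    funext j
    have e3 := (tor_eq_iff h).1 e1 j j.isLt
    rwa [extU_apply, extU_apply] at e3
  let Λ' : ↥K →* GL chevE6.Idx E := Λ.comp K.subtype
  have hΛ'inj : Function.Injective Λ' := hΛinj.comp Subtype.val_injective
  let ιG : ↥(chevE6.group F) →* GL chevE6.Idx E := (mapX chevE6 ι).comp (chevE6.group F).subtype
  have hιGinj : Function.Injective ιG := (mapX_injective ι).comp Subtype.val_injective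
  set T := Subgroup.centralizer ({p₀} : Set ↥(chevE6.group F)) with hT
  have hmain : T.map ιG = K₁.map Λ' := by
    apply le_antisymm
    · rintro _ ⟨g, hg, rfl⟩
      obtain ⟨v', hv', e1, e2⟩ := hI g hg
      refine ⟨⟨v', hv'⟩, ?_, e1.symm⟩
      show (⟨v', hv'⟩ : ↥K) ^ M' = 1
      apply Subtype.ext
      show v' ^ M' = 1
      rcases arith hq2 with ⟨e3, e4, e5, -⟩ | ⟨-, e4, -⟩
      · have hs3 : ∀ s : E, s ^ 3 = 1 → σ s = s := by
          intro s hs
          rw [hσ]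
          have e6 : q = 3 * (q / 3) + 1 := by omega
          rw [e6, pow_succ, pow_mul, hs, one_pow, one_mul]
        obtain ⟨c', hc', e6⟩ := e2 hs3
        rw [e6]
        have h3E : 3 ∣ Nat.card Eˣ := by
          rw [Nat.card_eq_fintype_card, Fintype.card_units, hcE]
          have e7 : q - 1 ∣ q ^ 36 - 1 := by simpa using Nat.sub_one_dvd_pow_sub_one q 36 |>.trans (dvd_refl _)
          exact (show 3 ∣ q - 1 by omega).trans e7
        refine pow_eq_one_of_image h hl₂ e3 h3E ?_ hc'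
        rw [hcardP, hM', e4]
        exact e5
      · have e5 : M' = Nat.card K := by
          rw [hcardK, hM', e4, Nat.div_one]
        have e6 := pow_card_eq_one' (x := (⟨v', hv'⟩ : ↥K))
        rw [← e5] at e6
        exact congrArg Subtype.val e6
    · rintro _ ⟨v, hv, rfl⟩
      have hv1 : v ^ M' = 1 := hv
      have hcop : Nat.Coprime 9 M' := by
        have e1 : Nat.Coprime 3 M' := (Nat.Prime.coprime_iff_not_dvd Nat.prime_three).2 (by omega)
        have e2 : (9 : ℕ) = 3 ^ 2 := by norm_num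
        rw [e2]
        exact Nat.Coprime.pow_left 2 e1
      obtain ⟨m, -, hm⟩ := Nat.exists_mul_mod_eq_one_of_coprime hcop hM2
      have e3 : (v ^ m) ^ 9 = v := by
        rw [← pow_mul, mul_comm, pow_eq_pow_mod _ hv1, hm, pow_one]
      obtain ⟨g, hg, e4⟩ := hII _ (v ^ m).2
      refine ⟨g, hg, ?_⟩
      have e5 : ((v ^ m : ↥K) : Fin chevE6.rank → Eˣ) ^ 9 = (v : Fin chevE6.rank → Eˣ) := congrArg Subtype.val e3
      rw [e5] at e4
      exact e4
  have hcardT : Nat.card T = M' := by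
    rw [← Subgroup.card_map_of_injective hιGinj, hmain, Subgroup.card_map_of_injective hΛ'inj, hcardK₁]
  have hcyc : IsCyclic T := by
    let e1 : T ≃* ↥(T.map ιG) := T.equivMapOfInjective ιG hιGinj
    let e2 : K₁ ≃* ↥(K₁.map Λ') := K₁.equivMapOfInjective Λ' hΛ'inj
    let e3 : T ≃* K₁ := (e1.trans (MulEquiv.subgroupCongr hmain)).trans e2.symm
    exact isCyclic_of_injective e3.toMonoidHom e3.injective
  have hcomm : ∀ a ∈ T, ∀ b ∈ T, a * b = b * a := by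
    intro a ha b hb
    obtain ⟨v₁, _, hv₁⟩ : ιG a ∈ K₁.map Λ' := by
      rw [← hmain]
      exact ⟨a, ha, rfl⟩
    obtain ⟨v₂, _, hv₂⟩ : ιG b ∈ K₁.map Λ' := by
      rw [← hmain]
      exact ⟨b, hb, rfl⟩
    apply hιGinj
    rw [map_mul, map_mul, ← hv₁, ← hv₂, ← map_mul, ← map_mul, mul_comm]
  refine ⟨T, hcyc, hcardT, ?_⟩
  apply le_antisymm
  · intro g hg
    rw [hT, Subgroup.mem_centralizer_singleton_iff]
    have := Subgroup.mem_centralizer_iff.1 hg p₀ (Subgroup.mem_centralizer_singleton_iff.2 rfl)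
    exact this.symm
  · intro g hg
    rw [Subgroup.mem_centralizer_iff]
    intro a ha
    exact hcomm a ha g hg

end Cfsg.Agent.Lib.KS71.E6n
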