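/-
The minuscule module of dimension 56 for the Chevalley datum of type `E₇`: the symplectic form.
-/
import Mathlib
import Cfsg.Agent.Lib.KS71.E7c
import Cfsg.Agent.Lib.KS71.ChevFix

set_option autoImplicit false
set_option linter.unusedSectionVars false
set_option linter.unusedVariables false
set_option maxRecDepth 100000

namespace Cfsg.Agent.Lib.KS71.E7d

open scoped Matrix MatrixGroups
open Cfsg Cfsg.Lie Cfsg.Lie.ChevalleyDatum Cfsg.Agent.Lib.Chev.Tables Cfsg.Agent.Lib.KS71.E7a Cfsg.Agent.Lib.KS71.E7b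
open Cfsg.Agent.Lib.KS71.E7c

variable {E : Type*} [Field E]

lemma pr_chk (i : Fin 56) : prN i < 56 ∧ prN (prN i) = i ∧ sgS (prN i) = - sgS i ∧ ∀ k, k < 7 → wtN (prN i) k = - wtN i k := by
  have h := allBelow_spec chkPr_true i i.isLt
  simp only [Bool.and_eq_true, decide_eq_true_eq] at h
  obtain ⟨⟨⟨h1, h2⟩, h3⟩, h4⟩ := h
  exact ⟨h1, h2, h3, fun k hk => of_decide_eq_true (allBelow_spec h4 k hk)⟩

lemma eE_apply (r : ℕ) (i j : Fin 56) : eE E r i j = if sf r i = j then (sgnN r i : E) else 0 := by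
  show ((eM r i j : ℤ) : E) = _
  rw [eM]
  split_ifs <;> simp

/-- The opposite weight as an element of `Fin`. -/
def prF (i : Fin 56) : Fin 56 := ⟨prN i, (pr_chk i).1⟩

lemma prF_prF (i : Fin 56) : prF (prF i) = i := Fin.ext (pr_chk i).2.1

lemma sgS_pr (i : Fin 56) : sgS (prF i) = - sgS i := (pr_chk i).2.2.1

lemma pr_wt (i : Fin 56) {k : ℕ} (hk : k < 7) : wtN i k + wtN (prF i) k = 0 := by
  have := (pr_chk i).2.2.2 k hk
  show wtN i k + wtN (prN i) k = 0
  omega

/-- The symplectic form. -/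
noncomputable def Bf (v w : Fin 56 → E) : E := ∑ i : Fin 56, ((sgS (i : ℕ) : ℤ) : E) * v i * w (prF i)

lemma sym_chk {r : ℕ} (hr : r < 126) (i : Fin 56) : sgnN r i * sgnN r (prF i) = 0 ∧
    (sgnN r i ≠ 0 → sf r (prF (sf r i)) = prF i ∧ sgnN r i * sgS i + sgS (sf r i) * sgnN r (prF (sf r i)) = 0) := by
  have h := allBelow_spec (allBelow_spec chkSym_all r hr) i i.isLt
  simp only [Bool.and_eq_true, Bool.or_eq_true, decide_eq_true_eq] at h
  refine ⟨h.1, fun hi => ?_⟩
  rcases h.2 with h2 | h2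
  · exact absurd h2 hi
  · exact ⟨Fin.ext h2.1, h2.2⟩

lemma vv_src_eq (r : ℕ) (v : Fin 56 → E) (i : Fin 56) : (eE E r *ᵥ v) i = (sgnN r i : E) * v (sf r i) := by
  rw [Matrix.mulVec, dotProduct, Finset.sum_eq_single (sf r i)]
  · have : eE E r i (sf r i) = (sgnN r i : E) := by
      show ((eM r i (sf r i) : ℤ) : E) = _
      rw [eM, if_pos rfl]
    rw [this]
  · intro k _ hk
    have : eE E r i k = 0 := by
      show ((eM r i k : ℤ) : E) = _
      rw [eM, if_neg (Ne.symm hk)]
      simp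
    rw [this, zero_mul]
  · simp

lemma Bf_add_left (u v w : Fin 56 → E) : Bf (u + v) w = Bf u w + Bf v w := by
  simp only [Bf, Pi.add_apply, mul_add, add_mul, Finset.sum_add_distrib]

lemma Bf_add_right (u v w : Fin 56 → E) : Bf u (v + w) = Bf u v + Bf u w := by
  simp only [Bf, Pi.add_apply, mul_add, Finset.sum_add_distrib]

lemma Bf_smul_left (t : E) (v w : Fin 56 → E) : Bf (t • v) w = t * Bf v w := by
  simp only [Bf, Pi.smul_apply, smul_eq_mul, Finset.mul_sum]
  refine Finset.sum_congr rfl fun i _ => ?_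
  ring

lemma Bf_smul_right (t : E) (v w : Fin 56 → E) : Bf v (t • w) = t * Bf v w := by
  simp only [Bf, Pi.smul_apply, smul_eq_mul, Finset.mul_sum]
  refine Finset.sum_congr rfl fun i _ => ?_
  ring

/-- The entries of a root matrix. -/
def eZ (r : ℕ) (a b : Fin 56) : ℤ := if sf r a = b then sgnN r a else 0

lemma eE_eq (r : ℕ) (a b : Fin 56) : eE E r a b = (eZ r a b : E) := rfl

lemma eZ_skew {r : ℕ} (hr : r < 126) (a b : Fin 56) :
    eZ r (prF b) a * sgS (prF b) + sgS a * eZ r (prF a) b = 0 := by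
  have hsb : sgS b ≠ 0 := by
    unfold sgS
    split_ifs <;> norm_num
  unfold eZ
  by_cases h1 : sf r (prF b) = a
  · rw [if_pos h1]
    by_cases h0 : sgnN r (prF b) = 0
    · rw [h0, zero_mul, zero_add]
      by_cases h2 : sf r (prF a) = b
      · rw [if_pos h2]
        by_cases h3 : sgnN r (prF a) = 0
        · rw [h3, mul_zero]
        · have h4 := ((sym_chk hr (prF a)).2 h3).2
          rw [h2, h0, mul_zero, add_zero] at h4
          exact absurd ((mul_eq_zero.mp h4).resolve_left h3) (by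
            rw [sgS_pr]
            unfold sgS
            split_ifs <;> norm_num)
      · rw [if_neg h2, mul_zero]
    · obtain ⟨h3, h4⟩ := (sym_chk hr (prF b)).2 h0
      rw [h1] at h3 h4
      rw [prF_prF] at h3
      rw [if_pos h3]
      exact h4
  · rw [if_neg h1, zero_mul, zero_add]
    by_cases h2 : sf r (prF a) = b
    · rw [if_pos h2]
      by_cases h3 : sgnN r (prF a) = 0
      · rw [h3, mul_zero]
      · have h4 := ((sym_chk hr (prF a)).2 h3).1
        rw [h2, prF_prF] at h4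
        exact absurd h4 h1
    · rw [if_neg h2, mul_zero]

/-- The root matrices are skew for the form. -/
lemma Bf_skew {r : ℕ} (hr : r < 126) (v w : Fin 56 → E) : Bf (eE E r *ᵥ v) w + Bf v (eE E r *ᵥ w) = 0 := by
  have e1 : Bf (eE E r *ᵥ v) w = ∑ b, ∑ a, (sgS (prF b) : E) * ((eZ r (prF b) a : E) * v a) * w b := by
    rw [Bf]
    refine (Finset.sum_equiv (⟨prF, prF, prF_prF, prF_prF⟩ : Fin 56 ≃ Fin 56) (by simp) ?_)
    intro i _
    simp only [Equiv.coe_fn_mk, prF_prF, Matrix.mulVec, dotProduct, eE_eq, Finset.mul_sum, Finset.sum_mul]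
  have e2 : Bf v (eE E r *ᵥ w) = ∑ a : Fin 56, ∑ b, ((sgS (a : ℕ) : ℤ) : E) * v a * ((eZ r (prF a) b : E) * w b) := by
    rw [Bf]
    refine Finset.sum_congr rfl fun a _ => ?_
    simp only [Matrix.mulVec, dotProduct, eE_eq, Finset.mul_sum]
  rw [e1, e2, Finset.sum_comm, ← Finset.sum_add_distrib]
  apply Finset.sum_eq_zero
  intro a _
  rw [← Finset.sum_add_distrib]
  apply Finset.sum_eq_zero
  intro b _
  have h := congrArg (fun z : ℤ => (z : E)) (eZ_skew hr a b)
  push_cast at h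
  linear_combination (v a * w b) * h

lemma Bf_sq {r : ℕ} (hr : r < 126) (v w : Fin 56 → E) : Bf (eE E r *ᵥ v) (eE E r *ᵥ w) = 0 := by
  rw [Bf]
  apply Finset.sum_eq_zero
  intro i _
  rw [vv_src_eq, vv_src_eq]
  have h := congrArg (fun z : ℤ => (z : E)) (sym_chk hr i).1
  push_cast at h
  linear_combination ((sgS i : E) * v (sf r i) * w (sf r (prF i))) * h

/-- The root elements preserve the form. -/
theorem Bf_root {r : ℕ} (hr : r < 126) (t : E) (v w : Fin 56 → E) :
    Bf ((1 + t • eE E r) *ᵥ v) ((1 + t • eE E r) *ᵥ w) = Bf v w := by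
  simp only [Matrix.add_mulVec, Matrix.one_mulVec, Matrix.smul_mulVec]
  rw [Bf_add_left, Bf_add_right, Bf_add_right, Bf_smul_left, Bf_smul_right, Bf_smul_left, Bf_smul_right, Bf_sq hr]
  have h := Bf_skew hr v w
  linear_combination t * h

/-- The test vectors. -/
noncomputable def bV0 : Fin 56 → E := Pi.single 0 1

noncomputable def bV1 : Fin 56 → E := Pi.single (prF 0) 1

lemma Bf_test : Bf (bV0 : Fin 56 → E) bV1 = 1 := by
  rw [Bf, Finset.sum_eq_single 0]
  · have e : sgS 0 = 1 := by decide +kernel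
    simp [bV0, bV1, e]
  · intro b _ hb
    simp [bV0, hb]
  · simp

lemma Bf_scalar (s : E) (v w : Fin 56 → E) : Bf (s • v) (s • w) = s ^ 2 * Bf v w := by
  rw [Bf_smul_left, Bf_smul_right]
  ring

end Cfsg.Agent.Lib.KS71.E7d
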