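/-
A lattice with an even positive definite form and an isometry annihilated by `Φ₁₂ (X³ + 1)`:
the inner products of a vector of norm two with its images.
-/
import Mathlib
import Cfsg.Agent.Lib.KS71.E6j

set_option autoImplicit false
set_option linter.unusedSectionVars false
set_option linter.unusedVariables false

namespace Cfsg.Agent.Lib.KS71.E7j

open scoped Matrix
open Cfsg.Agent.Lib.KS71.HCh Cfsg.Agent.Lib.KS71.E6j

variable {n : ℕ} {G A : Matrix (Fin n) (Fin n) ℤ}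

lemma av_one' (α : Fin n → ℤ) : av A α 1 = A *ᵥ α := by
  rw [show (1 : ℕ) = 0 + 1 from rfl, av_succ, av_zero]

lemma B_zero_right' (x : Fin n → ℤ) : B G x 0 = 0 := by simp [B]

lemma B_pow_iso (hiso : Aᵀ * G * A = G) (k : ℕ) (x y : Fin n → ℤ) : B G (A ^ k *ᵥ x) (A ^ k *ᵥ y) = B G x y := by
  induction k with
  | zero => simp
  | succ k ih => rw [pow_succ', ← Matrix.mulVec_mulVec, ← Matrix.mulVec_mulVec, B_iso hiso, ih]

/-- The vectors in the kernel of `Φ₁₂`. -/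
def IsV4 (A : Matrix (Fin n) (Fin n) ℤ) (δ : Fin n → ℤ) : Prop := av A δ 4 - av A δ 2 + av A δ 0 = 0

section vfour

variable (hG : Gᵀ = G) (hiso : Aᵀ * G * A = G)

include hG hiso in
/-- The inner products of a vector of norm two in the kernel of `Φ₁₂`. -/
lemma v4_vals {δ : Fin n → ℤ} (hδ : B G δ δ = 2) (h4 : IsV4 A δ) :
    tt G A δ 2 = 1 ∧ tt G A δ 3 = 0 ∧ tt G A δ 4 = -1 := by
  have h0 : tt G A δ 0 = 2 := by simpa [tt] using hδ
  have key : ∀ j, B G (av A δ j) (av A δ 4) - B G (av A δ j) (av A δ 2) + B G (av A δ j) (av A δ 0) = 0 := by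
    intro j
    have e := congrArg (B G (av A δ j)) h4
    rw [B_add_right, B_sub_right', B_zero_right'] at e
    exact e
  have k0 := key 0
  have k1 := key 1
  have k2 := key 2
  have b00 : B G (av A δ 0) (av A δ 0) = tt G A δ 0 := bb_add hiso δ 0 0
  have b02 : B G (av A δ 0) (av A δ 2) = tt G A δ 2 := bb_add hiso δ 0 2
  have b04 : B G (av A δ 0) (av A δ 4) = tt G A δ 4 := bb_add hiso δ 0 4
  have b10 : B G (av A δ 1) (av A δ 0) = tt G A δ 1 := bb_add' hG hiso δ 0 1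
  have b12 : B G (av A δ 1) (av A δ 2) = tt G A δ 1 := bb_add hiso δ 1 1
  have b14 : B G (av A δ 1) (av A δ 4) = tt G A δ 3 := bb_add hiso δ 1 3
  have b20 : B G (av A δ 2) (av A δ 0) = tt G A δ 2 := bb_add' hG hiso δ 0 2
  have b22 : B G (av A δ 2) (av A δ 2) = tt G A δ 0 := bb_add hiso δ 2 0
  have b24 : B G (av A δ 2) (av A δ 4) = tt G A δ 2 := bb_add hiso δ 2 2
  rw [b04, b02, b00] at k0
  rw [b14, b12, b10] at k1
  rw [b24, b22, b20] at k2
  refine ⟨?_, ?_, ?_⟩ <;> omega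

include hiso in
/-- A vector with `A³ x = - x` is orthogonal to the kernel of `Φ₁₂`. -/
lemma perp_cube_v4 {x δ : Fin n → ℤ} (hx : av A x 3 = -x) (h4 : IsV4 A δ) :
    B G x δ = 0 ∧ B G x (av A δ 1) = 0 ∧ B G x (av A δ 2) = 0 ∧ B G x (av A δ 3) = 0 := by
  have hx3 : A ^ 3 *ᵥ x = -x := hx
  have e3 : ∀ k, B G x (av A δ (k + 3)) = - B G x (av A δ k) := by
    intro k
    have e1 : av A δ (k + 3) = A ^ 3 *ᵥ av A δ k := by
      rw [add_comm, av_add]
    have e2 := B_pow_iso hiso 3 x (av A δ k)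
    rw [e1, ← e2, hx3]
    have e4 : (-x : Fin n → ℤ) = (-1 : ℤ) • x := by simp
    rw [e4, B_smul_left]
    have e5 : B G ((-1 : ℤ) • x) (A ^ 3 *ᵥ av A δ k) = - B G x (A ^ 3 *ᵥ av A δ k) := by
      rw [B_smul_left]
      ring
    omega
  have e4 : ∀ k, B G x (av A δ (k + 4)) - B G x (av A δ (k + 2)) + B G x (av A δ k) = 0 := by
    intro k
    have e5 : A ^ k *ᵥ (av A δ 4 - av A δ 2 + av A δ 0) = 0 := by
      rw [h4, Matrix.mulVec_zero]
    rw [Matrix.mulVec_add, Matrix.mulVec_sub, ← av_add, ← av_add, ← av_add, add_zero] at e5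
    have e6 := congrArg (B G x) e5
    rw [B_add_right, B_sub_right', B_zero_right'] at e6
    exact e6
  have f3 := e3 0
  have f4 := e3 1
  have f5 := e3 2
  have f6 := e3 3
  have r0 := e4 0
  have r1 := e4 1
  have r2 := e4 2
  simp only [zero_add, Nat.reduceAdd] at f3 f4 f5 f6 r0 r1 r2
  have a0 : av A δ 0 = δ := av_zero δ
  rw [a0] at f3 r0
  refine ⟨?_, ?_, ?_, ?_⟩ <;> omega

end vfour

section relation

variable (hG : Gᵀ = G) (hiso : Aᵀ * G * A = G) (hpsd : ∀ x : Fin n → ℤ, 0 ≤ B G x x) (hdef : ∀ x : Fin n → ℤ, B G x x = 0 → x = 0)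
variable {β : Fin n → ℤ} (hβ : B G β β = 2)
variable (hP : A ^ 7 - A ^ 5 + A ^ 4 + A ^ 3 - A ^ 2 + 1 = 0)

include hP in
lemma A12_of : A ^ 12 = 1 := by
  have e : A ^ 12 - 1 = (A ^ 5 + A ^ 3 - A ^ 2 - 1) * (A ^ 7 - A ^ 5 + A ^ 4 + A ^ 3 - A ^ 2 + 1) := by
    noncomm_ring
  rw [hP, mul_zero] at e
  exact sub_eq_zero.1 e

include hP in
lemma rel_vec7 (α : Fin n → ℤ) : av A α 7 - av A α 5 + av A α 4 + av A α 3 - av A α 2 + av A α 0 = 0 := by
  have e : (A ^ 7 - A ^ 5 + A ^ 4 + A ^ 3 - A ^ 2 + 1) *ᵥ α = 0 := by rw [hP]; simp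
  simp only [Matrix.add_mulVec, Matrix.sub_mulVec, Matrix.one_mulVec] at e
  simpa [av] using e

include hG hiso hP hβ in
/-- The values of the inner products. -/
lemma t_vals7 : tt G A β 0 = 2 ∧ tt G A β 4 = tt G A β 2 - tt G A β 3 - 2 ∧
    tt G A β 5 = 2 + tt G A β 3 - 2 * tt G A β 2 - tt G A β 1 ∧ tt G A β 6 = -2 - 2 * tt G A β 3 := by
  have h0 : tt G A β 0 = 2 := by simpa [tt] using hβ
  have key : ∀ j, B G (av A β j) (av A β 7) - B G (av A β j) (av A β 5) + B G (av A β j) (av A β 4) + B G (av A β j) (av A β 3) -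
      B G (av A β j) (av A β 2) + B G (av A β j) (av A β 0) = 0 := by
    intro j
    have e := congrArg (B G (av A β j)) (rel_vec7 hP β)
    rw [B_add_right, B_sub_right', B_add_right, B_add_right, B_sub_right', B_zero_right'] at e
    exact e
  have p7 : tt G A β 7 = tt G A β 5 := t_per hG hiso (A12_of hP) (k := 5) (by norm_num)
  have k0 := key 0
  have k1 := key 1
  have k2 := key 2
  have b00 : B G (av A β 0) (av A β 0) = tt G A β 0 := bb_add hiso β 0 0
  have b02 : B G (av A β 0) (av A β 2) = tt G A β 2 := bb_add hiso β 0 2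
  have b03 : B G (av A β 0) (av A β 3) = tt G A β 3 := bb_add hiso β 0 3
  have b04 : B G (av A β 0) (av A β 4) = tt G A β 4 := bb_add hiso β 0 4
  have b05 : B G (av A β 0) (av A β 5) = tt G A β 5 := bb_add hiso β 0 5
  have b07 : B G (av A β 0) (av A β 7) = tt G A β 7 := bb_add hiso β 0 7
  have b10 : B G (av A β 1) (av A β 0) = tt G A β 1 := bb_add' hG hiso β 0 1
  have b12 : B G (av A β 1) (av A β 2) = tt G A β 1 := bb_add hiso β 1 1
  have b13 : B G (av A β 1) (av A β 3) = tt G A β 2 := bb_add hiso β 1 2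
  have b14 : B G (av A β 1) (av A β 4) = tt G A β 3 := bb_add hiso β 1 3
  have b15 : B G (av A β 1) (av A β 5) = tt G A β 4 := bb_add hiso β 1 4
  have b17 : B G (av A β 1) (av A β 7) = tt G A β 6 := bb_add hiso β 1 6
  have b20 : B G (av A β 2) (av A β 0) = tt G A β 2 := bb_add' hG hiso β 0 2
  have b22 : B G (av A β 2) (av A β 2) = tt G A β 0 := bb_add hiso β 2 0
  have b23 : B G (av A β 2) (av A β 3) = tt G A β 1 := bb_add hiso β 2 1
  have b24 : B G (av A β 2) (av A β 4) = tt G A β 2 := bb_add hiso β 2 2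
  have b25 : B G (av A β 2) (av A β 5) = tt G A β 3 := bb_add hiso β 2 3
  have b27 : B G (av A β 2) (av A β 7) = tt G A β 5 := bb_add hiso β 2 5
  rw [b07, b05, b04, b03, b02, b00] at k0
  rw [b17, b15, b14, b13, b12, b10] at k1
  rw [b27, b25, b24, b23, b22, b20] at k2
  refine ⟨h0, ?_, ?_, ?_⟩ <;> omega

include hG hiso hpsd hP hβ in
/-- The three values of the third inner product. -/
lemma t3_cases : tt G A β 3 = 0 ∨ tt G A β 3 = -1 ∨ tt G A β 3 = -2 := by
  obtain ⟨-, -, -, h6⟩ := t_vals7 hG hiso hβ hP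
  have b := tt_bound hG hiso hpsd hβ 6
  omega

include hG hiso hpsd hdef hP hβ in
/-- The first case: the vector lies in the kernel of `Φ₁₂`. -/
lemma case_t3_zero (h3 : tt G A β 3 = 0) : IsV4 A β := by
  obtain ⟨-, -, -, h6⟩ := t_vals7 hG hiso hβ hP
  have e6 : av A β 6 = -β := av_eq_neg_of_tt hG hiso hpsd hdef hβ 6 (by omega)
  have e1 : (A ^ 4 - A ^ 2 + 1) * (A ^ 6 - 1) = (A ^ 3 - 1) * (A ^ 7 - A ^ 5 + A ^ 4 + A ^ 3 - A ^ 2 + 1) := by
    noncomm_ring
  rw [hP, mul_zero] at e1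
  have e2 : (A ^ 4 - A ^ 2 + 1) *ᵥ ((A ^ 6 - 1) *ᵥ β) = 0 := by
    rw [Matrix.mulVec_mulVec, e1]
    simp
  have e3 : (A ^ 6 - 1) *ᵥ β = (-2 : ℤ) • β := by
    rw [Matrix.sub_mulVec, Matrix.one_mulVec]
    have e6' : A ^ 6 *ᵥ β = -β := e6
    rw [e6']
    funext j
    simp only [Pi.sub_apply, Pi.neg_apply, Pi.smul_apply, smul_eq_mul]
    ring
  rw [e3, Matrix.mulVec_smul] at e2
  have e4 := (smul_eq_zero.1 e2).resolve_left (by norm_num)
  simp only [Matrix.add_mulVec, Matrix.sub_mulVec, Matrix.one_mulVec] at e4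
  rw [IsV4]
  simpa [av] using e4

include hG hiso hpsd hdef hP hβ in
/-- The second case: the sum of the vector and its third image lies in the kernel of `Φ₁₂`. -/
lemma case_t3_one (h3 : tt G A β 3 = -1) :
    IsV4 A (β + av A β 3) ∧ B G (β + av A β 3) (β + av A β 3) = 2 ∧
      tt G A (β + av A β 3) 1 = 2 * tt G A β 1 + 2 * tt G A β 2 - 1 := by
  obtain ⟨h0, h4, h5, h6⟩ := t_vals7 hG hiso hβ hP
  have b03 : B G β (av A β 3) = tt G A β 3 := rfl
  have b30 : B G (av A β 3) β = tt G A β 3 := by rw [B_symm hG]; rfl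
  have b33 : B G (av A β 3) (av A β 3) = tt G A β 0 := bb_add hiso β 3 0
  have hn : B G (β + av A β 3) (β + av A β 3) = 2 := by
    rw [B_add_left, B_add_right, B_add_right, hβ, b03, b30, b33]
    omega
  refine ⟨?_, hn, ?_⟩
  · rw [IsV4]
    have e : A ^ 4 *ᵥ (β + A ^ 3 *ᵥ β) - A ^ 2 *ᵥ (β + A ^ 3 *ᵥ β) + (β + A ^ 3 *ᵥ β) =
        (A ^ 7 - A ^ 5 + A ^ 4 + A ^ 3 - A ^ 2 + 1) *ᵥ β := by
      simp only [Matrix.mulVec_add, Matrix.add_mulVec, Matrix.sub_mulVec, Matrix.one_mulVec, Matrix.mulVec_mulVec]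
      rw [show A ^ 4 * A ^ 3 = A ^ 7 by rw [← pow_add], show A ^ 2 * A ^ 3 = A ^ 5 by rw [← pow_add]]
      abel
    rw [hP, Matrix.zero_mulVec] at e
    have e2 : av A (β + av A β 3) 4 = A ^ 4 *ᵥ (β + A ^ 3 *ᵥ β) := rfl
    have e3 : av A (β + av A β 3) 2 = A ^ 2 *ᵥ (β + A ^ 3 *ᵥ β) := rfl
    rw [e2, e3, av_zero]
    exact e
  · have e1 : tt G A (β + av A β 3) 1 = B G (β + av A β 3) (A *ᵥ (β + av A β 3)) := by
      rw [tt, av_one']
    have e2 : A *ᵥ (β + av A β 3) = av A β 1 + av A β 4 := by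
      rw [Matrix.mulVec_add, ← av_one']
      congr 1
      exact (av_succ β 3).symm
    rw [e1, e2]
    have b01 : B G β (av A β 1) = tt G A β 1 := rfl
    have b04 : B G β (av A β 4) = tt G A β 4 := rfl
    have b31 : B G (av A β 3) (av A β 1) = tt G A β 2 := bb_add' hG hiso β 1 2
    have b34 : B G (av A β 3) (av A β 4) = tt G A β 1 := bb_add hiso β 3 1
    rw [B_add_left, B_add_right, B_add_right, b01, b04, b31, b34]
    omega

end relation

section modp

variable {r : ℕ} [hr : Fact r.Prime]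

/-- The value of the sum. -/
lemma sum_value7 {t : ℕ → ℤ} {u : ZMod r} (h6 : u ^ 6 = -1) (h4 : u ^ 4 = u ^ 2 - 1)
    (h0 : t 0 = 2) (h4' : t 4 = t 2 - t 3 - 2) (h6' : t 6 = -2 - 2 * t 3)
    (h7 : t 7 = t 5) (h8 : t 8 = t 4) (h9 : t 9 = t 3) (h10 : t 10 = t 2) (h11 : t 11 = t 1) :
    ∑ i ∈ Finset.range 12, u ^ i * ((t i : ℤ) : ZMod r) =
      3 * (2 + (t 3 : ZMod r)) + ((t 1 : ZMod r) - (t 5 : ZMod r)) * (2 * u - u ^ 3) := by
  simp only [Finset.sum_range_succ, Finset.sum_range_zero]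
  rw [h7, h8, h9, h10, h11, h0, h4', h6']
  push_cast
  set a : ZMod r := (t 1 : ZMod r)
  set b : ZMod r := (t 2 : ZMod r)
  set c : ZMod r := (t 3 : ZMod r)
  set d : ZMod r := (t 5 : ZMod r)
  have h6'' : u ^ 6 + 1 = 0 := by rw [h6]; ring
  have h4'' : u ^ 4 - u ^ 2 + 1 = 0 := by rw [h4]; ring
  have e5 : u ^ 5 = u ^ 3 - u := by linear_combination u * h4''
  have e7 : u ^ 7 = -u := by linear_combination u * h6''
  have e8 : u ^ 8 = -u ^ 2 := by linear_combination u ^ 2 * h6''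
  have e9 : u ^ 9 = -u ^ 3 := by linear_combination u ^ 3 * h6''
  have e10 : u ^ 10 = -u ^ 4 := by linear_combination u ^ 4 * h6''
  have e11 : u ^ 11 = -u ^ 5 := by linear_combination u ^ 5 * h6''
  simp only [pow_zero, pow_one]
  rw [e5, e7, e8, e9, e10, e11, e5, h6, h4]
  ring

/-- The norm of the value. -/
lemma sum_zero_imp7 {n₁ a : ℤ} {u : ZMod r} (h6 : u ^ 6 = -1) (h4 : u ^ 4 = u ^ 2 - 1)
    (he : 3 * (n₁ : ZMod r) + (a : ZMod r) * (2 * u - u ^ 3) = 0) :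
    (r : ℤ) ∣ 9 * n₁ ^ 2 - 3 * a ^ 2 := by
  rw [← ZMod.intCast_zmod_eq_zero_iff_dvd]
  push_cast
  have hv : (2 * u - u ^ 3) ^ 2 = 3 := by
    have e : (2 * u - u ^ 3) ^ 2 = 4 * u ^ 2 - 4 * u ^ 4 + u ^ 6 := by ring
    rw [e, h6, h4]
    ring
  have e1 : 3 * (n₁ : ZMod r) = -((a : ZMod r) * (2 * u - u ^ 3)) := by linear_combination he
  have e2 : 9 * (n₁ : ZMod r) ^ 2 = (3 * (n₁ : ZMod r)) ^ 2 := by ring
  rw [e2, e1, neg_sq, mul_pow, hv]
  ring

lemma not_dvd_of_small {x : ℤ} (hr13 : 13 ≤ r) (hx : x ∣ 72) : ¬ (r : ℤ) ∣ x := by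
  intro e
  have hp := hr.out
  have h1 : (r : ℤ) ∣ ((72 : ℕ) : ℤ) := e.trans (by exact_mod_cast hx)
  have h2 : r ∣ 72 := Int.natCast_dvd_natCast.1 h1
  have e3 : (72 : ℕ) = 2 ^ 3 * 3 ^ 2 := by norm_num
  rw [e3] at h2
  rcases (Nat.Prime.dvd_mul hp).1 h2 with h3 | h3
  · have := Nat.le_of_dvd (by norm_num) (hp.dvd_of_dvd_pow h3)
    omega
  · have := Nat.le_of_dvd (by norm_num) (hp.dvd_of_dvd_pow h3)
    omega

/-- A vector of norm two orthogonal to the eigenvector of the transpose: its third image is its opposite. -/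
theorem perp_imp_cube (hG : Gᵀ = G) (hiso : Aᵀ * G * A = G) (hpsd : ∀ x : Fin n → ℤ, 0 ≤ B G x x)
    (hdef : ∀ x : Fin n → ℤ, B G x x = 0 → x = 0) {β : Fin n → ℤ} (hβ : B G β β = 2)
    (hP : A ^ 7 - A ^ 5 + A ^ 4 + A ^ 3 - A ^ 2 + 1 = 0) (hr13 : 13 ≤ r)
    {qb : ZMod r} (hqb : orderOf qb = 12) {cb : Fin n → ZMod r} (hc : cb ≠ 0) (hcA : cb ᵥ* mmp r A = qb • cb)
    (hV : Module.finrank (ZMod r) (Module.End.eigenspace (Matrix.toLin' (mmp r A)) qb) ≤ 1)
    (hx : cb ⬝ᵥ cv r β = 0) : av A β 3 = -β := by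
  have hA12 := A12_of hP
  obtain ⟨h6, h4⟩ := prim12 hqb
  set u : ZMod r := -qb ^ 5 with hu
  have hqu : qb * u = 1 := by
    rw [hu]
    linear_combination -h6
  have hu6 : u ^ 6 = -1 := by
    rw [hu]
    linear_combination (qb ^ 24 - qb ^ 18 + qb ^ 12 - qb ^ 6 + 1) * h6
  have hu12 : u ^ 12 = 1 := by
    linear_combination (u ^ 6 - 1) * hu6
  have hu4 : u ^ 4 = u ^ 2 - 1 := by
    rw [hu]
    linear_combination (qb ^ 14 - qb ^ 8 + qb ^ 2 - qb ^ 4) * h6 + h4
  have hAb : (mmp r A) ^ 12 = 1 := by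
    rw [mmp, ← Matrix.map_pow, hA12]
    simp
  have h12 : (12 : ZMod r) ≠ 0 := by
    intro e
    have e1 : r ∣ 12 := (ZMod.natCast_eq_zero_iff _ _).1 (by exact_mod_cast e)
    have := Nat.le_of_dvd (by norm_num) e1
    omega
  have e1 := eM_zero hqu hu12 hAb h12 hc hcA hV hx
  have e2 := sum_tt_of_eM G A β u e1
  obtain ⟨h0, h4', h5, h6'⟩ := t_vals7 hG hiso hβ hP
  have p7 : tt G A β 7 = tt G A β 5 := t_per hG hiso hA12 (k := 5) (by norm_num)
  have p8 : tt G A β 8 = tt G A β 4 := t_per hG hiso hA12 (k := 4) (by norm_num)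
  have p9 : tt G A β 9 = tt G A β 3 := t_per hG hiso hA12 (k := 3) (by norm_num)
  have p10 : tt G A β 10 = tt G A β 2 := t_per hG hiso hA12 (k := 2) (by norm_num)
  have p11 : tt G A β 11 = tt G A β 1 := t_per hG hiso hA12 (k := 1) (by norm_num)
  rw [sum_value7 hu6 hu4 h0 h4' h6' p7 p8 p9 p10 p11] at e2
  have e3 : 3 * (((2 + tt G A β 3 : ℤ)) : ZMod r) + (((tt G A β 1 - tt G A β 5 : ℤ)) : ZMod r) * (2 * u - u ^ 3) = 0 := by
    push_cast
    exact e2
  have e4 := sum_zero_imp7 hu6 hu4 e3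
  rcases t3_cases hG hiso hpsd hβ hP with h3 | h3 | h3
  · exfalso
    have e5 := case_t3_zero hG hiso hpsd hdef hβ hP h3
    obtain ⟨e6, -, -⟩ := v4_vals hG hiso hβ e5
    have b1 := tt_bound hG hiso hpsd hβ 1
    have e7 : tt G A β 1 - tt G A β 5 = 2 * tt G A β 1 := by omega
    rw [h3, e7] at e4
    generalize tt G A β 1 = t1 at e4 b1
    obtain ⟨b2, b3⟩ := b1
    interval_cases t1 <;> exact not_dvd_of_small hr13 (by norm_num) e4
  · exfalso
    obtain ⟨-, e5, e6⟩ := case_t3_one hG hiso hpsd hdef hβ hP h3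
    have b1 := tt_bound hG hiso hpsd (α := β + av A β 3) e5 1
    have e7 : tt G A β 1 - tt G A β 5 = tt G A (β + av A β 3) 1 := by omega
    rw [h3, e7] at e4
    generalize tt G A (β + av A β 3) 1 = a at e4 b1 e6
    obtain ⟨b2, b3⟩ := b1
    have ha : a = 1 ∨ a = -1 := by omega
    rcases ha with rfl | rfl <;> exact not_dvd_of_small hr13 (by norm_num) e4
  · exact av_eq_neg_of_tt hG hiso hpsd hdef hβ 3 (by rw [h3])

/-- A vector with `A³ x = -x` is orthogonal to the eigenvector of the transpose. -/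
theorem cube_imp_perp {β : Fin n → ℤ} (hx : av A β 3 = -β)
    {qb : ZMod r} (hqb : orderOf qb = 12) {cb : Fin n → ZMod r} (hcA : cb ᵥ* mmp r A = qb • cb) : cb ⬝ᵥ cv r β = 0 := by
  obtain ⟨h6, -⟩ := prim12 hqb
  have e0 : ∀ i : ℕ, cb ᵥ* (mmp r A) ^ i = qb ^ i • cb := by
    intro i
    induction i with
    | zero => simp
    | succ i ih =>
      rw [pow_succ, ← Matrix.vecMul_vecMul, ih, Matrix.smul_vecMul, hcA, smul_smul, pow_succ]
  have e1 : cb ⬝ᵥ cv r (av A β 3) = qb ^ 3 * (cb ⬝ᵥ cv r β) := by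
    rw [cv_av, Matrix.dotProduct_mulVec, e0, smul_dotProduct, smul_eq_mul]
  have e2 : cv r (-β) = - cv r β := by
    funext j
    simp [cv]
  rw [hx, e2, dotProduct_neg] at e1
  have e3 : (qb ^ 3 + 1) * (cb ⬝ᵥ cv r β) = 0 := by linear_combination -e1
  rcases mul_eq_zero.1 e3 with e4 | e4
  · exfalso
    have e5 : qb ^ 6 = 1 := by
      have e6 : qb ^ 3 = -1 := eq_neg_of_add_eq_zero_left e4
      calc qb ^ 6 = (qb ^ 3) ^ 2 := by ring
        _ = 1 := by rw [e6]; ring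
    have e7 := orderOf_dvd_of_pow_eq_one e5
    rw [hqb] at e7
    omega
  · exact e4

/-- A descent argument: the fixed vectors in a line modulo a prime. -/
theorem rank_fixed {lam : ℤ} {x : Fin n → ℤ} (hG : Gᵀ = G) (hx : A *ᵥ x = lam • x) (hxx : ¬ (r : ℤ) ∣ B G x x)
    (hV : Module.finrank (ZMod r) (Module.End.eigenspace (Matrix.toLin' (mmp r A)) (lam : ZMod r)) ≤ 1)
    {y : Fin n → ℤ} (hy : A *ᵥ y = lam • y) (hxy : B G x y = 0) : y = 0 := by
  classical
  have hcx : cv r x ≠ 0 := by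
    intro e
    apply hxx
    have e1 := cv_B r G x x
    rw [e] at e1
    rw [← ZMod.intCast_zmod_eq_zero_iff_dvd, e1]
    simp
  have hmem : ∀ z : Fin n → ℤ, A *ᵥ z = lam • z → cv r z ∈ Module.End.eigenspace (Matrix.toLin' (mmp r A)) (lam : ZMod r) := by
    intro z hz
    rw [Module.End.mem_eigenspace_iff, Matrix.toLin'_apply, ← cv_mulVec, hz]
    funext j
    simp [cv]
  have key : ∀ k : ℕ, ∀ y : Fin n → ℤ, A *ᵥ y = lam • y → B G x y = 0 → ∀ j, (r : ℤ) ^ k ∣ y j := by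
    intro k
    induction k with
    | zero =>
      intro y _ _ j
      simp
    | succ k ih =>
      intro y hy hxy j
      have hzero : cv r y = 0 := by
        set V := Module.End.eigenspace (Matrix.toLin' (mmp r A)) (lam : ZMod r) with hVd
        let a : V := ⟨_, hmem x hx⟩
        have ha : a ≠ 0 := fun e => hcx (congrArg Subtype.val e)
        haveI : Nontrivial V := ⟨⟨a, 0, ha⟩⟩
        have h1 : Module.finrank (ZMod r) V = 1 := le_antisymm hV Module.finrank_pos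
        obtain ⟨s, hs⟩ := (finrank_eq_one_iff_of_nonzero' a ha).1 h1 ⟨_, hmem y hy⟩
        have hs' : s • cv r x = cv r y := congrArg Subtype.val hs
        have e1 := cv_B r G x y
        rw [hxy, Int.cast_zero, ← hs', Matrix.mulVec_smul, dotProduct_smul, ← cv_B, smul_eq_mul] at e1
        have hxx' : ((B G x x : ℤ) : ZMod r) ≠ 0 := fun e => hxx ((ZMod.intCast_zmod_eq_zero_iff_dvd _ r).1 e)
        have e2 : s = 0 := (mul_eq_zero.1 e1.symm).resolve_right hxx'
        rw [← hs', e2, zero_smul]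
      have e1 := (cv_eq_zero_iff y).1 hzero
      choose y' hy' using e1
      have e2 : y = (r : ℤ) • y' := by
        funext i
        rw [hy' i]
        simp
      have hr0 : (r : ℤ) ≠ 0 := by exact_mod_cast hr.out.ne_zero
      have e3 : A *ᵥ y' = lam • y' := by
        have e4 := hy
        rw [e2, Matrix.mulVec_smul, smul_comm] at e4
        exact smul_right_injective _ hr0 e4
      have e4 : B G x y' = 0 := by
        rw [e2, B_smul_right] at hxy
        exact (mul_eq_zero.1 hxy).resolve_left hr0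
      have e6 := ih y' e3 e4 j
      rw [hy' j, pow_succ']
      exact mul_dvd_mul_left _ e6
  funext j
  have e1 := key (y j).natAbs y hy hxy j
  refine Int.eq_zero_of_abs_lt_dvd e1 ?_
  have e2 : (y j).natAbs < r ^ (y j).natAbs := Nat.lt_pow_self hr.out.one_lt
  rw [Int.abs_eq_natAbs]
  exact_mod_cast e2

end modp

/-! ### The case `(X - 1) Q (X)` with `Q (1) = 1` -/

section fixedvec

variable (hG : Gᵀ = G) (hiso : Aᵀ * G * A = G) (hpsd : ∀ x : Fin n → ℤ, 0 ≤ B G x x) (hdef : ∀ x : Fin n → ℤ, B G x x = 0 → x = 0)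

include hiso in
lemma B_fixed {x : Fin n → ℤ} (hx : A *ᵥ x = x) (k : ℕ) (y : Fin n → ℤ) : B G x (A ^ k *ᵥ y) = B G x y := by
  have e : A ^ k *ᵥ x = x := by
    induction k with
    | zero => simp
    | succ k ih => rw [pow_succ', ← Matrix.mulVec_mulVec, ih, hx]
  have e2 := B_pow_iso hiso k x y
  rw [e] at e2
  exact e2

/-- The polynomial `Φ₆ Φ₁₂`. -/
def Q6 (A : Matrix (Fin n) (Fin n) ℤ) : Matrix (Fin n) (Fin n) ℤ := A ^ 6 - A ^ 5 + A ^ 3 - A + 1

include hiso in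
lemma B_Q6 {x : Fin n → ℤ} (hx : A *ᵥ x = x) (y : Fin n → ℤ) : B G x (Q6 A *ᵥ y) = B G x y := by
  simp only [Q6, Matrix.add_mulVec, Matrix.sub_mulVec, Matrix.one_mulVec]
  simp only [B_add_right, B_sub_right']
  have e1 : A *ᵥ y = A ^ 1 *ᵥ y := by rw [pow_one]
  rw [e1, B_fixed hiso hx, B_fixed hiso hx, B_fixed hiso hx, B_fixed hiso hx]
  ring

include hG hiso hpsd hdef in
/-- The dichotomy for `(X - 1) Φ₆ Φ₁₂`. -/
lemma dichotomy_Q6 (hev : ∀ x : Fin n → ℤ, Even (B G x x)) (hP : (A - 1) * Q6 A = 0) {β : Fin n → ℤ} (hβ : B G β β = 2) :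
    A *ᵥ β = β ∨ Q6 A *ᵥ β = 0 := by
  set u := Q6 A *ᵥ β with hu
  have hfix : A *ᵥ u = u := by
    have e : (A - 1) *ᵥ u = 0 := by
      rw [hu, Matrix.mulVec_mulVec, hP]
      simp
    rw [Matrix.sub_mulVec, Matrix.one_mulVec] at e
    exact sub_eq_zero.1 e
  have e1 : B G u u = B G u β := by
    conv_lhs => rw [hu]
    rw [← hu]
    conv_lhs => rw [hu]
    rw [← hu]
    have := B_Q6 hiso hfix β
    rw [← hu] at this
    exact this
  have e2 := hpsd (u + (-1 : ℤ) • β)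
  rw [B_add_left, B_add_right, B_add_right, B_smul_left, B_smul_left, B_smul_right, B_smul_right, hβ, B_symm hG β u, e1] at e2
  have e3 := hpsd u
  obtain ⟨k, hk⟩ := hev u
  rw [e1] at e3
  rw [e1] at hk
  by_cases h0 : B G u β = 0
  · right
    exact hdef _ (e1.trans h0)
  · left
    have e4 : B G u β = 2 := by omega
    have e5 : B G (u + (-1 : ℤ) • β) (u + (-1 : ℤ) • β) = 0 := by
      rw [B_add_left, B_add_right, B_add_right, B_smul_left, B_smul_left, B_smul_right, B_smul_right, hβ, B_symm hG β u, e1, e4]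
      norm_num
    have e6 := hdef _ e5
    have e7 : u = β := by
      funext j
      have := congrFun e6 j
      simp only [Pi.add_apply, Pi.smul_apply, smul_eq_mul, Pi.zero_apply] at this
      linarith
    rw [← e7]
    exact hfix

include hiso in
/-- The orthogonality in the dichotomy. -/
lemma orth_Q6 {x y : Fin n → ℤ} (hx : A *ᵥ x = x) (hy : Q6 A *ᵥ y = 0) : B G x y = 0 := by
  rw [← B_Q6 hiso hx y, hy]
  simp [B]

end fixedvec

/-! ### The case `(X - 1) (X⁶ + 1)` -/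

section fourcase

variable (hG : Gᵀ = G) (hiso : Aᵀ * G * A = G) (hpsd : ∀ x : Fin n → ℤ, 0 ≤ B G x x) (hdef : ∀ x : Fin n → ℤ, B G x x = 0 → x = 0)
variable {β : Fin n → ℤ} (hβ : B G β β = 2)
variable (hP : A ^ 7 - A ^ 6 + A - 1 = 0)

include hP in
lemma A12_of4 : A ^ 12 = 1 := by
  have e : A ^ 12 - 1 = (A ^ 5 + A ^ 4 + A ^ 3 + A ^ 2 + A + 1) * (A ^ 7 - A ^ 6 + A - 1) := by
    noncomm_ring
  rw [hP, mul_zero] at e
  exact sub_eq_zero.1 e

include hG hiso hP hβ in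
lemma t_vals4 : tt G A β 6 = 2 * tt G A β 3 - 2 := by
  have h0 : tt G A β 0 = 2 := by simpa [tt] using hβ
  have hA := A12_of4 hP
  have rel : av A β 7 - av A β 6 + av A β 1 - av A β 0 = 0 := by
    have e : (A ^ 7 - A ^ 6 + A - 1) *ᵥ β = 0 := by rw [hP]; simp
    simp only [Matrix.add_mulVec, Matrix.sub_mulVec, Matrix.one_mulVec] at e
    simpa [av] using e
  have key : ∀ j, B G (av A β j) (av A β 7) - B G (av A β j) (av A β 6) + B G (av A β j) (av A β 1) - B G (av A β j) (av A β 0) = 0 := by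
    intro j
    have e := congrArg (B G (av A β j)) rel
    rw [B_sub_right', B_add_right, B_sub_right', B_zero_right'] at e
    exact e
  have p7 : tt G A β 7 = tt G A β 5 := t_per hG hiso hA (k := 5) (by norm_num)
  have k0 := key 0
  have k2 := key 2
  have k3 := key 3
  have b00 : B G (av A β 0) (av A β 0) = tt G A β 0 := bb_add hiso β 0 0
  have b01 : B G (av A β 0) (av A β 1) = tt G A β 1 := bb_add hiso β 0 1
  have b06 : B G (av A β 0) (av A β 6) = tt G A β 6 := bb_add hiso β 0 6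
  have b07 : B G (av A β 0) (av A β 7) = tt G A β 7 := bb_add hiso β 0 7
  have b20 : B G (av A β 2) (av A β 0) = tt G A β 2 := bb_add' hG hiso β 0 2
  have b21 : B G (av A β 2) (av A β 1) = tt G A β 1 := bb_add' hG hiso β 1 1
  have b26 : B G (av A β 2) (av A β 6) = tt G A β 4 := bb_add hiso β 2 4
  have b27 : B G (av A β 2) (av A β 7) = tt G A β 5 := bb_add hiso β 2 5
  have b30 : B G (av A β 3) (av A β 0) = tt G A β 3 := bb_add' hG hiso β 0 3
  have b31 : B G (av A β 3) (av A β 1) = tt G A β 2 := bb_add' hG hiso β 1 2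
  have b36 : B G (av A β 3) (av A β 6) = tt G A β 3 := bb_add hiso β 3 3
  have b37 : B G (av A β 3) (av A β 7) = tt G A β 4 := bb_add hiso β 3 4
  rw [b07, b06, b01, b00] at k0
  rw [b27, b26, b21, b20] at k2
  rw [b37, b36, b31, b30] at k3
  omega

/-- The vector `(A⁶ + 1) β`. -/
def u6 (A : Matrix (Fin n) (Fin n) ℤ) (β : Fin n → ℤ) : Fin n → ℤ := β + av A β 6

include hP in
lemma u6_fixed (β : Fin n → ℤ) : A *ᵥ u6 A β = u6 A β := by
  have e : (A ^ 7 - A ^ 6 + A - 1) *ᵥ β = 0 := by rw [hP]; simp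
  simp only [Matrix.add_mulVec, Matrix.sub_mulVec, Matrix.one_mulVec] at e
  have e2 : A *ᵥ u6 A β = A *ᵥ β + A ^ 7 *ᵥ β := by
    rw [u6, Matrix.mulVec_add]
    congr 1
    rw [show av A β 6 = A ^ 6 *ᵥ β from rfl, Matrix.mulVec_mulVec, ← pow_succ']
  rw [e2, u6]
  have e3 : av A β 6 = A ^ 6 *ᵥ β := rfl
  rw [e3]
  funext j
  have := congrFun e j
  simp only [Pi.add_apply, Pi.sub_apply, Pi.zero_apply] at this ⊢
  linarith

include hG hiso hP hβ in
lemma u6_norm : B G (u6 A β) (u6 A β) = 4 * tt G A β 3 := by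
  have e := t_vals4 hG hiso hβ hP
  have b06 : B G β (av A β 6) = tt G A β 6 := rfl
  have b60 : B G (av A β 6) β = tt G A β 6 := by rw [B_symm hG]; rfl
  have b66 : B G (av A β 6) (av A β 6) = tt G A β 0 := bb_add hiso β 6 0
  have h0 : tt G A β 0 = 2 := by simpa [tt] using hβ
  rw [u6, B_add_left, B_add_right, B_add_right, hβ, b06, b60, b66]
  omega

include hiso in
lemma u6_pair {x : Fin n → ℤ} (hx : A *ᵥ x = x) (β : Fin n → ℤ) : B G x (u6 A β) = 2 * B G x β := by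
  rw [u6, B_add_right]
  have : B G x (av A β 6) = B G x β := B_fixed hiso hx 6 β
  omega

end fourcase

end Cfsg.Agent.Lib.KS71.E7j
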