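/-
The root lattice of type `E₇`: vectors of norm two are roots, and the orthogonal complement of a subsystem of type `D₄`.
-/
import Mathlib
import Cfsg.Agent.Lib.KS71.E7k1

set_option autoImplicit false
set_option linter.unusedSectionVars false
set_option linter.unusedVariables false

namespace Cfsg.Agent.Lib.KS71.E7l

open scoped MatrixGroups Matrix
open Polynomial Module
open Cfsg Cfsg.Lie Cfsg.Lie.ChevalleyDatum
open Cfsg.Agent.Lib.Chev.Tables Cfsg.Agent.Lib.Chev.Diag Cfsg.Agent.Lib.Chev.Order1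
open Cfsg.Agent.Lib.KS71.HCb Cfsg.Agent.Lib.KS71.HCc Cfsg.Agent.Lib.KS71.HCh Cfsg.Agent.Lib.KS71.HCi
open Cfsg.Agent.Lib.KS71.HCm Cfsg.Agent.Lib.KS71.HCn Cfsg.Agent.Lib.KS71.HCj Cfsg.Agent.Lib.KS71.HCq
open Cfsg.Agent.Lib.KS71.E6j Cfsg.Agent.Lib.KS71.E7j Cfsg.Agent.Lib.KS71.E7k Cfsg.Agent.Lib.KS71.E7k1
open Cfsg.Agent.Lib.Chev.Mono1 Cfsg.Agent.Lib.Chev.Mono2 Cfsg.Agent.Lib.Chev.Mono3 Cfsg.Agent.Lib.Chev.Tables3

lemma B_neg_left {n : ℕ} {G : Matrix (Fin n) (Fin n) ℤ} (x y : Fin n → ℤ) : B G (-x) y = - B G x y := by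
  simp [B]

lemma B_neg_right {n : ℕ} {G : Matrix (Fin n) (Fin n) ℤ} (x y : Fin n → ℤ) : B G x (-y) = - B G x y := by
  simp [B, Matrix.mulVec_neg]

variable (h : Tab chevE7)

lemma Si_mulVec (i : Fin chevE7.rank) (x : Fin chevE7.rank → ℤ) :
    Si chevE7 i *ᵥ x = x - (GE7 *ᵥ x) i • Pi.single i 1 := by
  funext j
  simp only [Matrix.mulVec, dotProduct, Si, sub_mul, Finset.sum_sub_distrib, ite_mul, one_mul, zero_mul,
    Finset.sum_ite_eq, Finset.mem_univ, if_true, Pi.sub_apply, Pi.smul_apply, Pi.single_apply, smul_eq_mul]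
  by_cases hji : j = i
  · subst hji
    simp only [if_true, mul_one]
    rfl
  · simp [hji]

include h in
lemma B_single (i : Fin chevE7.rank) (y : Fin chevE7.rank → ℤ) : B GE7 (Pi.single i 1) y = (GE7 *ᵥ y) i := by
  rw [B, single_one_dotProduct]

lemma single_norm (i : Fin chevE7.rank) : B GE7 (Pi.single i 1) (Pi.single i 1) = 2 := by
  rw [B, single_one_dotProduct, Matrix.mulVec_single_one]
  exact diagE7 i

include h in
theorem word_aux : ∀ N : ℕ, ∀ x : Fin chevE7.rank → ℤ, (∑ k, (x k).natAbs) = N → B GE7 x x = 2 →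
    ∃ l : List ℕ, (∀ i ∈ l, i < chevE7.rank) ∧ ∃ j : Fin chevE7.rank,
      Aw chevE7 l *ᵥ x = Pi.single j 1 ∨ Aw chevE7 l *ᵥ x = -Pi.single j 1 := by
  intro N
  induction N using Nat.strong_induction_on with
  | _ N ih =>
    intro x hN hx
    have hsum : ∑ i, x i * (GE7 *ᵥ x) i = 2 := hx
    obtain ⟨i, hi⟩ : ∃ i, 0 < x i * (GE7 *ᵥ x) i := by
      by_contra hno
      push Not at hno
      have := Finset.sum_nonpos (s := Finset.univ) (fun i _ => hno i)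
      omega
    set c := (GE7 *ᵥ x) i with hc
    have hpc : B GE7 (Pi.single i 1) x = c := B_single h i x
    have hcp : B GE7 x (Pi.single i 1) = c := by rw [B_symm symE7, hpc]
    have hsn := single_norm i
    have e1 := psdE7 (x + Pi.single i 1)
    have e2 := psdE7 (x + (-1 : ℤ) • Pi.single i 1)
    rw [B_add_left, B_add_right, B_add_right, hx, hpc, hcp, hsn] at e1
    rw [B_add_left, B_add_right, B_add_right, B_smul_left, B_smul_right, B_smul_right, B_smul_left, hx, hpc, hcp, hsn] at e2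
    have hle : -2 ≤ c ∧ c ≤ 2 := by omega
    by_cases hc2 : c = 2
    · have e3 : B GE7 (x + (-1 : ℤ) • Pi.single i 1) (x + (-1 : ℤ) • Pi.single i 1) = 0 := by
        rw [B_add_left, B_add_right, B_add_right, B_smul_left, B_smul_right, B_smul_right, B_smul_left, hx, hpc, hcp, hsn, hc2]
        norm_num
      have e4 := defE7 e3
      refine ⟨[], by simp, i, Or.inl ?_⟩
      rw [Aw_nil h, Matrix.one_mulVec]
      funext j
      have := congrFun e4 j
      simp only [Pi.add_apply, Pi.smul_apply, smul_eq_mul, Pi.zero_apply] at this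
      linarith
    by_cases hc3 : c = -2
    · have e3 : B GE7 (x + Pi.single i 1) (x + Pi.single i 1) = 0 := by
        rw [B_add_left, B_add_right, B_add_right, hx, hpc, hcp, hsn, hc3]
        norm_num
      have e4 := defE7 e3
      refine ⟨[], by simp, i, Or.inr ?_⟩
      rw [Aw_nil h, Matrix.one_mulVec]
      funext j
      have := congrFun e4 j
      simp only [Pi.add_apply, Pi.neg_apply, Pi.zero_apply] at this ⊢
      linarith
    have hc1 : c = 1 ∨ c = -1 := by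
      have hc0 : c ≠ 0 := by
        intro e0
        rw [e0, mul_zero] at hi
        exact lt_irrefl _ hi
      omega
    set x' := Si chevE7 i *ᵥ x with hx'
    have hx'e : x' = x - c • Pi.single i 1 := Si_mulVec i x
    have hx'n : B GE7 x' x' = 2 := by
      rw [hx', B_iso (siE7 i), hx]
    have e5 : ∀ k, k ≠ i → x' k = x k := by
      intro k hk
      rw [hx'e]
      simp [Pi.single_apply, hk]
    have e6 : (x i).natAbs = (x' i).natAbs + 1 := by
      have e7 : x' i = x i - c := by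
        rw [hx'e]
        simp
      rw [e7]
      rcases hc1 with e8 | e8
      · rw [e8] at hi ⊢
        have : 0 < x i := by simpa using hi
        omega
      · rw [e8] at hi ⊢
        have : x i < 0 := by nlinarith
        omega
    have e8 : (∑ k, (x k).natAbs) = (∑ k, (x' k).natAbs) + 1 := by
      rw [← Finset.add_sum_erase Finset.univ (fun k => (x k).natAbs) (Finset.mem_univ i),
        ← Finset.add_sum_erase Finset.univ (fun k => (x' k).natAbs) (Finset.mem_univ i)]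
      have e9 : ∑ k ∈ Finset.univ.erase i, (x' k).natAbs = ∑ k ∈ Finset.univ.erase i, (x k).natAbs :=
        Finset.sum_congr rfl fun k hk => by rw [e5 k (Finset.ne_of_mem_erase hk)]
      rw [e9, e6]
      ring
    obtain ⟨l', hl', j, hj⟩ := ih (∑ k, (x' k).natAbs) (by omega) x' rfl hx'n
    have hi' : (i : ℕ) < chevE7.rank := i.isLt
    refine ⟨l' ++ [(i : ℕ)], ?_, j, ?_⟩
    · intro a ha
      rcases List.mem_append.1 ha with ha | ha
      · exact hl' a ha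
      · simp only [List.mem_singleton] at ha
        rw [ha]
        exact hi'
    · have e10 : Aw chevE7 (l' ++ [(i : ℕ)]) = Aw chevE7 l' * Si chevE7 i := by
        rw [Aw_append h hl' (by simpa using hi'), Aw_cons h hi' (by simp), Aw_nil h, mul_one]
      rw [e10, ← Matrix.mulVec_mulVec]
      exact hj

/-- The words sending a fundamental root to the fundamental root number zero. -/
def wdL : List (List ℕ) := [[], [2, 3, 0, 2, 1, 3], [2, 0], [2, 3, 0, 2], [2, 3, 4, 0, 2, 3], [2, 3, 4, 5, 0, 2, 3, 4], [2, 3, 4, 5, 6, 0, 2, 3, 4, 5]]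

set_option maxRecDepth 100000 in
lemma wdL_spec : ∀ j : Fin 7, (∀ i ∈ wdL.getD j [], i < 7) ∧ wWord chevE7 (wdL.getD j []) (chevE7.simple j) = p₀ ∧
    wWord chevE7 (wdL.getD j [] ++ [(j : ℕ)]) (chevE7.neg (chevE7.simple j)) = p₀ := by
  decide +kernel

include h in
/-- A vector of norm two is carried to the fundamental root by an element of the Weyl group. -/
theorem exists_word {x : Fin chevE7.rank → ℤ} (hx : B GE7 x x = 2) :
    ∃ l : List ℕ, (∀ i ∈ l, i < chevE7.rank) ∧ Aw chevE7 l *ᵥ x = crd chevE7 p₀ := by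
  obtain ⟨l, hl, j, hj⟩ := word_aux h _ x rfl hx
  obtain ⟨w1, w2, w3⟩ := wdL_spec j
  have hj' : (j : ℕ) < chevE7.rank := j.isLt
  have hw1 : ∀ i ∈ wdL.getD j [], i < chevE7.rank := w1
  have hs := h.simple_lt j hj'
  rcases hj with hj | hj
  · refine ⟨wdL.getD j [] ++ l, ?_, ?_⟩
    · intro a ha
      rcases List.mem_append.1 ha with ha | ha
      · exact hw1 a ha
      · exact hl a ha
    · rw [Aw_append h hw1 hl, ← Matrix.mulVec_mulVec, hj, ← crd_simple h j, Aw_crd h hw1 hs, w2]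
  · have hw2 : ∀ i ∈ wdL.getD j [] ++ [(j : ℕ)], i < chevE7.rank := by
      intro a ha
      rcases List.mem_append.1 ha with ha | ha
      · exact hw1 a ha
      · simp only [List.mem_singleton] at ha
        rw [ha]
        exact hj'
    refine ⟨(wdL.getD j [] ++ [(j : ℕ)]) ++ l, ?_, ?_⟩
    · intro a ha
      rcases List.mem_append.1 ha with ha | ha
      · exact hw2 a ha
      · exact hl a ha
    · have hn := h.neg_lt _ hs
      rw [Aw_append h hw2 hl, ← Matrix.mulVec_mulVec, hj, ← crd_simple h j, ← crd_neg h hs, Aw_crd h hw2 hn, w3]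

set_option maxRecDepth 100000 in
include h in
lemma exists_inv_word {l : List ℕ} (hl : ∀ i ∈ l, i < chevE7.rank) :
    ∃ l' : List ℕ, (∀ i ∈ l', i < chevE7.rank) ∧ Aw chevE7 l' * Aw chevE7 l = 1 ∧ Aw chevE7 l * Aw chevE7 l' = 1 := by
  have hpos : 0 < (Wc h).card := Finset.card_pos.2 ⟨1, (mem_Wc h).2 (Subgroup.one_mem _)⟩
  obtain ⟨l', h1, -, h3⟩ := Aw_pow h hl ((Wc h).card - 1)
  have e1 := Aw_pow_card h hl
  refine ⟨l', h1, ?_, ?_⟩
  · rw [h3, ← pow_succ, Nat.sub_add_cancel hpos, e1]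
  · rw [h3, ← pow_succ', Nat.sub_add_cancel hpos, e1]

include h in
/-- A vector of norm two is a root. -/
theorem norm2_root {x : Fin chevE7.rank → ℤ} (hx : B GE7 x x = 2) : ∃ s, s < 126 ∧ crd chevE7 s = x := by
  obtain ⟨l, hl, e⟩ := exists_word h hx
  obtain ⟨l', hl', e1, e2⟩ := exists_inv_word h hl
  have hp : p₀ < chevE7.nroots := by decide +kernel
  refine ⟨wWord chevE7 l' p₀, wWord_lt h hl' hp, ?_⟩
  rw [← Aw_crd h hl' hp, ← e, Matrix.mulVec_mulVec, e1, Matrix.one_mulVec]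

set_option maxRecDepth 100000 in
lemma normT : allBelow 126 (fun s => Nat.beq (ipD s s) 4) = true := by decide +kernel

include h in
lemma norm_crd {s : ℕ} (hs : s < 126) : B GE7 (crd chevE7 s) (crd chevE7 s) = 2 := by
  rw [B_crd_D h hs hs, Nat.eq_of_beq_eq_true (allBelow_spec normT s hs)]
  norm_num

/-- A vector of norm two seeing two vectors but not a third one. -/
def Wt (a b c : Fin chevE7.rank → ℤ) : Prop :=
  ∃ β, B GE7 β β = 2 ∧ B GE7 β a ≠ 0 ∧ B GE7 β b ≠ 0 ∧ B GE7 β c = 0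

include h in
/-- The orthogonal complement of a subsystem of type `D₄`. -/
theorem orth_triple {d₀ d₁ d₂ d₃ : Fin chevE7.rank → ℤ} (n0 : B GE7 d₀ d₀ = 2) (n1 : B GE7 d₁ d₁ = 2) (n2 : B GE7 d₂ d₂ = 2) (n3 : B GE7 d₃ d₃ = 2)
    (g01 : B GE7 d₀ d₁ = 1) (g02 : B GE7 d₀ d₂ = 1) (g03 : B GE7 d₀ d₃ = 0) (g12 : B GE7 d₁ d₂ = 1) (g13 : B GE7 d₁ d₃ = 1) (g23 : B GE7 d₂ d₃ = 1) :
    ∃ x y z : Fin chevE7.rank → ℤ, B GE7 x x = 2 ∧ B GE7 y y = 2 ∧ B GE7 z z = 2 ∧ B GE7 x y = 0 ∧ B GE7 x z = 0 ∧ B GE7 y z = 0 ∧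
      (B GE7 x d₀ = 0 ∧ B GE7 x d₁ = 0 ∧ B GE7 x d₂ = 0 ∧ B GE7 x d₃ = 0) ∧
      (B GE7 y d₀ = 0 ∧ B GE7 y d₁ = 0 ∧ B GE7 y d₂ = 0 ∧ B GE7 y d₃ = 0) ∧
      (B GE7 z d₀ = 0 ∧ B GE7 z d₁ = 0 ∧ B GE7 z d₂ = 0 ∧ B GE7 z d₃ = 0) ∧
      (∀ u, B GE7 u u = 2 → B GE7 u d₀ = 0 → B GE7 u d₁ = 0 → B GE7 u d₂ = 0 → B GE7 u d₃ = 0 →
        u = x ∨ u = -x ∨ u = y ∨ u = -y ∨ u = z ∨ u = -z) ∧
      Wt x y z ∧ Wt y z x ∧ Wt x z y := by
  obtain ⟨l, hl, e0⟩ := exists_word h n0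
  obtain ⟨l', hl', e1, e2⟩ := exists_inv_word h hl
  set W := Aw chevE7 l with hW
  set W' := Aw chevE7 l' with hW'
  have hiso : Wᵀ * GE7 * W = GE7 := Aw_iso h siE7 hl
  have hiso' : W'ᵀ * GE7 * W' = GE7 := Aw_iso h siE7 hl'
  have hWW : ∀ a, W *ᵥ (W' *ᵥ a) = a := fun a => by rw [Matrix.mulVec_mulVec, e2, Matrix.one_mulVec]
  have hWW' : ∀ a, W' *ᵥ (W *ᵥ a) = a := fun a => by rw [Matrix.mulVec_mulVec, e1, Matrix.one_mulVec]
  have hB : ∀ a b, B GE7 (W' *ᵥ a) (W' *ᵥ b) = B GE7 a b := fun a b => B_iso hiso' a b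
  have hB2 : ∀ a d, B GE7 (W' *ᵥ a) d = B GE7 a (W *ᵥ d) := by
    intro a d
    have := B_iso hiso (W' *ᵥ a) d
    rw [hWW] at this
    exact this.symm
  have hp : p₀ < 126 := by norm_num
  obtain ⟨s₁, hs₁, es₁⟩ := norm2_root h (x := W *ᵥ d₁) (by rw [B_iso hiso]; exact n1)
  obtain ⟨s₂, hs₂, es₂⟩ := norm2_root h (x := W *ᵥ d₂) (by rw [B_iso hiso]; exact n2)
  obtain ⟨s₃, hs₃, es₃⟩ := norm2_root h (x := W *ᵥ d₃) (by rw [B_iso hiso]; exact n3)
  have hD : ∀ a b, a < 126 → b < 126 → ∀ (v w : Fin chevE7.rank → ℤ), crd chevE7 a = W *ᵥ v → crd chevE7 b = W *ᵥ w → ((ipD a b : ℕ) : ℤ) = B GE7 v w + 2 := by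
    intro a b ha hb v w ev ew
    have := B_crd_D h ha hb
    rw [ev, ew, B_iso hiso] at this
    omega
  have d01 := hD _ _ hp hs₁ d₀ d₁ e0.symm es₁
  have d02 := hD _ _ hp hs₂ d₀ d₂ e0.symm es₂
  have d03 := hD _ _ hp hs₃ d₀ d₃ e0.symm es₃
  have d12 := hD _ _ hs₁ hs₂ d₁ d₂ es₁ es₂
  have d13 := hD _ _ hs₁ hs₃ d₁ d₃ es₁ es₃
  have d23 := hD _ _ hs₂ hs₃ d₂ d₃ es₂ es₃
  rw [g01] at d01
  rw [g02] at d02
  rw [g03] at d03
  rw [g12] at d12
  rw [g13] at d13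
  rw [g23] at d23
  have hchk := chk_tuple hs₁ hs₂ hs₃ (by omega) (by omega) (by omega) (by omega) (by omega) (by omega)
  obtain ⟨x', y', z', hx', hy', hz', exy, exz, eyz, hall, wxyz, wyzx, wxzy⟩ := chkO_spec hchk
  obtain ⟨x1, x2, x3, x4, x5⟩ := mem_oL.1 hx'
  obtain ⟨y1, y2, y3, y4, y5⟩ := mem_oL.1 hy'
  obtain ⟨z1, z2, z3, z4, z5⟩ := mem_oL.1 hz'
  have hIP : ∀ a b, a < 126 → b < 126 → ipD a b = 2 → B GE7 (crd chevE7 a) (crd chevE7 b) = 0 := by
    intro a b ha hb e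
    rw [B_crd_D h ha hb, e]
    norm_num
  have hOrth : ∀ a, a < 126 → ipD p₀ a = 2 → ipD s₁ a = 2 → ipD s₂ a = 2 → ipD s₃ a = 2 →
      B GE7 (W' *ᵥ crd chevE7 a) d₀ = 0 ∧ B GE7 (W' *ᵥ crd chevE7 a) d₁ = 0 ∧ B GE7 (W' *ᵥ crd chevE7 a) d₂ = 0 ∧ B GE7 (W' *ᵥ crd chevE7 a) d₃ = 0 := by
    intro a ha e₀ e₁' e₂' e₃
    rw [hB2, hB2, hB2, hB2, e0, ← es₁, ← es₂, ← es₃, B_symm symE7, B_symm symE7 _ (crd chevE7 s₁), B_symm symE7 _ (crd chevE7 s₂), B_symm symE7 _ (crd chevE7 s₃)]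
    exact ⟨hIP _ _ hp ha e₀, hIP _ _ hs₁ ha e₁', hIP _ _ hs₂ ha e₂', hIP _ _ hs₃ ha e₃⟩
  have hWit : ∀ a b c, a < 126 → b < 126 → c < 126 → wit a b c = true → Wt (W' *ᵥ crd chevE7 a) (W' *ᵥ crd chevE7 b) (W' *ᵥ crd chevE7 c) := by
    intro a b c ha hb hc hw
    obtain ⟨β, hβ, e⟩ := anyB_spec hw
    simp only [Bool.and_eq_true, Bool.not_eq_true', beq_false'] at e
    obtain ⟨⟨e3, e4⟩, e5⟩ := e
    refine ⟨W' *ᵥ crd chevE7 β, ?_, ?_, ?_, ?_⟩
    · rw [hB]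
      exact norm_crd h hβ
    · rw [hB, B_crd_D h hβ ha]
      omega
    · rw [hB, B_crd_D h hβ hb]
      omega
    · rw [hB]
      exact hIP _ _ hβ hc (Nat.eq_of_beq_eq_true e5)
  refine ⟨W' *ᵥ crd chevE7 x', W' *ᵥ crd chevE7 y', W' *ᵥ crd chevE7 z', ?_, ?_, ?_, ?_, ?_, ?_, hOrth _ x1 x2 x3 x4 x5, hOrth _ y1 y2 y3 y4 y5,
    hOrth _ z1 z2 z3 z4 z5, ?_, hWit _ _ _ x1 y1 z1 wxyz, hWit _ _ _ y1 z1 x1 wyzx, hWit _ _ _ x1 z1 y1 wxzy⟩
  · rw [hB]; exact norm_crd h x1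
  · rw [hB]; exact norm_crd h y1
  · rw [hB]; exact norm_crd h z1
  · rw [hB]; exact hIP _ _ x1 y1 exy
  · rw [hB]; exact hIP _ _ x1 z1 exz
  · rw [hB]; exact hIP _ _ y1 z1 eyz
  · intro u hu u0 u1 u2 u3
    obtain ⟨s, hs, es⟩ := norm2_root h (x := W *ᵥ u) (by rw [B_iso hiso]; exact hu)
    have hdig : ∀ a, a < 126 → ∀ v, crd chevE7 a = W *ᵥ v → B GE7 u v = 0 → ipD a s = 2 := by
      intro a ha v ev e
      have e3 := hD a s ha hs v u ev es
      rw [B_symm symE7, e] at e3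
      omega
    have hsO : s ∈ oL s₁ s₂ s₃ := mem_oL.2 ⟨hs, hdig _ hp d₀ e0.symm u0, hdig _ hs₁ d₁ es₁ u1, hdig _ hs₂ d₂ es₂ u2, hdig _ hs₃ d₃ es₃ u3⟩
    have hue : u = W' *ᵥ crd chevE7 s := by rw [es, hWW']
    have hneg : ∀ a, a < 126 → s = chevE7.neg a → u = - (W' *ᵥ crd chevE7 a) := by
      intro a ha e
      rw [hue, e, crd_neg h ha, Matrix.mulVec_neg]
    rcases hall s hsO with e | e | e | e | e | e
    · exact Or.inl (by rw [hue, e])
    · exact Or.inr (Or.inl (hneg _ x1 e))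
    · exact Or.inr (Or.inr (Or.inl (by rw [hue, e])))
    · exact Or.inr (Or.inr (Or.inr (Or.inl (hneg _ y1 e))))
    · exact Or.inr (Or.inr (Or.inr (Or.inr (Or.inl (by rw [hue, e])))))
    · exact Or.inr (Or.inr (Or.inr (Or.inr (Or.inr (hneg _ z1 e)))))

/-! ### The connectivity -/

include h in
lemma mat_ext_simple7 {M N : Matrix (Fin chevE7.rank) (Fin chevE7.rank) ℤ}
    (e : ∀ k : Fin chevE7.rank, M *ᵥ crd chevE7 (chevE7.simple k) = N *ᵥ crd chevE7 (chevE7.simple k)) : M = N := by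
  ext i k
  have e1 := congrFun (e k) i
  rw [crd_simple h, Matrix.mulVec_single_one, Matrix.mulVec_single_one] at e1
  exact e1

include h in
lemma norm_simple7 (k : Fin chevE7.rank) : B GE7 (crd chevE7 (chevE7.simple k)) (crd chevE7 (chevE7.simple k)) = 2 := by
  rw [crd_simple h]
  exact single_norm k

include h in
lemma B_simple_simple7 (i j : Fin chevE7.rank) :
    B GE7 (crd chevE7 (chevE7.simple i)) (crd chevE7 (chevE7.simple j)) = GE7 i j := by
  rw [crd_simple h, crd_simple h, B, Matrix.mulVec_single_one]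
  simp

lemma hall7 (Q : Fin chevE7.rank → Prop) (hQ : ∀ i j, GE7 i j ≠ 0 → Q i → Q j) (h3 : Q ⟨3, by decide⟩) : ∀ k, Q k := by
  have n13 : GE7 ⟨3, by decide⟩ ⟨1, by decide⟩ ≠ 0 := by decide +kernel
  have n23 : GE7 ⟨3, by decide⟩ ⟨2, by decide⟩ ≠ 0 := by decide +kernel
  have n34 : GE7 ⟨3, by decide⟩ ⟨4, by decide⟩ ≠ 0 := by decide +kernel
  have n20 : GE7 ⟨2, by decide⟩ ⟨0, by decide⟩ ≠ 0 := by decide +kernel
  have n45 : GE7 ⟨4, by decide⟩ ⟨5, by decide⟩ ≠ 0 := by decide +kernel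
  have n56 : GE7 ⟨5, by decide⟩ ⟨6, by decide⟩ ≠ 0 := by decide +kernel
  have q1 := hQ _ _ n13 h3
  have q2 := hQ _ _ n23 h3
  have q4 := hQ _ _ n34 h3
  have q0 := hQ _ _ n20 q2
  have q5 := hQ _ _ n45 q4
  have q6 := hQ _ _ n56 q5
  rintro ⟨k, hk⟩
  have hk' : k < 7 := hk
  interval_cases k
  · exact q0
  · exact q1
  · exact q2
  · exact h3
  · exact q4
  · exact q5
  · exact q6

include h in
/-- Two orthogonal types of vectors among the fundamental roots. -/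
theorem two_type (S T : (Fin chevE7.rank → ℤ) → Prop)
    (hd : ∀ k : Fin chevE7.rank, S (crd chevE7 (chevE7.simple k)) ∨ T (crd chevE7 (chevE7.simple k)))
    (horth : ∀ x y, S x → T y → B GE7 x y = 0) :
    (∀ k : Fin chevE7.rank, S (crd chevE7 (chevE7.simple k))) ∨ (∀ k : Fin chevE7.rank, T (crd chevE7 (chevE7.simple k))) := by
  have hadj : ∀ i j, GE7 i j ≠ 0 → (S (crd chevE7 (chevE7.simple i)) → S (crd chevE7 (chevE7.simple j))) ∧
      (T (crd chevE7 (chevE7.simple i)) → T (crd chevE7 (chevE7.simple j))) := by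
    intro i j hij
    constructor
    · intro hS
      refine (hd j).resolve_right fun hT => hij ?_
      rw [← B_simple_simple7 h]
      exact horth _ _ hS hT
    · intro hT
      refine (hd j).resolve_left fun hS => hij ?_
      rw [← B_simple_simple7 h, B_symm symE7]
      exact horth _ _ hS hT
  rcases hd ⟨3, by decide⟩ with h3 | h3
  · exact Or.inl (hall7 _ (fun i j hij => (hadj i j hij).1) h3)
  · exact Or.inr (hall7 _ (fun i j hij => (hadj i j hij).2) h3)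

end Cfsg.Agent.Lib.KS71.E7l
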