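/-
An isometry of the root lattice of type `E₇` annihilated by `Φ₁₂ (X³ + 1)`: the vectors of norm two with `A³ x = -x`,
and a cyclic vector.
-/
import Mathlib
import Cfsg.Agent.Lib.KS71.E7l

set_option autoImplicit false
set_option linter.unusedSectionVars false
set_option linter.unusedVariables false

namespace Cfsg.Agent.Lib.KS71.E7m

open scoped MatrixGroups Matrix
open Polynomial Module
open Cfsg Cfsg.Lie Cfsg.Lie.ChevalleyDatum
open Cfsg.Agent.Lib.Chev.Tables Cfsg.Agent.Lib.Chev.Diag Cfsg.Agent.Lib.Chev.Order1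
open Cfsg.Agent.Lib.KS71.HCb Cfsg.Agent.Lib.KS71.HCc Cfsg.Agent.Lib.KS71.HCh Cfsg.Agent.Lib.KS71.HCi
open Cfsg.Agent.Lib.KS71.HCm Cfsg.Agent.Lib.KS71.HCn Cfsg.Agent.Lib.KS71.HCj Cfsg.Agent.Lib.KS71.HCq
open Cfsg.Agent.Lib.KS71.E6j Cfsg.Agent.Lib.KS71.E7j Cfsg.Agent.Lib.KS71.E7k Cfsg.Agent.Lib.KS71.E7k1 Cfsg.Agent.Lib.KS71.E7l

lemma sym7 : GE7ᵀ = GE7 := symE7

/-- Being on the line through a vector. -/
def Ln (a b : Fin chevE7.rank → ℤ) : Prop := a = b ∨ a = -b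

lemma Ln_ne {a b c : Fin chevE7.rank → ℤ} (h1 : Ln a b) (h2 : Ln c b) (hb : B GE7 b b = 2) : B GE7 a c ≠ 0 := by
  rcases h1 with rfl | rfl <;> rcases h2 with rfl | rfl <;> simp [B_neg_left, B_neg_right, hb]

lemma Ln_B_ne {a b β : Fin chevE7.rank → ℤ} (h1 : Ln a b) (h2 : B GE7 β b ≠ 0) : B GE7 β a ≠ 0 := by
  rcases h1 with rfl | rfl
  · exact h2
  · rw [B_neg_right]
    simpa using h2

lemma Ln_B_eq {a b β : Fin chevE7.rank → ℤ} (h1 : Ln a b) (h2 : B GE7 β b = 0) : B GE7 β a = 0 := by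
  rcases h1 with rfl | rfl
  · exact h2
  · rw [B_neg_right, h2]
    simp

lemma B_bound {x y : Fin chevE7.rank → ℤ} (hx : B GE7 x x = 2) (hy : B GE7 y y = 2) : -2 ≤ B GE7 x y ∧ B GE7 x y ≤ 2 := by
  have e1 := psdE7 (x + y)
  have e2 := psdE7 (x + (-1 : ℤ) • y)
  rw [B_add_left, B_add_right, B_add_right, hx, hy, B_symm sym7 y x] at e1
  rw [B_add_left, B_add_right, B_add_right, B_smul_left, B_smul_right, B_smul_right, B_smul_left, hx, hy, B_symm sym7 y x] at e2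
  constructor <;> linarith

lemma eq_of_B_two {x y : Fin chevE7.rank → ℤ} (hx : B GE7 x x = 2) (hy : B GE7 y y = 2) (e : B GE7 x y = 2) : x = y := by
  have e2 : B GE7 (x + (-1 : ℤ) • y) (x + (-1 : ℤ) • y) = 0 := by
    rw [B_add_left, B_add_right, B_add_right, B_smul_left, B_smul_right, B_smul_right, B_smul_left, hx, hy, B_symm sym7 y x, e]
    norm_num
  have e3 := defE7 e2
  funext j
  have := congrFun e3 j
  simp only [Pi.add_apply, Pi.smul_apply, smul_eq_mul, Pi.zero_apply] at this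
  linarith

lemma eq_neg_of_B_two {x y : Fin chevE7.rank → ℤ} (hx : B GE7 x x = 2) (hy : B GE7 y y = 2) (e : B GE7 x y = -2) : x = -y := by
  have e2 : B GE7 (x + y) (x + y) = 0 := by
    rw [B_add_left, B_add_right, B_add_right, hx, hy, B_symm sym7 y x, e]
    norm_num
  have e3 := defE7 e2
  funext j
  have := congrFun e3 j
  simp only [Pi.add_apply, Pi.neg_apply, Pi.zero_apply] at this ⊢
  linarith


lemma ne_neg_self {x : Fin chevE7.rank → ℤ} (hx : B GE7 x x = 2) : x ≠ -x := by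
  intro e
  have e1 : B GE7 x (-x) = - B GE7 x x := B_neg_right _ _
  rw [← e] at e1
  omega

/-- Flipping the sign of an inner product by a reflection. -/
lemma flip_to {β γ : Fin chevE7.rank → ℤ} (hβ : B GE7 β β = 2) (hγ : B GE7 γ γ = 2) (ε : ℤ) (hε : ε = 1 ∨ ε = -1)
    (ha : B GE7 β γ = 1 ∨ B GE7 β γ = -1) : ∃ β' : Fin chevE7.rank → ℤ, B GE7 β' β' = 2 ∧ B GE7 β' γ = ε ∧
      ∀ v, B GE7 γ v = 0 → B GE7 β' v = B GE7 β v := by
  by_cases e : B GE7 β γ = ε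
  · exact ⟨β, hβ, e, fun _ _ => rfl⟩
  · have ha' : B GE7 β γ = -ε := by
      rcases hε with rfl | rfl <;> rcases ha with h1 | h1 <;> simp_all
    refine ⟨β + ε • γ, ?_, ?_, ?_⟩
    · rw [B_add_left, B_add_right, B_add_right, B_smul_left, B_smul_right, B_smul_right, B_smul_left, hβ, hγ, B_symm sym7 γ β, ha']
      rcases hε with rfl | rfl <;> norm_num
    · rw [B_add_left, B_smul_left, hγ, ha']
      ring
    · intro v hv
      rw [B_add_left, B_smul_left, hv]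
      ring

/-- The pigeonhole principle for orthogonal vectors on three lines. -/
lemma pigeon {b₁ b₂ b₃ a₁ a₂ a₃ a₄ : Fin chevE7.rank → ℤ} (n₁ : B GE7 b₁ b₁ = 2) (n₂ : B GE7 b₂ b₂ = 2) (n₃ : B GE7 b₃ b₃ = 2)
    (l₁ : Ln a₁ b₁ ∨ Ln a₁ b₂ ∨ Ln a₁ b₃) (l₂ : Ln a₂ b₁ ∨ Ln a₂ b₂ ∨ Ln a₂ b₃) (l₃ : Ln a₃ b₁ ∨ Ln a₃ b₂ ∨ Ln a₃ b₃)
    (l₄ : Ln a₄ b₁ ∨ Ln a₄ b₂ ∨ Ln a₄ b₃) (o12 : B GE7 a₁ a₂ = 0) (o13 : B GE7 a₁ a₃ = 0) (o14 : B GE7 a₁ a₄ = 0)
    (o23 : B GE7 a₂ a₃ = 0) (o24 : B GE7 a₂ a₄ = 0) (o34 : B GE7 a₃ a₄ = 0) : False := by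
  rcases l₁ with l₁ | l₁ | l₁ <;> rcases l₂ with l₂ | l₂ | l₂ <;> first
    | exact Ln_ne l₁ l₂ n₁ o12
    | exact Ln_ne l₁ l₂ n₂ o12
    | exact Ln_ne l₁ l₂ n₃ o12
    | (rcases l₃ with l₃ | l₃ | l₃ <;> first
        | exact Ln_ne l₁ l₃ n₁ o13
        | exact Ln_ne l₁ l₃ n₂ o13
        | exact Ln_ne l₁ l₃ n₃ o13
        | exact Ln_ne l₂ l₃ n₁ o23
        | exact Ln_ne l₂ l₃ n₂ o23
        | exact Ln_ne l₂ l₃ n₃ o23
        | (rcases l₄ with l₄ | l₄ | l₄ <;> first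
            | exact Ln_ne l₁ l₄ n₁ o14
            | exact Ln_ne l₁ l₄ n₂ o14
            | exact Ln_ne l₁ l₄ n₃ o14
            | exact Ln_ne l₂ l₄ n₁ o24
            | exact Ln_ne l₂ l₄ n₂ o24
            | exact Ln_ne l₂ l₄ n₃ o24
            | exact Ln_ne l₃ l₄ n₁ o34
            | exact Ln_ne l₃ l₄ n₂ o34
            | exact Ln_ne l₃ l₄ n₃ o34))

/-! ### The determinant of a cyclic vector -/

/-- The first Gram matrix. -/
def T0 : List ℤ := [2, 0, 1, -1, 0, -1, 0]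

/-- The second Gram matrix. -/
def T1 : List ℤ := [2, -1, 1, -1, 0, 0, 0]

def L0 : List (List ℤ) := [[2, 0, 1, -1, 0, -1, 0], [0, 2, 0, 1, -1, 0, -1], [0, 0, 3, 1, 2, -1, 0], [0, 0, 0, 5, 1, 4, -3], [0, 0, 0, 0, 4, 1, 3], [0, 0, 0, 0, 0, 3, 1], [0, 0, 0, 0, 0, 0, 1]]

def L1' : List (List ℤ) := [[2, -1, 1, -1, 0, 0, 0], [0, 3, -1, 1, -2, 0, 0], [0, 0, 4, -1, 2, -3, 0], [0, 0, 0, 5, -2, 3, -4], [0, 0, 0, 0, 4, -1, 3], [0, 0, 0, 0, 0, 3, -1], [0, 0, 0, 0, 0, 0, 1]]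

set_option maxRecDepth 100000 in
lemma detT0 : (Tz (n := 7) (fun k => T0.getD k 0)).det = 2 := by
  have he : ((60 : ℕ) : ℤ) • (Tz (n := 7) (fun k => T0.getD k 0)) = (matOf 7 L0)ᵀ * Matrix.diagonal (fun i : Fin 7 => (([30, 30, 10, 2, 3, 5, 40].getD i.val 0 : ℕ) : ℤ)) * matOf 7 L0 := by
    decide +kernel
  have ht : ∀ i j : Fin 7, j < i → ((L0.getD i.val []).getD j.val 0 : ℤ) = 0 := by decide +kernel
  exact det_of_cert 60 (by norm_num) _ he ht 2 (by decide +kernel)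

set_option maxRecDepth 100000 in
lemma detT1 : (Tz (n := 7) (fun k => T1.getD k 0)).det = 2 := by
  have he : ((60 : ℕ) : ℤ) • (Tz (n := 7) (fun k => T1.getD k 0)) = (matOf 7 L1')ᵀ * Matrix.diagonal (fun i : Fin 7 => (([30, 10, 5, 3, 3, 5, 40].getD i.val 0 : ℕ) : ℤ)) * matOf 7 L1' := by
    decide +kernel
  have ht : ∀ i j : Fin 7, j < i → ((L1'.getD i.val []).getD j.val 0 : ℤ) = 0 := by decide +kernel
  exact det_of_cert 60 (by norm_num) _ he ht 2 (by decide +kernel)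

lemma Tz_congr7 {t t' : ℕ → ℤ} (h : ∀ k, k < 7 → t k = t' k) : Tz (n := 7) t = Tz t' := by
  ext i j
  rw [Tz, Tz]
  apply h
  have := i.isLt
  have := j.isLt
  split_ifs <;> omega

/-- The determinant of a vector with the right inner products. -/
theorem det_sq_of_t7 {n : ℕ} (hn : n = 7) {G A : Matrix (Fin n) (Fin n) ℤ} (hG : Gᵀ = G) (hiso : Aᵀ * G * A = G) {α : Fin n → ℤ}
    (hdetG : G.det = 2) (ht : (tt G A α 0 = 2 ∧ tt G A α 1 = 0 ∧ tt G A α 2 = 1 ∧ tt G A α 3 = -1 ∧ tt G A α 4 = 0 ∧ tt G A α 5 = -1 ∧ tt G A α 6 = 0) ∨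
      (tt G A α 0 = 2 ∧ tt G A α 1 = -1 ∧ tt G A α 2 = 1 ∧ tt G A α 3 = -1 ∧ tt G A α 4 = 0 ∧ tt G A α 5 = 0 ∧ tt G A α 6 = 0)) :
    (Mb A α).det ^ 2 = 1 := by
  subst hn
  have hGr : (Mb A α)ᵀ * G * Mb A α = Tz (tt G A α) := gram_Mb hG hiso α
  have hdT : (Tz (n := 7) (tt G A α)).det = 2 := by
    rcases ht with ⟨a0, a1, a2, a3, a4, a5, a6⟩ | ⟨a0, a1, a2, a3, a4, a5, a6⟩
    · have e : Tz (n := 7) (tt G A α) = Tz (n := 7) (fun k => T0.getD k 0) := Tz_congr7 (fun k hk => by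
        interval_cases k
        · exact a0
        · exact a1
        · exact a2
        · exact a3
        · exact a4
        · exact a5
        · exact a6)
      rw [e]
      exact detT0
    · have e : Tz (n := 7) (tt G A α) = Tz (n := 7) (fun k => T1.getD k 0) := Tz_congr7 (fun k hk => by
        interval_cases k
        · exact a0
        · exact a1
        · exact a2
        · exact a3
        · exact a4
        · exact a5
        · exact a6)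
      rw [e]
      exact detT1
  have e := congrArg Matrix.det hGr
  rw [Matrix.det_mul, Matrix.det_mul, Matrix.det_transpose, hdetG, hdT] at e
  nlinarith

/-! ### The main structure theorem -/

section main

variable (h : Tab chevE7) {A : Matrix (Fin chevE7.rank) (Fin chevE7.rank) ℤ}
variable {r : ℕ} [hr : Fact r.Prime]

/-- The triple of orthogonal vectors permuted by the isometry. -/
structure Tri (A : Matrix (Fin chevE7.rank) (Fin chevE7.rank) ℤ) (γ₀ γ₁ γ₂ : Fin chevE7.rank → ℤ) : Prop where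
  n0 : B GE7 γ₀ γ₀ = 2
  n1 : B GE7 γ₁ γ₁ = 2
  n2 : B GE7 γ₂ γ₂ = 2
  o01 : B GE7 γ₀ γ₁ = 0
  o02 : B GE7 γ₀ γ₂ = 0
  o12 : B GE7 γ₁ γ₂ = 0
  a0 : A *ᵥ γ₀ = γ₁
  a1 : A *ᵥ γ₁ = γ₂
  a2 : A *ᵥ γ₂ = -γ₀

lemma pow_two_mv (x : Fin chevE7.rank → ℤ) : A ^ 2 *ᵥ x = A *ᵥ (A *ᵥ x) := by
  rw [pow_two, Matrix.mulVec_mulVec]

lemma pow_three_mv (x : Fin chevE7.rank → ℤ) : A ^ 3 *ᵥ x = A *ᵥ (A *ᵥ (A *ᵥ x)) := by
  rw [pow_succ, ← Matrix.mulVec_mulVec, pow_two_mv]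

lemma pow_four_mv (x : Fin chevE7.rank → ℤ) : A ^ 4 *ᵥ x = A *ᵥ (A *ᵥ (A *ᵥ (A *ᵥ x))) := by
  rw [pow_succ, ← Matrix.mulVec_mulVec, pow_three_mv]

namespace Tri

variable {γ₀ γ₁ γ₂ : Fin chevE7.rank → ℤ} (T : Tri A γ₀ γ₁ γ₂)

include T

lemma p2_0 : A ^ 2 *ᵥ γ₀ = γ₂ := by simp only [pow_two_mv, T.a0, T.a1, T.a2, Matrix.mulVec_neg, neg_neg]
lemma p2_1 : A ^ 2 *ᵥ γ₁ = -γ₀ := by simp only [pow_two_mv, T.a0, T.a1, T.a2, Matrix.mulVec_neg, neg_neg]
lemma p2_2 : A ^ 2 *ᵥ γ₂ = -γ₁ := by simp only [pow_two_mv, T.a0, T.a1, T.a2, Matrix.mulVec_neg, neg_neg]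
lemma p3_0 : A ^ 3 *ᵥ γ₀ = -γ₀ := by simp only [pow_three_mv, T.a0, T.a1, T.a2, Matrix.mulVec_neg, neg_neg]
lemma p3_1 : A ^ 3 *ᵥ γ₁ = -γ₁ := by simp only [pow_three_mv, T.a0, T.a1, T.a2, Matrix.mulVec_neg, neg_neg]
lemma p3_2 : A ^ 3 *ᵥ γ₂ = -γ₂ := by simp only [pow_three_mv, T.a0, T.a1, T.a2, Matrix.mulVec_neg, neg_neg]
lemma p4_0 : A ^ 4 *ᵥ γ₀ = -γ₁ := by simp only [pow_four_mv, T.a0, T.a1, T.a2, Matrix.mulVec_neg, neg_neg]
lemma p4_1 : A ^ 4 *ᵥ γ₁ = -γ₂ := by simp only [pow_four_mv, T.a0, T.a1, T.a2, Matrix.mulVec_neg, neg_neg]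
lemma p4_2 : A ^ 4 *ᵥ γ₂ = γ₀ := by simp only [pow_four_mv, T.a0, T.a1, T.a2, Matrix.mulVec_neg, neg_neg]

end Tri

lemma six_pair {x y z u v : Fin chevE7.rank → ℤ} (nx : B GE7 x x = 2) (ny : B GE7 y y = 2) (nz : B GE7 z z = 2)
    (oxy : B GE7 x y = 0) (oxz : B GE7 x z = 0) (oyz : B GE7 y z = 0)
    (hu : u = x ∨ u = -x ∨ u = y ∨ u = -y ∨ u = z ∨ u = -z) (hv : v = x ∨ v = -x ∨ v = y ∨ v = -y ∨ v = z ∨ v = -z) :
    B GE7 u v = 0 ∨ B GE7 u v = 2 ∨ B GE7 u v = -2 := by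
  have o1 : B GE7 y x = 0 := by rw [B_symm sym7]; exact oxy
  have o2 : B GE7 z x = 0 := by rw [B_symm sym7]; exact oxz
  have o3 : B GE7 z y = 0 := by rw [B_symm sym7]; exact oyz
  rcases hu with rfl | rfl | rfl | rfl | rfl | rfl <;> rcases hv with rfl | rfl | rfl | rfl | rfl | rfl <;>
    simp [B_neg_left, B_neg_right, nx, ny, nz, oxy, oxz, oyz, o1, o2, o3]

lemma six_ln {x y z u : Fin chevE7.rank → ℤ} (hu : u = x ∨ u = -x ∨ u = y ∨ u = -y ∨ u = z ∨ u = -z) : Ln u x ∨ Ln u y ∨ Ln u z := by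
  rcases hu with e | e | e | e | e | e
  · exact Or.inl (Or.inl e)
  · exact Or.inl (Or.inr e)
  · exact Or.inr (Or.inl (Or.inl e))
  · exact Or.inr (Or.inl (Or.inr e))
  · exact Or.inr (Or.inr (Or.inl e))
  · exact Or.inr (Or.inr (Or.inr e))

lemma wit_of {a b c g₀ g₁ g₂ : Fin chevE7.rank → ℤ} (nc : B GE7 c c = 2) (W : Wt a b c) (l₂ : Ln g₂ c)
    (l₀ : Ln g₀ a ∨ Ln g₀ b ∨ Ln g₀ c) (l₁ : Ln g₁ a ∨ Ln g₁ b ∨ Ln g₁ c) (o02 : B GE7 g₀ g₂ = 0) (o12 : B GE7 g₁ g₂ = 0) : Wt g₀ g₁ g₂ := by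
  obtain ⟨β, hβ, e1, e2, e3⟩ := W
  refine ⟨β, hβ, ?_, ?_, Ln_B_eq l₂ e3⟩
  · rcases l₀ with l | l | l
    · exact Ln_B_ne l e1
    · exact Ln_B_ne l e2
    · exact absurd o02 (Ln_ne l l₂ nc)
  · rcases l₁ with l | l | l
    · exact Ln_B_ne l e1
    · exact Ln_B_ne l e2
    · exact absurd o12 (Ln_ne l l₂ nc)

/-- A vector of the witness type has the normalized inner products. -/
lemma exists_normal {γ₀ γ₁ γ₂ : Fin chevE7.rank → ℤ} (n0 : B GE7 γ₀ γ₀ = 2) (n1 : B GE7 γ₁ γ₁ = 2) (o01 : B GE7 γ₀ γ₁ = 0) (o02 : B GE7 γ₀ γ₂ = 0)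
    (o12 : B GE7 γ₁ γ₂ = 0) (W : Wt γ₀ γ₁ γ₂) :
    ∃ β, B GE7 β β = 2 ∧ B GE7 β γ₀ = 1 ∧ B GE7 β γ₁ = -1 ∧ B GE7 β γ₂ = 0 := by
  obtain ⟨β', hβ', e1, e2, e3⟩ := W
  have h0 : B GE7 β' γ₀ = 1 ∨ B GE7 β' γ₀ = -1 := by
    have b := B_bound hβ' n0
    have n2 : B GE7 β' γ₀ ≠ 2 := by
      intro e
      apply e2
      rw [eq_of_B_two hβ' n0 e]
      exact o01
    have nm2 : B GE7 β' γ₀ ≠ -2 := by
      intro e
      apply e2
      rw [eq_neg_of_B_two hβ' n0 e, B_neg_left, o01]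
      simp
    omega
  have h1 : B GE7 β' γ₁ = 1 ∨ B GE7 β' γ₁ = -1 := by
    have b := B_bound hβ' n1
    have n2 : B GE7 β' γ₁ ≠ 2 := by
      intro e
      apply e1
      rw [eq_of_B_two hβ' n1 e, B_symm sym7]
      exact o01
    have nm2 : B GE7 β' γ₁ ≠ -2 := by
      intro e
      apply e1
      rw [eq_neg_of_B_two hβ' n1 e, B_neg_left, B_symm sym7, o01]
      simp
    omega
  obtain ⟨β₁, hβ₁, f1, f2⟩ := flip_to hβ' n0 1 (Or.inl rfl) h0
  have f3 := f2 γ₁ o01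
  have f4 := f2 γ₂ o02
  rw [← f3] at h1
  obtain ⟨β, hβ, g1, g2⟩ := flip_to hβ₁ n1 (-1) (Or.inr rfl) h1
  have g3 := g2 γ₀ (by rw [B_symm sym7]; exact o01)
  have g4 := g2 γ₂ o12
  exact ⟨β, hβ, by rw [g3, f1], g1, by rw [g4, f4, e3]⟩

set_option maxHeartbeats 4000000 in
include h in
/-- The structure theorem. -/
theorem mlt (hiso : Aᵀ * GE7 * A = GE7) (hP : A ^ 7 - A ^ 5 + A ^ 4 + A ^ 3 - A ^ 2 + 1 = 0) (hdet : (A + 1).det = 0)
    (hr13 : 13 ≤ r) {qb : ZMod r} (hqb : orderOf qb = 12) {cb : Fin chevE7.rank → ZMod r} (hc : cb ≠ 0)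
    (hcA : cb ᵥ* mmp r A = qb • cb)
    (hVm : finrank (ZMod r) (Module.End.eigenspace (Matrix.toLin' (mmp r A)) ((-1 : ℤ) : ZMod r)) ≤ 1) :
    ∃ γ₀ γ₁ γ₂ : Fin chevE7.rank → ℤ, Tri A γ₀ γ₁ γ₂ ∧
      (∀ u, B GE7 u u = 2 → av A u 3 = -u → u = γ₀ ∨ u = -γ₀ ∨ u = γ₁ ∨ u = -γ₁ ∨ u = γ₂ ∨ u = -γ₂) ∧
      ∃ β, B GE7 β β = 2 ∧ (Mb A β).det ^ 2 = 1 := by
  classical
  have hA12 := A12_of hP
  have hpsd := formE7.1
  have hdef := formE7.2
  -- a fundamental root with the third inner product minus one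
  obtain ⟨k, hk⟩ : ∃ k : Fin chevE7.rank, tt GE7 A (crd chevE7 (chevE7.simple k)) 3 = -1 := by
    by_contra hno
    push Not at hno
    have hd : ∀ k : Fin chevE7.rank, av A (crd chevE7 (chevE7.simple k)) 3 = -crd chevE7 (chevE7.simple k) ∨ IsV4 A (crd chevE7 (chevE7.simple k)) := by
      intro k
      have hn := norm_simple7 h k
      rcases t3_cases sym7 hiso hpsd hn hP with e | e | e
      · exact Or.inr (case_t3_zero sym7 hiso hpsd hdef hn hP e)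
      · exact absurd e (hno k)
      · exact Or.inl (av_eq_neg_of_tt sym7 hiso hpsd hdef hn 3 e)
    rcases two_type h (fun x => av A x 3 = -x) (fun x => IsV4 A x) hd (fun x y hx hy => (perp_cube_v4 hiso hx hy).1) with e | e
    · apply hc
      funext j
      have e1 := cube_imp_perp (e j) hqb hcA
      rw [crd_simple h] at e1
      have e2 : cv r (Pi.single j 1 : Fin chevE7.rank → ℤ) = Pi.single j 1 := by
        funext i
        by_cases hij : i = j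
        · subst hij
          simp [cv]
        · simp [cv, hij]
      rw [e2, dotProduct_single, mul_one] at e1
      exact e1
    · have e3 : A ^ 4 - A ^ 2 + 1 = 0 := by
        apply mat_ext_simple7 h
        intro k
        have e4 := e k
        rw [Matrix.zero_mulVec, Matrix.add_mulVec, Matrix.sub_mulVec, Matrix.one_mulVec]
        simpa [IsV4, av] using e4
      obtain ⟨x, hx0, hx⟩ := Matrix.exists_mulVec_eq_zero_iff.2 hdet
      rw [Matrix.add_mulVec, Matrix.one_mulVec] at hx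
      have e4 : A *ᵥ x = -x := eq_neg_of_add_eq_zero_left hx
      have e5 : A ^ 2 *ᵥ x = x := by
        rw [pow_two_mv, e4, Matrix.mulVec_neg, e4, neg_neg]
      have e6 : A ^ 4 *ᵥ x = x := by
        rw [show (4 : ℕ) = 2 + 2 from rfl, pow_add, ← Matrix.mulVec_mulVec, e5, e5]
      have e7 := congrArg (fun M => M *ᵥ x) e3
      simp only [Matrix.add_mulVec, Matrix.sub_mulVec, Matrix.one_mulVec, e5, e6, Matrix.zero_mulVec] at e7
      apply hx0
      simpa using e7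
  set β₀ := crd chevE7 (chevE7.simple k) with hβ₀
  have hβ₀n : B GE7 β₀ β₀ = 2 := norm_simple7 h k
  obtain ⟨hv4, hδn, hδ1⟩ := case_t3_one sym7 hiso hpsd hdef hβ₀n hP hk
  set δ := β₀ + av A β₀ 3 with hδ
  obtain ⟨d2, d3, d4⟩ := v4_vals sym7 hiso hδn hv4
  have b1 := tt_bound sym7 hiso hpsd hδn 1
  set a := tt GE7 A δ 1 with ha
  have ha1 : a = 1 ∨ a = -1 := by omega
  have ha2 : a * a = 1 := by
    rcases ha1 with e | e <;> rw [e] <;> norm_num
  have ha0 : a ≠ 0 := by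
    rcases ha1 with e | e <;> rw [e] <;> norm_num
  have b01 : B GE7 δ (av A δ 1) = a := rfl
  have b02 : B GE7 δ (av A δ 2) = 1 := d2
  have b03 : B GE7 δ (av A δ 3) = 0 := d3
  have b11 : B GE7 (av A δ 1) (av A δ 1) = 2 := by
    have := bb_add hiso δ 1 0
    rw [add_zero] at this
    rw [this]
    simpa [tt] using hδn
  have b22 : B GE7 (av A δ 2) (av A δ 2) = 2 := by
    have := bb_add hiso δ 2 0
    rw [add_zero] at this
    rw [this]
    simpa [tt] using hδn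
  have b33 : B GE7 (av A δ 3) (av A δ 3) = 2 := by
    have := bb_add hiso δ 3 0
    rw [add_zero] at this
    rw [this]
    simpa [tt] using hδn
  have b12 : B GE7 (av A δ 1) (av A δ 2) = a := bb_add hiso δ 1 1
  have b13 : B GE7 (av A δ 1) (av A δ 3) = 1 := (bb_add hiso δ 1 2).trans d2
  have b23 : B GE7 (av A δ 2) (av A δ 3) = a := bb_add hiso δ 2 1
  obtain ⟨x, y, z, nx, ny, nz, oxy, oxz, oyz, ⟨x0, x1, x2, x3⟩, ⟨y0, y1, y2, y3⟩, ⟨z0, z1, z2, z3⟩, hall, Wxyz, Wyzx, Wxzy⟩ :=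
    orth_triple h (d₀ := δ) (d₁ := a • av A δ 1) (d₂ := av A δ 2) (d₃ := a • av A δ 3) hδn
      (by rw [B_smul_left, B_smul_right, b11]; linear_combination 2 * ha2) b22
      (by rw [B_smul_left, B_smul_right, b33]; linear_combination 2 * ha2)
      (by rw [B_smul_right, b01]; exact ha2) b02 (by rw [B_smul_right, b03, mul_zero])
      (by rw [B_smul_left, b12]; exact ha2) (by rw [B_smul_left, B_smul_right, b13]; linear_combination ha2)
      (by rw [B_smul_right, b23]; exact ha2)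
  -- the set of vectors
  let R : (Fin chevE7.rank → ℤ) → Prop := fun u => B GE7 u u = 2 ∧ B GE7 u δ = 0 ∧ B GE7 u (av A δ 1) = 0 ∧ B GE7 u (av A δ 2) = 0 ∧ B GE7 u (av A δ 3) = 0
  have hsm : ∀ u v, B GE7 u (a • v) = 0 → B GE7 u v = 0 := by
    intro u v e
    rw [B_smul_right] at e
    exact (mul_eq_zero.1 e).resolve_left ha0
  have hRx : R x := ⟨nx, x0, hsm _ _ x1, x2, hsm _ _ x3⟩
  have hRy : R y := ⟨ny, y0, hsm _ _ y1, y2, hsm _ _ y3⟩
  have hRz : R z := ⟨nz, z0, hsm _ _ z1, z2, hsm _ _ z3⟩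
  have hsix : ∀ u, R u → u = x ∨ u = -x ∨ u = y ∨ u = -y ∨ u = z ∨ u = -z := by
    rintro u ⟨e1, e2, e3, e4, e5⟩
    exact hall u e1 e2 (by rw [B_smul_right, e3, mul_zero]) e4 (by rw [B_smul_right, e5, mul_zero])
  have hRA : ∀ u, R u → R (A *ᵥ u) := by
    rintro u ⟨e1, e2, e3, e4, e5⟩
    have hshift : ∀ k, B GE7 (A *ᵥ u) (av A δ (k + 1)) = B GE7 u (av A δ k) := by
      intro k
      rw [av_succ, B_iso hiso]
    have f1 : B GE7 (A *ᵥ u) (av A δ 1) = 0 := by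
      have := hshift 0
      rw [zero_add, av_zero] at this
      rw [this, e2]
    have f2 : B GE7 (A *ᵥ u) (av A δ 2) = 0 := by rw [hshift 1, e3]
    have f3 : B GE7 (A *ᵥ u) (av A δ 3) = 0 := by rw [hshift 2, e4]
    have f4 : B GE7 (A *ᵥ u) (av A δ 4) = 0 := by rw [hshift 3, e5]
    have f5 := congrArg (B GE7 (A *ᵥ u)) hv4
    rw [B_add_right, B_sub_right', f4, f2, av_zero, B_zero_right'] at f5
    refine ⟨by rw [B_iso hiso, e1], ?_, f1, f2, f3⟩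
    linarith
  have hRpow : ∀ u, R u → ∀ k, R (av A u k) := by
    intro u hu k
    induction k with
    | zero => simpa using hu
    | succ k ih =>
      rw [av_succ]
      exact hRA _ ih
  have hpair : ∀ u v, R u → R v → B GE7 u v = 0 ∨ B GE7 u v = 2 ∨ B GE7 u v = -2 := fun u v hu hv =>
    six_pair nx ny nz oxy oxz oyz (hsix u hu) (hsix v hv)
  have hcub : ∀ u, R u → av A u 3 = -u := by
    intro u hu
    have hn := hu.1
    have hp3 := hpair u _ hu (hRpow u hu 3)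
    have hp2 := hpair u _ hu (hRpow u hu 2)
    rcases t3_cases sym7 hiso hpsd hn hP with e | e | e
    · exfalso
      have e1 := case_t3_zero sym7 hiso hpsd hdef hn hP e
      obtain ⟨e2, -, -⟩ := v4_vals sym7 hiso hn e1
      have e3 : B GE7 u (av A u 2) = 1 := e2
      rw [e3] at hp2
      omega
    · exfalso
      have e3 : B GE7 u (av A u 3) = -1 := e
      rw [e3] at hp3
      omega
    · exact av_eq_neg_of_tt sym7 hiso hpsd hdef hn 3 e
  have hone : ∀ u, R u → (tt GE7 A u 1 = 0 ∧ tt GE7 A u 2 = 0) ∨ A *ᵥ u = -u := by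
    intro u hu
    have hn := hu.1
    have hp1 := hpair u _ hu (hRpow u hu 1)
    have hc3 := hcub u hu
    obtain ⟨-, h4, -, -⟩ := t_vals7 sym7 hiso hn hP
    have h3 : tt GE7 A u 3 = -2 := by
      rw [tt, hc3, B_neg_right, hn]
    have e4 : av A u 4 = -(A *ᵥ u) := by
      rw [av_succ, hc3, Matrix.mulVec_neg]
    have h4' : tt GE7 A u 4 = - tt GE7 A u 1 := by
      rw [tt, e4, B_neg_right, tt, av_one']
    rcases hp1 with e | e | e
    · left
      exact ⟨e, by have e' : tt GE7 A u 1 = 0 := e; omega⟩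
    · exfalso
      have e5 : A *ᵥ u = u := by
        have := av_eq_of_tt sym7 hiso hpsd hdef hn 1 e
        rwa [av_one'] at this
      have e6 : A ^ 3 *ᵥ u = u := by rw [pow_three_mv, e5, e5, e5]
      exact ne_neg_self hn (e6.symm.trans hc3)
    · right
      have := av_eq_neg_of_tt sym7 hiso hpsd hdef hn 1 e
      rwa [av_one'] at this
  -- one vector is moved
  obtain ⟨γ₀, hγ₀, hγ1, hγ2⟩ : ∃ γ₀, R γ₀ ∧ tt GE7 A γ₀ 1 = 0 ∧ tt GE7 A γ₀ 2 = 0 := by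
    rcases hone x hRx with e | e
    · exact ⟨x, hRx, e.1, e.2⟩
    rcases hone y hRy with f | f
    · exact ⟨y, hRy, f.1, f.2⟩
    exfalso
    have hr2 : ¬ (r : ℤ) ∣ B GE7 x x := by
      rw [nx]
      intro e3
      have e4 : r ∣ 2 := by exact_mod_cast e3
      have := Nat.le_of_dvd (by norm_num) e4
      omega
    have e5 : y = 0 := rank_fixed sym7 (lam := -1) (x := x) (by rw [e]; simp) hr2 hVm (by rw [f]; simp) oxy
    rw [e5] at ny
    simp [B] at ny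
  -- the triple
  set γ₁ := A *ᵥ γ₀ with hγ₁
  set γ₂ := A *ᵥ γ₁ with hγ₂
  have h3γ : A *ᵥ γ₂ = -γ₀ := by
    have := hcub γ₀ hγ₀
    rw [← this]
    show A *ᵥ (A *ᵥ (A *ᵥ γ₀)) = A ^ 3 *ᵥ γ₀
    rw [pow_three_mv]
  have hRγ₁ : R γ₁ := hRA _ hγ₀
  have hRγ₂ : R γ₂ := hRA _ hRγ₁
  have T : Tri A γ₀ γ₁ γ₂ := by
    refine ⟨hγ₀.1, hRγ₁.1, hRγ₂.1, ?_, ?_, ?_, rfl, rfl, h3γ⟩
    · rw [tt, av_one'] at hγ1
      exact hγ1
    · rw [tt] at hγ2
      have e : av A γ₀ 2 = γ₂ := by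
        show A ^ 2 *ᵥ γ₀ = _
        rw [pow_two_mv]
      rwa [e] at hγ2
    · rw [hγ₂, B_iso hiso]
      rw [tt, av_one'] at hγ1
      rw [hγ₁, hγ₂] at *
      exact hγ1
  have hsix' : ∀ u, R u → u = γ₀ ∨ u = -γ₀ ∨ u = γ₁ ∨ u = -γ₁ ∨ u = γ₂ ∨ u = -γ₂ := by
    intro u hu
    have hn := hu.1
    rcases hpair u γ₀ hu hγ₀ with e0 | e0 | e0
    · rcases hpair u γ₁ hu hRγ₁ with e1 | e1 | e1
      · rcases hpair u γ₂ hu hRγ₂ with e2 | e2 | e2
        · exfalso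
          exact pigeon nx ny nz (six_ln (hsix u hu)) (six_ln (hsix γ₀ hγ₀)) (six_ln (hsix γ₁ hRγ₁)) (six_ln (hsix γ₂ hRγ₂))
            e0 e1 e2 T.o01 T.o02 T.o12
        · exact Or.inr (Or.inr (Or.inr (Or.inr (Or.inl (eq_of_B_two hn T.n2 e2)))))
        · exact Or.inr (Or.inr (Or.inr (Or.inr (Or.inr (eq_neg_of_B_two hn T.n2 e2)))))
      · exact Or.inr (Or.inr (Or.inl (eq_of_B_two hn T.n1 e1)))
      · exact Or.inr (Or.inr (Or.inr (Or.inl (eq_neg_of_B_two hn T.n1 e1))))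
    · exact Or.inl (eq_of_B_two hn T.n0 e0)
    · exact Or.inr (Or.inl (eq_neg_of_B_two hn T.n0 e0))
  have hcube_R : ∀ u, B GE7 u u = 2 → av A u 3 = -u → R u := by
    intro u hn hu
    obtain ⟨e1, e2, e3, e4⟩ := perp_cube_v4 hiso hu hv4
    exact ⟨hn, e1, e2, e3, e4⟩
  have hmain : ∀ u, B GE7 u u = 2 → av A u 3 = -u → u = γ₀ ∨ u = -γ₀ ∨ u = γ₁ ∨ u = -γ₁ ∨ u = γ₂ ∨ u = -γ₂ :=
    fun u hn hu => hsix' u (hcube_R u hn hu)
  refine ⟨γ₀, γ₁, γ₂, T, hmain, ?_⟩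
  -- the vector with the right inner products
  have hW : Wt γ₀ γ₁ γ₂ := by
    have l0 := six_ln (hsix γ₀ hγ₀)
    have l1 := six_ln (hsix γ₁ hRγ₁)
    rcases six_ln (hsix γ₂ hRγ₂) with l | l | l
    · refine wit_of nx Wyzx l ?_ ?_ T.o02 T.o12
      · rcases l0 with e | e | e
        · exact Or.inr (Or.inr e)
        · exact Or.inl e
        · exact Or.inr (Or.inl e)
      · rcases l1 with e | e | e
        · exact Or.inr (Or.inr e)
        · exact Or.inl e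
        · exact Or.inr (Or.inl e)
    · refine wit_of ny Wxzy l ?_ ?_ T.o02 T.o12
      · rcases l0 with e | e | e
        · exact Or.inl e
        · exact Or.inr (Or.inr e)
        · exact Or.inr (Or.inl e)
      · rcases l1 with e | e | e
        · exact Or.inl e
        · exact Or.inr (Or.inr e)
        · exact Or.inr (Or.inl e)
    · exact wit_of nz Wxyz l l0 l1 T.o02 T.o12
  obtain ⟨β, hβ, c0, c1, c2⟩ := exists_normal T.n0 T.n1 T.o01 T.o02 T.o12 hW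
  refine ⟨β, hβ, ?_⟩
  obtain ⟨h0, h4, h5, h6⟩ := t_vals7 sym7 hiso hβ hP
  have ht3 : tt GE7 A β 3 = -1 := by
    rcases t3_cases sym7 hiso hpsd hβ hP with e | e | e
    · exfalso
      have e1 := case_t3_zero sym7 hiso hpsd hdef hβ hP e
      have e2 := (perp_cube_v4 (G := GE7) hiso (x := γ₀) T.p3_0 e1).1
      rw [B_symm sym7, c0] at e2
      omega
    · exact e
    · exfalso
      have e1 := av_eq_neg_of_tt sym7 hiso hpsd hdef hβ 3 e
      have o10 : B GE7 γ₁ γ₀ = 0 := by rw [B_symm sym7]; exact T.o01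
      have o20 : B GE7 γ₂ γ₀ = 0 := by rw [B_symm sym7]; exact T.o02
      rcases hmain β hβ e1 with f | f | f | f | f | f
      · rw [f, T.o01] at c1
        omega
      · rw [f, B_neg_left, T.o01] at c1
        omega
      · rw [f, o10] at c0
        omega
      · rw [f, B_neg_left, o10] at c0
        omega
      · rw [f, o20] at c0
        omega
      · rw [f, B_neg_left, o20] at c0
        omega
  -- the vector `Φ₁₂ (A) β`
  obtain ⟨U, hU⟩ : ∃ U, U = av A β 4 - av A β 2 + av A β 0 := ⟨_, rfl⟩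
  have hU3 : A ^ 3 *ᵥ U = -U := by
    have e1 := rel_vec7 hP β
    have e2 : A ^ 3 *ᵥ U = av A β 7 - av A β 5 + av A β 3 := by
      rw [hU, Matrix.mulVec_add, Matrix.mulVec_sub, ← av_add, ← av_add, ← av_add]
    rw [e2, hU]
    funext j
    have e3 := congrFun e1 j
    simp only [Pi.add_apply, Pi.sub_apply, Pi.neg_apply, Pi.zero_apply] at e3 ⊢
    linarith
  have key2 : ∀ x, B GE7 (av A β 2) (A ^ 2 *ᵥ x) = B GE7 β x := fun x => B_pow_iso hiso 2 β x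
  have key4 : ∀ x, B GE7 (av A β 4) (A ^ 4 *ᵥ x) = B GE7 β x := fun x => B_pow_iso hiso 4 β x
  have p20 : B GE7 (av A β 2) γ₂ = 1 := by
    have := key2 γ₀
    rwa [T.p2_0, c0] at this
  have p21 : B GE7 (av A β 2) γ₀ = 1 := by
    have := key2 γ₁
    rw [T.p2_1, c1, B_neg_right] at this
    omega
  have p22 : B GE7 (av A β 2) γ₁ = 0 := by
    have := key2 γ₂
    rw [T.p2_2, c2, B_neg_right] at this
    omega
  have p40 : B GE7 (av A β 4) γ₁ = -1 := by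
    have := key4 γ₀
    rw [T.p4_0, c0, B_neg_right] at this
    omega
  have p41 : B GE7 (av A β 4) γ₂ = 1 := by
    have := key4 γ₁
    rw [T.p4_1, c1, B_neg_right] at this
    omega
  have p42 : B GE7 (av A β 4) γ₀ = 0 := by
    have := key4 γ₂
    rwa [T.p4_2, c2] at this
  have a0 : av A β 0 = β := av_zero β
  have hU0 : B GE7 U γ₀ = 0 := by
    rw [hU, B_add_left, B_sub_left', a0, p42, p21, c0]
    norm_num
  have hU1 : B GE7 U γ₁ = -2 := by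
    rw [hU, B_add_left, B_sub_left', a0, p40, p22, c1]
    norm_num
  have hU2 : B GE7 U γ₂ = 0 := by
    rw [hU, B_add_left, B_sub_left', a0, p41, p20, c2]
    norm_num
  have bb00 : B GE7 (av A β 0) (av A β 0) = tt GE7 A β 0 := bb_add hiso β 0 0
  have bb02 : B GE7 (av A β 0) (av A β 2) = tt GE7 A β 2 := bb_add hiso β 0 2
  have bb04 : B GE7 (av A β 0) (av A β 4) = tt GE7 A β 4 := bb_add hiso β 0 4
  have bb20 : B GE7 (av A β 2) (av A β 0) = tt GE7 A β 2 := bb_add' sym7 hiso β 0 2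
  have bb22 : B GE7 (av A β 2) (av A β 2) = tt GE7 A β 0 := bb_add hiso β 2 0
  have bb24 : B GE7 (av A β 2) (av A β 4) = tt GE7 A β 2 := bb_add hiso β 2 2
  have bb40 : B GE7 (av A β 4) (av A β 0) = tt GE7 A β 4 := bb_add' sym7 hiso β 0 4
  have bb42 : B GE7 (av A β 4) (av A β 2) = tt GE7 A β 2 := bb_add' sym7 hiso β 2 2
  have bb44 : B GE7 (av A β 4) (av A β 4) = tt GE7 A β 0 := bb_add hiso β 4 0
  have hUU : B GE7 U U = 6 - 4 * tt GE7 A β 2 + 2 * tt GE7 A β 4 := by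
    rw [hU]
    simp only [B_add_left, B_add_right, B_sub_left', B_sub_right']
    rw [bb00, bb02, bb04, bb20, bb22, bb24, bb40, bb42, bb44, h0]
    ring
  obtain ⟨w, hw⟩ : ∃ w, w = U + γ₁ := ⟨_, rfl⟩
  have hww : B GE7 w w = B GE7 U U - 2 := by
    rw [hw, B_add_left, B_add_right, B_add_right, hU1, B_symm sym7 γ₁ U, hU1, T.n1]
    ring
  have hw3 : av A w 3 = -w := by
    show A ^ 3 *ᵥ w = -w
    rw [hw, Matrix.mulVec_add, hU3, T.p3_1, neg_add]
  have hw0 : B GE7 w γ₀ = 0 := by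
    rw [hw, B_add_left, hU0, B_symm sym7, T.o01]
    simp
  have hw1 : B GE7 w γ₁ = 0 := by
    rw [hw, B_add_left, hU1, T.n1]
    simp
  have hw2 : B GE7 w γ₂ = 0 := by
    rw [hw, B_add_left, hU2, T.o12]
    simp
  have hpw := hpsd w
  have b4 := tt_bound sym7 hiso hpsd hβ 4
  have b2 := tt_bound sym7 hiso hpsd hβ 2
  have b1' := tt_bound sym7 hiso hpsd hβ 1
  have hne4 : tt GE7 A β 4 ≠ -2 := by
    intro e
    have e1 : A ^ 4 *ᵥ β = -β := av_eq_neg_of_tt sym7 hiso hpsd hdef hβ 4 e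
    have e8 : A ^ 8 *ᵥ β = β := by
      rw [show (8 : ℕ) = 4 + 4 from rfl, pow_add, ← Matrix.mulVec_mulVec, e1, Matrix.mulVec_neg, e1, neg_neg]
    have e12 : A ^ 12 *ᵥ β = -β := by
      rw [show (12 : ℕ) = 4 + 8 from rfl, pow_add, ← Matrix.mulVec_mulVec, e8, e1]
    rw [hA12, Matrix.one_mulVec] at e12
    exact ne_neg_self hβ e12
  have ht2 : tt GE7 A β 2 = 1 := by
    have e0 : tt GE7 A β 2 = 0 ∨ tt GE7 A β 2 = 1 := by
      rw [hww, hUU] at hpw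
      omega
    rcases e0 with e | e
    · exfalso
      have hwn : B GE7 w w = 2 := by
        rw [hww, hUU]
        omega
      rcases hmain w hwn hw3 with f | f | f | f | f | f
      · rw [f, T.n0] at hw0
        omega
      · rw [f, B_neg_left, T.n0] at hw0
        omega
      · rw [f, T.n1] at hw1
        omega
      · rw [f, B_neg_left, T.n1] at hw1
        omega
      · rw [f, T.n2] at hw2
        omega
      · rw [f, B_neg_left, T.n2] at hw2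
        omega
    · exact e
  have hne2 : A ^ 2 *ᵥ β ≠ β := by
    intro e
    have e1 : tt GE7 A β 2 = 2 := by
      rw [tt]
      show B GE7 β (A ^ 2 *ᵥ β) = 2
      rw [e, hβ]
    omega
  have n12 : tt GE7 A β 1 ≠ 2 := by
    intro e
    have e1 : A *ᵥ β = β := by
      have := av_eq_of_tt sym7 hiso hpsd hdef hβ 1 e
      rwa [av_one'] at this
    apply hne2
    rw [pow_two_mv, e1, e1]
  have nm12 : tt GE7 A β 1 ≠ -2 := by
    intro e
    have e1 : A *ᵥ β = -β := by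
      have := av_eq_neg_of_tt sym7 hiso hpsd hdef hβ 1 e
      rwa [av_one'] at this
    apply hne2
    rw [pow_two_mv, e1, Matrix.mulVec_neg, e1, neg_neg]
  have n11 : tt GE7 A β 1 ≠ 1 := by
    intro e
    have e5 : tt GE7 A β 5 = -2 := by omega
    have e1 : A ^ 5 *ᵥ β = -β := av_eq_neg_of_tt sym7 hiso hpsd hdef hβ 5 e5
    apply hne2
    have e3 : A ^ 10 *ᵥ β = β := by
      rw [show (10 : ℕ) = 5 + 5 from rfl, pow_add, ← Matrix.mulVec_mulVec, e1, Matrix.mulVec_neg, e1, neg_neg]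
    have e4 : A ^ 2 *ᵥ (A ^ 10 *ᵥ β) = β := by
      rw [Matrix.mulVec_mulVec, ← pow_add, show 2 + 10 = 12 from rfl, hA12, Matrix.one_mulVec]
    rw [e3] at e4
    exact e4
  have ht1 : tt GE7 A β 1 = 0 ∨ tt GE7 A β 1 = -1 := by omega
  rcases ht1 with e | e
  · have r4 : tt GE7 A β 4 = 0 := by rw [h4, ht2, ht3]; norm_num
    have r5 : tt GE7 A β 5 = -1 := by rw [h5, ht3, ht2, e]; norm_num
    have r6 : tt GE7 A β 6 = 0 := by rw [h6, ht3]; norm_num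
    exact det_sq_of_t7 (n := chevE7.rank) (by decide +kernel) (G := GE7) (A := A) sym7 hiso detE7 (Or.inl ⟨h0, e, ht2, ht3, r4, r5, r6⟩)
  · have r4 : tt GE7 A β 4 = 0 := by rw [h4, ht2, ht3]; norm_num
    have r5 : tt GE7 A β 5 = 0 := by rw [h5, ht3, ht2, e]; norm_num
    have r6 : tt GE7 A β 6 = 0 := by rw [h6, ht3]; norm_num
    exact det_sq_of_t7 (n := chevE7.rank) (by decide +kernel) (G := GE7) (A := A) sym7 hiso detE7 (Or.inr ⟨h0, e, ht2, ht3, r4, r5, r6⟩)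

end main

end Cfsg.Agent.Lib.KS71.E7m
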