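/-
An element of the Weyl group of type `E₇` with an eigenvalue of order twelve modulo a prime.
-/
import Mathlib
import Cfsg.Agent.Lib.KS71.E7m
import Cfsg.Agent.Lib.KS71.HCp
import Cfsg.Agent.Lib.KS71.E6k

set_option autoImplicit false
set_option linter.unusedSectionVars false
set_option linter.unusedVariables false

namespace Cfsg.Agent.Lib.KS71.E7n

open scoped MatrixGroups Matrix
open Polynomial Module
open Cfsg Cfsg.Lie Cfsg.Lie.ChevalleyDatum
open Cfsg.Agent.Lib.Chev.Tables Cfsg.Agent.Lib.Chev.Diag Cfsg.Agent.Lib.Chev.Order1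
open Cfsg.Agent.Lib.KS71.HCb Cfsg.Agent.Lib.KS71.HCc Cfsg.Agent.Lib.KS71.HCh Cfsg.Agent.Lib.KS71.HCi
open Cfsg.Agent.Lib.KS71.HCm Cfsg.Agent.Lib.KS71.HCn Cfsg.Agent.Lib.KS71.HCj Cfsg.Agent.Lib.KS71.HCq
open Cfsg.Agent.Lib.KS71.E6j Cfsg.Agent.Lib.KS71.E6k Cfsg.Agent.Lib.KS71.E7j Cfsg.Agent.Lib.KS71.E7k Cfsg.Agent.Lib.KS71.E7k1
open Cfsg.Agent.Lib.KS71.E7l Cfsg.Agent.Lib.KS71.E7m

lemma def7 : ∀ x : Fin chevE7.rank → ℤ, B GE7 x x = 0 → x = 0 := fun _ => defE7

/-- Vectors with even inner products with everything have norm different from two. -/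
theorem not_norm2 {u : Fin chevE7.rank → ℤ} (hu : ∀ k, (2 : ℤ) ∣ (GE7 *ᵥ u) k) : B GE7 u u ≠ 2 := by
  have h1 : mmp 2 GE7 *ᵥ cv 2 u = 0 := by
    rw [← cv_mulVec]
    exact (cv_eq_zero_iff (p := 2) _).2 (fun j => by exact_mod_cast hu j)
  intro e4
  rcases mod2_zero _ h1 with h2 | h2
  · have h3 := (cv_eq_zero_iff (p := 2) u).1 h2
    choose w hw using h3
    have e1 : u = (2 : ℤ) • w := by
      funext j
      simp only [Pi.smul_apply, smul_eq_mul]
      exact_mod_cast hw j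
    rw [e1, B_smul_left, B_smul_right] at e4
    obtain ⟨k, hk⟩ := evE7 w
    rw [hk] at e4
    omega
  · have h3 : cv 2 (u - zE7) = 0 := by
      funext j
      have e := congrFun h2 j
      simp only [cv, Pi.sub_apply, Int.cast_sub, Pi.zero_apply] at e ⊢
      rw [e, sub_self]
    have h4 := (cv_eq_zero_iff (p := 2) _).1 h3
    choose w hw using h4
    have e1 : u = zE7 + (2 : ℤ) • w := by
      funext j
      have := hw j
      simp only [Pi.sub_apply] at this
      simp only [Pi.add_apply, Pi.smul_apply, smul_eq_mul]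
      push_cast at this
      linarith
    rw [e1, B_add_left, B_add_right, B_add_right, B_smul_left, B_smul_right, B_smul_right, B_smul_left, zE7_B,
      B_symm symE7 w zE7, zE7_pair] at e4
    obtain ⟨k, hk⟩ := evE7 w
    rw [hk] at e4
    omega

variable {r : ℕ} [hr : Fact r.Prime]

/-! ### The structure of the multiset -/

lemma E_struct7 {E : Multiset ℕ} (hs : (E.map Nat.totient).sum = 7) (h1 : 1 ≤ E.count 12) (hpos : ∀ e ∈ E, 0 < e) :
    (∃ a b : ℕ, (a = 1 ∨ a = 2) ∧ (b = 3 ∨ b = 4 ∨ b = 6) ∧ E = 12 ::ₘ a ::ₘ {b}) ∨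
    (∃ a b c : ℕ, (a = 1 ∨ a = 2) ∧ (b = 1 ∨ b = 2) ∧ (c = 1 ∨ c = 2) ∧ E = 12 ::ₘ a ::ₘ b ::ₘ {c}) := by
  have ht12 : Nat.totient 12 = 4 := by decide
  have e1 := sum_totient_split E 12
  rw [hs, ht12] at e1
  have e2 : E.count 12 = 1 := by omega
  have e3 := filter_split E 12
  rw [e2] at e3
  set E' := E.filter (· ≠ 12) with hE'
  have hpos' : ∀ e ∈ E', 0 < e := fun e he => hpos e (Multiset.mem_of_mem_filter he)
  have e4 : (E'.map Nat.totient).sum = 3 := by omega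
  have e5 : E = 12 ::ₘ E' := by
    rw [e3]
    simp [Multiset.replicate_succ]
  clear_value E'
  rw [e5]
  have hc := card_le_sum_totient hpos'
  rw [e4] at hc
  have tp : ∀ e, e ∈ E' → 0 < e.totient := fun e he => Nat.totient_pos.2 (hpos' e he)
  have hcard : Multiset.card E' = 0 ∨ Multiset.card E' = 1 ∨ Multiset.card E' = 2 ∨ Multiset.card E' = 3 := by omega
  rcases hcard with e6 | e6 | e6 | e6
  · have e7 := Multiset.card_eq_zero.1 e6
    subst e7
    simp at e4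
  · exfalso
    obtain ⟨a, rfl⟩ := Multiset.card_eq_one.1 e6
    have e8 : a.totient = 3 := by simpa using e4
    by_cases ha : 2 < a
    · have := Nat.totient_even ha
      rw [e8] at this
      exact absurd this (by decide)
    · have : a = 0 ∨ a = 1 ∨ a = 2 := by omega
      rcases this with rfl | rfl | rfl <;> revert e8 <;> decide
  · left
    obtain ⟨a, b, rfl⟩ := Multiset.card_eq_two.1 e6
    have ha := tp a (by simp)
    have hb := tp b (by simp)
    have e8 : a.totient + b.totient = 3 := by simpa using e4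
    have e9 : (a.totient = 1 ∧ b.totient = 2) ∨ (a.totient = 2 ∧ b.totient = 1) := by omega
    rcases e9 with ⟨f1, f2⟩ | ⟨f1, f2⟩
    · refine ⟨a, b, Nat.totient_eq_one_iff.1 f1, totient_two f2, ?_⟩
      rfl
    · refine ⟨b, a, Nat.totient_eq_one_iff.1 f2, totient_two f1, ?_⟩
      congr 1
      exact Multiset.pair_comm a b
  · right
    obtain ⟨a, b, c, rfl⟩ := Multiset.card_eq_three.1 e6
    have ha := tp a (by simp)
    have hb := tp b (by simp)
    have hc' := tp c (by simp)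
    have e8 : a.totient + (b.totient + c.totient) = 3 := by simpa using e4
    have f1 : a.totient = 1 := by omega
    have f2 : b.totient = 1 := by omega
    have f3 : c.totient = 1 := by omega
    exact ⟨a, b, c, Nat.totient_eq_one_iff.1 f1, Nat.totient_eq_one_iff.1 f2, Nat.totient_eq_one_iff.1 f3, rfl⟩

/-! ### Eigenvectors -/

lemma exists_ev {A : Matrix (Fin chevE7.rank) (Fin chevE7.rank) ℤ} {a : ℤ} (he : A.charpoly.eval a = 0) :
    ∃ x : Fin chevE7.rank → ℤ, x ≠ 0 ∧ A *ᵥ x = a • x := by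
  rw [Matrix.eval_charpoly] at he
  obtain ⟨x, hx0, hx⟩ := Matrix.exists_mulVec_eq_zero_iff.2 he
  refine ⟨x, hx0, ?_⟩
  have e0 : Matrix.scalar (Fin chevE7.rank) a = a • 1 := by
    rw [Matrix.scalar_apply, Matrix.smul_one_eq_diagonal]
  rw [e0, Matrix.sub_mulVec, Matrix.smul_mulVec, Matrix.one_mulVec] at hx
  exact (sub_eq_zero.1 hx).symm

lemma pow_ev {A : Matrix (Fin chevE7.rank) (Fin chevE7.rank) ℤ} {a : ℤ} {x : Fin chevE7.rank → ℤ} (hx : A *ᵥ x = a • x) (k : ℕ) :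
    A ^ k *ᵥ x = a ^ k • x := by
  induction k with
  | zero => simp
  | succ k ih => rw [pow_succ, ← Matrix.mulVec_mulVec, hx, Matrix.mulVec_smul, ih, smul_smul, pow_succ, mul_comm]

lemma smul_ne {a : ℤ} {x : Fin chevE7.rank → ℤ} (hx : x ≠ 0) (ha : a ≠ 0) : a • x ≠ 0 := by
  intro e
  exact hx ((smul_eq_zero.1 e).resolve_left ha)

lemma phi12_ne {A : Matrix (Fin chevE7.rank) (Fin chevE7.rank) ℤ} {a : ℤ} {x : Fin chevE7.rank → ℤ} (hx0 : x ≠ 0)
    (hx : A *ᵥ x = a • x) (ha : a = 1 ∨ a = -1) : A ^ 4 - A ^ 2 + 1 ≠ 0 := by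
  intro e2
  have e5 := congrArg (fun M => M *ᵥ x) e2
  simp only [Matrix.add_mulVec, Matrix.sub_mulVec, Matrix.one_mulVec, pow_ev hx, Matrix.zero_mulVec] at e5
  apply hx0
  rcases ha with rfl | rfl
  · simpa using e5
  · simpa using e5

/-- The first case: `(X² - 1) Φ₁₂`. -/
theorem no_case_P6 (h : Tab chevE7) {A : Matrix (Fin chevE7.rank) (Fin chevE7.rank) ℤ} (hiso : Aᵀ * GE7 * A = GE7)
    (hP' : A ^ 6 - 2 • A ^ 4 + 2 • A ^ 2 - 1 = 0) (h1 : A ^ 2 ≠ 1) (h2 : A ^ 4 - A ^ 2 + 1 ≠ 0) : False := by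
  have hn := norm_simple7 h
  have key := two_type h (fun x => av A x 2 = x) (fun x => av A x 4 - av A x 2 + av A x 0 = 0)
    (fun k => dichotomy sym7 hiso psdE7 def7 (hn k) hP')
    (fun x y hx hy => orth_dichotomy sym7 hiso hx hy)
  rcases key with key | key
  · apply h1
    apply mat_ext_simple7 h
    intro k
    rw [Matrix.one_mulVec]
    exact key k
  · apply h2
    apply mat_ext_simple7 h
    intro k
    have := key k
    rw [Matrix.zero_mulVec, Matrix.add_mulVec, Matrix.sub_mulVec, Matrix.one_mulVec]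
    simpa [av] using this

/-- The second case: `(X - 1) Φ₆ Φ₁₂`. -/
theorem no_case_Q6 (h : Tab chevE7) {A : Matrix (Fin chevE7.rank) (Fin chevE7.rank) ℤ} (hiso : Aᵀ * GE7 * A = GE7)
    (hP : (A - 1) * Q6 A = 0) (h1 : A ≠ 1) {x : Fin chevE7.rank → ℤ} (hx0 : x ≠ 0) (hx : A *ᵥ x = x) : False := by
  have hn := norm_simple7 h
  have key := two_type h (fun x => A *ᵥ x = x) (fun x => Q6 A *ᵥ x = 0)
    (fun k => dichotomy_Q6 sym7 hiso psdE7 def7 evE7 hP (hn k))
    (fun x y hx hy => orth_Q6 hiso hx hy)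
  rcases key with key | key
  · apply h1
    apply mat_ext_simple7 h
    intro k
    rw [Matrix.one_mulVec]
    exact key k
  · have e : Q6 A = 0 := by
      apply mat_ext_simple7 h
      intro k
      rw [Matrix.zero_mulVec]
      exact key k
    have hx' : A *ᵥ x = (1 : ℤ) • x := by rw [one_smul]; exact hx
    have e5 := congrArg (fun M => M *ᵥ x) e
    simp only [Q6, Matrix.add_mulVec, Matrix.sub_mulVec, Matrix.one_mulVec, pow_ev hx', Matrix.zero_mulVec] at e5
    apply hx0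
    rw [hx] at e5
    simpa using e5

section four

variable {A : Matrix (Fin chevE7.rank) (Fin chevE7.rank) ℤ} (hiso : Aᵀ * GE7 * A = GE7)
  (hP4 : A ^ 7 - A ^ 6 + A - 1 = 0) (hr13 : 13 ≤ r)
  (hV : Module.finrank (ZMod r) (Module.End.eigenspace (Matrix.toLin' (mmp r A)) ((1 : ℤ) : ZMod r)) ≤ 1)

include hiso hP4 hr13 hV in
lemma four_key {u₀ : Fin chevE7.rank → ℤ} (hfix : A *ᵥ u₀ = u₀) {N : ℤ} (hN : B GE7 u₀ u₀ = N) (hNr : ¬ (r : ℤ) ∣ N)
    {p : Fin chevE7.rank → ℤ} (hp : B GE7 p p = 2) : (B GE7 u₀ p) ^ 2 = N * tt GE7 A p 3 := by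
  have hu := u6_fixed hP4 p
  obtain ⟨u', hu'⟩ : ∃ u', u' = u6 A p := ⟨_, rfl⟩
  rw [← hu'] at hu
  have hfix1 : A *ᵥ u₀ = (1 : ℤ) • u₀ := by rw [one_smul]; exact hfix
  have hpair : B GE7 u₀ u' = 2 * B GE7 u₀ p := by
    rw [hu']
    exact u6_pair hiso hfix p
  have hnorm : B GE7 u' u' = 4 * tt GE7 A p 3 := by
    rw [hu']
    exact u6_norm sym7 hiso hp hP4
  obtain ⟨y, hy⟩ : ∃ y, y = N • u' - (B GE7 u₀ u') • u₀ := ⟨_, rfl⟩
  have hy1 : A *ᵥ y = (1 : ℤ) • y := by
    rw [one_smul, hy, Matrix.mulVec_sub, Matrix.mulVec_smul, Matrix.mulVec_smul, hu, hfix]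
  have hy2 : B GE7 u₀ y = 0 := by
    rw [hy, B_sub_right', B_smul_right, B_smul_right, hN]
    ring
  have hrx : ¬ (r : ℤ) ∣ B GE7 u₀ u₀ := by rw [hN]; exact hNr
  have hy0 : y = 0 := rank_fixed sym7 hfix1 hrx hV hy1 hy2
  have e1 : N • u' = (B GE7 u₀ u') • u₀ := by
    rw [hy0] at hy
    exact (sub_eq_zero.1 hy.symm)
  have e2 := congrArg (fun v => B GE7 v v) e1
  simp only [B_smul_left, B_smul_right] at e2
  rw [hnorm, hN, hpair] at e2
  have hN0 : N ≠ 0 := by
    rintro rfl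
    exact hNr (dvd_zero _)
  have e3 : N * (N * (4 * tt GE7 A p 3)) = N * (4 * (B GE7 u₀ p) ^ 2) := by
    rw [e2]
    ring
  have e4 := mul_left_cancel₀ hN0 e3
  have e5 : N * (4 * tt GE7 A p 3) = 4 * (B GE7 u₀ p) ^ 2 := e4
  linarith

/-- The third case: `(X⁶ + 1) (X - 1)`. -/
theorem no_four (h : Tab chevE7) (hiso : Aᵀ * GE7 * A = GE7) (hP4 : A ^ 7 - A ^ 6 + A - 1 = 0) (hr13 : 13 ≤ r)
    (hV : Module.finrank (ZMod r) (Module.End.eigenspace (Matrix.toLin' (mmp r A)) ((1 : ℤ) : ZMod r)) ≤ 1)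
    {x : Fin chevE7.rank → ℤ} (hx0 : x ≠ 0) (hx : A *ᵥ x = x) : False := by
  have hn := norm_simple7 h
  have hvals : ∀ β : Fin chevE7.rank → ℤ, B GE7 β β = 2 → tt GE7 A β 3 = 0 ∨ tt GE7 A β 3 = 1 ∨ tt GE7 A β 3 = 2 := by
    intro β hβ
    have e := t_vals4 sym7 hiso hβ hP4
    have b := tt_bound sym7 hiso psdE7 hβ 6
    omega
  have hgen : ∀ (u₀ : Fin chevE7.rank → ℤ) (N : ℤ), A *ᵥ u₀ = u₀ → B GE7 u₀ u₀ = N → ¬ (r : ℤ) ∣ N → (2 : ℤ) ∣ N →
      ∀ k, (2 : ℤ) ∣ (GE7 *ᵥ u₀) k := by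
    intro u₀ N hf hN hNr h2N k
    have e := four_key hiso hP4 hr13 hV hf hN hNr (hn k)
    have e2 : (GE7 *ᵥ u₀) k = B GE7 u₀ (crd chevE7 (chevE7.simple k)) := by
      rw [B_symm sym7, crd_simple h, B_single h]
    rw [e2]
    have e3 : (2 : ℤ) ∣ (B GE7 u₀ (crd chevE7 (chevE7.simple k))) ^ 2 := by
      rw [e]
      exact Dvd.dvd.mul_right h2N _
    exact Int.prime_two.dvd_of_dvd_pow e3
  by_cases h0 : ∀ k : Fin chevE7.rank, tt GE7 A (crd chevE7 (chevE7.simple k)) 3 = 0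
  · have e6 : A ^ 6 = -1 := by
      apply mat_ext_simple7 h
      intro k
      have e := t_vals4 sym7 hiso (hn k) hP4
      rw [h0 k] at e
      have e1 := av_eq_neg_of_tt sym7 hiso psdE7 def7 (hn k) 6 (by omega)
      rw [Matrix.neg_mulVec, Matrix.one_mulVec]
      exact e1
    have hx' : A *ᵥ x = (1 : ℤ) • x := by rw [one_smul]; exact hx
    have e7 := pow_ev hx' 6
    rw [e6, Matrix.neg_mulVec, Matrix.one_mulVec] at e7
    simp only [one_pow, one_smul] at e7
    apply hx0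
    funext j
    have := congrFun e7 j
    simp only [Pi.neg_apply, Pi.zero_apply] at this ⊢
    omega
  · push Not at h0
    obtain ⟨k, hk⟩ := h0
    rcases hvals _ (hn k) with e | e | e
    · exact absurd e hk
    · -- norm four
      have hf := u6_fixed hP4 (crd chevE7 (chevE7.simple k))
      have hN : B GE7 (u6 A (crd chevE7 (chevE7.simple k))) (u6 A (crd chevE7 (chevE7.simple k))) = 4 := by
        rw [u6_norm sym7 hiso (hn k) hP4, e]
        norm_num
      have := hgen _ 4 hf hN (not_dvd_of_small hr13 (by norm_num)) (by norm_num)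
      exact not_norm4 this hN
    · -- norm two
      have e6 := t_vals4 sym7 hiso (hn k) hP4
      rw [e] at e6
      have e7 := av_eq_of_tt sym7 hiso psdE7 def7 (hn k) 6 (by omega)
      have hf := u6_fixed hP4 (crd chevE7 (chevE7.simple k))
      have hf' : A *ᵥ (crd chevE7 (chevE7.simple k)) = crd chevE7 (chevE7.simple k) := by
        rw [u6, e7, Matrix.mulVec_add] at hf
        funext j
        have := congrFun hf j
        simp only [Pi.add_apply] at this
        omega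
      have := hgen _ 2 hf' (hn k) (not_dvd_of_small hr13 (by norm_num)) (by norm_num)
      exact not_norm2 this (hn k)

end four

/-! ### Orders and eigenspaces -/

lemma mmp_neg (A : Matrix (Fin chevE7.rank) (Fin chevE7.rank) ℤ) : mmp r (-A) = - mmp r A := by
  ext i j
  simp [mmp]

lemma eig_neg (A : Matrix (Fin chevE7.rank) (Fin chevE7.rank) ℤ) (ζ : ZMod r) :
    Module.End.eigenspace (Matrix.toLin' (mmp r (-A))) ζ = Module.End.eigenspace (Matrix.toLin' (mmp r A)) (-ζ) := by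
  ext x
  simp only [Module.End.mem_eigenspace_iff, Matrix.toLin'_apply]
  rw [mmp_neg, Matrix.neg_mulVec, neg_smul]
  constructor
  · intro hh
    rw [← hh, neg_neg]
  · intro hh
    rw [hh, neg_neg]

lemma ne_neg_one (hr13 : 13 ≤ r) : (-1 : ZMod r) ≠ 1 := by
  intro e
  have e1 : (2 : ZMod r) = 0 := by linear_combination -e
  have e2 : ((2 : ℕ) : ZMod r) = 0 := by exact_mod_cast e1
  rw [ZMod.natCast_eq_zero_iff] at e2
  have := Nat.le_of_dvd (by norm_num) e2
  omega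

lemma ord_neg {qb : ZMod r} (hr13 : 13 ≤ r) (hqb : orderOf qb = 12) : orderOf (-qb) = 12 := by
  obtain ⟨h6, -⟩ := prim12 hqb
  have hne := ne_neg_one hr13
  refine orderOf_eq_of_pow_and_pow_div_prime (by norm_num) ?_ ?_
  · rw [show (12 : ℕ) = 6 * 2 from rfl, pow_mul, Even.neg_pow (by decide), h6]
    simp
  · intro p hp hd
    have hp' : p = 2 ∨ p = 3 := by
      have e : p ∣ 2 ^ 2 * 3 := hd
      rcases (Nat.Prime.dvd_mul hp).1 e with e1 | e1
      · left
        exact (Nat.prime_dvd_prime_iff_eq hp Nat.prime_two).1 (hp.dvd_of_dvd_pow e1)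
      · right
        exact (Nat.prime_dvd_prime_iff_eq hp Nat.prime_three).1 e1
    rcases hp' with rfl | rfl
    · rw [show 12 / 2 = 6 from rfl, Even.neg_pow (by decide), h6]
      exact hne
    · rw [show 12 / 3 = 4 from rfl, Even.neg_pow (by decide)]
      intro e
      have := orderOf_dvd_of_pow_eq_one e
      rw [hqb] at this
      omega

lemma ord_m (hr13 : 13 ≤ r) : orderOf (((-1 : ℤ)) : ZMod r) = 2 := by
  have e : (((-1 : ℤ)) : ZMod r) = -1 := by simp
  rw [e]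
  apply orderOf_eq_prime (by simp)
  exact ne_neg_one hr13

lemma ord_1 : orderOf (((1 : ℤ)) : ZMod r) = 1 := by simp

/-- The structure theorem in a form ready for use. -/
theorem mlt_pack (h : Tab chevE7) {A₀ : Matrix (Fin chevE7.rank) (Fin chevE7.rank) ℤ} (hiso : A₀ᵀ * GE7 * A₀ = GE7)
    (hP : A₀ ^ 7 - A₀ ^ 5 + A₀ ^ 4 + A₀ ^ 3 - A₀ ^ 2 + 1 = 0) (hdet : (A₀ + 1).det = 0)
    (hr13 : 13 ≤ r) {qb : ZMod r} (hqb : orderOf qb = 12) {c : Fin chevE7.rank → ℤ} (hc : cv r c ≠ 0)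
    (hcA : cv r c ᵥ* mmp r A₀ = qb • cv r c)
    (hVm : finrank (ZMod r) (Module.End.eigenspace (Matrix.toLin' (mmp r A₀)) ((-1 : ℤ) : ZMod r)) ≤ 1)
    (hVq : finrank (ZMod r) (Module.End.eigenspace (Matrix.toLin' (mmp r A₀)) qb) ≤ 1) :
    ∃ γ₀ γ₁ γ₂ : Fin chevE7.rank → ℤ, Tri A₀ γ₀ γ₁ γ₂ ∧
      (∀ u, B GE7 u u = 2 → ((r : ℤ) ∣ c ⬝ᵥ u ↔ (u = γ₀ ∨ u = -γ₀ ∨ u = γ₁ ∨ u = -γ₁ ∨ u = γ₂ ∨ u = -γ₂))) ∧
      ∃ β, B GE7 β β = 2 ∧ (Mb A₀ β).det ^ 2 = 1 := by
  obtain ⟨γ₀, γ₁, γ₂, T, hmain, β, hβ, hdetβ⟩ := mlt h hiso hP hdet hr13 hqb hc hcA hVm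
  refine ⟨γ₀, γ₁, γ₂, T, ?_, β, hβ, hdetβ⟩
  intro u hu
  have ecast : ((c ⬝ᵥ u : ℤ) : ZMod r) = cv r c ⬝ᵥ cv r u := by
    simp [dotProduct, cv]
  constructor
  · intro hd
    have e : cv r c ⬝ᵥ cv r u = 0 := by
      rw [← ecast]
      exact (ZMod.intCast_zmod_eq_zero_iff_dvd _ r).2 hd
    exact hmain u hu (perp_imp_cube sym7 hiso psdE7 def7 hu hP hr13 hqb hc hcA hVq e)
  · intro hm
    have e3 : av A₀ u 3 = -u := by
      show A₀ ^ 3 *ᵥ u = -u
      rcases hm with rfl | rfl | rfl | rfl | rfl | rfl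
      · exact T.p3_0
      · rw [Matrix.mulVec_neg, T.p3_0]
      · exact T.p3_1
      · rw [Matrix.mulVec_neg, T.p3_1]
      · exact T.p3_2
      · rw [Matrix.mulVec_neg, T.p3_2]
    have e4 := cube_imp_perp e3 hqb hcA
    rw [← ecast] at e4
    exact (ZMod.intCast_zmod_eq_zero_iff_dvd _ r).1 e4

/-- The package of facts on the matrix of the Weyl element. -/
theorem lattice_E7 (h : Tab chevE7) (hW : (Wc h).card = 2903040) {l : List ℕ} (hl : ∀ i ∈ l, i < chevE7.rank) {q : ℕ}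
    (hord : orderOf (q : ZMod r) = 12) {c : Fin chevE7.rank → ℤ} (hcne : ∃ j, ¬ (r : ℤ) ∣ c j)
    (hV : (fun j => (c j : ZMod r)) ∈ Module.End.eigenspace (Matrix.toLin' ((Aw chevE7 l)ᵀ.map (Int.castRingHom (ZMod r)))) (q : ZMod r)) :
    ∃ (A₀ : Matrix (Fin chevE7.rank) (Fin chevE7.rank) ℤ) (γ₀ γ₁ γ₂ : Fin chevE7.rank → ℤ), Tri A₀ γ₀ γ₁ γ₂ ∧
      (∀ u, B GE7 u u = 2 → ((r : ℤ) ∣ c ⬝ᵥ u ↔ (u = γ₀ ∨ u = -γ₀ ∨ u = γ₁ ∨ u = -γ₁ ∨ u = γ₂ ∨ u = -γ₂))) ∧
      (A₀ = -Aw chevE7 l ∨ (A₀ = Aw chevE7 l ∧ (Aw chevE7 l).charpoly = (X ^ 4 - X ^ 2 + 1) * (X ^ 3 + 1) ∧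
        (Aw chevE7 l) ^ 12 = 1 ∧ ∃ β, B GE7 β β = 2 ∧ (Mb (Aw chevE7 l) β).det ^ 2 = 1)) := by
  classical
  obtain ⟨hd12, hr13, -⟩ := Cfsg.Agent.Lib.KS71.HCp.lt_of_order (by norm_num : 0 < 12) hord
  have hrW : ¬ r ∣ (Wc h).card := by
    rw [hW]
    have e : (2903040 : ℕ) = 2 ^ 10 * (3 ^ 4 * (5 * 7)) := by norm_num
    rw [e]
    intro hd
    have hp := hr.out
    rcases (Nat.Prime.dvd_mul hp).1 hd with h1 | h1
    · have := hp.dvd_of_dvd_pow h1
      have := Nat.le_of_dvd (by norm_num) this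
      omega
    · rcases (Nat.Prime.dvd_mul hp).1 h1 with h2 | h2
      · have := hp.dvd_of_dvd_pow h2
        have := Nat.le_of_dvd (by norm_num) this
        omega
      · rcases (Nat.Prime.dvd_mul hp).1 h2 with h3 | h3
        · have := Nat.le_of_dvd (by norm_num) h3
          omega
        · have := Nat.le_of_dvd (by norm_num) h3
          omega
  have hpos : 0 < (Wc h).card := by rw [hW]; norm_num
  obtain ⟨E, hE, hc, hc', hs⟩ := exists_E h hl hpos
  set A := Aw chevE7 l with hA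
  have hne : (⟨_, hV⟩ : Module.End.eigenspace (Matrix.toLin' ((Aw chevE7 l)ᵀ.map (Int.castRingHom (ZMod r)))) (q : ZMod r)) ≠ 0 := by
    intro e
    obtain ⟨j, hj⟩ := hcne
    have e1 := congrFun (congrArg Subtype.val e) j
    exact hj ((ZMod.intCast_zmod_eq_zero_iff_dvd _ r).1 e1)
  haveI : Nontrivial (Module.End.eigenspace (Matrix.toLin' ((Aw chevE7 l)ᵀ.map (Int.castRingHom (ZMod r)))) (q : ZMod r)) := ⟨⟨_, 0, hne⟩⟩
  have h1 : 0 < finrank (ZMod r) (Module.End.eigenspace (Matrix.toLin' ((Aw chevE7 l)ᵀ.map (Int.castRingHom (ZMod r)))) (q : ZMod r)) := Module.finrank_pos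
  have h2 := eig_le (Aw chevE7 l)ᵀ hE hc' hrW (q : ZMod r) _ hord
  have hcount : 1 ≤ E.count 12 := le_trans h1 h2
  have hs7 : (E.map Nat.totient).sum = 7 := hs
  have hA12c : A ^ (Wc h).card = 1 := Aw_pow_card h hl
  have hrad := aeval_radical A hpos hA12c hE hc
  have hiso : Aᵀ * GE7 * A = GE7 := Aw_iso h siE7 hl
  have hisoN : (-A)ᵀ * GE7 * (-A) = GE7 := by
    rw [Matrix.transpose_neg, Matrix.mul_neg, Matrix.neg_mul, Matrix.neg_mul, neg_neg, hiso]
  have hcA : cv r c ᵥ* mmp r A = (q : ZMod r) • cv r c := by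
    have e3 := Module.End.mem_eigenspace_iff.1 hV
    rw [Matrix.toLin'_apply, Matrix.transpose_map, Matrix.mulVec_transpose] at e3
    exact e3
  have hcAN : cv r c ᵥ* mmp r (-A) = (-(q : ZMod r)) • cv r c := by
    rw [mmp_neg, Matrix.vecMul_neg, hcA, neg_smul]
  have hcb : cv r c ≠ 0 := by
    intro e
    obtain ⟨j, hj⟩ := hcne
    exact hj ((cv_eq_zero_iff c).1 e j)
  have hno2 : A ^ 2 ≠ 1 := by
    intro e2
    have e4 : cv r c ᵥ* (mmp r A) ^ 2 = (q : ZMod r) ^ 2 • cv r c := by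
      rw [pow_two, ← Matrix.vecMul_vecMul, hcA, Matrix.smul_vecMul, hcA, smul_smul, pow_two]
    have e5 : (mmp r A) ^ 2 = 1 := by
      rw [mmp, ← Matrix.map_pow, e2]
      simp
    rw [e5, Matrix.vecMul_one] at e4
    obtain ⟨j, hj⟩ := hcne
    have e6 := congrFun e4 j
    simp only [Pi.smul_apply, smul_eq_mul, cv] at e6
    have hcj : (c j : ZMod r) ≠ 0 := fun e7 => hj ((ZMod.intCast_zmod_eq_zero_iff_dvd _ r).1 e7)
    have e7 : (q : ZMod r) ^ 2 = 1 := by
      apply mul_right_cancel₀ hcj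
      rw [one_mul]
      exact e6.symm
    have e8 := orderOf_dvd_of_pow_eq_one e7
    rw [hord] at e8
    omega
  have hne1 : A ≠ 1 := by
    intro e
    apply hno2
    rw [e, one_pow]
  have hneN : -A ≠ 1 := by
    intro e
    apply hno2
    rw [← neg_sq, e, one_pow]
  have hVeig : ∀ (ζ : ZMod r) (d : ℕ), orderOf ζ = d →
      finrank (ZMod r) (Module.End.eigenspace (Matrix.toLin' (mmp r A)) ζ) ≤ E.count d := fun ζ d hζ =>
    eig_le A hE hc hrW ζ d hζ
  rcases E_struct7 hs7 hcount (fun e he => (hE e he).1) with ⟨a, b, ha, hb, hEe⟩ | ⟨a, b, c', ha, hb, hc'', hEe⟩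
  · subst hEe
    rcases ha with rfl | rfl <;> rcases hb with rfl | rfl | rfl
    · -- `{1, 3}`
      have e7 : (12 ::ₘ 1 ::ₘ ({3} : Multiset ℕ)).toFinset = {12, 1, 3} := by decide
      rw [e7, Finset.prod_insert (by decide), Finset.prod_pair (by decide), cyc12, cyclotomic_one, cyclotomic_three] at hrad
      simp only [map_mul, map_add, map_sub, map_pow, aeval_X, map_one] at hrad
      have hP : (-A) ^ 7 - (-A) ^ 5 + (-A) ^ 4 + (-A) ^ 3 - (-A) ^ 2 + 1 = 0 := by
        rw [Odd.neg_pow (by decide), Odd.neg_pow (by decide), Even.neg_pow (by decide), Odd.neg_pow (by decide), Even.neg_pow (by decide)]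
        have e8 : -A ^ 7 - -A ^ 5 + A ^ 4 + -A ^ 3 - A ^ 2 + 1 = -((A ^ 4 - A ^ 2 + 1) * ((A - 1) * (A ^ 2 + A + 1))) := by
          noncomm_ring
        rw [e8, hrad, neg_zero]
      have hev : A.charpoly.eval 1 = 0 := by
        rw [hc]
        simp [cyclotomic_one]
      obtain ⟨x, hx0, hx⟩ := exists_ev hev
      have hdet : (-A + 1).det = 0 := by
        refine Matrix.exists_mulVec_eq_zero_iff.1 ⟨x, hx0, ?_⟩
        rw [Matrix.add_mulVec, Matrix.neg_mulVec, Matrix.one_mulVec, hx, one_smul]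
        simp
      have hVm : finrank (ZMod r) (Module.End.eigenspace (Matrix.toLin' (mmp r (-A))) ((-1 : ℤ) : ZMod r)) ≤ 1 := by
        rw [eig_neg]
        have e : -(((-1 : ℤ)) : ZMod r) = ((1 : ℤ) : ZMod r) := by simp
        rw [e]
        exact (hVeig _ 1 ord_1).trans (by decide)
      have hVq : finrank (ZMod r) (Module.End.eigenspace (Matrix.toLin' (mmp r (-A))) (-(q : ZMod r))) ≤ 1 := by
        rw [eig_neg, neg_neg]
        exact (hVeig _ 12 hord).trans (by decide)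
      obtain ⟨γ₀, γ₁, γ₂, T, hmain, -⟩ := mlt_pack h hisoN hP hdet hr13 (ord_neg hr13 hord) hcb hcAN hVm hVq
      exact ⟨-A, γ₀, γ₁, γ₂, T, hmain, Or.inl rfl⟩
    · -- `{1, 4}`
      exfalso
      have e7 : (12 ::ₘ 1 ::ₘ ({4} : Multiset ℕ)).toFinset = {12, 1, 4} := by decide
      rw [e7, Finset.prod_insert (by decide), Finset.prod_pair (by decide), cyc12, cyclotomic_one, cyc4] at hrad
      simp only [map_mul, map_add, map_sub, map_pow, aeval_X, map_one] at hrad
      have hP : A ^ 7 - A ^ 6 + A - 1 = 0 := by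
        have e8 : A ^ 7 - A ^ 6 + A - 1 = (A ^ 4 - A ^ 2 + 1) * ((A - 1) * (A ^ 2 + 1)) := by
          noncomm_ring
        rw [e8, hrad]
      have hev : A.charpoly.eval 1 = 0 := by
        rw [hc]
        simp [cyclotomic_one]
      obtain ⟨x, hx0, hx⟩ := exists_ev hev
      refine no_four h hiso hP hr13 ((hVeig _ 1 ord_1).trans (by decide)) hx0 ?_
      rw [hx, one_smul]
    · -- `{1, 6}`
      exfalso
      have e7 : (12 ::ₘ 1 ::ₘ ({6} : Multiset ℕ)).toFinset = {12, 1, 6} := by decide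
      rw [e7, Finset.prod_insert (by decide), Finset.prod_pair (by decide), cyc12, cyclotomic_one, cyc6] at hrad
      simp only [map_mul, map_add, map_sub, map_pow, aeval_X, map_one] at hrad
      have hP : (A - 1) * Q6 A = 0 := by
        have e8 : (A - 1) * Q6 A = (A ^ 4 - A ^ 2 + 1) * ((A - 1) * (A ^ 2 - A + 1)) := by
          rw [Q6]
          noncomm_ring
        rw [e8, hrad]
      have hev : A.charpoly.eval 1 = 0 := by
        rw [hc]
        simp [cyclotomic_one]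
      obtain ⟨x, hx0, hx⟩ := exists_ev hev
      refine no_case_Q6 h hiso hP hne1 hx0 ?_
      rw [hx, one_smul]
    · -- `{2, 3}`
      exfalso
      have e7 : (12 ::ₘ 2 ::ₘ ({3} : Multiset ℕ)).toFinset = {12, 2, 3} := by decide
      rw [e7, Finset.prod_insert (by decide), Finset.prod_pair (by decide), cyc12, cyclotomic_two, cyclotomic_three] at hrad
      simp only [map_mul, map_add, map_sub, map_pow, aeval_X, map_one] at hrad
      have hP : (-A - 1) * Q6 (-A) = 0 := by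
        rw [Q6, Even.neg_pow (by decide), Odd.neg_pow (by decide), Odd.neg_pow (by decide)]
        have e8 : (-A - 1) * (A ^ 6 - -A ^ 5 + -A ^ 3 - -A + 1) = -((A ^ 4 - A ^ 2 + 1) * ((A + 1) * (A ^ 2 + A + 1))) := by
          noncomm_ring
        rw [e8, hrad, neg_zero]
      have hev : A.charpoly.eval (-1) = 0 := by
        rw [hc]
        simp [cyclotomic_two]
      obtain ⟨x, hx0, hx⟩ := exists_ev hev
      refine no_case_Q6 h hisoN hP hneN hx0 ?_
      rw [Matrix.neg_mulVec, hx]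
      simp
    · -- `{2, 4}`
      exfalso
      have e7 : (12 ::ₘ 2 ::ₘ ({4} : Multiset ℕ)).toFinset = {12, 2, 4} := by decide
      rw [e7, Finset.prod_insert (by decide), Finset.prod_pair (by decide), cyc12, cyclotomic_two, cyc4] at hrad
      simp only [map_mul, map_add, map_sub, map_pow, aeval_X, map_one] at hrad
      have hP : (-A) ^ 7 - (-A) ^ 6 + -A - 1 = 0 := by
        rw [Odd.neg_pow (by decide), Even.neg_pow (by decide)]
        have e8 : -A ^ 7 - A ^ 6 + -A - 1 = -((A ^ 4 - A ^ 2 + 1) * ((A + 1) * (A ^ 2 + 1))) := by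
          noncomm_ring
        rw [e8, hrad, neg_zero]
      have hev : A.charpoly.eval (-1) = 0 := by
        rw [hc]
        simp [cyclotomic_two]
      obtain ⟨x, hx0, hx⟩ := exists_ev hev
      have hVn : finrank (ZMod r) (Module.End.eigenspace (Matrix.toLin' (mmp r (-A))) ((1 : ℤ) : ZMod r)) ≤ 1 := by
        rw [eig_neg]
        have e : -(((1 : ℤ)) : ZMod r) = ((-1 : ℤ) : ZMod r) := by simp
        rw [e]
        exact (hVeig _ 2 (ord_m hr13)).trans (by decide)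
      refine no_four h hisoN hP hr13 hVn hx0 ?_
      rw [Matrix.neg_mulVec, hx]
      simp
    · -- `{2, 6}`
      have e7 : (12 ::ₘ 2 ::ₘ ({6} : Multiset ℕ)).toFinset = {12, 2, 6} := by decide
      rw [e7, Finset.prod_insert (by decide), Finset.prod_pair (by decide), cyc12, cyclotomic_two, cyc6] at hrad
      simp only [map_mul, map_add, map_sub, map_pow, aeval_X, map_one] at hrad
      have hP : A ^ 7 - A ^ 5 + A ^ 4 + A ^ 3 - A ^ 2 + 1 = 0 := by
        have e8 : A ^ 7 - A ^ 5 + A ^ 4 + A ^ 3 - A ^ 2 + 1 = (A ^ 4 - A ^ 2 + 1) * ((A + 1) * (A ^ 2 - A + 1)) := by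
          noncomm_ring
        rw [e8, hrad]
      have hev : A.charpoly.eval (-1) = 0 := by
        rw [hc]
        simp [cyclotomic_two]
      obtain ⟨x, hx0, hx⟩ := exists_ev hev
      have hdet : (A + 1).det = 0 := by
        refine Matrix.exists_mulVec_eq_zero_iff.1 ⟨x, hx0, ?_⟩
        rw [Matrix.add_mulVec, Matrix.one_mulVec, hx]
        simp
      have hVm : finrank (ZMod r) (Module.End.eigenspace (Matrix.toLin' (mmp r A)) ((-1 : ℤ) : ZMod r)) ≤ 1 :=
        (hVeig _ 2 (ord_m hr13)).trans (by decide)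
      have hVq : finrank (ZMod r) (Module.End.eigenspace (Matrix.toLin' (mmp r A)) (q : ZMod r)) ≤ 1 :=
        (hVeig _ 12 hord).trans (by decide)
      obtain ⟨γ₀, γ₁, γ₂, T, hmain, hβ⟩ := mlt_pack h hiso hP hdet hr13 hord hcb hcA hVm hVq
      refine ⟨A, γ₀, γ₁, γ₂, T, hmain, Or.inr ⟨rfl, ?_, A12_of hP, hβ⟩⟩
      rw [hc]
      simp only [Multiset.map_cons, Multiset.map_singleton, Multiset.prod_cons, Multiset.prod_singleton, cyc12, cyclotomic_two, cyc6]
      ring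
  · exfalso
    subst hEe
    have hsub : (12 ::ₘ a ::ₘ b ::ₘ ({c'} : Multiset ℕ)).toFinset ⊆ ({12, 1, 2} : Finset ℕ) := by
      intro e he
      rw [Multiset.mem_toFinset] at he
      simp only [Multiset.mem_cons, Multiset.mem_singleton] at he
      simp only [Finset.mem_insert, Finset.mem_singleton]
      omega
    have hdvd := Finset.prod_dvd_prod_of_subset _ _ (fun e => cyclotomic e ℤ) hsub
    obtain ⟨f, hf⟩ := hdvd
    have e9 : aeval A (∏ e ∈ ({12, 1, 2} : Finset ℕ), cyclotomic e ℤ) = 0 := by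
      rw [hf, map_mul, hrad, zero_mul]
    rw [Finset.prod_insert (by decide), Finset.prod_pair (by decide), cyc12, cyclotomic_one, cyclotomic_two] at e9
    simp only [map_mul, map_add, map_sub, map_pow, aeval_X, map_one] at e9
    have hP' : A ^ 6 - 2 • A ^ 4 + 2 • A ^ 2 - 1 = 0 := by
      have e8 : A ^ 6 - 2 • A ^ 4 + 2 • A ^ 2 - 1 = (A ^ 4 - A ^ 2 + 1) * ((A - 1) * (A + 1)) := by
        noncomm_ring
      rw [e8, e9]
    have hphi : A ^ 4 - A ^ 2 + 1 ≠ 0 := by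
      rcases ha with rfl | rfl
      · have hev : A.charpoly.eval 1 = 0 := by
          rw [hc]
          simp [cyclotomic_one]
        obtain ⟨x, hx0, hx⟩ := exists_ev hev
        exact phi12_ne hx0 hx (Or.inl rfl)
      · have hev : A.charpoly.eval (-1) = 0 := by
          rw [hc]
          simp [cyclotomic_two]
        obtain ⟨x, hx0, hx⟩ := exists_ev hev
        exact phi12_ne hx0 hx (Or.inr rfl)
    exact no_case_P6 h hiso hP' hno2 hphi

end Cfsg.Agent.Lib.KS71.E7n
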