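/-
The stabilizer in the Weyl group of type `E₇` of an element whose zero roots are pairwise orthogonal or opposite.
-/
import Mathlib
import Cfsg.Agent.Lib.KS71.E7n
import Cfsg.Agent.Lib.KS71.E6h

set_option autoImplicit false
set_option linter.unusedSectionVars false
set_option linter.unusedVariables false
set_option maxRecDepth 100000

namespace Cfsg.Agent.Lib.KS71.E7o

open scoped MatrixGroups Matrix
open Polynomial Module
open Cfsg Cfsg.Lie Cfsg.Lie.ChevalleyDatum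
open Cfsg.Agent.Lib.Chev.Tables Cfsg.Agent.Lib.Chev.Tables2 Cfsg.Agent.Lib.Chev.Tables3 Cfsg.Agent.Lib.Chev.Raise
open Cfsg.Agent.Lib.Chev.Basic Cfsg.Agent.Lib.Chev.AxBasic Cfsg.Agent.Lib.Chev.Torus
open Cfsg.Agent.Lib.Chev.Products Cfsg.Agent.Lib.Chev.Products2 Cfsg.Agent.Lib.Chev.Mono1
open Cfsg.Agent.Lib.Chev.Mono2 Cfsg.Agent.Lib.Chev.Mono3 Cfsg.Agent.Lib.Chev.Bn
open Cfsg.Agent.Lib.Chev.Order1 Cfsg.Agent.Lib.Chev.Order2 Cfsg.Agent.Lib.Chev.Parab
open Cfsg.Agent.Lib.Chev.Diag Cfsg.Agent.Lib.Chev.SL2 Cfsg.Agent.Lib.Chev.SL2Chev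
open Cfsg.Agent.Lib.KS71.HCj Cfsg.Agent.Lib.KS71.HCb Cfsg.Agent.Lib.KS71.HCc Cfsg.Agent.Lib.KS71.HCh Cfsg.Agent.Lib.KS71.HCi
open Cfsg.Agent.Lib.KS71.HCm Cfsg.Agent.Lib.KS71.HCg Cfsg.Agent.Lib.KS71.IVf Cfsg.Agent.Lib.KS71.HCn
open Cfsg.Agent.Lib.KS71.E6h Cfsg.Agent.Lib.KS71.E6j Cfsg.Agent.Lib.KS71.E7j Cfsg.Agent.Lib.KS71.E7k
open Cfsg.Agent.Lib.KS71.E7l Cfsg.Agent.Lib.KS71.E7m Cfsg.Agent.Lib.KS71.E7n

variable {E : Type*} [Field E] {r : ℕ} [hr : Fact r.Prime]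

/-- The elements of the Weyl group respect the opposite. -/
lemma Wp_neg (h : Tab chevE7) (h2 : Tab2 chevE7) (ax : Ax chevE7 E) {π : Equiv.Perm (Fin chevE7.nroots)}
    (hπ : π ∈ Wp h (Set.Iio chevE7.rank)) (s : Fin chevE7.nroots) : π (negF h s) = negF h (π s) := by
  obtain ⟨l, hl, rfl⟩ := (mem_Wp_iff h).1 hπ
  obtain ⟨c, H⟩ := exists_isNor_nw h h2 ax (fun i hi => hl i hi)
  exact H.neg s

lemma crd_negF (h : Tab chevE7) (s : Fin chevE7.nroots) : crd chevE7 (negF h s) = - crd chevE7 s := by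
  funext i
  exact h.coef_neg _ s.isLt i i.isLt

lemma wP_mem (h : Tab chevE7) (i : Fin chevE7.rank) : wP h i ∈ Wp h (Set.Iio chevE7.rank) :=
  wP_mem_Wp h i.isLt

lemma crd_wP (h : Tab chevE7) (i : Fin chevE7.rank) (s : Fin chevE7.nroots) :
    crd chevE7 (wP h i s) = crd chevE7 s - (GE7 *ᵥ crd chevE7 s) i • Pi.single i 1 := by
  rw [← Mm_crd h (wP_mem h i), Mm_wP h i.isLt, ← Si_mulVec]

/-- The fundamental root as an element of `Fin`. -/
def pS (h : Tab chevE7) (i : Fin chevE7.rank) : Fin chevE7.nroots := ⟨chevE7.simple i, h.simple_lt i i.isLt⟩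

lemma crd_pS (h : Tab chevE7) (i : Fin chevE7.rank) : crd chevE7 (pS h i) = Pi.single i 1 := crd_simple h i

lemma root_ext (h : Tab chevE7) {s t : Fin chevE7.nroots} (e : crd chevE7 s = crd chevE7 t) : s = t := by
  apply Fin.ext
  exact eq_of_coef_eq h s.isLt t.isLt (fun i hi => congrFun e ⟨i, hi⟩)

lemma wP_self (h : Tab chevE7) (i : Fin chevE7.rank) : wP h i (pS h i) = negF h (pS h i) := by
  apply root_ext h
  rw [crd_wP, crd_negF, crd_pS, Matrix.mulVec_single_one]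
  funext j
  simp only [Pi.sub_apply, Pi.smul_apply, Pi.neg_apply, smul_eq_mul, Matrix.col_apply]
  have e2 : GE7 i i = 2 := diagE7 i
  rw [e2]
  ring

lemma wP_orth (h : Tab chevE7) {i j : Fin chevE7.rank} (hij : GE7 i j = 0) : wP h i (pS h j) = pS h j := by
  apply root_ext h
  rw [crd_wP, crd_pS, Matrix.mulVec_single_one]
  have e3 : (GE7.col j) i = 0 := hij
  rw [e3, zero_smul, sub_zero]

lemma wP_sq (h : Tab chevE7) (i : Fin chevE7.rank) : wP h i * wP h i = 1 := by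
  rw [wP_of_lt h i.isLt]
  ext s
  simp only [Equiv.Perm.mul_apply, Equiv.Perm.one_apply]
  exact congrArg Fin.val ((wF h i i.isLt).left_inv s)

/-- The elements fixing a dominant functional whose zeros on the fundamental roots are orthogonal. -/
theorem face_dom (h : Tab chevE7) (h2 : Tab2 chevE7) (ax : Ax chevE7 E) (g : Fin chevE7.rank → ℤ) (hg0 : ∀ i, 0 ≤ g i)
    (horth : ∀ i j : Fin chevE7.rank, i ≠ j → g i = 0 → g j = 0 → GE7 i j = 0) :
    ∀ (n : ℕ) (π : Equiv.Perm (Fin chevE7.nroots)), π ∈ Wp h (Set.Iio chevE7.rank) →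
      (∀ s : Fin chevE7.nroots, g ⬝ᵥ crd chevE7 (π s) = g ⬝ᵥ crd chevE7 s) → Nw chevE7 π = n →
      (∀ j, g j = 0 → π (pS h j) = pS h j ∨ π (pS h j) = negF h (pS h j)) ∧
      (π ≠ 1 → ∃ i, g i = 0 ∧ π (pS h i) = negF h (pS h i)) := by
  classical
  have hgpos : ∀ s : ℕ, chevE7.IsPosRoot s → 0 ≤ g ⬝ᵥ crd chevE7 s := by
    intro s hs
    have hc := (isPosRoot_iff h hs.1).mp hs
    refine Finset.sum_nonneg fun i _ => mul_nonneg (hg0 i) (hc i i.isLt)
  have hgneg : ∀ s : Fin chevE7.nroots, ¬ chevE7.IsPosRoot s → g ⬝ᵥ crd chevE7 s ≤ 0 := by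
    intro s hs
    have e1 : chevE7.IsPosRoot (negF h s) := (isPosRoot_neg h s.isLt).2 ((not_isPos_iff h s.isLt).1 hs)
    have e2 := hgpos _ e1
    rw [crd_negF, dotProduct_neg] at e2
    omega
  intro n
  induction n using Nat.strong_induction_on with
  | _ n ih =>
    intro π hπ hfix hn
    by_cases h1 : π = 1
    · subst h1
      exact ⟨fun j _ => Or.inl rfl, fun e => absurd rfl e⟩
    -- a fundamental root made negative
    have hex : ∃ i : Fin chevE7.rank, ¬ chevE7.IsPosRoot (π (pS h i)) := by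
      by_contra hno
      push Not at hno
      apply h1
      apply eq_one_of_Nw_eq_zero h h2 ax hπ
      rw [Nw, Finset.card_eq_zero, Finset.filter_eq_empty_iff]
      rintro s - ⟨hs1, hs2⟩
      apply hs2
      exact pos_of_PosOn h hπ (J := Set.Iio chevE7.rank) (fun k hk _ => hno ⟨k, hk⟩) hs1 (fun m hm hm' => absurd hm hm')
    obtain ⟨i, hi⟩ := hex
    have hgi : g i = 0 := by
      have e1 := hgneg _ hi
      rw [hfix, crd_pS, dotProduct_single, mul_one] at e1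
      exact le_antisymm e1 (hg0 i)
    have hsW := wP_mem h i
    set π₂ := π * wP h i with hπ₂
    have hπ₂W : π₂ ∈ Wp h (Set.Iio chevE7.rank) := Subgroup.mul_mem _ hπ hsW
    have hfix₂ : ∀ s : Fin chevE7.nroots, g ⬝ᵥ crd chevE7 (π₂ s) = g ⬝ᵥ crd chevE7 s := by
      intro s
      rw [hπ₂, Equiv.Perm.mul_apply, hfix, crd_wP, dotProduct_sub, dotProduct_smul, dotProduct_single, hgi]
      simp
    have hπe : π₂ * wP h i = π := by
      rw [hπ₂, mul_assoc, wP_sq, mul_one]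
    have hval1 : π₂ (pS h i) = negF h (π (pS h i)) := by
      rw [hπ₂, Equiv.Perm.mul_apply, wP_self, Wp_neg h h2 ax hπ]
    have hpos : PosOn h π₂ ({(i : ℕ)} : Set ℕ) := by
      intro k hk hki
      have e : k = i := hki
      subst e
      have e2 : π₂ ⟨chevE7.simple i, h.simple_lt i hk⟩ = π₂ (pS h i) := rfl
      rw [e2, hval1]
      exact (isPosRoot_neg h (Fin.isLt _)).2 ((not_isPos_iff h (Fin.isLt _)).1 hi)
    have hNw := Nw_mul h (J := ({(i : ℕ)} : Set ℕ)) (by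
      intro j hj
      have e : j = i := hj
      rw [e]
      exact i.isLt) hπ₂W (wP_mem_Wp h (I := ({(i : ℕ)} : Set ℕ)) rfl) hpos
    rw [hπe] at hNw
    have hNs : 0 < Nw chevE7 (wP h i) := by
      rw [Nat.pos_iff_ne_zero]
      intro e
      have e1 := eq_one_of_Nw_eq_zero h h2 ax hsW e
      have e2 := wP_self h i
      rw [e1, Equiv.Perm.one_apply] at e2
      have e3 := congrArg (fun x : Fin chevE7.nroots => crd chevE7 (x : ℕ)) e2
      rw [crd_negF, crd_pS] at e3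
      have e4 := congrFun e3 i
      simp only [Pi.single_eq_same, Pi.neg_apply] at e4
      omega
    obtain ⟨q1, q2⟩ := ih (Nw chevE7 π₂) (by omega) π₂ hπ₂W hfix₂ rfl
    have hQ : ∀ j, g j = 0 → π (pS h j) = pS h j ∨ π (pS h j) = negF h (pS h j) := by
      intro j hj
      by_cases hji : j = i
      · subst hji
        have e1 : π (pS h j) = negF h (π₂ (pS h j)) := by
          rw [hval1]
          simp only [negF]
          apply Fin.ext
          exact (h.neg_neg _ (Fin.isLt _)).symm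
        rcases q1 j hj with e2 | e2
        · right
          rw [e1, e2]
        · left
          rw [e1, e2]
          apply Fin.ext
          exact h.neg_neg _ (Fin.isLt _)
      · have e0 : wP h i (pS h j) = pS h j := wP_orth h (horth i j (Ne.symm hji) hgi hj)
        have e1 : π (pS h j) = π₂ (pS h j) := by
          rw [hπ₂, Equiv.Perm.mul_apply, e0]
        rw [e1]
        exact q1 j hj
    refine ⟨hQ, fun _ => ⟨i, hgi, ?_⟩⟩
    rcases hQ i hgi with e | e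
    · exfalso
      apply hi
      rw [e]
      exact simple_isPos h i.isLt
    · exact e

/-- A functional whose zeros on the roots are pairwise orthogonal or opposite, fixed by an element of the Weyl group. -/
theorem face7 (h : Tab chevE7) (h2 : Tab2 chevE7) (ax : Ax chevE7 E) (f : Fin chevE7.rank → ℤ)
    (hZ : ∀ s t : Fin chevE7.nroots, f ⬝ᵥ crd chevE7 s = 0 → f ⬝ᵥ crd chevE7 t = 0 → t = s ∨ t = negF h s ∨ B GE7 (crd chevE7 s) (crd chevE7 t) = 0)
    {π₀ : Equiv.Perm (Fin chevE7.nroots)} (hπ₀W : π₀ ∈ Wp h (Set.Iio chevE7.rank))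
    (hπ₀ : ∀ s : Fin chevE7.nroots, f ⬝ᵥ crd chevE7 (π₀ s) = f ⬝ᵥ crd chevE7 s) :
    π₀ = 1 ∨ ∃ s : Fin chevE7.nroots, f ⬝ᵥ crd chevE7 s = 0 ∧ π₀ s = negF h s := by
  classical
  have hWne : (Wc h).Nonempty := ⟨1, (mem_Wc h).2 (Subgroup.one_mem _)⟩
  obtain ⟨w₀, hw₀, hmax⟩ := Finset.exists_max_image (Wc h) (fun w => f ⬝ᵥ (Mm h w *ᵥ rhoE7)) hWne
  have hw₀W : w₀ ∈ Wp h (Set.Iio chevE7.rank) := (mem_Wc h).1 hw₀
  set g : Fin chevE7.rank → ℤ := f ᵥ* Mm h w₀ with hg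
  have hgi : ∀ i : Fin chevE7.rank, g i = f ⬝ᵥ crd chevE7 (w₀ (pS h i)) := by
    intro i
    rw [← Mm_crd h hw₀W, crd_pS, Matrix.dotProduct_mulVec, ← hg, dotProduct_single, mul_one]
  have hg0 : ∀ i : Fin chevE7.rank, 0 ≤ g i := by
    intro i
    have hs : wP h i * 1 ∈ Wp h (Set.Iio chevE7.rank) := by
      rw [mul_one]
      exact wP_mem_Wp h i.isLt
    have hmem : w₀ * wP h i ∈ Wc h := (mem_Wc h).2 (Subgroup.mul_mem _ hw₀W (by simpa using hs))
    have h1 := hmax _ hmem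
    rw [Mm_mul h hw₀W (by simpa using hs), Mm_wP h i.isLt, ← Matrix.mulVec_mulVec] at h1
    have e1 : Si chevE7 ⟨i, i.isLt⟩ *ᵥ rhoE7 = rhoE7 - (2 : ℤ) • Pi.single i 1 := by
      have e2 := Si_mulVec i rhoE7
      have e3 : (GE7 *ᵥ rhoE7) i = 2 := rhoE7_spec i
      rw [e3] at e2
      exact e2
    rw [e1, Matrix.mulVec_sub, Matrix.mulVec_smul, dotProduct_sub, dotProduct_smul, Matrix.dotProduct_mulVec f _ (Pi.single i 1), ← hg,
      dotProduct_single, mul_one, smul_eq_mul] at h1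
    linarith
  have hcrdW : ∀ (s : Fin chevE7.nroots), g ⬝ᵥ crd chevE7 s = f ⬝ᵥ crd chevE7 (w₀ s) := by
    intro s
    rw [← Mm_crd h hw₀W, Matrix.dotProduct_mulVec, ← hg]
  have hisoW : ∀ s t : Fin chevE7.nroots, B GE7 (crd chevE7 (w₀ s)) (crd chevE7 (w₀ t)) = B GE7 (crd chevE7 s) (crd chevE7 t) := by
    intro s t
    obtain ⟨l, hl, rfl⟩ := (mem_Wp_iff h).1 hw₀W
    have hl' : ∀ i ∈ l, i < chevE7.rank := fun i hi => hl i hi
    rw [← Mm_crd h ((mem_Wp_iff h).2 ⟨l, hl, rfl⟩), ← Mm_crd h ((mem_Wp_iff h).2 ⟨l, hl, rfl⟩), Mm_wPw h hl']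
    exact B_iso (Aw_iso h siE7 hl') _ _
  have horth : ∀ i j : Fin chevE7.rank, i ≠ j → g i = 0 → g j = 0 → GE7 i j = 0 := by
    intro i j hij hi hj
    rw [hgi] at hi hj
    rcases hZ _ _ hi hj with e | e | e
    · exfalso
      have e1 : pS h j = pS h i := w₀.injective e
      have e2 := congrArg (fun x : Fin chevE7.nroots => crd chevE7 (x : ℕ)) e1
      rw [crd_pS, crd_pS] at e2
      have e3 := congrFun e2 j
      simp only [Pi.single_eq_same] at e3
      rw [Pi.single_apply, if_neg (Ne.symm hij)] at e3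
      omega
    · exfalso
      have e1 : w₀ (pS h j) = w₀ (negF h (pS h i)) := by
        rw [e, Wp_neg h h2 ax hw₀W]
      have e2 := congrArg (fun x : Fin chevE7.nroots => crd chevE7 (x : ℕ)) (w₀.injective e1)
      rw [crd_negF, crd_pS, crd_pS] at e2
      have e3 := congrFun e2 j
      simp only [Pi.single_eq_same, Pi.neg_apply] at e3
      rw [Pi.single_apply, if_neg (Ne.symm hij)] at e3
      omega
    · rw [hisoW, crd_pS, crd_pS, B_single h, Matrix.mulVec_single_one] at e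
      exact e
  set π₁ := w₀⁻¹ * π₀ * w₀ with hπ₁
  have hπ₁W : π₁ ∈ Wp h (Set.Iio chevE7.rank) :=
    Subgroup.mul_mem _ (Subgroup.mul_mem _ (Subgroup.inv_mem _ hw₀W) hπ₀W) hw₀W
  have hπ₁f : ∀ s : Fin chevE7.nroots, g ⬝ᵥ crd chevE7 (π₁ s) = g ⬝ᵥ crd chevE7 s := by
    intro s
    rw [hcrdW, hcrdW]
    have e1 : w₀ (π₁ s) = π₀ (w₀ s) := by
      simp [hπ₁]
    rw [e1, hπ₀]
  obtain ⟨-, q2⟩ := face_dom h h2 ax g hg0 horth _ π₁ hπ₁W hπ₁f rfl
  by_cases hone : π₁ = 1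
  · left
    have e2 : π₀ = w₀ * π₁ * w₀⁻¹ := by
      rw [hπ₁]
      group
    rw [e2, hone]
    group
  · right
    obtain ⟨i, hi, e⟩ := q2 hone
    refine ⟨w₀ (pS h i), by rw [← hgi]; exact hi, ?_⟩
    have e1 : π₀ (w₀ (pS h i)) = w₀ (π₁ (pS h i)) := by
      simp [hπ₁]
    rw [e1, e, Wp_neg h h2 ax hw₀W]

/-- The stabilizer of an element of prime order not dividing the order of the Weyl group. -/
theorem stab_face (h : Tab chevE7) (h2 : Tab2 chevE7) (ax : Ax chevE7 E) {y : ℕ → Eˣ} {lam : Eˣ} (hl : orderOf lam = r)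
    {c : Fin chevE7.rank → ℤ} (hc : ∀ j : Fin chevE7.rank, lam ^ c j = y j) (hrW : ¬ r ∣ (Wc h).card)
    (hR : ∀ s t : Fin chevE7.nroots, (r : ℤ) ∣ c ⬝ᵥ crd chevE7 s → (r : ℤ) ∣ c ⬝ᵥ crd chevE7 t → t = s ∨ t = negF h s ∨ B GE7 (crd chevE7 s) (crd chevE7 t) = 0)
    {π₀ : Equiv.Perm (Fin chevE7.nroots)} (hπ₀W : π₀ ∈ Wp h (Set.Iio chevE7.rank))
    (hπ₀ : ∀ s : Fin chevE7.nroots, chi chevE7 y (π₀ s) = chi chevE7 y s) :
    π₀ = 1 ∨ ∃ s : Fin chevE7.nroots, (r : ℤ) ∣ c ⬝ᵥ crd chevE7 s ∧ π₀ s = negF h s := by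
  classical
  let S : Subgroup (Equiv.Perm (Fin chevE7.nroots)) :=
    { carrier := {π | π ∈ Wp h (Set.Iio chevE7.rank) ∧ ∀ s : Fin chevE7.nroots, chi chevE7 y (π s) = chi chevE7 y s}
      mul_mem' := by
        rintro a b ⟨ha, ha'⟩ ⟨hb, hb'⟩
        refine ⟨Subgroup.mul_mem _ ha hb, fun s => ?_⟩
        rw [Equiv.Perm.mul_apply, ha', hb']
      one_mem' := ⟨Subgroup.one_mem _, fun s => rfl⟩
      inv_mem' := by
        rintro a ⟨ha, ha'⟩
        refine ⟨Subgroup.inv_mem _ ha, fun s => ?_⟩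
        have := ha' (a⁻¹ s)
        rw [show a (a⁻¹ s) = s by simp] at this
        exact this.symm }
  haveI : Fintype S := Fintype.ofFinite S
  let e : Matrix (Fin chevE7.rank) (Fin chevE7.rank) ℤ := ∑ π : S, Mm h π.1
  set f : Fin chevE7.rank → ℤ := c ᵥ* e with hf
  have hrS : ¬ r ∣ Fintype.card S := by
    intro h5
    apply hrW
    refine h5.trans ?_
    have hle : S ≤ Wp h (Set.Iio chevE7.rank) := fun π hπ => hπ.1
    have h6 := Subgroup.card_dvd_of_le hle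
    have hcW : Nat.card (Wp h (Set.Iio chevE7.rank)) = (Wc h).card := by
      rw [Nat.card_eq_fintype_card]
      exact Fintype.card_of_subtype (Wc h) (fun w => mem_Wc h)
    rw [hcW, Nat.card_eq_fintype_card] at h6
    exact h6
  have hval : ∀ s : Fin chevE7.nroots, (((f ⬝ᵥ crd chevE7 s : ℤ)) : ZMod r) = (Fintype.card S : ZMod r) * ((c ⬝ᵥ crd chevE7 s : ℤ) : ZMod r) := by
    intro s
    have e1 : f ⬝ᵥ crd chevE7 s = ∑ π : S, c ⬝ᵥ crd chevE7 (π.1 s) := by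
      rw [hf, ← Matrix.dotProduct_mulVec]
      have e2 : e *ᵥ crd chevE7 s = ∑ π : S, crd chevE7 (π.1 s) := by
        show (∑ π : S, Mm h π.1) *ᵥ crd chevE7 s = _
        rw [Matrix.sum_mulVec]
        exact Finset.sum_congr rfl fun π _ => Mm_crd h π.2.1 s
      rw [e2, dotProduct_sum]
    rw [e1, Int.cast_sum]
    have e3 : ∀ π : S, ((c ⬝ᵥ crd chevE7 (π.1 s) : ℤ) : ZMod r) = ((c ⬝ᵥ crd chevE7 s : ℤ) : ZMod r) := by
      intro π
      have e4 := π.2.2 s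
      rw [chi_eq_zpow y lam c hc, chi_eq_zpow y lam c hc] at e4
      have e5 : lam ^ (c ⬝ᵥ crd chevE7 (π.1 s) - c ⬝ᵥ crd chevE7 s) = 1 := by
        rw [zpow_sub, e4, mul_inv_cancel]
      have e6 := orderOf_dvd_iff_zpow_eq_one.mpr e5
      rw [hl] at e6
      have e7 := (ZMod.intCast_zmod_eq_zero_iff_dvd _ r).2 e6
      rw [Int.cast_sub, sub_eq_zero] at e7
      exact e7
    simp only [e3, Finset.sum_const, Finset.card_univ, nsmul_eq_mul]
  have hzero : ∀ s : Fin chevE7.nroots, f ⬝ᵥ crd chevE7 s = 0 → (r : ℤ) ∣ c ⬝ᵥ crd chevE7 s := by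
    intro s e0
    have e1 := hval s
    simp only [e0, Int.cast_zero] at e1
    rcases mul_eq_zero.mp e1.symm with e2 | e2
    · exact absurd ((ZMod.natCast_eq_zero_iff _ _).1 e2) hrS
    · exact (ZMod.intCast_zmod_eq_zero_iff_dvd _ r).1 e2
  have hmem : π₀ ∈ S := ⟨hπ₀W, hπ₀⟩
  have he : e * Mm h π₀ = e := by
    rw [Finset.sum_mul]
    refine Eq.trans ?_ (Equiv.sum_comp (Equiv.mulRight (⟨π₀, hmem⟩ : S)) (fun π : S => Mm h π.1))
    refine Finset.sum_congr rfl fun π _ => ?_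
    rw [← Mm_mul h π.2.1 hπ₀W]
    rfl
  have hfix : ∀ s : Fin chevE7.nroots, f ⬝ᵥ crd chevE7 (π₀ s) = f ⬝ᵥ crd chevE7 s := by
    intro s
    rw [← Mm_crd h hπ₀W, Matrix.dotProduct_mulVec, hf, Matrix.vecMul_vecMul, he]
  rcases face7 h h2 ax f (fun s t hs ht => hR s t (hzero s hs) (hzero t ht)) hπ₀W hfix with e1 | ⟨s, hs, e1⟩
  · exact Or.inl e1
  · exact Or.inr ⟨s, hzero s hs, e1⟩

end Cfsg.Agent.Lib.KS71.E7o
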