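/-
The kernels and the lattice estimates for the torus of order `(q⁴ - q² + 1)(q³ + 1)` in `E₇(q)`.
-/
import Mathlib
import Cfsg.Agent.Lib.KS71.E7g
import Cfsg.Agent.Lib.KS71.E7o
import Cfsg.Agent.Lib.KS71.E6n

set_option autoImplicit false
set_option linter.unusedSectionVars false
set_option linter.unusedVariables false
set_option maxRecDepth 100000

namespace Cfsg.Agent.Lib.KS71.E7p

open scoped MatrixGroups Matrix
open Polynomial Module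
open Cfsg Cfsg.Lie Cfsg.Lie.ChevalleyDatum
open Cfsg.Agent.Lib.Chev.Tables Cfsg.Agent.Lib.Chev.Tables2 Cfsg.Agent.Lib.Chev.Tables3 Cfsg.Agent.Lib.Chev.Raise
open Cfsg.Agent.Lib.Chev.Basic Cfsg.Agent.Lib.Chev.AxBasic Cfsg.Agent.Lib.Chev.Torus
open Cfsg.Agent.Lib.Chev.Products Cfsg.Agent.Lib.Chev.Products2 Cfsg.Agent.Lib.Chev.Mono1
open Cfsg.Agent.Lib.Chev.Mono2 Cfsg.Agent.Lib.Chev.Mono3 Cfsg.Agent.Lib.Chev.Bn
open Cfsg.Agent.Lib.Chev.Order1 Cfsg.Agent.Lib.Chev.Order2 Cfsg.Agent.Lib.Chev.Parab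
open Cfsg.Agent.Lib.Chev.Diag Cfsg.Agent.Lib.Chev.SL2 Cfsg.Agent.Lib.Chev.SL2Chev Cfsg.Agent.Lib.Chev.Order3
open Cfsg.Agent.Lib.KS71.ChevFix Cfsg.Agent.Lib.KS71.IVf Cfsg.Agent.Lib.KS71.HCa
open Cfsg.Agent.Lib.KS71.HCb Cfsg.Agent.Lib.KS71.HCc Cfsg.Agent.Lib.KS71.HCd Cfsg.Agent.Lib.KS71.HCf Cfsg.Agent.Lib.KS71.HCg
open Cfsg.Agent.Lib.KS71.HCh Cfsg.Agent.Lib.KS71.HCi
open Cfsg.Agent.Lib.KS71.HCj Cfsg.Agent.Lib.KS71.HCk
open Cfsg.Agent.Lib.KS71.HCm Cfsg.Agent.Lib.KS71.HCn Cfsg.Agent.Lib.KS71.HCo Cfsg.Agent.Lib.KS71.HCp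
open Cfsg.Agent.Lib.KS71.E6h Cfsg.Agent.Lib.KS71.E6j Cfsg.Agent.Lib.KS71.E6m
open Cfsg.Agent.Lib.KS71.E7g Cfsg.Agent.Lib.KS71.E7j Cfsg.Agent.Lib.KS71.E7k Cfsg.Agent.Lib.KS71.E7l
open Cfsg.Agent.Lib.KS71.E7m Cfsg.Agent.Lib.KS71.E7n Cfsg.Agent.Lib.KS71.E7o

/-! ### Squares in the torus -/

/-- The squares of the torus are in the diagonal group. -/
theorem tor_sq {K : Type*} [Field K] (h : Tab chevE7) (h2 : Tab2 chevE7) (ax : Ax chevE7 K) (y : ℕ → Kˣ) :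
    tor chevE7 (y ^ 2) ∈ chevE7.diagonalSubgroup K := by
  classical
  let y' : Fin chevE7.rank → Kˣ := fun j => y j
  let c' : Fin chevE7.rank → Kˣ := mact J2 y'
  have e1 : mact (cartanM chevE7) c' = mact (J2 * cartanM chevE7) y' := (mact_mul _ _ _).symm
  rw [J2_spec] at e1
  have e2 : tor chevE7 (y ^ 2) = tor chevE7 (psi chevE7 (extU chevE7 c')) := by
    rw [tor_eq_iff h]
    intro j hj
    rw [psi_apply, ← Fin.prod_univ_eq_prod_range (fun i => (extU chevE7 c' i) ^ pair chevE7 (chevE7.simple i) (chevE7.simple j)) chevE7.rank]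
    have e3 := congrFun e1 ⟨j, hj⟩
    rw [mact_apply, mact_apply] at e3
    have e4 : ∀ i : Fin chevE7.rank, (extU chevE7 c' i) ^ pair chevE7 (chevE7.simple i) (chevE7.simple j) = c' i ^ (cartanM chevE7) i ⟨j, hj⟩ := by
      intro i
      rw [pair_simple h2 i.isLt]
      simp [extU, cartanM]
    simp only [e4]
    rw [e3, Finset.prod_eq_single (⟨j, hj⟩ : Fin chevE7.rank)]
    · simp [y']
    · intro b _ hb
      simp [hb]
    · simp
  rw [e2]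
  exact tor_psi_mem h h2 ax _

section fixed

variable {D : ChevalleyDatum} {F : Type*} [Field F] {F₀ : Type*} [Field F₀]
variable (h : Tab D) (h2 : Tab2 D) (ax : Ax D F) (ax₀ : Ax D F₀)
variable (σ : F ≃+* F) (ι₀ : F₀ →+* F) (hι₀ : ∀ x, σ x = x ↔ x ∈ Set.range ι₀)

include h h2 ax₀ in
/-- The square of an element in the group times the torus lies in the group. -/
lemma sq_mem (hsq : ∀ y : ℕ → F₀ˣ, tor D (y ^ 2) ∈ D.diagonalSubgroup F₀) {g' : GL D.Idx F₀} (hg' : g' ∈ D.group F₀)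
    (y : ℕ → F₀ˣ) : (g' * tor D y) ^ 2 ∈ D.group F₀ := by
  set τ := tor D y with hτ
  have h1 : τ * g' * τ⁻¹ ∈ D.group F₀ := tor_conj_group h ax₀ y hg'
  have h4 : τ ^ 2 ∈ D.group F₀ := by
    rw [hτ, tor_pow]
    exact diagonal_le_group h ax₀ (hsq y)
  have e : (g' * τ) ^ 2 = g' * (τ * g' * τ⁻¹) * τ ^ 2 := by
    have e0 : (g' * τ) ^ 2 = g' * τ * (g' * τ) := by rw [pow_two]
    rw [e0]
    group
  rw [e]
  exact Subgroup.mul_mem _ (Subgroup.mul_mem _ hg' h1) h4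

include h h2 ax ax₀ hι₀ in
/-- The square of a fixed point lies in the group over the fixed field. -/
theorem sq_fixed_mem [Finite F] (hsq : ∀ y : ℕ → F₀ˣ, tor D (y ^ 2) ∈ D.diagonalSubgroup F₀) {g : GL D.Idx F}
    (hg : g ∈ D.group F) (hfix : mapX D (σ : F →+* F) g = g) : g ^ 2 ∈ (D.group F₀).map (mapX D ι₀) := by
  obtain ⟨g', hg', y, rfl⟩ := fixed_form h h2 ax ax₀ σ ι₀ hι₀ hg hfix
  exact ⟨_, sq_mem h h2 ax₀ hsq hg' y, (map_pow _ _ _)⟩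

end fixed

/-! ### The numbers -/

/-- The order of the torus. -/
def MM7 (q : ℕ) : ℕ := (q ^ 4 - q ^ 2 + 1) * (q ^ 3 + 1)

lemma MM7_cast {q : ℕ} (hq : 1 ≤ q) : ((MM7 q : ℕ) : ℤ) = ((q : ℤ) ^ 4 - (q : ℤ) ^ 2 + 1) * ((q : ℤ) ^ 3 + 1) := by
  have h1 : q ^ 2 ≤ q ^ 4 := Nat.pow_le_pow_right hq (by norm_num)
  rw [MM7, Nat.cast_mul, Nat.cast_add, Nat.cast_sub h1]
  push_cast
  ring

lemma det7 {n : ℕ} {A : Matrix (Fin n) (Fin n) ℤ} (hc : A.charpoly = (X ^ 4 - X ^ 2 + 1) * (X ^ 3 + 1)) {q : ℕ} (hq : 1 ≤ q) :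
    ((q : ℤ) • (1 : Matrix (Fin n) (Fin n) ℤ) - A).det.natAbs = MM7 q := by
  have e1 := Matrix.eval_charpoly A (q : ℤ)
  rw [hc, Matrix.scalar_apply, ← Matrix.smul_one_eq_diagonal] at e1
  rw [← e1]
  have e2 : eval (q : ℤ) ((X ^ 4 - X ^ 2 + 1) * (X ^ 3 + 1) : ℤ[X]) = ((MM7 q : ℕ) : ℤ) := by
    rw [MM7_cast hq]
    simp
  rw [e2, Int.natAbs_natCast]

lemma MM7_pos {q : ℕ} : 0 < MM7 q := by
  rw [MM7]
  exact Nat.mul_pos (by omega) (by omega)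

/-- The parity of the order. -/
lemma arith7 {q : ℕ} (hq : 2 ≤ q) : (q % 2 = 1 ∧ Nat.gcd 2 (q - 1) = 2 ∧ MM7 q = 2 * (MM7 q / 2)) ∨
    (q % 2 = 0 ∧ Nat.gcd 2 (q - 1) = 1 ∧ MM7 q % 2 = 1) := by
  have h1 : q ^ 2 ≤ q ^ 4 := Nat.pow_le_pow_right (by omega) (by norm_num)
  rcases Nat.mod_two_eq_zero_or_one q with hq2 | hq2
  · right
    refine ⟨hq2, ?_, ?_⟩
    · have : ¬ 2 ∣ q - 1 := by omega
      exact (Nat.Prime.coprime_iff_not_dvd Nat.prime_two).2 this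
    · have e2 : 2 ∣ q := by omega
      have e3 : 2 ∣ q ^ 2 := dvd_pow e2 (by norm_num)
      have e4 : 2 ∣ q ^ 4 := dvd_pow e2 (by norm_num)
      have e5 : 2 ∣ q ^ 3 := dvd_pow e2 (by norm_num)
      rw [MM7, Nat.mul_mod]
      have e6 : (q ^ 4 - q ^ 2 + 1) % 2 = 1 := by omega
      have e7 : (q ^ 3 + 1) % 2 = 1 := by omega
      rw [e6, e7]
  · left
    refine ⟨hq2, Nat.gcd_eq_left (by omega), ?_⟩
    have e2 : q ^ 3 % 2 = 1 := by
      rw [Nat.pow_mod, hq2]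
    have e3 : 2 ∣ MM7 q := by
      rw [MM7]
      exact Dvd.dvd.mul_left (by omega) _
    omega

lemma dvd_units {q d : ℕ} (hq : 2 ≤ q) (h12 : 12 ∣ d) (hq1 : q % 2 = 1) : 2 * MM7 q ∣ q ^ d - 1 := by
  obtain ⟨k, rfl⟩ := h12
  have e1 : q ^ 12 - 1 ∣ q ^ (12 * k) - 1 := by
    rw [pow_mul]
    simpa using Nat.sub_one_dvd_pow_sub_one (q ^ 12) k |>.trans (dvd_refl _)
  refine dvd_trans ?_ e1
  have hq3 : 1 ≤ q ^ 3 := Nat.one_le_pow _ _ (by omega)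
  have hq12 : 1 ≤ q ^ 12 := Nat.one_le_pow _ _ (by omega)
  obtain ⟨b, hb⟩ : ∃ b, q ^ 3 = 2 * b + 1 := by
    have e2 : q ^ 3 % 2 = 1 := by
      rw [Nat.pow_mod, hq1]
    exact ⟨q ^ 3 / 2, by omega⟩
  refine ⟨b * (q ^ 2 + 1), ?_⟩
  zify [hq12]
  have e3 := MM7_cast (q := q) (by omega)
  have e4 : ((q : ℤ)) ^ 3 = 2 * (b : ℤ) + 1 := by exact_mod_cast hb
  push_cast
  rw [e3]
  have e5 : ((q : ℤ)) ^ 12 - 1 = ((q : ℤ) ^ 4 - (q : ℤ) ^ 2 + 1) * ((q : ℤ) ^ 3 + 1) * ((q : ℤ) ^ 3 - 1) * ((q : ℤ) ^ 2 + 1) := by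
    ring
  rw [e5, e4]
  ring

/-- An element of a cyclic group killed by half of the order is a square. -/
lemma sq_of_pow {G : Type*} [Group G] (g : G) (hg : ∀ x : G, x ∈ Subgroup.zpowers g) {M M' : ℕ} (hord : orderOf g = M)
    (hcase : (M = 2 * M' ∧ 0 < M') ∨ (M' = M ∧ M % 2 = 1)) {v : G} (hv : v ^ M' = 1) : ∃ u : G, v = u ^ 2 := by
  rcases hcase with ⟨e1, e2⟩ | ⟨e1, e2⟩
  · obtain ⟨k, rfl⟩ := hg v
    have e3 : (g ^ k) ^ (M' : ℤ) = 1 := by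
      rw [zpow_natCast]
      exact hv
    rw [← zpow_mul] at e3
    have e4 := orderOf_dvd_iff_zpow_eq_one.mpr e3
    rw [hord, e1] at e4
    have hM : (M' : ℤ) ≠ 0 := by exact_mod_cast e2.ne'
    have e5 : (2 : ℤ) ∣ k := by
      obtain ⟨t, ht⟩ := e4
      refine ⟨t, ?_⟩
      apply mul_right_cancel₀ hM
      push_cast at ht
      rw [ht]
      ring
    obtain ⟨j, rfl⟩ := e5
    refine ⟨g ^ j, ?_⟩
    rw [← zpow_natCast, ← zpow_mul]
    congr 1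
    push_cast
    ring
  · subst e1
    refine ⟨v ^ (M' / 2 + 1), ?_⟩
    rw [← pow_mul, show (M' / 2 + 1) * 2 = M' + 1 by omega, pow_succ, hv, one_mul]

/-! ### The evaluation on the kernel -/

section cyc

variable {E : Type*} [Field E]

lemma ev_mul' (v w : Fin chevE7.rank → Eˣ) (μ : Fin chevE7.rank → ℤ) : ev (v * w) μ = ev v μ * ev w μ := by
  simp only [ev, Pi.mul_apply, mul_zpow, Finset.prod_mul_distrib]

lemma ev_pow' (v : Fin chevE7.rank → Eˣ) (n : ℕ) (μ : Fin chevE7.rank → ℤ) : ev (v ^ n) μ = ev v μ ^ n := by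
  induction n with
  | zero => simp [ev]
  | succ n ih => rw [pow_succ, ev_mul', ih, pow_succ]

lemma ev_neg (v : Fin chevE7.rank → Eˣ) (μ : Fin chevE7.rank → ℤ) : ev v (-μ) = (ev v μ)⁻¹ := by
  have e : -μ = (-1 : ℤ) • μ := by simp
  rw [e, ev_smul, zpow_neg, zpow_one]

lemma chi_ext_ev (v : Fin chevE7.rank → Eˣ) (s : ℕ) : chi chevE7 (extU chevE7 v) s = ev v (crd chevE7 s) := by
  rw [chi_ext]
  rfl

lemma ev_mulVec {U : Matrix (Fin chevE7.rank) (Fin chevE7.rank) ℤ} (v : Fin chevE7.rank → Eˣ) (w : Fin chevE7.rank → ℤ) :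
    ev v (U *ᵥ w) = ∏ k, ev v (fun i => U i k) ^ w k := by
  simp only [ev, Matrix.mulVec, dotProduct]
  have e1 : ∀ i, v i ^ ∑ k, U i k * w k = ∏ k, (v i ^ U i k) ^ w k := by
    intro i
    rw [zpow_sum_fin]
    refine Finset.prod_congr rfl fun k _ => ?_
    rw [zpow_mul]
  simp only [e1]
  rw [Finset.prod_comm]
  refine Finset.prod_congr rfl fun k _ => ?_
  rw [Finset.prod_zpow]

lemma ev_A {A : Matrix (Fin chevE7.rank) (Fin chevE7.rank) ℤ} {q : ℕ} {v : Fin chevE7.rank → Eˣ}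
    (hv : v ∈ (mact ((q : ℤ) • (1 : Matrix (Fin chevE7.rank) (Fin chevE7.rank) ℤ) - A) (G := Eˣ)).ker) (w : Fin chevE7.rank → ℤ) :
    ev v (A *ᵥ w) = ev v w ^ q := by
  classical
  have h1 : ∀ k, ev v (fun i => A i k) = v k ^ q := by
    intro k
    have e1 := congrFun (MonoidHom.mem_ker.1 hv) k
    rw [mact_apply, Pi.one_apply] at e1
    have e2 : ∀ i, v i ^ (((q : ℤ) • (1 : Matrix (Fin chevE7.rank) (Fin chevE7.rank) ℤ) - A) i k) =
        v i ^ ((q : ℤ) * (if i = k then 1 else 0)) * (v i ^ A i k)⁻¹ := by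
      intro i
      rw [Matrix.sub_apply, Matrix.smul_apply, Matrix.one_apply, smul_eq_mul, zpow_sub]
    simp only [e2] at e1
    rw [Finset.prod_mul_distrib, Finset.prod_inv_distrib, Finset.prod_eq_single k] at e1
    · simp only [if_true, mul_one, zpow_natCast] at e1
      exact (mul_inv_eq_one.1 e1).symm
    · intro i _ hi
      simp [hi]
    · simp
  rw [ev_mulVec]
  simp only [h1]
  rw [ev, ← Finset.prod_pow]
  refine Finset.prod_congr rfl fun k _ => ?_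
  rw [← zpow_natCast, ← zpow_natCast, ← zpow_mul, ← zpow_mul, mul_comm]

lemma ev_pow_A {A : Matrix (Fin chevE7.rank) (Fin chevE7.rank) ℤ} {q : ℕ} {v : Fin chevE7.rank → Eˣ}
    (hv : v ∈ (mact ((q : ℤ) • (1 : Matrix (Fin chevE7.rank) (Fin chevE7.rank) ℤ) - A) (G := Eˣ)).ker) (k : ℕ) (w : Fin chevE7.rank → ℤ) :
    ev v (A ^ k *ᵥ w) = ev v w ^ (q ^ k) := by
  induction k with
  | zero => simp
  | succ k ih =>
    rw [pow_succ', ← Matrix.mulVec_mulVec, ev_A hv, ih, ← pow_mul, pow_succ', mul_comm]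

/-- The value on an integral combination of the powers. -/
lemma ev_Mb {A : Matrix (Fin chevE7.rank) (Fin chevE7.rank) ℤ} {q : ℕ} {v : Fin chevE7.rank → Eˣ}
    (hv : v ∈ (mact ((q : ℤ) • (1 : Matrix (Fin chevE7.rank) (Fin chevE7.rank) ℤ) - A) (G := Eˣ)).ker) (β u : Fin chevE7.rank → ℤ) :
    ev v (Mb A β *ᵥ u) = ev v β ^ ∑ k : Fin chevE7.rank, ((q : ℤ) ^ (k : ℕ) * u k) := by
  rw [ev_mulVec, zpow_sum_fin]
  refine Finset.prod_congr rfl fun k _ => ?_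
  have e2 : (fun i => Mb A β i k) = A ^ (k : ℕ) *ᵥ β := rfl
  rw [e2, ev_pow_A hv, zpow_mul]
  congr 1

/-- A cyclic vector gives an injective map from the kernel. -/
lemma eq_one_of_ev {A : Matrix (Fin chevE7.rank) (Fin chevE7.rank) ℤ} {q : ℕ} {γ : Fin chevE7.rank → ℤ}
    (hdet : (Mb A γ).det ^ 2 = 1) {v : Fin chevE7.rank → Eˣ}
    (hv : v ∈ (mact ((q : ℤ) • (1 : Matrix (Fin chevE7.rank) (Fin chevE7.rank) ℤ) - A) (G := Eˣ)).ker) (h1 : ev v γ = 1) : v = 1 := by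
  classical
  have hpow : ∀ i : ℕ, ev v (A ^ i *ᵥ γ) = 1 := by
    intro i
    rw [ev_pow_A hv, h1, one_pow]
  set M := Mb A γ with hM
  funext j
  let u : Fin chevE7.rank → ℤ := M.det • (M.adjugate *ᵥ Pi.single j 1)
  have hu : M *ᵥ u = Pi.single j 1 := by
    show M *ᵥ (M.det • (M.adjugate *ᵥ Pi.single j 1)) = _
    rw [Matrix.mulVec_smul, Matrix.mulVec_mulVec, Matrix.mul_adjugate, Matrix.smul_mulVec, Matrix.one_mulVec, smul_smul, ← pow_two, hdet, one_smul]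
  have e1 : ev v (M *ᵥ u) = 1 := by
    rw [ev_mulVec]
    apply Finset.prod_eq_one
    intro k _
    have e2 : (fun i => M i k) = A ^ (k : ℕ) *ᵥ γ := rfl
    rw [e2, hpow, one_zpow]
  rw [hu, ev_single] at e1
  exact e1

/-- The evaluation as a homomorphism on the kernel. -/
noncomputable def evHom (K : Subgroup (Fin chevE7.rank → Eˣ)) (β : Fin chevE7.rank → ℤ) : ↥K →* Eˣ :=
  MonoidHom.mk' (fun v => ev v.1 β) (fun a b => ev_mul' a.1 b.1 β)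

lemma evHom_inj {A : Matrix (Fin chevE7.rank) (Fin chevE7.rank) ℤ} {q : ℕ} {β : Fin chevE7.rank → ℤ}
    (hdet : (Mb A β).det ^ 2 = 1) :
    Function.Injective (evHom (mact ((q : ℤ) • (1 : Matrix (Fin chevE7.rank) (Fin chevE7.rank) ℤ) - A) (G := Eˣ)).ker β) := by
  rw [injective_iff_map_eq_one]
  intro a ha
  apply Subtype.ext
  exact eq_one_of_ev hdet a.2 ha

/-- The kernel is cyclic when there is a cyclic vector. -/
theorem isCyclic_ker7 [Finite E] {A : Matrix (Fin chevE7.rank) (Fin chevE7.rank) ℤ} {q : ℕ} {β : Fin chevE7.rank → ℤ}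
    (hdet : (Mb A β).det ^ 2 = 1) :
    IsCyclic ↥(mact ((q : ℤ) • (1 : Matrix (Fin chevE7.rank) (Fin chevE7.rank) ℤ) - A) (G := Eˣ)).ker :=
  isCyclic_of_injective _ (evHom_inj hdet)

end cyc

/-! ### The descent in the lattice -/

section descent

variable {A : Matrix (Fin chevE7.rank) (Fin chevE7.rank) ℤ} {q : ℕ}

/-- Multiples of an integral combination of the powers lie in the image. -/
lemma desc (β u : Fin chevE7.rank → ℤ) {e : ℤ} {M : ℕ} (hM : ((q : ℤ) • (1 : Matrix (Fin chevE7.rank) (Fin chevE7.rank) ℤ) - A).det.natAbs = M)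
    (hdvd : (M : ℤ) ∣ (∑ k : Fin chevE7.rank, ((q : ℤ) ^ (k : ℕ) * u k)) * e) :
    ∃ η : Fin chevE7.rank → ℤ, e • (Mb A β *ᵥ u) = ((q : ℤ) • (1 : Matrix (Fin chevE7.rank) (Fin chevE7.rank) ℤ) - A) *ᵥ η := by
  classical
  set Mq := (q : ℤ) • (1 : Matrix (Fin chevE7.rank) (Fin chevE7.rank) ℤ) - A with hMq
  let P : Submodule ℤ (Fin chevE7.rank → ℤ) := LinearMap.range (Matrix.mulVecLin Mq)
  have hmem : ∀ η, Mq *ᵥ η ∈ P := fun η => ⟨η, rfl⟩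
  have hcomm : A * Mq = Mq * A := by
    rw [hMq, mul_sub, sub_mul, mul_smul_comm, smul_mul_assoc, mul_one, one_mul]
  have hpow : ∀ (k : ℕ) (x : Fin chevE7.rank → ℤ), A ^ k *ᵥ x - (q : ℤ) ^ k • x ∈ P := by
    intro k
    induction k with
    | zero =>
      intro x
      simp
    | succ k ih =>
      intro x
      have hx := ih x
      obtain ⟨η, hη⟩ := hx
      have e1 : A ^ (k + 1) *ᵥ x - (q : ℤ) ^ (k + 1) • x = Mq *ᵥ (A *ᵥ η - (q : ℤ) ^ k • x) := by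
        have e2 : Mq *ᵥ η = A ^ k *ᵥ x - (q : ℤ) ^ k • x := hη
        have e3 : Mq *ᵥ (A *ᵥ η) = A *ᵥ (Mq *ᵥ η) := by
          rw [Matrix.mulVec_mulVec, ← hcomm, ← Matrix.mulVec_mulVec]
        have e4 : Mq *ᵥ x = (q : ℤ) • x - A *ᵥ x := by
          rw [hMq, Matrix.sub_mulVec, Matrix.smul_mulVec, Matrix.one_mulVec]
        have e5 : A ^ (k + 1) *ᵥ x = A *ᵥ (A ^ k *ᵥ x) := by
          rw [pow_succ', ← Matrix.mulVec_mulVec]
        rw [Matrix.mulVec_sub, Matrix.mulVec_smul, e3, e2, e4, Matrix.mulVec_sub, Matrix.mulVec_smul, e5, pow_succ' (q : ℤ) k]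
        funext j
        simp only [Pi.sub_apply, Pi.smul_apply, smul_eq_mul]
        ring
      rw [e1]
      exact hmem _
  have hmul : ∀ x : Fin chevE7.rank → ℤ, (M : ℤ) • x ∈ P := by
    intro x
    have e1 : Mq *ᵥ (Mq.adjugate *ᵥ x) = Mq.det • x := by
      rw [Matrix.mulVec_mulVec, Matrix.mul_adjugate, Matrix.smul_mulVec, Matrix.one_mulVec]
    rcases Int.natAbs_eq Mq.det with e2 | e2
    · rw [hM] at e2
      rw [← e2, ← e1]
      exact hmem _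
    · rw [hM] at e2
      have e3 : (M : ℤ) = -Mq.det := by omega
      rw [e3, neg_smul, ← e1]
      exact P.neg_mem (hmem _)
  have hsum : e • (Mb A β *ᵥ u) = (∑ k : Fin chevE7.rank, (e * u k) • (A ^ (k : ℕ) *ᵥ β - (q : ℤ) ^ (k : ℕ) • β)) +
      ((∑ k : Fin chevE7.rank, ((q : ℤ) ^ (k : ℕ) * u k)) * e) • β := by
    have e0 : Mb A β *ᵥ u = ∑ k : Fin chevE7.rank, u k • (A ^ (k : ℕ) *ᵥ β) := by
      funext j
      simp only [Finset.sum_apply, Pi.smul_apply, smul_eq_mul]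
      show ∑ k : Fin chevE7.rank, (A ^ (k : ℕ) *ᵥ β) j * u k = _
      exact Finset.sum_congr rfl fun k _ => mul_comm _ _
    funext j
    simp only [e0, Pi.add_apply, Pi.smul_apply, Finset.sum_apply, smul_eq_mul, Pi.sub_apply]
    rw [Finset.mul_sum, Finset.sum_mul, Finset.sum_mul, ← Finset.sum_add_distrib]
    refine Finset.sum_congr rfl fun k _ => ?_
    ring
  have hin : e • (Mb A β *ᵥ u) ∈ P := by
    rw [hsum]
    refine P.add_mem (P.sum_mem fun k _ => P.smul_mem _ (hpow _ _)) ?_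
    obtain ⟨t, ht⟩ := hdvd
    rw [ht, mul_smul]
    exact hmul _
  obtain ⟨η, hη⟩ := hin
  exact ⟨η, hη.symm⟩

/-- A multiple of a vector of norm two in the image: an inequality. -/
lemma no_small (hiso : Aᵀ * GE7 * A = GE7) (hfree : ∀ x : Fin chevE7.rank → ℤ, A *ᵥ x = x → x = 0) (hq : 2 ≤ q)
    {w η : Fin chevE7.rank → ℤ} {e : ℤ} (he0 : e ≠ 0) (he : e • w = ((q : ℤ) • (1 : Matrix (Fin chevE7.rank) (Fin chevE7.rank) ℤ) - A) *ᵥ η)
    (hw : B GE7 w w = 2) : 2 * ((q : ℤ) - 1) ^ 2 + 2 * (q : ℤ) ≤ 2 * e ^ 2 := by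
  have hη : η ≠ 0 := by
    rintro rfl
    rw [Matrix.mulVec_zero] at he
    have hw0 : w = 0 := (smul_eq_zero.1 he).resolve_left he0
    rw [hw0] at hw
    simp [B] at hw
  obtain ⟨k, hk⟩ := evE7 η
  have hn : 0 ≤ B GE7 η η := psdE7 η
  have hn0 : B GE7 η η ≠ 0 := fun e0 => hη (defE7 e0)
  have hn2 : 2 ≤ B GE7 η η := by omega
  have hAη : A *ᵥ η - η ≠ 0 := by
    intro e0
    exact hη (hfree η (sub_eq_zero.1 e0))
  have ha : B GE7 η (A *ᵥ η) ≤ B GE7 η η - 1 := by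
    obtain ⟨k', hk'⟩ := evE7 (A *ᵥ η - η)
    have e1 : 0 ≤ B GE7 (A *ᵥ η - η) (A *ᵥ η - η) := psdE7 _
    have e2 : B GE7 (A *ᵥ η - η) (A *ᵥ η - η) ≠ 0 := fun e0 => hAη (defE7 e0)
    have e3 : B GE7 (A *ᵥ η - η) (A *ᵥ η - η) = 2 * B GE7 η η - 2 * B GE7 η (A *ᵥ η) := by
      rw [B_sub_left', B_sub_right', B_sub_right', B_iso hiso, B_symm sym7 (A *ᵥ η) η]
      ring
    omega
  have e1 : B GE7 (e • w) (e • w) = 2 * e ^ 2 := by
    rw [B_smul_left, B_smul_right, hw]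
    ring
  have e2 : B GE7 (((q : ℤ) • (1 : Matrix (Fin chevE7.rank) (Fin chevE7.rank) ℤ) - A) *ᵥ η) (((q : ℤ) • (1 : Matrix (Fin chevE7.rank) (Fin chevE7.rank) ℤ) - A) *ᵥ η) =
      ((q : ℤ) ^ 2 + 1) * B GE7 η η - 2 * (q : ℤ) * B GE7 η (A *ᵥ η) := by
    have e2' : B GE7 (A *ᵥ η) η = B GE7 η (A *ᵥ η) := B_symm sym7 _ _
    rw [Matrix.sub_mulVec, Matrix.smul_mulVec, Matrix.one_mulVec]
    simp only [B_sub_left', B_sub_right', B_smul_left, B_smul_right, B_iso hiso, e2']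
    ring
  rw [he, e2] at e1
  have hq0 : (0 : ℤ) ≤ (q : ℤ) := by positivity
  have e3 : 2 * (q : ℤ) * B GE7 η (A *ᵥ η) ≤ 2 * (q : ℤ) * (B GE7 η η - 1) :=
    mul_le_mul_of_nonneg_left ha (by positivity)
  have e4 : ((q : ℤ) - 1) ^ 2 * 2 ≤ ((q : ℤ) - 1) ^ 2 * B GE7 η η :=
    mul_le_mul_of_nonneg_left hn2 (by positivity)
  nlinarith

/-- Four times a vector of a triple in the image is impossible. -/
lemma no_tors (hq : 2 ≤ q) (hdetne : ((q : ℤ) • (1 : Matrix (Fin chevE7.rank) (Fin chevE7.rank) ℤ) - A).det ≠ 0)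
    {x η : Fin chevE7.rank → ℤ} (hx3 : A ^ 3 *ᵥ x = -x) (h1 : B GE7 x (A ^ 2 *ᵥ x) = 0) (h2 : B GE7 (A *ᵥ x) (A ^ 2 *ᵥ x) = 0)
    (h3 : B GE7 (A ^ 2 *ᵥ x) (A ^ 2 *ᵥ x) = 2)
    (he : (4 : ℤ) • x = ((q : ℤ) • (1 : Matrix (Fin chevE7.rank) (Fin chevE7.rank) ℤ) - A) *ᵥ η) : False := by
  set Mq := (q : ℤ) • (1 : Matrix (Fin chevE7.rank) (Fin chevE7.rank) ℤ) - A with hMq
  have hcomm : (A ^ 3 + 1) * Mq = Mq * (A ^ 3 + 1) := by
    have e0 : Commute (A ^ 3 + 1) Mq := by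
      rw [hMq]
      exact ((Commute.one_right _).smul_right _).sub_right (((Commute.refl A).pow_left 3).add_left (Commute.one_left A))
    exact e0
  have e1 : Mq *ᵥ ((A ^ 3 + 1) *ᵥ η) = 0 := by
    rw [Matrix.mulVec_mulVec, ← hcomm, ← Matrix.mulVec_mulVec, ← he, Matrix.mulVec_smul, Matrix.add_mulVec, Matrix.one_mulVec, hx3]
    simp
  have e2 : (A ^ 3 + 1) *ᵥ η = 0 := Matrix.eq_zero_of_mulVec_eq_zero hdetne e1
  have e3 : A ^ 3 *ᵥ η = -η := by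
    rw [Matrix.add_mulVec, Matrix.one_mulVec] at e2
    exact eq_neg_of_add_eq_zero_left e2
  set W : Matrix (Fin chevE7.rank) (Fin chevE7.rank) ℤ := ((q : ℤ) ^ 2) • 1 + (q : ℤ) • A + A ^ 2 with hW
  have hWM : W * Mq = ((q : ℤ) ^ 3) • 1 - A ^ 3 := by
    rw [hW, hMq]
    simp only [add_mul, mul_sub, smul_mul_assoc, mul_smul_comm, one_mul, mul_one]
    have e5 : A ^ 2 * A = A ^ 3 := (pow_succ A 2).symm
    have e6 : A * A = A ^ 2 := (pow_two A).symm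
    rw [e5, e6]
    simp only [smul_add, smul_smul]
    have e7 : (q : ℤ) * (q : ℤ) ^ 2 = (q : ℤ) ^ 3 := by ring
    have e8 : (q : ℤ) * (q : ℤ) = (q : ℤ) ^ 2 := by ring
    rw [e7, e8]
    abel
  have e4 : W *ᵥ (Mq *ᵥ η) = ((q : ℤ) ^ 3 + 1) • η := by
    rw [Matrix.mulVec_mulVec, hWM, Matrix.sub_mulVec, Matrix.smul_mulVec, Matrix.one_mulVec, e3, add_smul, one_smul]
    abel
  rw [← he, Matrix.mulVec_smul, hW, Matrix.add_mulVec, Matrix.add_mulVec, Matrix.smul_mulVec, Matrix.smul_mulVec, Matrix.one_mulVec] at e4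
  have e5 := congrArg (fun v => B GE7 v (A ^ 2 *ᵥ x)) e4
  simp only [B_smul_left, B_add_left] at e5
  rw [h1, h2, h3] at e5
  have e6 : ((q : ℤ) ^ 3 + 1) ∣ 8 := ⟨B GE7 η (A ^ 2 *ᵥ x), by linarith⟩
  have e7 := Int.le_of_dvd (by norm_num) e6
  have hq' : (2 : ℤ) ≤ (q : ℤ) := by exact_mod_cast hq
  nlinarith [mul_le_mul hq' hq' (by norm_num) (by positivity)]

end descent

/-! ### The exponent of the image -/

section expo

variable {E : Type*} [Field E] [Fintype E]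

lemma zE7_rad : ∀ i : Fin chevE7.rank, (2 : ℤ) ∣ ∑ m, zE7 m * chevE7.cartan i (chevE7.simple m) := by
  intro i
  have e := congrFun zE7_G i
  have e1 : ∑ m, zE7 m * chevE7.cartan i (chevE7.simple m) = (GE7 *ᵥ zE7) i := by
    simp only [Matrix.mulVec, dotProduct]
    exact Finset.sum_congr rfl fun m _ => mul_comm _ _
  rw [e1, e]
  split_ifs <;> norm_num

/-- When `q` is odd the image of the kernel under the Cartan matrix has smaller exponent. -/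
theorem pow_eq_one_of_image7 (h : Tab chevE7) {l : List ℕ} (hl : ∀ i ∈ l, i < chevE7.rank) {q M' : ℕ} (hq3 : q % 2 = 1)
    (h3E : 2 ∣ Nat.card Eˣ)
    (hc : Nat.card (mact ((q : ℤ) • (Aw chevE7 l)ᵀ - 1) (G := Eˣ)).ker = 2 * M')
    {c' : Fin chevE7.rank → Eˣ} (hc' : c' ∈ (mact ((q : ℤ) • (Aw chevE7 l)ᵀ - 1) (G := Eˣ)).ker) :
    (mact (cartanM chevE7) c') ^ M' = 1 := by
  classical
  obtain ⟨ω, hω⟩ : ∃ ω : Eˣ, orderOf ω = 2 := exists_prime_orderOf_dvd_card' 2 h3E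
  set K := (mact ((q : ℤ) • (Aw chevE7 l)ᵀ - 1) (G := Eˣ)).ker with hK
  let φ : ↥K →* (Fin chevE7.rank → Eˣ) := (mact (cartanM chevE7)).comp K.subtype
  -- the element of the kernel
  have hz1 : Ev ω zE7 ∈ K := by
    rw [hK, MonoidHom.mem_ker, mact_Ev, Ev_eq_one hω]
    have e1 : ∀ j, (2 : ℤ) ∣ (Aw chevE7 l *ᵥ zE7) j - zE7 j := Aw_modEq h 2 zE7 zE7_rad hl
    have e2 : ∀ j, ((2 : ℕ) : ℤ) ∣ (zE7 ᵥ* ((q : ℤ) • (Aw chevE7 l)ᵀ - 1)) j := by
      intro j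
      have e3 : (zE7 ᵥ* ((q : ℤ) • (Aw chevE7 l)ᵀ - 1)) j = (q : ℤ) * (Aw chevE7 l *ᵥ zE7) j - zE7 j := by
        rw [Matrix.vecMul_sub, Matrix.vecMul_smul, Matrix.vecMul_transpose, Matrix.vecMul_one]
        rfl
      rw [e3]
      obtain ⟨a, ha⟩ := e1 j
      obtain ⟨b, hb⟩ : ∃ b : ℤ, (q : ℤ) = 2 * b + 1 := ⟨(q : ℤ) / 2, by omega⟩
      refine ⟨b * (Aw chevE7 l *ᵥ zE7) j + a, ?_⟩
      rw [hb]
      push_cast
      linear_combination ha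
    choose u hu using e2
    exact ⟨u, funext fun j => by rw [hu j]; simp⟩
  have hz2 : φ ⟨_, hz1⟩ = 1 := by
    show mact (cartanM chevE7) (Ev ω zE7) = 1
    rw [mact_Ev, Ev_eq_one hω]
    have e2 : ∀ j, ((2 : ℕ) : ℤ) ∣ (zE7 ᵥ* cartanM chevE7) j := by
      intro j
      have e3 := zE7_rad j
      have e4 : (zE7 ᵥ* cartanM chevE7) j = ∑ m, zE7 m * chevE7.cartan j (chevE7.simple m) := by
        rw [← Matrix.mulVec_transpose, symE7]
        simp only [Matrix.mulVec, dotProduct]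
        exact Finset.sum_congr rfl fun m _ => mul_comm _ _
      rw [e4]
      exact e3
    choose u hu using e2
    exact ⟨u, funext fun j => by rw [hu j]; simp⟩
  have hz3 : (⟨_, hz1⟩ : ↥K) ≠ 1 := by
    intro e
    have e1 : Ev ω zE7 = 1 := congrArg Subtype.val e
    obtain ⟨u, hu⟩ := (Ev_eq_one hω).1 e1
    have e2 := congrFun hu ⟨1, by decide⟩
    have e3 : zE7 ⟨1, by decide⟩ = 3 := by decide
    rw [e3] at e2
    simp only [Pi.smul_apply, smul_eq_mul] at e2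
    omega
  have hz4 : (⟨_, hz1⟩ : ↥K) ^ 2 = 1 := by
    apply Subtype.ext
    funext j
    show (ω ^ zE7 j) ^ 2 = 1
    rw [← zpow_natCast, ← zpow_mul, mul_comm, zpow_mul, zpow_natCast, ← hω, pow_orderOf_eq_one, one_zpow]
  -- the kernel of the map has even order
  have hord3 : orderOf (⟨_, hz1⟩ : ↥K) = 2 := orderOf_eq_prime hz4 hz3
  have h3ker : 2 ∣ Nat.card φ.ker := by
    have e1 : orderOf (⟨⟨_, hz1⟩, hz2⟩ : ↥φ.ker) = 2 := by
      rw [← hord3]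
      exact Subgroup.orderOf_mk _ _
    rw [← e1]
    exact orderOf_dvd_natCard _
  have hcard : Nat.card φ.ker * Nat.card φ.range = 2 * M' := by
    rw [← Subgroup.index_ker, Subgroup.card_mul_index, hc]
  obtain ⟨d, hd⟩ := h3ker
  have hdvd : Nat.card φ.range ∣ M' := by
    rw [hd, mul_assoc] at hcard
    exact ⟨d, by
      have := Nat.eq_of_mul_eq_mul_left (by norm_num : 0 < 2) hcard
      rw [← this, mul_comm]⟩
  have e1 : φ ⟨c', hc'⟩ ∈ φ.range := ⟨_, rfl⟩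
  have e2 : (⟨_, e1⟩ : ↥φ.range) ^ M' = 1 := by
    obtain ⟨a, ha⟩ := hdvd
    rw [ha, pow_mul, pow_card_eq_one', one_pow]
  exact congrArg Subtype.val e2

end expo

end Cfsg.Agent.Lib.KS71.E7p
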