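/-
The cyclic self-centralizing subgroup of order `(q⁴ - q² + 1)(q³ + 1) / gcd(2, q - 1)` in `E₇(q)`, given the twisted element.
-/
import Mathlib
import Cfsg.Agent.Lib.KS71.E7p

set_option autoImplicit false
set_option linter.unusedSectionVars false
set_option linter.unusedVariables false
set_option maxRecDepth 100000

namespace Cfsg.Agent.Lib.KS71.E7t

open scoped MatrixGroups Matrix
open Polynomial Module
open Cfsg Cfsg.Lie Cfsg.Lie.ChevalleyDatum
open Cfsg.Agent.Lib.Chev.Tables Cfsg.Agent.Lib.Chev.Tables2 Cfsg.Agent.Lib.Chev.Tables3 Cfsg.Agent.Lib.Chev.Raise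
open Cfsg.Agent.Lib.Chev.Basic Cfsg.Agent.Lib.Chev.AxBasic Cfsg.Agent.Lib.Chev.Torus
open Cfsg.Agent.Lib.Chev.Products Cfsg.Agent.Lib.Chev.Products2 Cfsg.Agent.Lib.Chev.Mono1
open Cfsg.Agent.Lib.Chev.Mono2 Cfsg.Agent.Lib.Chev.Mono3 Cfsg.Agent.Lib.Chev.Bn
open Cfsg.Agent.Lib.Chev.Order1 Cfsg.Agent.Lib.Chev.Order2 Cfsg.Agent.Lib.Chev.Parab
open Cfsg.Agent.Lib.Chev.Diag Cfsg.Agent.Lib.Chev.SL2 Cfsg.Agent.Lib.Chev.SL2Chev Cfsg.Agent.Lib.Chev.Order3
open Cfsg.Agent.Lib.KS71.ChevFix Cfsg.Agent.Lib.KS71.IVf Cfsg.Agent.Lib.KS71.HCa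
open Cfsg.Agent.Lib.KS71.HCb Cfsg.Agent.Lib.KS71.HCc Cfsg.Agent.Lib.KS71.HCd Cfsg.Agent.Lib.KS71.HCf Cfsg.Agent.Lib.KS71.HCg
open Cfsg.Agent.Lib.KS71.HCh Cfsg.Agent.Lib.KS71.HCi
open Cfsg.Agent.Lib.KS71.HCj Cfsg.Agent.Lib.KS71.HCk
open Cfsg.Agent.Lib.KS71.HCm Cfsg.Agent.Lib.KS71.HCn Cfsg.Agent.Lib.KS71.HCo Cfsg.Agent.Lib.KS71.HCp
open Cfsg.Agent.Lib.KS71.E6h Cfsg.Agent.Lib.KS71.E6j Cfsg.Agent.Lib.KS71.E6m
open Cfsg.Agent.Lib.KS71.E7g Cfsg.Agent.Lib.KS71.E7j Cfsg.Agent.Lib.KS71.E7k Cfsg.Agent.Lib.KS71.E7l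
open Cfsg.Agent.Lib.KS71.E7m Cfsg.Agent.Lib.KS71.E7n Cfsg.Agent.Lib.KS71.E7o Cfsg.Agent.Lib.KS71.E7p

/-- The six vectors of a triple. -/
def Six (γ₀ γ₁ γ₂ u : Fin chevE7.rank → ℤ) : Prop :=
  u = γ₀ ∨ u = -γ₀ ∨ u = γ₁ ∨ u = -γ₁ ∨ u = γ₂ ∨ u = -γ₂

lemma six_pair {A : Matrix (Fin chevE7.rank) (Fin chevE7.rank) ℤ} {γ₀ γ₁ γ₂ u v : Fin chevE7.rank → ℤ} (T : Tri A γ₀ γ₁ γ₂)
    (hu : Six γ₀ γ₁ γ₂ u) (hv : Six γ₀ γ₁ γ₂ v) : v = u ∨ v = -u ∨ B GE7 u v = 0 := by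
  have o10 : B GE7 γ₁ γ₀ = 0 := by rw [B_symm sym7]; exact T.o01
  have o20 : B GE7 γ₂ γ₀ = 0 := by rw [B_symm sym7]; exact T.o02
  have o21 : B GE7 γ₂ γ₁ = 0 := by rw [B_symm sym7]; exact T.o12
  have o01 := T.o01
  have o02 := T.o02
  have o12 := T.o12
  rcases hu with rfl | rfl | rfl | rfl | rfl | rfl <;> rcases hv with rfl | rfl | rfl | rfl | rfl | rfl <;>
    first
    | exact Or.inl rfl
    | exact Or.inr (Or.inl rfl)
    | exact Or.inr (Or.inl (neg_neg _).symm)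
    | (right; right; simp only [B_neg_left, B_neg_right, o01, o02, o12, o10, o20, o21, neg_zero])

lemma six_facts {A : Matrix (Fin chevE7.rank) (Fin chevE7.rank) ℤ} {γ₀ γ₁ γ₂ u : Fin chevE7.rank → ℤ} (T : Tri A γ₀ γ₁ γ₂)
    (hu : Six γ₀ γ₁ γ₂ u) : A ^ 3 *ᵥ u = -u ∧ B GE7 u (A ^ 2 *ᵥ u) = 0 ∧ B GE7 (A *ᵥ u) (A ^ 2 *ᵥ u) = 0 ∧
      B GE7 (A ^ 2 *ᵥ u) (A ^ 2 *ᵥ u) = 2 := by
  have o10 : B GE7 γ₁ γ₀ = 0 := by rw [B_symm sym7]; exact T.o01
  have o20 : B GE7 γ₂ γ₀ = 0 := by rw [B_symm sym7]; exact T.o02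
  have o21 : B GE7 γ₂ γ₁ = 0 := by rw [B_symm sym7]; exact T.o12
  have o01 := T.o01
  have o02 := T.o02
  have o12 := T.o12
  have n0 := T.n0
  have n1 := T.n1
  have n2 := T.n2
  rcases hu with rfl | rfl | rfl | rfl | rfl | rfl <;>
    simp only [Matrix.mulVec_neg, T.p3_0, T.p3_1, T.p3_2, T.p2_0, T.p2_1, T.p2_2, T.a0, T.a1, T.a2, neg_neg, B_neg_left, B_neg_right,
      o01, o02, o12, o10, o20, o21, n0, n1, n2, neg_zero, true_and, and_self]

set_option maxHeartbeats 8000000 in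
/-- The main theorem, given the twisted element. -/
theorem torus_final {F E : Type*} [Field F] [Fintype F] [Field E] [Fintype E]
    (h : Tab chevE7) (h2 : Tab2 chevE7) (axF : Ax chevE7 F) (axE : Ax chevE7 E) (ι : F →+* E) (σ : E ≃+* E)
    {q d : ℕ} (hq : Fintype.card F = q) (hq2 : 2 ≤ q) (hσ : ∀ x, σ x = x ^ q) (hσι : ∀ a, σ (ι a) = ι a)
    (hd0 : 0 < d) (h12 : 12 ∣ d) (hcE : Fintype.card E = q ^ d)
    (x : ↥(chevE7.group E)) {l : List ℕ} (hl : ∀ i ∈ l, i < chevE7.rank) (c₀ : ℕ → Eˣ)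
    (hn₀ : ((x⁻¹ * sAut h axE σ x : ↥(chevE7.group E)) : GL chevE7.Idx E) = tor chevE7 (psi chevE7 c₀) * nw chevE7 axE l)
    (hcp : (Aw chevE7 l).charpoly = (X ^ 4 - X ^ 2 + 1) * (X ^ 3 + 1)) (hA12 : (Aw chevE7 l) ^ 12 = 1)
    {β : Fin chevE7.rank → ℤ} (hdet : (Mb (Aw chevE7 l) β).det ^ 2 = 1)
    {γ₀ γ₁ γ₂ : Fin chevE7.rank → ℤ} (T : Tri (Aw chevE7 l) γ₀ γ₁ γ₂)
    {r : ℕ} [hr : Fact r.Prime] (hr2 : r ≠ 2) (hrW : ¬ r ∣ (Wc h).card)
    (p₀ : ↥(chevE7.group F)) (y₀ : ℕ → Eˣ)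
    (hy₀ : ((x⁻¹ * iotaHom h axF axE ι p₀ * x : ↥(chevE7.group E)) : GL chevE7.Idx E) = tor chevE7 y₀)
    {lam : Eˣ} (hlam : orderOf lam = r) {c : Fin chevE7.rank → ℤ} (hc : ∀ j : Fin chevE7.rank, lam ^ c j = y₀ j)
    (hR : ∀ u, B GE7 u u = 2 → ((r : ℤ) ∣ c ⬝ᵥ u ↔ Six γ₀ γ₁ γ₂ u)) :
    ∃ H : Subgroup ↥(chevE7.group F), IsCyclic ↥H ∧ Nat.card ↥H = MM7 q / Nat.gcd 2 (q - 1) ∧
      Subgroup.centralizer (H : Set ↥(chevE7.group F)) = H := by
  classical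
  set A := Aw chevE7 l with hA
  have hq1 : 1 ≤ q := by omega
  obtain ⟨k₁, hk₁⟩ := h12
  have hAd : A ^ d = 1 := by rw [hk₁, pow_mul, hA12, one_pow]
  have hATd : Aᵀ ^ d = 1 := by rw [← Matrix.transpose_pow, hAd, Matrix.transpose_one]
  set K := (mact ((q : ℤ) • (1 : Matrix (Fin chevE7.rank) (Fin chevE7.rank) ℤ) - A) (G := Eˣ)).ker with hK
  have hdetM := det7 hcp hq1
  have hdetne : ((q : ℤ) • (1 : Matrix (Fin chevE7.rank) (Fin chevE7.rank) ℤ) - A).det ≠ 0 := by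
    intro e
    rw [e] at hdetM
    have := MM7_pos (q := q)
    simp at hdetM
    omega
  have hcardK : Nat.card K = MM7 q := by
    rw [hK, E6n.card_ker_gen hq2 hd0 hcE A hAd, hdetM]
  have hiso : Aᵀ * GE7 * A = GE7 := Aw_iso h siE7 hl
  have hcardP : Nat.card (mact ((q : ℤ) • Aᵀ - 1) (G := Eˣ)).ker = MM7 q := by
    rw [E6n.card_ker_gen' hq2 hd0 hcE Aᵀ hATd, E6n.det2 hiso (by rw [detE7]; norm_num) hA12 q, hdetM]
  haveI hcycK : IsCyclic ↥K := isCyclic_ker7 hdet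
  obtain ⟨v₀', hv₀'⟩ := IsCyclic.exists_generator (α := ↥K)
  have hordv : orderOf v₀' = MM7 q := by
    rw [orderOf_eq_card_of_forall_mem_zpowers hv₀', hcardK]
  set v₀ : Fin chevE7.rank → Eˣ := v₀'.1 with hv₀
  have hv₀K : v₀ ∈ K := v₀'.2
  have hordζ : orderOf (ev v₀ β) = MM7 q := by
    have e := orderOf_injective (evHom K β) (evHom_inj hdet) v₀'
    rw [← hordv, ← e]
    rfl
  have hv₀M : v₀ ^ MM7 q = 1 := by
    have e := pow_orderOf_eq_one v₀'
    rw [hordv] at e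
    exact congrArg Subtype.val e
  have hdesc : ∀ (w : Fin chevE7.rank → ℤ) (e : ℕ), ev v₀ w ^ e = 1 →
      ∃ η, (e : ℤ) • w = ((q : ℤ) • (1 : Matrix (Fin chevE7.rank) (Fin chevE7.rank) ℤ) - A) *ᵥ η := by
    intro w e he
    set M₁ := Mb A β with hM₁
    let u : Fin chevE7.rank → ℤ := M₁.det • (M₁.adjugate *ᵥ w)
    have hu : M₁ *ᵥ u = w := by
      show M₁ *ᵥ (M₁.det • (M₁.adjugate *ᵥ w)) = _
      rw [Matrix.mulVec_smul, Matrix.mulVec_mulVec, Matrix.mul_adjugate, Matrix.smul_mulVec, Matrix.one_mulVec, smul_smul, ← pow_two, hdet, one_smul]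
    have e1 : ev v₀ w = ev v₀ β ^ ∑ k : Fin chevE7.rank, ((q : ℤ) ^ (k : ℕ) * u k) := by
      conv_lhs => rw [← hu]
      exact ev_Mb hv₀K β u
    have e2 : (ev v₀ β) ^ ((∑ k : Fin chevE7.rank, ((q : ℤ) ^ (k : ℕ) * u k)) * (e : ℤ)) = 1 := by
      rw [zpow_mul, ← e1, zpow_natCast, he]
    have e3 : ((MM7 q : ℕ) : ℤ) ∣ (∑ k : Fin chevE7.rank, ((q : ℤ) ^ (k : ℕ) * u k)) * (e : ℤ) := by
      rw [← hordζ]
      exact orderOf_dvd_iff_zpow_eq_one.mpr e2
    obtain ⟨η, hη⟩ := desc β u hdetM e3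
    refine ⟨η, ?_⟩
    rw [← hη, hu]
  have hfree : ∀ u : Fin chevE7.rank → ℤ, A *ᵥ u = u → u = 0 := by
    intro u hu
    by_contra hu0
    have e : (1 - A) *ᵥ u = 0 := by
      rw [Matrix.sub_mulVec, Matrix.one_mulVec, hu, sub_self]
    have e1 : (1 - A).det = 0 := Matrix.exists_mulVec_eq_zero_iff.1 ⟨u, hu0, e⟩
    have e2 := Matrix.eval_charpoly A (1 : ℤ)
    have e0 : Matrix.scalar (Fin chevE7.rank) (1 : ℤ) = 1 := by simp
    rw [e0, e1, hcp] at e2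
    norm_num at e2
  -- the regularity
  have hregv : ∀ s, s < chevE7.nroots → ev (v₀ ^ 2) (crd chevE7 s) ≠ 1 := by
    intro s hs e
    rw [ev_pow'] at e
    have hn := norm_crd h hs
    rcases arith7 hq2 with ⟨e3, e4, e5⟩ | ⟨e3, e4, e5⟩
    · obtain ⟨η, hη⟩ := hdesc _ 2 e
      have e6 := no_small hiso hfree hq2 (e := ((2 : ℕ) : ℤ)) (by norm_num) hη hn
      have hq3 : (3 : ℤ) ≤ (q : ℤ) := by
        have : 3 ≤ q := by omega
        exact_mod_cast this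
      push_cast at e6
      nlinarith
    · have e6 : ev v₀ (crd chevE7 s) ^ MM7 q = 1 := by
        rw [← ev_pow', hv₀M]
        simp [ev]
      have e7 : ev v₀ (crd chevE7 s) ^ 1 = 1 := by
        have e8 : Nat.gcd 2 (MM7 q) = 1 := (Nat.Prime.coprime_iff_not_dvd Nat.prime_two).2 (by omega)
        rw [← e8]
        exact pow_gcd_eq_one.2 ⟨e, e6⟩
      obtain ⟨η, hη⟩ := hdesc _ 1 e7
      have e8 := no_small hiso hfree hq2 (e := ((1 : ℕ) : ℤ)) (by norm_num) hη hn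
      have hq3 : (2 : ℤ) ≤ (q : ℤ) := by exact_mod_cast hq2
      push_cast at e8
      nlinarith
  -- every element of the kernel is a square
  have hsquare : ∀ u : Eˣ, u ^ MM7 q = 1 → ∃ w : Eˣ, u = w ^ 2 := by
    intro u hu
    obtain ⟨g, hg⟩ := IsCyclic.exists_generator (α := Eˣ)
    have hcard : Nat.card Eˣ = q ^ d - 1 := by
      rw [Nat.card_eq_fintype_card, Fintype.card_units, hcE]
    have hord : orderOf g = q ^ d - 1 := by
      rw [orderOf_eq_card_of_forall_mem_zpowers hg, hcard]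
    rcases arith7 hq2 with ⟨e3, e4, e5⟩ | ⟨e3, e4, e5⟩
    · obtain ⟨t, ht⟩ := dvd_units hq2 ⟨k₁, hk₁⟩ e3
      have hM0 := MM7_pos (q := q)
      have ht0 : 0 < t := by
        rcases Nat.eq_zero_or_pos t with rfl | h0
        · exfalso
          have : 2 ≤ q ^ d := by
            calc 2 ≤ q := hq2
              _ = q ^ 1 := (pow_one q).symm
              _ ≤ q ^ d := Nat.pow_le_pow_right (by omega) hd0
          simp at ht
          omega
        · exact h0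
      refine sq_of_pow g hg (M' := MM7 q * t) hord (Or.inl ⟨by rw [ht]; ring, Nat.mul_pos hM0 ht0⟩) ?_
      rw [pow_mul, hu, one_pow]
    · have hodd : (q ^ d - 1) % 2 = 1 := by
        have e6 : 2 ∣ q ^ d := dvd_pow (by omega) hd0.ne'
        have e7 : 1 ≤ q ^ d := Nat.one_le_pow _ _ (by omega)
        have e8 : 2 ≤ q ^ d := by
          calc 2 ≤ q := hq2
            _ = q ^ 1 := (pow_one q).symm
            _ ≤ q ^ d := Nat.pow_le_pow_right (by omega) hd0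
        omega
      refine sq_of_pow g hg (M' := q ^ d - 1) hord (Or.inr ⟨rfl, hodd⟩) ?_
      rw [← hcard]
      exact pow_card_eq_one'
  have hsqK : ∀ v ∈ K, ∃ w : Fin chevE7.rank → Eˣ, v = w ^ 2 := by
    intro v hv
    have e1 : v ^ MM7 q = 1 := by
      have e := pow_card_eq_one' (x := (⟨v, hv⟩ : ↥K))
      rw [hcardK] at e
      exact congrArg Subtype.val e
    have e2 : ∀ j, ∃ w : Eˣ, v j = w ^ 2 := fun j => hsquare _ (congrFun e1 j)
    choose w hw using e2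
    exact ⟨w, funext hw⟩
  have hvH : ∀ v ∈ K, tor chevE7 (extU chevE7 v) ∈ chevE7.diagonalSubgroup E := by
    intro v hv
    obtain ⟨w, rfl⟩ := hsqK v hv
    rw [map_pow]
    exact tor_sq h h2 axE _
  -- the set up of the group
  set s₀ := sAut h axE σ with hs₀
  set ιh := iotaHom h axF axE ι with hιh
  let t : ∀ v : ℕ → Eˣ, tor chevE7 v ∈ chevE7.diagonalSubgroup E → ↥(chevE7.group E) := fun v hv => ⟨tor chevE7 v, diagonal_le_group h axE hv⟩
  have hqm : ∀ v : ℕ → Eˣ, tor chevE7 v ∈ chevE7.diagonalSubgroup E → tor chevE7 (v ^ q) ∈ chevE7.diagonalSubgroup E := by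
    intro v hv
    rw [← tor_pow]
    exact Subgroup.pow_mem _ hv _
  have hts : ∀ v (hv : tor chevE7 v ∈ chevE7.diagonalSubgroup E), s₀ (t v hv) = t (v ^ q) (hqm v hv) := by
    intro v hv
    apply Subtype.ext
    rw [hs₀, coe_sAut]
    exact mapX_tor_frob σ hσ v
  have hιfix : ∀ g, s₀ (ιh g) = ιh g := sAut_iota h axF axE ι σ hσι
  have hι₀ : ∀ a, σ a = a ↔ a ∈ Set.range ι := fixed_iff hq hq2 σ ι hσ hσι
  set n₀ := x⁻¹ * s₀ x with hn₀'
  have hnm : (n₀ : GL chevE7.Idx E) ∈ chevE7.monomialSubgroup E := by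
    have e : (n₀ : GL chevE7.Idx E) = tor chevE7 (psi chevE7 c₀) * nw chevE7 axE l := hn₀
    rw [e]
    exact Subgroup.mul_mem _ ((le_sup_left : chevE7.diagonalSubgroup E ≤ _) (tor_psi_mem h h2 axE c₀)) (nw_mem_monomial_aux h h2 axE hl)
  obtain ⟨π', c1, Hn⟩ := exists_isNor h h2 axE hnm
  have hπ' : π' = wPw h l := by
    let m₁ : ↥(chevE7.monomialSubgroup E) := ⟨(n₀ : GL chevE7.Idx E), hnm⟩
    let m₂ : ↥(chevE7.monomialSubgroup E) := ⟨nw chevE7 axE l, nw_mem_monomial_aux h h2 axE hl⟩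
    have e1 : piN h h2 axE (m₁ * m₂⁻¹) = 1 := by
      refine (piN_eq_one_iff h h2 axE _).2 ?_
      show (n₀ : GL chevE7.Idx E) * (nw chevE7 axE l)⁻¹ ∈ _
      have e : (n₀ : GL chevE7.Idx E) = tor chevE7 (psi chevE7 c₀) * nw chevE7 axE l := hn₀
      rw [e, mul_inv_cancel_right]
      exact tor_psi_mem h h2 axE c₀
    rw [map_mul, map_inv, piN_of_isNor h h2 axE (g := m₁) Hn, piN_nw h h2 axE hl] at e1
    exact mul_inv_eq_one.1 e1
  subst hπ'
  have hval : ∀ (v v₁ : ℕ → Eˣ) (hv : tor chevE7 v ∈ chevE7.diagonalSubgroup E) (hv₁ : tor chevE7 v₁ ∈ chevE7.diagonalSubgroup E),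
      n₀ * t (v ^ q) (hqm v hv) * n₀⁻¹ = t v₁ hv₁ → ∀ s, s < chevE7.nroots →
      chi chevE7 v₁ (wWord chevE7 l s) = chi chevE7 v s ^ q := by
    intro v v₁ hv hv₁ e s hs
    have e1 : (n₀ : GL chevE7.Idx E) * tor chevE7 (v ^ q) * (n₀ : GL chevE7.Idx E)⁻¹ = tor chevE7 v₁ := congrArg Subtype.val e
    have e2 := conj_tor_chi h h2 axE Hn (v ^ q) v₁ e1 ⟨s, hs⟩
    rw [chi_pow, wPw_val h hl] at e2
    exact e2
  -- the fixed points
  have hfixv : ∀ (v : ℕ → Eˣ) (hv : tor chevE7 v ∈ chevE7.diagonalSubgroup E),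
      (∀ s, s < chevE7.nroots → chi chevE7 v (wWord chevE7 l s) = chi chevE7 v s ^ q) →
      s₀ (x * t v hv * x⁻¹) = x * t v hv * x⁻¹ := by
    intro v hv hv''
    have hc' : (n₀ : GL chevE7.Idx E) * tor chevE7 (v ^ q) * (n₀ : GL chevE7.Idx E)⁻¹ ∈ chevE7.diagonalSubgroup E :=
      Hn.conj_mem_H h axE (hqm v hv)
    obtain ⟨v₂, hv₂⟩ := exists_tor_of_mem axE h hc'
    have hv₂H : tor chevE7 v₂ ∈ chevE7.diagonalSubgroup E := hv₂ ▸ hc'
    have hv₂' : n₀ * t (v ^ q) (hqm v hv) * n₀⁻¹ = t v₂ hv₂H := Subtype.ext hv₂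
    have hvv₂ : t v₂ hv₂H = t v hv := by
      apply Subtype.ext
      apply tor_eq_of_chi
      intro s hs
      have e1 := hval v v₂ hv hv₂H hv₂'
      let s' : Fin chevE7.nroots := (wPw h l)⁻¹ ⟨s, hs⟩
      have e2 : wWord chevE7 l s' = s := by
        rw [← wPw_val h hl]
        simp [s']
      have e3 := e1 s' s'.isLt
      have e4 := hv'' s' s'.isLt
      rw [e2] at e3 e4
      rw [e3, e4]
    simp only [map_mul, map_inv, hts]
    rw [← hvv₂, ← hv₂', hn₀']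
    group
  -- the squares of the kernel come from the group
  have hII : ∀ v' ∈ K, ∃ g : ↥(chevE7.group F), mapX chevE7 ι (g : GL chevE7.Idx F) =
      (x : GL chevE7.Idx E) * tor chevE7 (extU chevE7 (v' ^ 2)) * (x : GL chevE7.Idx E)⁻¹ := by
    intro v' hv'
    have hv'' := (mem_ker_iff h hl q v').1 hv'
    have hH := hvH v' hv'
    have hfix := hfixv _ hH hv''
    have hfix' : mapX chevE7 (σ : E →+* E) (x * t _ hH * x⁻¹ : ↥(chevE7.group E)) = (x * t _ hH * x⁻¹ : ↥(chevE7.group E)) := by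
      have e1 := congrArg Subtype.val hfix
      rw [hs₀, coe_sAut] at e1
      exact e1
    obtain ⟨u, hu, hue⟩ := sq_fixed_mem h h2 axE axF σ ι hι₀ (tor_sq h h2 axF) (x * t _ hH * x⁻¹ : ↥(chevE7.group E)).2 hfix'
    refine ⟨⟨u, hu⟩, ?_⟩
    have e6 : mapX chevE7 ι u = ((x * t _ hH * x⁻¹ : ↥(chevE7.group E)) : GL chevE7.Idx E) ^ 2 := hue
    show mapX chevE7 ι u = _
    rw [e6]
    have e7 : ((x * t _ hH * x⁻¹ : ↥(chevE7.group E)) : GL chevE7.Idx E) = (x : GL chevE7.Idx E) * tor chevE7 (extU chevE7 v') * (x : GL chevE7.Idx E)⁻¹ := rfl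
    rw [e7]
    have e8 := map_pow (MulAut.conj (x : GL chevE7.Idx E)) (tor chevE7 (extU chevE7 v')) 2
    simp only [MulAut.conj_apply] at e8
    rw [← e8, tor_pow, map_pow]
  -- the element of the torus given
  let vt : Fin chevE7.rank → Eˣ := fun j => y₀ j
  have hchiext : ∀ s, chi chevE7 (extU chevE7 vt) s = chi chevE7 y₀ s := by
    intro s
    simp only [chi]
    refine Finset.prod_congr rfl fun i hi => ?_
    rw [show extU chevE7 vt i = y₀ i from extU_apply vt ⟨i, Finset.mem_range.mp hi⟩]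
  have hext : tor chevE7 y₀ = tor chevE7 (extU chevE7 vt) :=
    (tor_eq_iff h).2 (fun j hj => (extU_apply vt ⟨j, hj⟩).symm)
  have hlamr : lam ^ r = 1 := by rw [← hlam]; exact pow_orderOf_eq_one _
  have hvtr : vt ^ r = 1 := by
    funext j
    show (y₀ j) ^ r = 1
    rw [← hc j, ← zpow_natCast, ← zpow_mul, mul_comm, zpow_mul, zpow_natCast, hlamr, one_zpow]
  have hrodd : r % 2 = 1 := (hr.out.eq_two_or_odd).resolve_left hr2
  have hvtsq : vt = (vt ^ ((r + 1) / 2)) ^ 2 := by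
    rw [← pow_mul, show (r + 1) / 2 * 2 = r + 1 by omega, pow_succ, hvtr, one_mul]
  have hyH : tor chevE7 y₀ ∈ chevE7.diagonalSubgroup E := by
    rw [hext, hvtsq, map_pow]
    exact tor_sq h h2 axE _
  have hty : x⁻¹ * ιh p₀ * x = t y₀ hyH := Subtype.ext hy₀
  have hyrel : ∀ s, s < chevE7.nroots → chi chevE7 y₀ (wWord chevE7 l s) = chi chevE7 y₀ s ^ q := by
    apply hval y₀ y₀ hyH hyH
    have e1 : s₀ (t y₀ hyH) = (s₀ x)⁻¹ * ιh p₀ * s₀ x := by
      rw [← hty]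
      simp only [map_mul, map_inv, hιfix]
    rw [← hts y₀ hyH, e1, hn₀', ← hty]
    group
  have hvtK : vt ∈ K := by
    rw [hK, mem_ker_iff h hl q vt]
    intro s hs
    rw [hchiext, hchiext]
    exact hyrel s hs
  -- the element
  obtain ⟨g₀, hg₀⟩ := hII v₀ hv₀K
  set y₁ := extU chevE7 (v₀ ^ 2) with hy₁
  have hy₁H : tor chevE7 y₁ ∈ chevE7.diagonalSubgroup E := by
    rw [hy₁, map_pow]
    exact tor_sq h h2 axE _
  have hchi₁ : ∀ s, chi chevE7 y₁ s = ev (v₀ ^ 2) (crd chevE7 s) := fun s => chi_ext_ev _ s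
  have hreg : ∀ s, s < chevE7.nroots → chi chevE7 y₁ s ≠ 1 := by
    intro s hs
    rw [hchi₁]
    exact hregv s hs
  have hR' : ∀ s t : Fin chevE7.nroots, (r : ℤ) ∣ c ⬝ᵥ crd chevE7 s → (r : ℤ) ∣ c ⬝ᵥ crd chevE7 t →
      t = s ∨ t = negF h s ∨ B GE7 (crd chevE7 s) (crd chevE7 t) = 0 := by
    intro s u hs hu
    have e1 := (hR _ (norm_crd h s.isLt)).1 hs
    have e2 := (hR _ (norm_crd h u.isLt)).1 hu
    rcases six_pair T e1 e2 with e | e | e
    · exact Or.inl (root_ext h e)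
    · refine Or.inr (Or.inl (root_ext h ?_))
      rw [e, crd_negF]
    · exact Or.inr (Or.inr e)
  have hstab : ∀ π ∈ Wp h (Set.Iio chevE7.rank), (∀ s : Fin chevE7.nroots, chi chevE7 y₁ (π s) = chi chevE7 y₁ s) → π = 1 := by
    intro π hπ hf
    obtain ⟨k, hk⟩ := hv₀' (⟨vt, hvtK⟩ : ↥K)
    have hk' : ∀ μ, ev vt μ = ev v₀ μ ^ k := by
      intro μ
      have hk'' : v₀' ^ k = (⟨vt, hvtK⟩ : ↥K) := hk
      have e1 := map_zpow (evHom K μ) v₀' k
      rw [hk''] at e1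
      exact e1
    have hy₀pow : ∀ s : ℕ, chi chevE7 y₀ s = ((chi chevE7 y₁ s) ^ k) ^ ((r + 1) / 2) := by
      intro s
      have e1 : chi chevE7 y₀ s = ev vt (crd chevE7 s) := by
        rw [← hchiext]
        exact chi_ext_ev _ s
      have e2 : (chi chevE7 y₀ s) ^ r = 1 := by
        rw [e1, ← ev_pow', hvtr]
        simp [ev]
      have e3 : chi chevE7 y₀ s = ((chi chevE7 y₀ s) ^ 2) ^ ((r + 1) / 2) := by
        rw [← pow_mul, show 2 * ((r + 1) / 2) = r + 1 by omega, pow_succ, e2, one_mul]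
      have e4 : (chi chevE7 y₀ s) ^ 2 = (chi chevE7 y₁ s) ^ k := by
        rw [e1, hk', hchi₁, ev_pow', ← zpow_natCast, ← zpow_natCast, ← zpow_mul, ← zpow_mul, mul_comm]
      rw [e3, e4]
    have hf' : ∀ s : Fin chevE7.nroots, chi chevE7 y₀ (π s) = chi chevE7 y₀ s := by
      intro s
      rw [hy₀pow, hy₀pow, hf]
    rcases stab_face h h2 axE hlam hc hrW hR' hπ hf' with e | ⟨s, hs, e⟩
    · exact e
    · exfalso
      have e1 := hf s
      rw [e, hchi₁, hchi₁, crd_negF, ev_neg] at e1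
      have e2 : ev v₀ (crd chevE7 s) ^ 4 = 1 := by
        have e3 : (ev (v₀ ^ 2) (crd chevE7 s)) ^ 2 = 1 := by
          rw [pow_two]
          nth_rewrite 1 [← e1]
          exact inv_mul_cancel _
        rw [ev_pow', ← pow_mul] at e3
        exact e3
      obtain ⟨η, hη⟩ := hdesc _ 4 e2
      have hS := (hR _ (norm_crd h s.isLt)).1 hs
      obtain ⟨f1, f2, f3, f4⟩ := six_facts T hS
      exact no_tors hq2 hdetne f1 f2 f3 f4 (by exact_mod_cast hη)
  have hty₁ : x⁻¹ * ιh g₀ * x = t y₁ hy₁H := by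
    apply Subtype.ext
    show (x : GL chevE7.Idx E)⁻¹ * mapX chevE7 ι (g₀ : GL chevE7.Idx F) * (x : GL chevE7.Idx E) = tor chevE7 y₁
    rw [hg₀]
    group
  have hA' : ∀ g : ↥(chevE7.group E), g * t y₁ hy₁H = t y₁ hy₁H * g → (g : GL chevE7.Idx E) ∈ chevE7.diagonalSubgroup E := by
    intro g hg
    exact mem_H_of_comm h h2 axE hy₁H hreg hstab g.2 (congrArg Subtype.val hg)
  have hs3 : ∀ s : E, s ^ 2 = 1 → σ s = s := by
    intro s hs
    have e0 : (s - 1) * (s + 1) = 0 := by linear_combination hs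
    rcases mul_eq_zero.1 e0 with e | e
    · rw [sub_eq_zero.1 e, map_one]
    · rw [eq_neg_of_add_eq_zero_left e, map_neg, map_one]
  -- the centralizer
  have hI : ∀ g ∈ Subgroup.centralizer ({g₀} : Set ↥(chevE7.group F)), ∃ v' ∈ K,
      mapX chevE7 ι (g : GL chevE7.Idx F) = (x : GL chevE7.Idx E) * tor chevE7 (extU chevE7 v') * (x : GL chevE7.Idx E)⁻¹ ∧
      ∃ c' ∈ (mact ((q : ℤ) • Aᵀ - 1) (G := Eˣ)).ker, v' = mact (cartanM chevE7) c' := by
    intro g hg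
    have hg' : g * g₀ = g₀ * g := Subgroup.mem_centralizer_singleton_iff.1 hg
    set u := x⁻¹ * ιh g * x with hu
    have hu1 : u * t y₁ hy₁H = t y₁ hy₁H * u := by
      rw [← hty₁, hu]
      have e := congrArg ιh hg'
      rw [map_mul, map_mul] at e
      calc x⁻¹ * ιh g * x * (x⁻¹ * ιh g₀ * x) = x⁻¹ * (ιh g * ιh g₀) * x := by group
        _ = x⁻¹ * (ιh g₀ * ιh g) * x := by rw [e]
        _ = _ := by group
    have huH := hA' u hu1
    obtain ⟨c', hc'⟩ := exists_psi h h2 axE huH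
    let v' : Fin chevE7.rank → Eˣ := fun j => psi chevE7 c' j
    have hvt' : (u : GL chevE7.Idx E) = tor chevE7 (extU chevE7 v') := by
      rw [hc']
      refine (tor_eq_iff h).2 fun j hj => ?_
      exact (extU_apply v' ⟨j, hj⟩).symm
    have hvH' : tor chevE7 (extU chevE7 v') ∈ chevE7.diagonalSubgroup E := hvt' ▸ huH
    have hvu : u = t (extU chevE7 v') hvH' := Subtype.ext hvt'
    have hgx : mapX chevE7 ι (g : GL chevE7.Idx F) = (x : GL chevE7.Idx E) * tor chevE7 (extU chevE7 v') * (x : GL chevE7.Idx E)⁻¹ := by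
      have e1 : ιh g = x * u * x⁻¹ := by
        rw [hu]
        group
      have e2 := congrArg Subtype.val e1
      rw [hvu] at e2
      exact e2
    refine ⟨v', ?_, hgx, ?_⟩
    · rw [hK, mem_ker_iff h hl q v']
      apply hval _ _ hvH' hvH'
      have e1 : s₀ u = (s₀ x)⁻¹ * ιh g * s₀ x := by
        rw [hu]
        simp only [map_mul, map_inv, hιfix]
      rw [← hts _ hvH', ← hvu, e1, hn₀', hu]
      group
    · have hrel := Cfsg.Agent.Lib.KS71.E7f.key_rep axE h h2 σ hσ hs3 ι hσι x.2 (n₀ := (n₀ : GL chevE7.Idx E)) (by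
        show mapX chevE7 (σ : E →+* E) (x : GL chevE7.Idx E) = (x : GL chevE7.Idx E) * (x⁻¹ * s₀ x : ↥(chevE7.group E))
        have e : ((x⁻¹ * s₀ x : ↥(chevE7.group E)) : GL chevE7.Idx E) = (x : GL chevE7.Idx E)⁻¹ * mapX chevE7 (σ : E →+* E) (x : GL chevE7.Idx E) := rfl
        rw [e]
        group) hl hn₀ c' g.2 (by
        have e1 : ιh g = x * u * x⁻¹ := by
          rw [hu]
          group
        have e2 : mapX chevE7 ι (g : GL chevE7.Idx F) = (x : GL chevE7.Idx E) * u * (x : GL chevE7.Idx E)⁻¹ := congrArg Subtype.val e1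
        rw [hc'] at e2
        exact e2)
      refine ⟨_, Cfsg.Agent.Lib.KS71.E7g.key_ker q hl c' hrel, ?_⟩
      funext j
      show psi chevE7 c' j = _
      rw [psi_apply, mact_apply, ← Fin.prod_univ_eq_prod_range (fun i => c' i ^ pair chevE7 (chevE7.simple i) (chevE7.simple j)) chevE7.rank]
      refine Finset.prod_congr rfl fun i _ => ?_
      rw [pair_simple h2 i.isLt]
      rfl
  -- the arithmetic
  set M' := MM7 q / Nat.gcd 2 (q - 1) with hM'
  have hM3 : M' ∣ MM7 q := Nat.div_dvd_of_dvd (by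
    rcases arith7 hq2 with ⟨-, e2, e3⟩ | ⟨-, e2, -⟩
    · rw [e2, e3]
      exact Dvd.intro _ rfl
    · rw [e2]
      exact one_dvd _)
  have hgcd : Nat.gcd (Nat.card K) M' = M' := by
    rw [hcardK]
    exact Nat.gcd_eq_right hM3
  have hcase : (MM7 q = 2 * M' ∧ 0 < M') ∨ (M' = MM7 q ∧ MM7 q % 2 = 1) := by
    rcases arith7 hq2 with ⟨-, e2, e3⟩ | ⟨-, e2, e3⟩
    · left
      rw [hM', e2]
      have := MM7_pos (q := q)
      exact ⟨e3, by omega⟩
    · right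
      rw [hM', e2, Nat.div_one]
      exact ⟨rfl, e3⟩
  -- the subgroup of the kernel
  let K₁ : Subgroup ↥K := (powMonoidHom M' : ↥K →* ↥K).ker
  have hcardK₁ : Nat.card K₁ = M' := by
    have := IsCyclic.card_powMonoidHom_ker (G := ↥K) M'
    rw [hgcd] at this
    exact this
  let Λ : (Fin chevE7.rank → Eˣ) →* GL chevE7.Idx E :=
    (MulAut.conj (x : GL chevE7.Idx E)).toMonoidHom.comp ((torHom chevE7).comp (extU chevE7))
  have hΛ : ∀ v, Λ v = (x : GL chevE7.Idx E) * tor chevE7 (extU chevE7 v) * (x : GL chevE7.Idx E)⁻¹ := fun v => rfl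
  have hΛinj : Function.Injective Λ := by
    intro a b e
    rw [hΛ, hΛ] at e
    have e1 := mul_left_cancel (mul_right_cancel e)
    funext j
    have e3 := (tor_eq_iff h).1 e1 j j.isLt
    rwa [extU_apply, extU_apply] at e3
  let Λ' : ↥K →* GL chevE7.Idx E := Λ.comp K.subtype
  have hΛ'inj : Function.Injective Λ' := hΛinj.comp Subtype.val_injective
  let ιG : ↥(chevE7.group F) →* GL chevE7.Idx E := (mapX chevE7 ι).comp (chevE7.group F).subtype
  have hιGinj : Function.Injective ιG := (mapX_injective ι).comp Subtype.val_injective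
  set T' := Subgroup.centralizer ({g₀} : Set ↥(chevE7.group F)) with hT'
  have hmain : T'.map ιG = K₁.map Λ' := by
    apply le_antisymm
    · rintro _ ⟨g, hg, rfl⟩
      obtain ⟨v', hv', e1, c', hc', e6⟩ := hI g hg
      refine ⟨⟨v', hv'⟩, ?_, e1.symm⟩
      show (⟨v', hv'⟩ : ↥K) ^ M' = 1
      apply Subtype.ext
      show v' ^ M' = 1
      rcases hcase with ⟨e3, e4⟩ | ⟨e3, e4⟩
      · rcases arith7 hq2 with ⟨e7, e8, e9⟩ | ⟨e7, e8, e9⟩
        · rw [e6]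
          have h3E : 2 ∣ Nat.card Eˣ := by
            rw [Nat.card_eq_fintype_card, Fintype.card_units, hcE]
            have e10 := dvd_units hq2 ⟨k₁, hk₁⟩ e7
            exact (Dvd.intro _ rfl).trans e10
          refine pow_eq_one_of_image7 h hl e7 h3E ?_ hc'
          rw [hcardP]
          exact e3
        · omega
      · have e6' := pow_card_eq_one' (x := (⟨v', hv'⟩ : ↥K))
        rw [hcardK, ← e3] at e6'
        exact congrArg Subtype.val e6'
    · rintro _ ⟨v, hv, rfl⟩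
      have hv1 : v ^ M' = 1 := hv
      obtain ⟨u, hu⟩ := sq_of_pow v₀' hv₀' hordv hcase hv1
      obtain ⟨g, hg⟩ := hII u.1 u.2
      have e5 : (v : Fin chevE7.rank → Eˣ) = (u : Fin chevE7.rank → Eˣ) ^ 2 := congrArg Subtype.val hu
      have hgmem : g ∈ T' := by
        rw [hT', Subgroup.mem_centralizer_singleton_iff]
        apply hιGinj
        rw [map_mul, map_mul]
        have e6 : ιG g = Λ ((u : Fin chevE7.rank → Eˣ) ^ 2) := hg
        have e7 : ιG g₀ = Λ (v₀ ^ 2) := hg₀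
        rw [e6, e7, ← map_mul, ← map_mul, mul_comm]
      refine ⟨g, hgmem, ?_⟩
      rw [← e5] at hg
      exact hg
  have hcardT : Nat.card T' = M' := by
    rw [← Subgroup.card_map_of_injective hιGinj, hmain, Subgroup.card_map_of_injective hΛ'inj, hcardK₁]
  have hcyc : IsCyclic T' := by
    let e1 : T' ≃* ↥(T'.map ιG) := T'.equivMapOfInjective ιG hιGinj
    let e2 : K₁ ≃* ↥(K₁.map Λ') := K₁.equivMapOfInjective Λ' hΛ'inj
    let e3 : T' ≃* K₁ := (e1.trans (MulEquiv.subgroupCongr hmain)).trans e2.symm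
    exact isCyclic_of_injective e3.toMonoidHom e3.injective
  have hcomm : ∀ a ∈ T', ∀ b ∈ T', a * b = b * a := by
    intro a ha b hb
    obtain ⟨v₁, _, hv₁⟩ : ιG a ∈ K₁.map Λ' := by
      rw [← hmain]
      exact ⟨a, ha, rfl⟩
    obtain ⟨v₂, _, hv₂⟩ : ιG b ∈ K₁.map Λ' := by
      rw [← hmain]
      exact ⟨b, hb, rfl⟩
    apply hιGinj
    rw [map_mul, map_mul, ← hv₁, ← hv₂, ← map_mul, ← map_mul, mul_comm]
  refine ⟨T', hcyc, hcardT, ?_⟩
  apply le_antisymm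
  · intro g hg
    rw [hT', Subgroup.mem_centralizer_singleton_iff]
    have := Subgroup.mem_centralizer_iff.1 hg g₀ (Subgroup.mem_centralizer_singleton_iff.2 rfl)
    exact this.symm
  · intro g hg
    rw [Subgroup.mem_centralizer_iff]
    intro a ha
    exact hcomm a ha g hg

end Cfsg.Agent.Lib.KS71.E7t
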