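/-
Root `SL₂`s of `E₇`, their commutation and the twisted shuffle which turns a product of root `SL₂`s into a single factor.
-/
import Mathlib
import Cfsg.Agent.Lib.KS71.E7t

set_option autoImplicit false
set_option linter.unusedSectionVars false
set_option linter.unusedVariables false
set_option maxRecDepth 100000

namespace Cfsg.Agent.Lib.KS71.E7s

open scoped MatrixGroups Matrix
open Cfsg Cfsg.Lie Cfsg.Lie.ChevalleyDatum
open Cfsg.Agent.Lib.Chev.Tables Cfsg.Agent.Lib.Chev.Tables2 Cfsg.Agent.Lib.Chev.Tables3 Cfsg.Agent.Lib.Chev.Raise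
open Cfsg.Agent.Lib.Chev.Basic Cfsg.Agent.Lib.Chev.AxBasic Cfsg.Agent.Lib.Chev.Torus
open Cfsg.Agent.Lib.Chev.Products Cfsg.Agent.Lib.Chev.Products2 Cfsg.Agent.Lib.Chev.Mono1
open Cfsg.Agent.Lib.Chev.Mono2 Cfsg.Agent.Lib.Chev.Mono3 Cfsg.Agent.Lib.Chev.Bn
open Cfsg.Agent.Lib.Chev.Order1 Cfsg.Agent.Lib.Chev.Order2 Cfsg.Agent.Lib.Chev.Parab
open Cfsg.Agent.Lib.Chev.Diag Cfsg.Agent.Lib.Chev.SL2 Cfsg.Agent.Lib.Chev.SL2Chev Cfsg.Agent.Lib.Chev.Order3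
open Cfsg.Agent.Lib.KS71.ChevFix Cfsg.Agent.Lib.KS71.IVb Cfsg.Agent.Lib.KS71.IVf Cfsg.Agent.Lib.KS71.HCa
open Cfsg.Agent.Lib.KS71.HCc Cfsg.Agent.Lib.KS71.HCf Cfsg.Agent.Lib.KS71.HCg
open Cfsg.Agent.Lib.KS71.HCh Cfsg.Agent.Lib.KS71.HCi
open Cfsg.Agent.Lib.KS71.E7k Cfsg.Agent.Lib.KS71.E7l
open Cfsg.Agent.Lib.KS71.E7m Cfsg.Agent.Lib.KS71.E7n Cfsg.Agent.Lib.KS71.E7o Cfsg.Agent.Lib.KS71.E7p

section abs

variable {E : Type*} [Field E]

/-- Two homomorphisms of `SL₂` which agree on the root elements are equal. -/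
theorem sl2_ext {Γ : Type*} [Group Γ] (f g : SL(2, E) →* Γ) (hu : ∀ t, f (upM t) = g (upM t))
    (hl : ∀ t, f (loM t) = g (loM t)) : f = g := by
  have key : ∀ A : SL(2, E), A.1 1 0 ≠ 0 → f A = g A := by
    intro A hc
    have e : A = upM ((A.1 0 0 - 1) / A.1 1 0) * (loM (A.1 1 0) * upM ((A.1 1 1 - 1) / A.1 1 0)) := by
      apply Subtype.ext
      have hdet := det_eq A
      ext i j
      show A.1 i j = (((upM ((A.1 0 0 - 1) / A.1 1 0)).1 * ((loM (A.1 1 0)).1 * (upM ((A.1 1 1 - 1) / A.1 1 0)).1)) : Matrix (Fin 2) (Fin 2) E) i j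
      fin_cases i <;> fin_cases j <;> simp [upM, loM, Matrix.mul_apply, Fin.sum_univ_two]
      all_goals first | (field_simp; ring1) | (field_simp; linear_combination (-1 : E) * hdet) | field_simp
    rw [e, map_mul, map_mul, map_mul, map_mul, hu, hu, hl]
  ext A
  by_cases hc : A.1 1 0 = 0
  · have hd : A.1 1 1 ≠ 0 := by
      intro e
      have := det_eq A
      rw [e, hc] at this
      simp at this
    have e1 := key (A * loM 1) (by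
      show (A.1 * (loM (1 : E)).1) 1 0 ≠ 0
      simp [loM, Matrix.mul_apply, Fin.sum_univ_two, hc, hd])
    rw [map_mul, map_mul, hl] at e1
    exact mul_right_cancel e1
  · exact key A hc

/-- Conjugation by an invertible matrix on `SL₂`. -/
def cZ (Z : GL (Fin 2) E) : SL(2, E) →* SL(2, E) where
  toFun A := ⟨(Z : Matrix (Fin 2) (Fin 2) E) * A.1 * ((Z⁻¹ : GL (Fin 2) E) : Matrix (Fin 2) (Fin 2) E), by
    have e : ((Z : Matrix (Fin 2) (Fin 2) E) * ((Z⁻¹ : GL (Fin 2) E) : Matrix (Fin 2) (Fin 2) E)) = 1 := Z.mul_inv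
    rw [Matrix.det_mul, Matrix.det_mul, A.2, mul_one, ← Matrix.det_mul, e, Matrix.det_one]⟩
  map_one' := by
    apply Subtype.ext
    show (Z : Matrix (Fin 2) (Fin 2) E) * 1 * ((Z⁻¹ : GL (Fin 2) E) : Matrix (Fin 2) (Fin 2) E) = 1
    rw [mul_one]
    exact Z.mul_inv
  map_mul' A A' := by
    apply Subtype.ext
    show (Z : Matrix (Fin 2) (Fin 2) E) * (A.1 * A'.1) * ((Z⁻¹ : GL (Fin 2) E) : Matrix (Fin 2) (Fin 2) E) =
      ((Z : Matrix (Fin 2) (Fin 2) E) * A.1 * ((Z⁻¹ : GL (Fin 2) E) : Matrix (Fin 2) (Fin 2) E)) * ((Z : Matrix (Fin 2) (Fin 2) E) * A'.1 * ((Z⁻¹ : GL (Fin 2) E) : Matrix (Fin 2) (Fin 2) E))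
    have e : (((Z⁻¹ : GL (Fin 2) E) : Matrix (Fin 2) (Fin 2) E) * (Z : Matrix (Fin 2) (Fin 2) E)) = 1 := Z.inv_mul
    calc (Z : Matrix (Fin 2) (Fin 2) E) * (A.1 * A'.1) * ((Z⁻¹ : GL (Fin 2) E) : Matrix (Fin 2) (Fin 2) E)
        = (Z : Matrix (Fin 2) (Fin 2) E) * A.1 * (((Z⁻¹ : GL (Fin 2) E) : Matrix (Fin 2) (Fin 2) E) * (Z : Matrix (Fin 2) (Fin 2) E)) * A'.1 * ((Z⁻¹ : GL (Fin 2) E) : Matrix (Fin 2) (Fin 2) E) := by
          rw [e]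
          simp only [Matrix.mul_one, Matrix.mul_assoc]
      _ = _ := by simp only [Matrix.mul_assoc]

lemma cZ_val (Z : GL (Fin 2) E) (A : SL(2, E)) : (cZ Z A).1 = (Z : Matrix (Fin 2) (Fin 2) E) * A.1 * ((Z⁻¹ : GL (Fin 2) E) : Matrix (Fin 2) (Fin 2) E) := rfl

/-- The embedding in `GL₂`. -/
abbrev gE : SL(2, E) →* GL (Fin 2) E := Matrix.SpecialLinearGroup.toGL

lemma gE_cZ (Z : GL (Fin 2) E) (A : SL(2, E)) : gE (cZ Z A) = Z * gE A * Z⁻¹ := by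
  apply Units.ext
  rfl

lemma cZ_inv_cancel (Z : GL (Fin 2) E) (A : SL(2, E)) : cZ Z (cZ Z⁻¹ A) = A := by
  apply Matrix.SpecialLinearGroup.toGL_injective
  show gE (cZ Z (cZ Z⁻¹ A)) = gE A
  rw [gE_cZ, gE_cZ]
  group

/-- `diag(κ, 1)`. -/
def dG (κ : Eˣ) : GL (Fin 2) E where
  val := !![(κ : E), 0; 0, 1]
  inv := !![((κ⁻¹ : Eˣ) : E), 0; 0, 1]
  val_inv := by
    ext i j
    fin_cases i <;> fin_cases j <;> simp [Matrix.mul_apply, Fin.sum_univ_two]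
  inv_val := by
    ext i j
    fin_cases i <;> fin_cases j <;> simp [Matrix.mul_apply, Fin.sum_univ_two]

/-- the antidiagonal `[[0, 1], [κ, 0]]`. -/
def aG (κ : Eˣ) : GL (Fin 2) E where
  val := !![0, 1; (κ : E), 0]
  inv := !![0, ((κ⁻¹ : Eˣ) : E); 1, 0]
  val_inv := by
    ext i j
    fin_cases i <;> fin_cases j <;> simp [Matrix.mul_apply, Fin.sum_univ_two]
  inv_val := by
    ext i j
    fin_cases i <;> fin_cases j <;> simp [Matrix.mul_apply, Fin.sum_univ_two]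

lemma dG_inv_val (κ : Eˣ) : (((dG κ)⁻¹ : GL (Fin 2) E) : Matrix (Fin 2) (Fin 2) E) = !![((κ⁻¹ : Eˣ) : E), 0; 0, 1] := rfl
lemma aG_inv_val (κ : Eˣ) : (((aG κ)⁻¹ : GL (Fin 2) E) : Matrix (Fin 2) (Fin 2) E) = !![0, ((κ⁻¹ : Eˣ) : E); 1, 0] := rfl
lemma dG_val (κ : Eˣ) : ((dG κ : GL (Fin 2) E) : Matrix (Fin 2) (Fin 2) E) = !![(κ : E), 0; 0, 1] := rfl
lemma aG_val (κ : Eˣ) : ((aG κ : GL (Fin 2) E) : Matrix (Fin 2) (Fin 2) E) = !![0, 1; (κ : E), 0] := rfl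

lemma cZ_dG_up (κ : Eˣ) (t : E) : cZ (dG κ) (upM t) = upM ((κ : E) * t) := by
  apply Subtype.ext
  rw [cZ_val, dG_val, dG_inv_val]
  ext i j
  fin_cases i <;> fin_cases j <;> simp [upM, Matrix.mul_apply, Fin.sum_univ_two]

lemma cZ_dG_lo (κ : Eˣ) (t : E) : cZ (dG κ) (loM t) = loM (((κ⁻¹ : Eˣ) : E) * t) := by
  apply Subtype.ext
  rw [cZ_val, dG_val, dG_inv_val]
  ext i j
  fin_cases i <;> fin_cases j <;> simp [loM, Matrix.mul_apply, Fin.sum_univ_two] <;> ring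

lemma cZ_aG_up (κ : Eˣ) (t : E) : cZ (aG κ) (upM t) = loM ((κ : E) * t) := by
  apply Subtype.ext
  rw [cZ_val, aG_val, aG_inv_val]
  ext i j
  fin_cases i <;> fin_cases j <;> simp [upM, loM, Matrix.mul_apply, Fin.sum_univ_two]

lemma cZ_aG_lo (κ : Eˣ) (t : E) : cZ (aG κ) (loM t) = upM (((κ⁻¹ : Eˣ) : E) * t) := by
  apply Subtype.ext
  rw [cZ_val, aG_val, aG_inv_val]
  ext i j
  fin_cases i <;> fin_cases j <;> simp [upM, loM, Matrix.mul_apply, Fin.sum_univ_two] <;> ring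

lemma map_up {K L : Type*} [Field K] [Field L] (j : K →+* L) (t : K) : Matrix.SpecialLinearGroup.map j (upM t) = upM (j t) := by
  apply Subtype.ext
  show (upM t).1.map j = (upM (j t)).1
  ext i k
  fin_cases i <;> fin_cases k <;> simp [upM]

lemma map_lo {K L : Type*} [Field K] [Field L] (j : K →+* L) (t : K) : Matrix.SpecialLinearGroup.map j (loM t) = loM (j t) := by
  apply Subtype.ext
  show (loM t).1.map j = (loM (j t)).1
  ext i k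
  fin_cases i <;> fin_cases k <;> simp [loM]

lemma glmap_dG {K L : Type*} [Field K] [Field L] (j : K →+* L) (κ : Kˣ) :
    Matrix.GeneralLinearGroup.map j (dG κ) = dG (Units.map (j : K →* L) κ) := by
  apply Units.ext
  ext i k
  fin_cases i <;> fin_cases k <;> simp [Matrix.GeneralLinearGroup.map, dG]

lemma glmap_aG {K L : Type*} [Field K] [Field L] (j : K →+* L) (κ : Kˣ) :
    Matrix.GeneralLinearGroup.map j (aG κ) = aG (Units.map (j : K →* L) κ) := by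
  apply Units.ext
  ext i k
  fin_cases i <;> fin_cases k <;> simp [Matrix.GeneralLinearGroup.map, aG]

lemma glmap_gE {K L : Type*} [Field K] [Field L] (j : K →+* L) (A : SL(2, K)) :
    Matrix.GeneralLinearGroup.map j (gE A) = gE (Matrix.SpecialLinearGroup.map j A) := by
  apply Units.ext
  rfl

/-- The shuffle. -/
theorem shuffle {Γ : Type*} [Group Γ] {φ₀ φ₁ φ₂ : SL(2, E) →* Γ}
    (c01 : ∀ A B, φ₀ A * φ₁ B = φ₁ B * φ₀ A) (c02 : ∀ A B, φ₀ A * φ₂ B = φ₂ B * φ₀ A) (c12 : ∀ A B, φ₁ A * φ₂ B = φ₂ B * φ₁ A)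
    {m : Γ} {c₀ c₁ c₂ i₂ : SL(2, E) →* SL(2, E)} (hi : ∀ A, c₂ (i₂ A) = A)
    (h0 : ∀ A, m * φ₀ A * m⁻¹ = φ₁ (c₀ A)) (h1 : ∀ A, m * φ₁ A * m⁻¹ = φ₂ (c₁ A)) (h2 : ∀ A, m * φ₂ A * m⁻¹ = φ₀ (c₂ A))
    (s : Γ →* Γ) (f : SL(2, E) →* SL(2, E))
    (s0 : ∀ A, s (φ₀ A) = φ₀ (f A)) (s1 : ∀ A, s (φ₁ A) = φ₁ (f A)) (s2 : ∀ A, s (φ₂ A) = φ₂ (f A))
    (U₀ U₁ U₂ D₀ : SL(2, E)) :
    (φ₀ D₀ * φ₁ (c₀ (U₀ * f D₀)) * φ₂ (c₁ (U₁ * f (c₀ (U₀ * f D₀)))))⁻¹ * (m * (φ₀ U₀ * φ₁ U₁ * φ₂ U₂)) *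
      s (φ₀ D₀ * φ₁ (c₀ (U₀ * f D₀)) * φ₂ (c₁ (U₁ * f (c₀ (U₀ * f D₀))))) =
    m * φ₂ ((i₂ D₀)⁻¹ * U₂ * f (c₁ (U₁ * f (c₀ (U₀ * f D₀))))) := by
  set D₁ := c₀ (U₀ * f D₀) with hD₁
  set D₂ := c₁ (U₁ * f D₁) with hD₂
  set P₀ := U₀ * f D₀ with hP₀
  set P₁ := U₁ * f D₁ with hP₁
  set P₂ := i₂ D₀ with hP₂
  have hT : ∀ A₀ A₁ A₂ B₀ B₁ B₂ : SL(2, E), (φ₀ A₀ * φ₁ A₁ * φ₂ A₂) * (φ₀ B₀ * φ₁ B₁ * φ₂ B₂) =
      φ₀ (A₀ * B₀) * φ₁ (A₁ * B₁) * φ₂ (A₂ * B₂) := by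
    intro A₀ A₁ A₂ B₀ B₁ B₂
    rw [map_mul, map_mul, map_mul]
    calc φ₀ A₀ * φ₁ A₁ * φ₂ A₂ * (φ₀ B₀ * φ₁ B₁ * φ₂ B₂)
        = φ₀ A₀ * φ₁ A₁ * (φ₂ A₂ * φ₀ B₀) * φ₁ B₁ * φ₂ B₂ := by group
      _ = φ₀ A₀ * φ₁ A₁ * (φ₀ B₀ * φ₂ A₂) * φ₁ B₁ * φ₂ B₂ := by rw [c02]
      _ = φ₀ A₀ * (φ₁ A₁ * φ₀ B₀) * (φ₂ A₂ * φ₁ B₁) * φ₂ B₂ := by group
      _ = φ₀ A₀ * (φ₀ B₀ * φ₁ A₁) * (φ₁ B₁ * φ₂ A₂) * φ₂ B₂ := by rw [c01, c12]
      _ = _ := by group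
  have hdm : (φ₀ D₀ * φ₁ D₁ * φ₂ D₂) * m = m * (φ₀ P₀ * φ₁ P₁ * φ₂ P₂) := by
    have e0 : m * φ₀ P₀ = φ₁ D₁ * m := by
      rw [hD₁, ← h0]
      group
    have e1 : m * φ₁ P₁ = φ₂ D₂ * m := by
      rw [hD₂, ← h1]
      group
    have e2 : m * φ₂ P₂ = φ₀ D₀ * m := by
      have e3 := h2 P₂
      rw [hP₂, hi] at e3
      rw [hP₂, ← e3]
      group
    calc (φ₀ D₀ * φ₁ D₁ * φ₂ D₂) * m = φ₀ D₀ * (φ₁ D₁ * φ₂ D₂) * m := by group
      _ = (φ₀ D₀ * φ₁ D₁) * φ₂ D₂ * m := by group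
      _ = (φ₁ D₁ * φ₀ D₀) * φ₂ D₂ * m := by rw [c01]
      _ = φ₁ D₁ * (φ₀ D₀ * φ₂ D₂) * m := by group
      _ = φ₁ D₁ * (φ₂ D₂ * φ₀ D₀) * m := by rw [c02]
      _ = (φ₁ D₁ * φ₂ D₂) * φ₀ D₀ * m := by group
      _ = φ₁ D₁ * φ₂ D₂ * (m * φ₂ P₂) := by rw [e2]; group
      _ = φ₁ D₁ * (φ₂ D₂ * m) * φ₂ P₂ := by group
      _ = φ₁ D₁ * (m * φ₁ P₁) * φ₂ P₂ := by rw [e1]
      _ = (φ₁ D₁ * m) * φ₁ P₁ * φ₂ P₂ := by group
      _ = (m * φ₀ P₀) * φ₁ P₁ * φ₂ P₂ := by rw [e0]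
      _ = _ := by group
  have hsd : s (φ₀ D₀ * φ₁ D₁ * φ₂ D₂) = φ₀ (f D₀) * φ₁ (f D₁) * φ₂ (f D₂) := by
    rw [map_mul, map_mul, s0, s1, s2]
  rw [hsd]
  have hmain : (φ₀ U₀ * φ₁ U₁ * φ₂ U₂) * (φ₀ (f D₀) * φ₁ (f D₁) * φ₂ (f D₂)) =
      (φ₀ P₀ * φ₁ P₁ * φ₂ P₂) * φ₂ (P₂⁻¹ * U₂ * f D₂) := by
    rw [hT, mul_assoc (φ₀ P₀ * φ₁ P₁), ← map_mul]
    have e4 : P₂ * (P₂⁻¹ * U₂ * f D₂) = U₂ * f D₂ := by group
    rw [e4]
  have e : (φ₀ D₀ * φ₁ D₁ * φ₂ D₂)⁻¹ * m = m * (φ₀ P₀ * φ₁ P₁ * φ₂ P₂)⁻¹ := by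
    rw [inv_mul_eq_iff_eq_mul, ← mul_assoc, hdm]
    group
  calc (φ₀ D₀ * φ₁ D₁ * φ₂ D₂)⁻¹ * (m * (φ₀ U₀ * φ₁ U₁ * φ₂ U₂)) * (φ₀ (f D₀) * φ₁ (f D₁) * φ₂ (f D₂))
      = ((φ₀ D₀ * φ₁ D₁ * φ₂ D₂)⁻¹ * m) * ((φ₀ U₀ * φ₁ U₁ * φ₂ U₂) * (φ₀ (f D₀) * φ₁ (f D₁) * φ₂ (f D₂))) := by group
    _ = _ := by
        rw [e, hmain]
        group

end abs

section root

variable {E : Type*} [Field E] {D : ChevalleyDatum} (h : Tab D) (h2 : Tab2 D)

/-- The root `SL₂`. -/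
noncomputable def phi (ax : Ax D E) (g : Fin D.nroots) : SL(2, E) →* GL D.Idx E :=
  phiHom (xG ax g) (xG ax (D.neg g)) (rankOneRel h h2 ax g.isLt)

lemma phi_up (ax : Ax D E) (g : Fin D.nroots) (t : E) : phi h h2 ax g (upM t) = xG ax g t := phiHom_up _ t

lemma phi_lo (ax : Ax D E) (g : Fin D.nroots) (t : E) : phi h h2 ax g (loM t) = xG ax (D.neg g) t := phiHom_lo _ t

lemma phi_mem_group (ax : Ax D E) (g : Fin D.nroots) (A : SL(2, E)) : phi h h2 ax g A ∈ D.group E := by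
  have e : (phi h h2 ax g).range ≤ D.group E := by
    rw [phi, phiHom_range]
    apply sup_le <;> rw [Subgroup.closure_le] <;> rintro _ ⟨t, rfl⟩
    · exact xG_mem_group ax g.isLt t
    · exact xG_mem_group ax (h.neg_lt g g.isLt) t
  exact e ⟨A, rfl⟩

lemma phi_map {K L : Type*} [Field K] [Field L] (j : K →+* L) (axK : Ax D K) (axL : Ax D L) (g : Fin D.nroots) (A : SL(2, K)) :
    mapX D j (phi h h2 axK g A) = phi h h2 axL g (Matrix.SpecialLinearGroup.map j A) := by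
  have : (mapX D j).comp (phi h h2 axK g) = (phi h h2 axL g).comp (Matrix.SpecialLinearGroup.map j) := by
    apply sl2_ext
    · intro t
      simp only [MonoidHom.comp_apply, phi_up, map_up, mapX_xG axK axL]
    · intro t
      simp only [MonoidHom.comp_apply, phi_lo, map_lo, mapX_xG axK axL]
  exact DFunLike.congr_fun this A

/-- An element commuting with the root elements commutes with the root `SL₂`. -/
lemma comm_of_gens (ax : Ax D E) (g : Fin D.nroots) (y : GL D.Idx E) (h1 : ∀ t, y * xG ax g t = xG ax g t * y)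
    (h3 : ∀ t, y * xG ax (D.neg g) t = xG ax (D.neg g) t * y) (A : SL(2, E)) : y * phi h h2 ax g A = phi h h2 ax g A * y := by
  have : (MulAut.conj y).toMonoidHom.comp (phi h h2 ax g) = phi h h2 ax g := by
    apply sl2_ext
    · intro t
      simp only [MonoidHom.comp_apply, phi_up, MulEquiv.coe_toMonoidHom, MulAut.conj_apply]
      rw [h1]
      group
    · intro t
      simp only [MonoidHom.comp_apply, phi_lo, MulEquiv.coe_toMonoidHom, MulAut.conj_apply]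
      rw [h3]
      group
  have e := DFunLike.congr_fun this A
  simp only [MonoidHom.comp_apply, MulEquiv.coe_toMonoidHom, MulAut.conj_apply] at e
  calc y * phi h h2 ax g A = (y * phi h h2 ax g A * y⁻¹) * y := by group
    _ = _ := by rw [e]

variable {h h2}

lemma phi_conj_d (ax : Ax D E) {m : GL D.Idx E} {π : Equiv.Perm (Fin D.nroots)} {c : Fin D.nroots → Eˣ} (H : IsNor h ax m π c)
    {g g' : Fin D.nroots} (e : π g = g') (A : SL(2, E)) :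
    m * phi h h2 ax g A * m⁻¹ = phi h h2 ax g' (cZ (dG (c g)) A) := by
  subst e
  have : (MulAut.conj m).toMonoidHom.comp (phi h h2 ax g) = (phi h h2 ax (π g)).comp (cZ (dG (c g))) := by
    apply sl2_ext
    · intro t
      simp only [MonoidHom.comp_apply, phi_up, MulEquiv.coe_toMonoidHom, MulAut.conj_apply, cZ_dG_up]
      exact H.conj g t
    · intro t
      simp only [MonoidHom.comp_apply, phi_lo, MulEquiv.coe_toMonoidHom, MulAut.conj_apply, cZ_dG_lo]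
      have e1 := H.conj (negF h g) t
      rw [H.neg, H.sign] at e1
      exact e1
  exact DFunLike.congr_fun this A

lemma phi_conj_a (ax : Ax D E) {m : GL D.Idx E} {π : Equiv.Perm (Fin D.nroots)} {c : Fin D.nroots → Eˣ} (H : IsNor h ax m π c)
    {g g' : Fin D.nroots} (e : π g = negF h g') (A : SL(2, E)) :
    m * phi h h2 ax g A * m⁻¹ = phi h h2 ax g' (cZ (aG (c g)) A) := by
  have : (MulAut.conj m).toMonoidHom.comp (phi h h2 ax g) = (phi h h2 ax g').comp (cZ (aG (c g))) := by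
    apply sl2_ext
    · intro t
      simp only [MonoidHom.comp_apply, phi_up, phi_lo, MulEquiv.coe_toMonoidHom, MulAut.conj_apply, cZ_aG_up]
      have e1 := H.conj g t
      rw [e] at e1
      exact e1
    · intro t
      simp only [MonoidHom.comp_apply, phi_up, phi_lo, MulEquiv.coe_toMonoidHom, MulAut.conj_apply, cZ_aG_lo]
      have e1 := H.conj (negF h g) t
      rw [H.neg, H.sign, e] at e1
      have e2 : ((negF h (negF h g') : Fin D.nroots) : ℕ) = g' := h.neg_neg g' g'.isLt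
      rw [e2] at e1
      exact e1
  exact DFunLike.congr_fun this A

end root

section e7

variable {E : Type*} [Field E] (h : Tab chevE7) (h2 : Tab2 chevE7) (ax : Ax chevE7 E)

include h in
lemma xG_comm7 {r s : Fin chevE7.nroots} (hB : B GE7 (crd chevE7 r) (crd chevE7 s) = 0) (t u : E) :
    xG ax s u * xG ax r t = xG ax r t * xG ax s u := by
  have hrn := norm_crd h r.isLt
  have hsn := norm_crd h s.isLt
  have hrs : (s : ℕ) ≠ r := by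
    intro e
    have e1 : s = r := Fin.ext e
    rw [e1, hrn] at hB
    norm_num at hB
  have hneg : (s : ℕ) ≠ chevE7.neg r := by
    intro e
    have e1 : s = negF h r := Fin.ext e
    rw [e1, crd_negF, B_neg_right, hrn] at hB
    norm_num at hB
  have hw : chevE7.commWord E r s t u = [] := by
    rw [List.eq_nil_iff_forall_not_mem]
    intro p hp
    obtain ⟨hp0, i, j, hi, hj, hv⟩ := commWord_spec h r.isLt s.isLt hp
    have e : crd chevE7 p.1 = (i : ℤ) • crd chevE7 r + (j : ℤ) • crd chevE7 s := by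
      funext m
      show coef chevE7 p.1 m = (i : ℤ) * coef chevE7 r m + (j : ℤ) * coef chevE7 s m
      exact hv m m.isLt
    have hn := norm_crd h hp0
    have hB' : B GE7 (crd chevE7 s) (crd chevE7 r) = 0 := by
      rw [B_symm sym7]
      exact hB
    rw [e] at hn
    simp only [B_add_left, B_add_right, B_smul_left, B_smul_right] at hn
    rw [hrn, hsn, hB, hB'] at hn
    have hi' : (1 : ℤ) ≤ i := by exact_mod_cast hi
    have hj' : (1 : ℤ) ≤ j := by exact_mod_cast hj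
    nlinarith
  have e := xG_comm ax r.isLt s.isLt hrs hneg t u
  rw [hw] at e
  simpa [wordG] using e

lemma phi_comm7 {r s : Fin chevE7.nroots} (hB : B GE7 (crd chevE7 r) (crd chevE7 s) = 0) (A A' : SL(2, E)) :
    phi h h2 ax r A * phi h h2 ax s A' = phi h h2 ax s A' * phi h h2 ax r A := by
  have hnr : B GE7 (crd chevE7 (negF h r)) (crd chevE7 s) = 0 := by
    rw [crd_negF, B_neg_left, hB, neg_zero]
  have hns : B GE7 (crd chevE7 r) (crd chevE7 (negF h s)) = 0 := by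
    rw [crd_negF, B_neg_right, hB, neg_zero]
  have hnn : B GE7 (crd chevE7 (negF h r)) (crd chevE7 (negF h s)) = 0 := by
    rw [crd_negF h s, B_neg_right, hnr, neg_zero]
  have k1 : ∀ u, xG ax s u * phi h h2 ax r A = phi h h2 ax r A * xG ax s u := fun u =>
    comm_of_gens h h2 ax r _ (fun t => xG_comm7 h ax hB t u) (fun t => xG_comm7 h ax hnr t u) A
  have k2 : ∀ u, xG ax (chevE7.neg s) u * phi h h2 ax r A = phi h h2 ax r A * xG ax (chevE7.neg s) u := fun u =>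
    comm_of_gens h h2 ax r _ (fun t => xG_comm7 h ax hns t u) (fun t => xG_comm7 h ax hnn t u) A
  exact comm_of_gens h h2 ax s (phi h h2 ax r A) (fun u => (k1 u).symm) (fun u => (k2 u).symm) A'

lemma tor_comm_phi (y : ℕ → Eˣ) (g : Fin chevE7.nroots) (h1 : chi chevE7 y g = 1) (h3 : chi chevE7 y (chevE7.neg g) = 1) (A : SL(2, E)) :
    tor chevE7 y * phi h h2 ax g A = phi h h2 ax g A * tor chevE7 y := by
  refine comm_of_gens h h2 ax g _ (fun t => ?_) (fun t => ?_) A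
  · have e := tor_conj_xG ax h y g.isLt t
    rw [h1, Units.val_one, one_mul] at e
    calc tor chevE7 y * xG ax g t = (tor chevE7 y * xG ax g t * (tor chevE7 y)⁻¹) * tor chevE7 y := by group
      _ = _ := by rw [e]
  · have e := tor_conj_xG ax h y (h.neg_lt g g.isLt) t
    rw [h3, Units.val_one, one_mul] at e
    calc tor chevE7 y * xG ax (chevE7.neg g) t = (tor chevE7 y * xG ax (chevE7.neg g) t * (tor chevE7 y)⁻¹) * tor chevE7 y := by group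
      _ = _ := by rw [e]

lemma T_mul7 {g₀ g₁ g₂ : Fin chevE7.nroots} (o01 : B GE7 (crd chevE7 g₀) (crd chevE7 g₁) = 0) (o02 : B GE7 (crd chevE7 g₀) (crd chevE7 g₂) = 0)
    (o12 : B GE7 (crd chevE7 g₁) (crd chevE7 g₂) = 0) (A₀ A₁ A₂ B₀ B₁ B₂ : SL(2, E)) :
    (phi h h2 ax g₀ A₀ * phi h h2 ax g₁ A₁ * phi h h2 ax g₂ A₂) * (phi h h2 ax g₀ B₀ * phi h h2 ax g₁ B₁ * phi h h2 ax g₂ B₂) =
      phi h h2 ax g₀ (A₀ * B₀) * phi h h2 ax g₁ (A₁ * B₁) * phi h h2 ax g₂ (A₂ * B₂) := by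
  rw [map_mul, map_mul, map_mul]
  calc phi h h2 ax g₀ A₀ * phi h h2 ax g₁ A₁ * phi h h2 ax g₂ A₂ * (phi h h2 ax g₀ B₀ * phi h h2 ax g₁ B₁ * phi h h2 ax g₂ B₂)
      = phi h h2 ax g₀ A₀ * phi h h2 ax g₁ A₁ * (phi h h2 ax g₂ A₂ * phi h h2 ax g₀ B₀) * phi h h2 ax g₁ B₁ * phi h h2 ax g₂ B₂ := by group
    _ = phi h h2 ax g₀ A₀ * phi h h2 ax g₁ A₁ * (phi h h2 ax g₀ B₀ * phi h h2 ax g₂ A₂) * phi h h2 ax g₁ B₁ * phi h h2 ax g₂ B₂ := by
        rw [phi_comm7 h h2 ax o02]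
    _ = phi h h2 ax g₀ A₀ * (phi h h2 ax g₁ A₁ * phi h h2 ax g₀ B₀) * (phi h h2 ax g₂ A₂ * phi h h2 ax g₁ B₁) * phi h h2 ax g₂ B₂ := by group
    _ = phi h h2 ax g₀ A₀ * (phi h h2 ax g₀ B₀ * phi h h2 ax g₁ A₁) * (phi h h2 ax g₁ B₁ * phi h h2 ax g₂ A₂) * phi h h2 ax g₂ B₂ := by
        rw [phi_comm7 h h2 ax o01, phi_comm7 h h2 ax o12]
    _ = _ := by group

/-- The six roots span the product of root `SL₂`s. -/
lemma range_T {g₀ g₁ g₂ : Fin chevE7.nroots} (o01 : B GE7 (crd chevE7 g₀) (crd chevE7 g₁) = 0) (o02 : B GE7 (crd chevE7 g₀) (crd chevE7 g₂) = 0)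
    (o12 : B GE7 (crd chevE7 g₁) (crd chevE7 g₂) = 0) {P : ℕ → Prop}
    (hP : ∀ β, P β → β = g₀ ∨ β = chevE7.neg g₀ ∨ β = g₁ ∨ β = chevE7.neg g₁ ∨ β = g₂ ∨ β = chevE7.neg g₂)
    {w : GL chevE7.Idx E} (hw : w ∈ rootClosure ax P) :
    ∃ U₀ U₁ U₂ : SL(2, E), w = phi h h2 ax g₀ U₀ * phi h h2 ax g₁ U₁ * phi h h2 ax g₂ U₂ := by
  refine rootClosure_induction ax (Q := fun w => ∃ U₀ U₁ U₂ : SL(2, E), w = phi h h2 ax g₀ U₀ * phi h h2 ax g₁ U₁ * phi h h2 ax g₂ U₂) ?_ ?_ ?_ hw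
  · exact ⟨1, 1, 1, by simp⟩
  · intro r t hr
    rcases hP r hr with rfl | rfl | rfl | rfl | rfl | rfl
    · exact ⟨upM t, 1, 1, by simp [phi_up]⟩
    · exact ⟨loM t, 1, 1, by simp [phi_lo]⟩
    · exact ⟨1, upM t, 1, by simp [phi_up]⟩
    · exact ⟨1, loM t, 1, by simp [phi_lo]⟩
    · exact ⟨1, 1, upM t, by simp [phi_up]⟩
    · exact ⟨1, 1, loM t, by simp [phi_lo]⟩
  · rintro a b ⟨U₀, U₁, U₂, rfl⟩ ⟨V₀, V₁, V₂, rfl⟩
    exact ⟨_, _, _, T_mul7 h h2 ax o01 o02 o12 _ _ _ _ _ _⟩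

lemma ent_d {κ a b : Eˣ} {W : Matrix (Fin 2) (Fin 2) E} {μ Δ : E}
    (e : (dG κ).1 * W * (dG a).1 * (dG b).1 = !![0, μ; Δ, 0]) : W 0 0 = 0 ∧ W 1 1 = 0 := by
  rw [dG_val, dG_val, dG_val, Matrix.eta_fin_two W] at e
  simp only [Matrix.mul_fin_two] at e
  have e0 := congrFun (congrFun e 0) 0
  have e1 := congrFun (congrFun e 1) 1
  constructor
  · simpa using e0
  · simpa using e1

lemma ent_a {κ a b : Eˣ} {W : Matrix (Fin 2) (Fin 2) E} {μ Δ : E}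
    (e : (aG κ).1 * W * (dG a).1 * (dG b).1 = !![0, μ; Δ, 0]) : W 1 0 = 0 ∧ W 0 1 = 0 := by
  rw [aG_val, dG_val, dG_val, Matrix.eta_fin_two W] at e
  simp only [Matrix.mul_fin_two] at e
  have e0 := congrFun (congrFun e 0) 0
  have e1 := congrFun (congrFun e 1) 1
  constructor
  · simpa using e0
  · simpa using e1

lemma phi_anti (g : Fin chevE7.nroots) (W : SL(2, E)) (h00 : W.1 0 0 = 0) (h11 : W.1 1 1 = 0) :
    W.1 1 0 ≠ 0 ∧ phi h h2 ax g W = nG ax g (-1 / W.1 1 0) := by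
  have hc : W.1 1 0 ≠ 0 := by
    intro e
    have := det_eq W
    rw [e, h00] at this
    simp at this
  refine ⟨hc, ?_⟩
  show phiF _ _ W = _
  have R := rankOneRel h h2 ax g.isLt
  rw [phiF_of_cne hc, h00, h11, zero_div, R.X_zero, one_mul, mul_one]
  rfl

lemma phi_diag (g : Fin chevE7.nroots) (W : SL(2, E)) (h10 : W.1 1 0 = 0) (h01 : W.1 0 1 = 0) :
    W.1 0 0 ≠ 0 ∧ W.1 1 1 ≠ 0 ∧ phi h h2 ax g W = nG ax g (W.1 0 0) * nG ax g (-1) := by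
  have hdet := det_eq W
  rw [h10, mul_zero, sub_zero] at hdet
  have ha : W.1 0 0 ≠ 0 := left_ne_zero_of_mul_eq_one hdet
  have hd : W.1 1 1 ≠ 0 := right_ne_zero_of_mul_eq_one hdet
  refine ⟨ha, hd, ?_⟩
  show phiF _ _ W = _
  have R := rankOneRel h h2 ax g.isLt
  rw [phiF_of_c0 h10, h01, zero_div, R.X_zero, mul_one]
  rfl

/-- The third step: the product of root `SL₂`s disappears. -/
theorem stageC {σ : E →+* E} {g₀ g₁ g₂ : Fin chevE7.nroots} (o01 : B GE7 (crd chevE7 g₀) (crd chevE7 g₁) = 0) (o02 : B GE7 (crd chevE7 g₀) (crd chevE7 g₂) = 0)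
    (o12 : B GE7 (crd chevE7 g₁) (crd chevE7 g₂) = 0)
    {m : GL chevE7.Idx E} {π : Equiv.Perm (Fin chevE7.nroots)} {c : Fin chevE7.nroots → Eˣ} (Hm : IsNor h ax m π c)
    (hmM : m ∈ chevE7.monomialSubgroup E) (hπ0 : π g₀ = g₁) (hπ1 : π g₁ = g₂) {Z₂ : GL (Fin 2) E}
    (hZ₂ : (π g₂ = g₀ ∧ Z₂ = dG (c g₂)) ∨ (π g₂ = negF h g₀ ∧ Z₂ = aG (c g₂)))
    (U₀ U₁ U₂ D₀ : SL(2, E)) {μ Δ : E}
    (hL : ((Z₂ * gE U₂ * Matrix.GeneralLinearGroup.map σ (dG (c g₁)) * Matrix.GeneralLinearGroup.map σ (gE U₁) *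
        Matrix.GeneralLinearGroup.map σ (Matrix.GeneralLinearGroup.map σ (dG (c g₀))) *
        Matrix.GeneralLinearGroup.map σ (Matrix.GeneralLinearGroup.map σ (gE U₀)) : GL (Fin 2) E) : Matrix (Fin 2) (Fin 2) E) *
      ((Matrix.GeneralLinearGroup.map σ (Matrix.GeneralLinearGroup.map σ (Matrix.GeneralLinearGroup.map σ (gE D₀))) : GL (Fin 2) E) : Matrix (Fin 2) (Fin 2) E) =
        D₀.1 * !![0, μ; Δ, 0]) :
    ∃ (D₁ D₂ : SL(2, E)) (m₃ : GL chevE7.Idx E) (π₃ : Equiv.Perm (Fin chevE7.nroots)) (c₃ : Fin chevE7.nroots → Eˣ),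
      (phi h h2 ax g₀ D₀ * phi h h2 ax g₁ D₁ * phi h h2 ax g₂ D₂)⁻¹ * (m * (phi h h2 ax g₀ U₀ * phi h h2 ax g₁ U₁ * phi h h2 ax g₂ U₂)) *
        mapX chevE7 σ (phi h h2 ax g₀ D₀ * phi h h2 ax g₁ D₁ * phi h h2 ax g₂ D₂) = m₃ ∧
      m₃ ∈ chevE7.monomialSubgroup E ∧ IsNor h ax m₃ π₃ c₃ ∧ π₃ g₀ = g₁ ∧ π₃ g₁ = g₂ ∧ π₃ g₂ = negF h g₀ := by
  classical
  set fG := Matrix.GeneralLinearGroup.map (n := Fin 2) σ with hfG
  set f := Matrix.SpecialLinearGroup.map (n := Fin 2) σ with hf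
  have c01 : ∀ A B, phi h h2 ax g₀ A * phi h h2 ax g₁ B = phi h h2 ax g₁ B * phi h h2 ax g₀ A := phi_comm7 h h2 ax o01
  have c02 : ∀ A B, phi h h2 ax g₀ A * phi h h2 ax g₂ B = phi h h2 ax g₂ B * phi h h2 ax g₀ A := phi_comm7 h h2 ax o02
  have c12 : ∀ A B, phi h h2 ax g₁ A * phi h h2 ax g₂ B = phi h h2 ax g₂ B * phi h h2 ax g₁ A := phi_comm7 h h2 ax o12
  have h0 : ∀ A, m * phi h h2 ax g₀ A * m⁻¹ = phi h h2 ax g₁ (cZ (dG (c g₀)) A) := phi_conj_d ax Hm hπ0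
  have h1 : ∀ A, m * phi h h2 ax g₁ A * m⁻¹ = phi h h2 ax g₂ (cZ (dG (c g₁)) A) := phi_conj_d ax Hm hπ1
  have h3 : ∀ A, m * phi h h2 ax g₂ A * m⁻¹ = phi h h2 ax g₀ (cZ Z₂ A) := by
    rcases hZ₂ with ⟨e, rfl⟩ | ⟨e, rfl⟩
    · exact phi_conj_d ax Hm e
    · exact phi_conj_a ax Hm e
  have key := shuffle c01 c02 c12 (i₂ := cZ Z₂⁻¹) (cZ_inv_cancel Z₂) h0 h1 h3 (mapX chevE7 σ) f (phi_map h h2 σ ax ax g₀) (phi_map h h2 σ ax ax g₁) (phi_map h h2 σ ax ax g₂) U₀ U₁ U₂ D₀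
  set D₁ := cZ (dG (c g₀)) (U₀ * f D₀) with hD₁
  set D₂ := cZ (dG (c g₁)) (U₁ * f D₁) with hD₂
  set W := (cZ Z₂⁻¹ D₀)⁻¹ * U₂ * f D₂ with hW
  have hfg : ∀ A, gE (f A) = fG (gE A) := fun A => (glmap_gE σ A).symm
  have hW1 : Z₂ * gE W * fG (dG (c g₁)) * fG (fG (dG (c g₀))) =
      (gE D₀)⁻¹ * (Z₂ * gE U₂ * fG (dG (c g₁)) * fG (gE U₁) * fG (fG (dG (c g₀))) * fG (fG (gE U₀))) * fG (fG (fG (gE D₀))) := by
    simp only [hW, hD₂, hD₁, map_mul, map_inv, gE_cZ, hfg]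
    group
  have hMat : ((Z₂ * gE W * fG (dG (c g₁)) * fG (fG (dG (c g₀))) : GL (Fin 2) E) : Matrix (Fin 2) (Fin 2) E) = !![0, μ; Δ, 0] := by
    rw [hW1, mul_assoc, Units.val_mul, Units.val_mul, hL, ← mul_assoc]
    have e1 : (((gE D₀)⁻¹ : GL (Fin 2) E) : Matrix (Fin 2) (Fin 2) E) * D₀.1 = 1 := (gE D₀).inv_mul
    rw [e1, one_mul]
  have hK1 : fG (dG (c g₁)) = dG (Units.map (σ : E →* E) (c g₁)) := glmap_dG σ _
  have hK0 : fG (fG (dG (c g₀))) = dG (Units.map (σ : E →* E) (Units.map (σ : E →* E) (c g₀))) := by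
    rw [hfG, glmap_dG, glmap_dG]
  have hMat' : (Z₂ : Matrix (Fin 2) (Fin 2) E) * W.1 * (dG (Units.map (σ : E →* E) (c g₁))).1 * (dG (Units.map (σ : E →* E) (Units.map (σ : E →* E) (c g₀)))).1 = !![0, μ; Δ, 0] := by
    rw [← hK1, ← hK0, ← hMat]
    rfl
  -- the two cases
  have hmain : ∃ (m₃ : GL chevE7.Idx E) (v : E), m₃ = m * phi h h2 ax g₂ W ∧ m₃ ∈ chevE7.monomialSubgroup E ∧ v ≠ 0 ∧
      m₃ * xG ax g₂ 1 * m₃⁻¹ = xG ax (negF h g₀) v := by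
    rcases hZ₂ with ⟨e, rfl⟩ | ⟨e, rfl⟩
    · obtain ⟨h00, h11⟩ := ent_d hMat'
      obtain ⟨hc, hphi⟩ := phi_anti h h2 ax g₂ W h00 h11
      have hb : W.1 0 1 ≠ 0 := by
        intro e'
        have := det_eq W
        rw [e', h00] at this
        simp at this
      have hs : W.1 1 0 / W.1 0 1 ≠ 0 := div_ne_zero hc hb
      have hc1 : W * upM 1 = loM (W.1 1 0 / W.1 0 1) * W := by
        apply Subtype.ext
        show W.1 * (upM (1 : E)).1 = (loM (W.1 1 0 / W.1 0 1)).1 * W.1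
        ext i j
        fin_cases i <;> fin_cases j <;> simp [upM, loM, Matrix.mul_apply, Fin.sum_univ_two, h00, h11, hb]
      refine ⟨m * phi h h2 ax g₂ W, ((c (negF h g₂))) * (W.1 1 0 / W.1 0 1), rfl, ?_, mul_ne_zero (c _).ne_zero hs, ?_⟩
      · refine Subgroup.mul_mem _ hmM ?_
        rw [hphi]
        exact nG_mem_N h h2 ax g₂.isLt (div_ne_zero (by simp) hc)
      · have e1 : phi h h2 ax g₂ W * xG ax g₂ 1 = phi h h2 ax g₂ (loM (W.1 1 0 / W.1 0 1)) * phi h h2 ax g₂ W := by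
          rw [← phi_up h h2 ax g₂ 1, ← map_mul, hc1, map_mul]
        have e2 := Hm.conj (negF h g₂) (W.1 1 0 / W.1 0 1)
        rw [Hm.neg, e] at e2
        rw [phi_lo] at e1
        calc m * phi h h2 ax g₂ W * xG ax g₂ 1 * (m * phi h h2 ax g₂ W)⁻¹
            = m * (phi h h2 ax g₂ W * xG ax g₂ 1) * (phi h h2 ax g₂ W)⁻¹ * m⁻¹ := by group
          _ = m * xG ax (chevE7.neg g₂) (W.1 1 0 / W.1 0 1) * m⁻¹ := by rw [e1]; group
          _ = _ := e2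
    · obtain ⟨h10, h01⟩ := ent_a hMat'
      obtain ⟨ha, hd, hphi⟩ := phi_diag h h2 ax g₂ W h10 h01
      have hs : W.1 0 0 / W.1 1 1 ≠ 0 := div_ne_zero ha hd
      have hc1 : W * upM 1 = upM (W.1 0 0 / W.1 1 1) * W := by
        apply Subtype.ext
        show W.1 * (upM (1 : E)).1 = (upM (W.1 0 0 / W.1 1 1)).1 * W.1
        ext i j
        fin_cases i <;> fin_cases j <;> simp [upM, Matrix.mul_apply, Fin.sum_univ_two, h10, h01, hd]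
      refine ⟨m * phi h h2 ax g₂ W, ((c g₂)) * (W.1 0 0 / W.1 1 1), rfl, ?_, mul_ne_zero (c _).ne_zero hs, ?_⟩
      · refine Subgroup.mul_mem _ hmM ?_
        rw [hphi]
        exact Subgroup.mul_mem _ (nG_mem_N h h2 ax g₂.isLt ha) (nG_mem_N h h2 ax g₂.isLt (by simp))
      · have e1 : phi h h2 ax g₂ W * xG ax g₂ 1 = phi h h2 ax g₂ (upM (W.1 0 0 / W.1 1 1)) * phi h h2 ax g₂ W := by
          rw [← phi_up h h2 ax g₂ 1, ← map_mul, hc1, map_mul]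
        have e2 := Hm.conj g₂ (W.1 0 0 / W.1 1 1)
        rw [e] at e2
        rw [phi_up] at e1
        calc m * phi h h2 ax g₂ W * xG ax g₂ 1 * (m * phi h h2 ax g₂ W)⁻¹
            = m * (phi h h2 ax g₂ W * xG ax g₂ 1) * (phi h h2 ax g₂ W)⁻¹ * m⁻¹ := by group
          _ = m * xG ax g₂ (W.1 0 0 / W.1 1 1) * m⁻¹ := by rw [e1]; group
          _ = _ := e2
  obtain ⟨m₃, v, rfl, hm₃, hv, hconj⟩ := hmain
  obtain ⟨π₃, c₃, H₃⟩ := exists_isNor h h2 ax hm₃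
  refine ⟨D₁, D₂, _, π₃, c₃, key, hm₃, H₃, ?_, ?_, ?_⟩
  · have e1 := H₃.conj g₀ 1
    have e2 : phi h h2 ax g₂ W * xG ax g₀ 1 = xG ax g₀ 1 * phi h h2 ax g₂ W := by
      have := c02 (upM 1) W
      rw [phi_up] at this
      exact this.symm
    have e3 : m * phi h h2 ax g₂ W * xG ax g₀ 1 * (m * phi h h2 ax g₂ W)⁻¹ = xG ax (π g₀) (c g₀ * 1) := by
      rw [← Hm.conj g₀ 1]
      calc m * phi h h2 ax g₂ W * xG ax g₀ 1 * (m * phi h h2 ax g₂ W)⁻¹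
          = m * (phi h h2 ax g₂ W * xG ax g₀ 1) * (phi h h2 ax g₂ W)⁻¹ * m⁻¹ := by group
        _ = _ := by rw [e2]; group
    rw [e3, hπ0] at e1
    have e4 := (xG_eq_iff ax h h2 (π₃ g₀).isLt g₁.isLt (mul_ne_zero (c₃ g₀).ne_zero one_ne_zero) e1.symm).1
    exact Fin.ext e4
  · have e1 := H₃.conj g₁ 1
    have e2 : phi h h2 ax g₂ W * xG ax g₁ 1 = xG ax g₁ 1 * phi h h2 ax g₂ W := by
      have := c12 (upM 1) W
      rw [phi_up] at this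
      exact this.symm
    have e3 : m * phi h h2 ax g₂ W * xG ax g₁ 1 * (m * phi h h2 ax g₂ W)⁻¹ = xG ax (π g₁) (c g₁ * 1) := by
      rw [← Hm.conj g₁ 1]
      calc m * phi h h2 ax g₂ W * xG ax g₁ 1 * (m * phi h h2 ax g₂ W)⁻¹
          = m * (phi h h2 ax g₂ W * xG ax g₁ 1) * (phi h h2 ax g₂ W)⁻¹ * m⁻¹ := by group
        _ = _ := by rw [e2]; group
    rw [e3, hπ1] at e1
    have e4 := (xG_eq_iff ax h h2 (π₃ g₁).isLt g₂.isLt (mul_ne_zero (c₃ g₁).ne_zero one_ne_zero) e1.symm).1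
    exact Fin.ext e4
  · have e1 := H₃.conj g₂ 1
    rw [hconj] at e1
    have e4 := (xG_eq_iff ax h h2 (π₃ g₂).isLt (negF h g₀).isLt (mul_ne_zero (c₃ g₂).ne_zero one_ne_zero) e1.symm).1
    exact Fin.ext e4

end e7

end Cfsg.Agent.Lib.KS71.E7s
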