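/-
The first two steps for `E₇`: an element of order a primitive prime divisor of `Φ₁₂(q)` and the normal form of the twist.
-/
import Mathlib
import Cfsg.Agent.Lib.KS71.E7s

set_option autoImplicit false
set_option linter.unusedSectionVars false
set_option linter.unusedVariables false
set_option maxRecDepth 100000

namespace Cfsg.Agent.Lib.KS71.E7q

open scoped MatrixGroups Matrix
open Cfsg Cfsg.Lie Cfsg.Lie.ChevalleyDatum
open Cfsg.Agent.Lib.Chev.Tables Cfsg.Agent.Lib.Chev.Tables2 Cfsg.Agent.Lib.Chev.Tables3 Cfsg.Agent.Lib.Chev.Raise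
open Cfsg.Agent.Lib.Chev.Basic Cfsg.Agent.Lib.Chev.AxBasic Cfsg.Agent.Lib.Chev.Torus
open Cfsg.Agent.Lib.Chev.Products Cfsg.Agent.Lib.Chev.Products2 Cfsg.Agent.Lib.Chev.Mono1
open Cfsg.Agent.Lib.Chev.Mono2 Cfsg.Agent.Lib.Chev.Mono3 Cfsg.Agent.Lib.Chev.Bn
open Cfsg.Agent.Lib.Chev.Order1 Cfsg.Agent.Lib.Chev.Order2 Cfsg.Agent.Lib.Chev.Parab
open Cfsg.Agent.Lib.Chev.Diag Cfsg.Agent.Lib.Chev.SL2 Cfsg.Agent.Lib.Chev.SL2Chev Cfsg.Agent.Lib.Chev.Order3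
open Cfsg.Agent.Lib.KS71.ChevFix Cfsg.Agent.Lib.KS71.IVb Cfsg.Agent.Lib.KS71.IVf Cfsg.Agent.Lib.KS71.HCa
open Cfsg.Agent.Lib.KS71.HCb Cfsg.Agent.Lib.KS71.HCc Cfsg.Agent.Lib.KS71.HCd Cfsg.Agent.Lib.KS71.HCf Cfsg.Agent.Lib.KS71.HCg
open Cfsg.Agent.Lib.KS71.HCh Cfsg.Agent.Lib.KS71.HCi
open Cfsg.Agent.Lib.KS71.HCj Cfsg.Agent.Lib.KS71.HCk
open Cfsg.Agent.Lib.KS71.HCm Cfsg.Agent.Lib.KS71.HCn Cfsg.Agent.Lib.KS71.HCo Cfsg.Agent.Lib.KS71.HCp
open Cfsg.Agent.Lib.KS71.E7k Cfsg.Agent.Lib.KS71.E7l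
open Cfsg.Agent.Lib.KS71.E7m Cfsg.Agent.Lib.KS71.E7n Cfsg.Agent.Lib.KS71.E7o Cfsg.Agent.Lib.KS71.E7p Cfsg.Agent.Lib.KS71.E7t Cfsg.Agent.Lib.KS71.E7s

section

variable {E : Type*} [Field E] (h : Tab chevE7) (h2 : Tab2 chevE7) (ax : Ax chevE7 E)

/-- The root elements on which `y` is trivial. -/
abbrev RC (ax : Ax chevE7 E) (y : ℕ → Eˣ) : Subgroup (GL chevE7.Idx E) :=
  rootClosure ax (fun β => β < chevE7.nroots ∧ chi chevE7 y β = 1)

include h in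
lemma tor_conj_wordL (y : ℕ → Eˣ) {L : List ℕ} (hL : ∀ r ∈ L, r < chevE7.nroots) (f : ℕ → E) :
    tor chevE7 y * wordL ax L f * (tor chevE7 y)⁻¹ = wordL ax L (fun r => (chi chevE7 y r : E) * f r) := by
  induction L with
  | nil => simp [wordL_nil]
  | cons a L ih =>
    rw [wordL_cons, wordL_cons]
    have e1 := tor_conj_xG ax h y (hL a (by simp)) (f a)
    have e2 := ih (fun r hr => hL r (by simp [hr]))
    rw [← e1, ← e2]
    group

include h h2 in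
lemma comm_U (y : ℕ → Eˣ) {v : GL chevE7.Idx E} (hv : v ∈ chevE7.posUnipotent E) (hc : tor chevE7 y * v * (tor chevE7 y)⁻¹ = v) :
    v ∈ RC ax y := by
  rw [← rootClosure_posRoots ax] at hv
  obtain ⟨f, rfl⟩ := exists_wordL ax h (goodList_posRoots h) hv
  have hlt : ∀ r ∈ chevE7.posRoots, r < chevE7.nroots := fun r hr => (mem_posRoots.mp hr).1
  rw [tor_conj_wordL h ax y hlt] at hc
  have e := wordL_inj ax h h2 (goodList_posRoots h) hc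
  have key : ∀ L : List ℕ, (∀ r ∈ L, r ∈ chevE7.posRoots) → wordL ax L f ∈ RC ax y := by
    intro L
    induction L with
    | nil =>
      intro _
      rw [wordL_nil]
      exact Subgroup.one_mem _
    | cons a L ih =>
      intro hL
      rw [wordL_cons]
      refine Subgroup.mul_mem _ ?_ (ih fun r hr => hL r (by simp [hr]))
      have ha := hL a (by simp)
      have e1 := e a ha
      by_cases hf : f a = 0
      · rw [hf, xG_zero]
        exact Subgroup.one_mem _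
      · refine xG_mem_rootClosure ax ⟨hlt a ha, ?_⟩ (f a)
        apply Units.ext
        rw [Units.val_one]
        exact mul_right_cancel₀ hf (by rw [e1, one_mul])
  exact key _ (fun r hr => hr)

include h h2 in
/-- The normal form of the twist. -/
theorem stageB [Finite E] {τ : GL chevE7.Idx E} (hτ : τ ∈ chevE7.group E) {y : ℕ → Eˣ} {q : ℕ}
    (hyH : tor chevE7 y ∈ chevE7.diagonalSubgroup E) (hrel : τ * tor chevE7 (y ^ q) = tor chevE7 y * τ)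
    (hcop : ∀ s, s < chevE7.nroots → chi chevE7 y s ^ q = 1 → chi chevE7 y s = 1) :
    ∃ (l : List ℕ) (_ : ∀ i ∈ l, i < chevE7.rank) (a u e : GL chevE7.Idx E), a ∈ RC ax y ∧ u ∈ RC ax y ∧
      e ∈ chevE7.diagonalSubgroup E ∧ tor chevE7 y * a = a * tor chevE7 y ∧
      τ = a * (nw chevE7 ax l)⁻¹ * (u * e) ∧ (nw chevE7 ax l)⁻¹ * tor chevE7 (y ^ q) * ((nw chevE7 ax l)⁻¹)⁻¹ = tor chevE7 y := by
  obtain ⟨l, hl, a, ha, b, hb, rfl⟩ := exists_normal_form h h2 ax hτ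
  set n := (nw chevE7 ax l)⁻¹ with hn
  set t₁ := tor chevE7 y with ht₁
  set t₂ := tor chevE7 (y ^ q) with ht₂
  have ht₂H : t₂ ∈ chevE7.diagonalSubgroup E := by
    rw [ht₂, ← tor_pow]
    exact Subgroup.pow_mem _ hyH q
  obtain ⟨cN, HN⟩ := exists_isNor_nw h h2 ax hl
  have hh₁ : n⁻¹ * t₁ * n ∈ chevE7.diagonalSubgroup E := by
    have := HN.conj_mem_H h ax hyH
    rw [hn, inv_inv]
    exact this
  set h₁ := n⁻¹ * t₁ * n with hh₁'
  have ha' : t₁⁻¹ * a * t₁ ∈ rootClosure ax (Pm chevE7 l) := by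
    have := diagonal_conj_rootClosure ax h (fun r hr => hr.1.1) (Subgroup.inv_mem _ hyH) ha
    rwa [inv_inv] at this
  have hb' : h₁⁻¹ * b * t₂ ∈ chevE7.borelSubgroup E :=
    Subgroup.mul_mem _ (Subgroup.mul_mem _ (diag_mem_borel h h2 ax (Subgroup.inv_mem _ hh₁)) hb) (diag_mem_borel h h2 ax ht₂H)
  have e1 : a * n * b = (t₁⁻¹ * a * t₁) * n * (h₁⁻¹ * b * t₂) := by
    have e2 : (t₁⁻¹ * a * t₁) * n * (h₁⁻¹ * b * t₂) = t₁⁻¹ * (a * n * b * t₂) := by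
      rw [hh₁']
      group
    rw [e2, hrel]
    group
  obtain ⟨e3, e4⟩ := normal_form_unique h h2 ax hl ha ha' hb hb' e1
  have hac : t₁ * a = a * t₁ := by
    calc t₁ * a = t₁ * (t₁⁻¹ * a * t₁) := by rw [← e3]
      _ = a * t₁ := by group
  obtain ⟨u, hu, e, he, rfl⟩ := (mem_borel_iff ax h).1 hb
  have hu' : h₁⁻¹ * u * h₁ ∈ chevE7.posUnipotent E := by
    have := diagonal_conj_U ax h (Subgroup.inv_mem _ hh₁) hu
    rwa [inv_inv] at this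
  have e5 : (h₁⁻¹ * u * h₁)⁻¹ * u = (h₁⁻¹ * e * t₂) * e⁻¹ := by
    calc (h₁⁻¹ * u * h₁)⁻¹ * u = (h₁⁻¹ * u * h₁)⁻¹ * (u * e) * e⁻¹ := by group
      _ = (h₁⁻¹ * u * h₁)⁻¹ * (h₁⁻¹ * (u * e) * t₂) * e⁻¹ := by rw [← e4]
      _ = _ := by group
  have hbot : (h₁⁻¹ * u * h₁)⁻¹ * u ∈ chevE7.posUnipotent E ⊓ chevE7.diagonalSubgroup E :=
    ⟨Subgroup.mul_mem _ (Subgroup.inv_mem _ hu') hu, by
      rw [e5]
      exact Subgroup.mul_mem _ (Subgroup.mul_mem _ (Subgroup.mul_mem _ (Subgroup.inv_mem _ hh₁) he) ht₂H) (Subgroup.inv_mem _ he)⟩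
  rw [U_inf_H ax h, Subgroup.mem_bot] at hbot
  have e6 : h₁⁻¹ * u * h₁ = u := inv_mul_eq_one.1 hbot
  have e7 : (h₁⁻¹ * e * t₂) * e⁻¹ = 1 := by
    rw [← e5]
    exact hbot
  have e8 : h₁ = t₂ := by
    have e9 : e * t₂ = t₂ * e := diagonal_comm ax h he ht₂H
    have e10 : h₁⁻¹ * t₂ = 1 := by
      calc h₁⁻¹ * t₂ = h₁⁻¹ * (t₂ * e) * e⁻¹ := by group
        _ = h₁⁻¹ * (e * t₂) * e⁻¹ := by rw [e9]
        _ = (h₁⁻¹ * e * t₂) * e⁻¹ := by group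
        _ = 1 := e7
    exact inv_mul_eq_one.1 e10
  have hau : a ∈ chevE7.posUnipotent E := Um_le_U h h2 ax l ha
  have ha1 : a ∈ RC ax y := comm_U h h2 ax y hau (by rw [hac, mul_inv_cancel_right])
  have hu1 : u ∈ RC ax (y ^ q) := comm_U h h2 ax (y ^ q) hu (by
    rw [e8] at e6
    calc t₂ * u * t₂⁻¹ = t₂ * (t₂⁻¹ * u * t₂) * t₂⁻¹ := by rw [e6]
      _ = u := by group)
  have hu2 : u ∈ RC ax y := by
    refine rootClosure_mono ax (fun r hr => ⟨hr.1, ?_⟩) hu1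
    have e9 := hr.2
    rw [chi_pow] at e9
    exact hcop r hr.1 e9
  refine ⟨l, hl, a, u, e, ha1, hu2, he, hac, rfl, ?_⟩
  show n * t₂ * n⁻¹ = t₁
  rw [← e8, hh₁']
  group

include h in
/-- The roots. -/
lemma roots_of_tri {A₀ A : Matrix (Fin chevE7.rank) (Fin chevE7.rank) ℤ} {γ₀ γ₁ γ₂ : Fin chevE7.rank → ℤ} (T : Tri A₀ γ₀ γ₁ γ₂)
    (hA : A₀ = -A ∨ A₀ = A) :
    ∃ g₀ g₁ g₂ : Fin chevE7.nroots, B GE7 (crd chevE7 g₀) (crd chevE7 g₁) = 0 ∧ B GE7 (crd chevE7 g₀) (crd chevE7 g₂) = 0 ∧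
      B GE7 (crd chevE7 g₁) (crd chevE7 g₂) = 0 ∧ A *ᵥ crd chevE7 g₀ = crd chevE7 g₁ ∧ A *ᵥ crd chevE7 g₁ = crd chevE7 g₂ ∧
      (A *ᵥ crd chevE7 g₂ = crd chevE7 g₀ ∨ A *ᵥ crd chevE7 g₂ = -crd chevE7 g₀) ∧
      ∀ u, Six γ₀ γ₁ γ₂ u ↔ Six (crd chevE7 g₀) (crd chevE7 g₁) (crd chevE7 g₂) u := by
  have key : ∃ δ₀ δ₁ δ₂ : Fin chevE7.rank → ℤ, B GE7 δ₀ δ₀ = 2 ∧ B GE7 δ₁ δ₁ = 2 ∧ B GE7 δ₂ δ₂ = 2 ∧ B GE7 δ₀ δ₁ = 0 ∧ B GE7 δ₀ δ₂ = 0 ∧ B GE7 δ₁ δ₂ = 0 ∧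
      A *ᵥ δ₀ = δ₁ ∧ A *ᵥ δ₁ = δ₂ ∧ (A *ᵥ δ₂ = δ₀ ∨ A *ᵥ δ₂ = -δ₀) ∧ ∀ u, Six γ₀ γ₁ γ₂ u ↔ Six δ₀ δ₁ δ₂ u := by
    rcases hA with rfl | rfl
    · have a0 := T.a0
      have a1 := T.a1
      have a2 := T.a2
      rw [Matrix.neg_mulVec] at a0 a1 a2
      refine ⟨γ₀, -γ₁, γ₂, T.n0, by rw [B_neg_left, B_neg_right, neg_neg]; exact T.n1, T.n2, by rw [B_neg_right, T.o01, neg_zero], T.o02,
        by rw [B_neg_left, T.o12, neg_zero], ?_, ?_, Or.inl ?_, fun u => ?_⟩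
      · rw [← a0, neg_neg]
      · rw [Matrix.mulVec_neg]
        exact a1
      · exact neg_injective a2
      · simp only [Six, neg_neg]
        tauto
    · exact ⟨γ₀, γ₁, γ₂, T.n0, T.n1, T.n2, T.o01, T.o02, T.o12, T.a0, T.a1, Or.inr T.a2, fun u => Iff.rfl⟩
  obtain ⟨δ₀, δ₁, δ₂, n0, n1, n2, o01, o02, o12, a0, a1, a2, hS⟩ := key
  obtain ⟨s₀, hs₀, e₀⟩ := norm2_root h n0
  obtain ⟨s₁, hs₁, e₁⟩ := norm2_root h n1
  obtain ⟨s₂, hs₂, e₂⟩ := norm2_root h n2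
  subst e₀ e₁ e₂
  exact ⟨⟨s₀, hs₀⟩, ⟨s₁, hs₁⟩, ⟨s₂, hs₂⟩, o01, o02, o12, a0, a1, a2, hS⟩

end

universe u

set_option maxHeartbeats 4000000 in
/-- Steps A and B. -/
theorem stage_AB {F : Type u} [Field F] [Fintype F] (q : ℕ) (hq : Fintype.card F = q) (h : Tab chevE7) (h2 : Tab2 chevE7) (axF : Ax chevE7 F) :
    ∃ (E : Type) (_ : Field E) (_ : Fintype E) (σ : E ≃+* E) (ι : F →+* E) (axE : Ax chevE7 E) (r : ℕ) (hr : Fact r.Prime)
      (p₀ : ↥(chevE7.group F)) (x : ↥(chevE7.group E)) (y₀ : ℕ → Eˣ) (lam : Eˣ) (c : Fin chevE7.rank → ℤ) (l₁ : List ℕ)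
      (e : GL chevE7.Idx E) (U₀ U₁ U₂ : SL(2, E)) (g₀ g₁ g₂ : Fin chevE7.nroots),
      Fintype.card E = q ^ 24 ∧ (∀ x, σ x = x ^ q) ∧ (∀ a, σ (ι a) = ι a) ∧ orderOf (q : ZMod r) = 12 ∧ ¬ r ∣ (Wc h).card ∧ (Wc h).card = 2903040 ∧
      ((x⁻¹ * iotaHom h axF axE ι p₀ * x : ↥(chevE7.group E)) : GL chevE7.Idx E) = tor chevE7 y₀ ∧
      tor chevE7 y₀ ∈ chevE7.diagonalSubgroup E ∧
      orderOf lam = r ∧ (∀ j : Fin chevE7.rank, lam ^ c j = y₀ j) ∧ (∃ j, ¬ (r : ℤ) ∣ c j) ∧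
      (∀ i ∈ l₁, i < chevE7.rank) ∧ e ∈ chevE7.diagonalSubgroup E ∧
      ((x⁻¹ * sAut h axE σ x : ↥(chevE7.group E)) : GL chevE7.Idx E) =
        (nw chevE7 axE l₁)⁻¹ * e * (phi h h2 axE g₀ U₀ * phi h h2 axE g₁ U₁ * phi h h2 axE g₂ U₂) ∧
      B GE7 (crd chevE7 g₀) (crd chevE7 g₁) = 0 ∧ B GE7 (crd chevE7 g₀) (crd chevE7 g₂) = 0 ∧ B GE7 (crd chevE7 g₁) (crd chevE7 g₂) = 0 ∧
      (wPw h l₁)⁻¹ g₀ = g₁ ∧ (wPw h l₁)⁻¹ g₁ = g₂ ∧ ((wPw h l₁)⁻¹ g₂ = g₀ ∨ (wPw h l₁)⁻¹ g₂ = negF h g₀) ∧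
      chi chevE7 y₀ g₀ = 1 ∧ chi chevE7 y₀ (chevE7.neg g₀) = 1 ∧ chi chevE7 y₀ g₁ = 1 ∧ chi chevE7 y₀ (chevE7.neg g₁) = 1 ∧
      chi chevE7 y₀ g₂ = 1 ∧ chi chevE7 y₀ (chevE7.neg g₂) = 1 := by
  classical
  have hp : (chevE7, [2, 6, 8, 10, 12, 14, 18]) ∈ typeList := by simp [typeList]
  have hD := mem_list hp
  have hq2 : 2 ≤ q := by
    rw [← hq]
    exact Fintype.one_lt_card
  obtain ⟨r, hrp, hrd, hrk⟩ := Cfsg.Agent.Lib.Zsig.Basic.zsigmondy_large q 12 hq2 (by norm_num) (fun e => by omega)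
  haveI hrf : Fact r.Prime := ⟨hrp⟩
  have hrord := order_of_prim hq2 (by norm_num : 0 < 12) hrd hrk
  obtain ⟨hdr, hr_ge, hrq⟩ := lt_of_order (by norm_num : 0 < 12) hrord
  obtain ⟨Tb, ls, hcert⟩ := cert_list hp
  have hWc : (Wc h).card = [2, 6, 8, 10, 12, 14, 18].prod := by
    have := sum_of_cert h h2 axF hcert 1
    simp only [one_pow, Finset.sum_const, smul_eq_mul, mul_one, evalP_geom_one', List.map_id'] at this
    exact this
  have hW : (Wc h).card = 2903040 := by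
    rw [hWc]
    norm_num
  have hrW' : ¬ r ∣ (Wc h).card := by
    rw [hW]
    have e : (2903040 : ℕ) = 2 ^ 10 * (3 ^ 4 * (5 * 7)) := by norm_num
    rw [e]
    intro hd
    rcases (Nat.Prime.dvd_mul hrp).1 hd with h1 | h1
    · have := hrp.dvd_of_dvd_pow h1
      have := Nat.le_of_dvd (by norm_num) this
      omega
    · rcases (Nat.Prime.dvd_mul hrp).1 h1 with h3 | h3
      · have := hrp.dvd_of_dvd_pow h3
        have := Nat.le_of_dvd (by norm_num) this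
        omega
      · rcases (Nat.Prime.dvd_mul hrp).1 h3 with h5 | h5
        · have := Nat.le_of_dvd (by norm_num) h5
          omega
        · have := Nat.le_of_dvd (by norm_num) h5
          omega
  have hrW : ¬ r ∣ [2, 6, 8, 10, 12, 14, 18].prod := by
    rw [← hWc]
    exact hrW'
  obtain ⟨dd, hdd1, hdd2⟩ := dd_list hp F
  rw [hq] at hdd2
  have hkey := card_of_cert h h2 axF hcert (len_list hp) hq hdd2
  have hrG : r ∣ Nat.card ↥(chevE7.group F) := by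
    have e1 : r ∣ dd * Nat.card ↥(chevE7.group F) := by
      rw [hkey]
      refine Dvd.dvd.mul_left (hrd.trans ?_) _
      exact List.dvd_prod (List.mem_map.2 ⟨12, by simp, rfl⟩)
    rcases (hrp.dvd_mul).1 e1 with e2 | e2
    · exact absurd (e2.trans hdd1) hrW
    · exact e2
  obtain ⟨p₀, hp₀⟩ := exists_prime_orderOf_dvd_card' r hrG
  -- the extension
  obtain ⟨E, _, _, σ, ι, hcE, hσ, hσι⟩ := exists_extension F 24 (by norm_num)
  rw [hq] at hcE hσ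
  have axE : Ax chevE7 E := Cfsg.Agent.Lib.Lie.AxOf.ax_of_mem (F := E) hD
  have hq12 : (q : ZMod r) ^ 12 = 1 := (dvd_iff_pow_eq_one hq2).1 hrd
  have hE1 : ((Fintype.card E : ℕ) : ZMod r) = 1 := by
    rw [hcE]
    push_cast
    have e : (q : ZMod r) ^ 24 = ((q : ZMod r) ^ 12) ^ 2 := by ring
    rw [e, hq12, one_pow]
  obtain ⟨Q₀, hQ₀⟩ := exists_sylow_diag h h2 axE hE1 hrW'
  let H' : Subgroup ↥(chevE7.group E) := (chevE7.diagonalSubgroup E).subgroupOf (chevE7.group E)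
  have hQH' : (Q₀ : Subgroup ↥(chevE7.group E)) ≤ H' := fun x hx => hQ₀ x hx
  have hH'ab : ∀ a ∈ H', ∀ b ∈ H', a * b = b * a := by
    intro a ha b hb
    apply Subtype.ext
    exact diagonal_comm axE h ha hb
  have hpow : ∀ x : ↥(chevE7.group E), (x : GL chevE7.Idx E) ∈ chevE7.diagonalSubgroup E → ∀ k : ℕ, x ^ (r ^ k) = 1 →
      x ∈ (Q₀ : Subgroup ↥(chevE7.group E)) := fun x hx k hk => mem_sylow_of_pow Q₀ H' hQH' hH'ab hx hk
  have hrE : r ∣ Nat.card Eˣ := by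
    rw [Nat.card_eq_fintype_card, Fintype.card_units, hcE]
    have e : (q ^ 12 - 1) ∣ (q ^ 12) ^ 2 - 1 := by simpa using Nat.sub_one_dvd_pow_sub_one (q ^ 12) 2 |>.trans (dvd_refl _)
    rw [show q ^ 24 = (q ^ 12) ^ 2 by ring]
    exact hrd.trans e
  obtain ⟨lam, hlam⟩ : ∃ lam : Eˣ, orderOf lam = r := exists_prime_orderOf_dvd_card' r hrE
  have hlr : lam ^ r = 1 := by rw [← hlam]; exact pow_orderOf_eq_one _
  have hrodd : r % 2 = 1 := (hrp.eq_two_or_odd).resolve_left (by omega)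
  -- the elements of order `r` are in the torus
  have hsqR : ∀ y : ℕ → Eˣ, y ^ r = 1 → tor chevE7 y ∈ chevE7.diagonalSubgroup E := by
    intro y hy
    have e1 : y = (y ^ ((r + 1) / 2)) ^ 2 := by
      rw [← pow_mul, show (r + 1) / 2 * 2 = r + 1 by omega, pow_succ, hy, one_mul]
    rw [e1]
    exact tor_sq h h2 axE _
  have hsep : ∀ s, s < chevE7.nroots → ∃ y : ℕ → Eˣ, ∃ hy : tor chevE7 y ∈ chevE7.group E,
      (⟨tor chevE7 y, hy⟩ : ↥(chevE7.group E)) ∈ (Q₀ : Subgroup ↥(chevE7.group E)) ∧ chi chevE7 y s ≠ 1 := by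
    intro s hs
    obtain ⟨i, hi, hne⟩ := exists_coef_ne h hs
    have hci : ¬ (r : ℤ) ∣ coef chevE7 s i := by
      intro e2
      rcases coefOK_all hp s hs i hi with e3 | e3
      · exact hne e3
      · apply hrW
        refine dvd_trans ?_ e3
        exact Int.natCast_dvd.mp e2
    let y : ℕ → Eˣ := fun j => if j = i then lam else 1
    have hy1 : ∀ j, y j ^ r = 1 := by
      intro j
      by_cases hj : j = i
      · simp [y, hj, hlr]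
      · simp [y, hj]
    have hyH : tor chevE7 y ∈ chevE7.diagonalSubgroup E := hsqR y (funext hy1)
    have hyG := diagonal_le_group h axE hyH
    refine ⟨y, hyG, hpow _ hyH 1 ?_, ?_⟩
    · apply Subtype.ext
      show tor chevE7 y ^ (r ^ 1) = 1
      rw [pow_one, tor_pow]
      have : y ^ r = 1 := funext hy1
      rw [this, tor_one]
    · rw [chi, Finset.prod_eq_single i]
      · simp only [y, if_true]
        intro e
        have := orderOf_dvd_iff_zpow_eq_one.mpr e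
        rw [hlam] at this
        exact hci this
      · intro j _ hj
        simp [y, hj]
      · intro hn
        exact absurd (Finset.mem_range.mpr hi) hn
  -- the element
  let ιh := iotaHom h axF axE ι
  have hιinj : Function.Injective ιh := iotaHom_injective h axF axE ι
  have hordι : orderOf (ιh p₀) = r := by
    rw [orderOf_injective ιh hιinj, hp₀]
  let P' : Subgroup ↥(chevE7.group E) := Subgroup.zpowers (ιh p₀)
  have hP' : IsPGroup r P' := by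
    apply IsPGroup.of_card (n := 1)
    rw [pow_one, Nat.card_zpowers, hordι]
  have hιfix : ∀ g, sAut h axE σ (ιh g) = ιh g := sAut_iota h axF axE ι σ hσι
  have hfix : ∀ p ∈ P', sAut h axE σ p = p := by
    rintro _ ⟨k, rfl⟩
    show sAut h axE σ (ιh p₀ ^ k) = ιh p₀ ^ k
    rw [map_zpow, hιfix]
  obtain ⟨x, l, hl, h1, h4⟩ := twist_chev h h2 axE σ hσ Q₀ hQ₀ hpow hsep P' hP' hfix
  have hmem : ιh p₀ ∈ P' := Subgroup.mem_zpowers _
  have hyH₀ : ((x⁻¹ * ιh p₀ * x : ↥(chevE7.group E)) : GL chevE7.Idx E) ∈ chevE7.diagonalSubgroup E := hQ₀ _ (h1 _ hmem)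
  obtain ⟨y₀, hy₀⟩ := exists_tor_of_mem axE h hyH₀
  have hyH : tor chevE7 y₀ ∈ chevE7.diagonalSubgroup E := hy₀ ▸ hyH₀
  have hy₀pow : ∀ j, j < chevE7.rank → y₀ j ^ r = 1 := by
    intro j hj
    have e1 : (x⁻¹ * ιh p₀ * x) ^ r = 1 := by
      have e2 : x⁻¹ * ιh p₀ * x = MulAut.conj x⁻¹ (ιh p₀) := by
        rw [MulAut.conj_apply, inv_inv]
      rw [e2, ← map_pow, ← map_pow, ← hp₀, pow_orderOf_eq_one]
      simp
    have e3 : tor chevE7 (y₀ ^ r) = 1 := by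
      rw [← tor_pow, ← hy₀]
      exact congrArg Subtype.val e1
    simpa using eq_one_of_tor h e3 hj
  have hn : ∀ j : Fin chevE7.rank, ∃ k : ℕ, lam ^ k = y₀ j := fun j => exists_exp hlam _ (hy₀pow j j.isLt)
  choose n hn using hn
  let c : Fin chevE7.rank → ℤ := fun j => n j
  have hc : ∀ j : Fin chevE7.rank, lam ^ c j = y₀ j := fun j => by
    show lam ^ ((n j : ℕ) : ℤ) = _
    rw [zpow_natCast, hn]
  have hcne : ∃ j, ¬ (r : ℤ) ∣ c j := by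
    by_contra hne
    push Not at hne
    have e1 : ∀ j, j < chevE7.rank → y₀ j = (1 : ℕ → Eˣ) j := by
      intro j hj
      rw [← hc ⟨j, hj⟩, Pi.one_apply]
      exact orderOf_dvd_iff_zpow_eq_one.mp (by rw [hlam]; exact hne ⟨j, hj⟩)
    have e2 : tor chevE7 y₀ = tor chevE7 1 := (tor_eq_iff h).2 e1
    rw [tor_one] at e2
    have e3 : x⁻¹ * ιh p₀ * x = 1 := Subtype.ext (hy₀.trans e2)
    have e4 : ιh p₀ = 1 := by
      have e5 : ιh p₀ = x * (x⁻¹ * ιh p₀ * x) * x⁻¹ := by group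
      rw [e5, e3]
      group
    rw [e4, orderOf_one] at hordι
    exact hrp.one_lt.ne hordι
  have hchir : ∀ s, chi chevE7 y₀ s ^ r = 1 := by
    intro s
    rw [chi_eq_zpow y₀ lam c hc, ← zpow_natCast, ← zpow_mul, mul_comm, zpow_mul, zpow_natCast, hlr, one_zpow]
  have hcop : ∀ s, s < chevE7.nroots → chi chevE7 y₀ s ^ q = 1 → chi chevE7 y₀ s = 1 := by
    intro s _ e
    have hcp : Nat.Coprime q r := ((Nat.Prime.coprime_iff_not_dvd hrp).2 hrq).symm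
    have e1 : chi chevE7 y₀ s ^ (Nat.gcd q r) = 1 := pow_gcd_eq_one.2 ⟨e, hchir s⟩
    rw [hcp.gcd_eq_one, pow_one] at e1
    exact e1
  -- the relation
  set s₀ := sAut h axE σ with hs₀
  set T₀ := x⁻¹ * ιh p₀ * x with hT₀
  have hsT : ((s₀ T₀ : ↥(chevE7.group E)) : GL chevE7.Idx E) = tor chevE7 (y₀ ^ q) := by
    rw [hs₀, coe_sAut, hy₀]
    exact mapX_tor_frob σ hσ y₀
  have hrelG : (x⁻¹ * s₀ x) * s₀ T₀ = T₀ * (x⁻¹ * s₀ x) := by
    have e1 : s₀ T₀ = (s₀ x)⁻¹ * ιh p₀ * s₀ x := by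
      rw [hT₀]
      simp only [map_mul, map_inv, hιfix]
    rw [e1, hT₀]
    group
  have hrel : (((x⁻¹ * s₀ x : ↥(chevE7.group E))) : GL chevE7.Idx E) * tor chevE7 (y₀ ^ q) = tor chevE7 y₀ * ((x⁻¹ * s₀ x : ↥(chevE7.group E)) : GL chevE7.Idx E) := by
    rw [← hsT, ← hy₀]
    exact congrArg Subtype.val hrelG
  obtain ⟨l₁, hl₁, a, u, e, ha, hu, he, hac, hτ, hnr⟩ := stageB h h2 axE (x⁻¹ * s₀ x : ↥(chevE7.group E)).2 hyH hrel hcop
  -- the roots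
  obtain ⟨cN, HN⟩ := exists_isNor_nw h h2 axE hl₁
  have HN' := HN.inv h axE
  have hrelπ : ∀ s : Fin chevE7.nroots, chi chevE7 y₀ (((wPw h l₁)⁻¹ s : Fin chevE7.nroots) : ℕ) = chi chevE7 y₀ s ^ q := by
    intro s
    have e1 := conj_tor_chi h h2 axE HN' (y₀ ^ q) y₀ hnr s
    rw [chi_pow] at e1
    exact e1
  have hπW : (wPw h l₁)⁻¹ ∈ Wp h (Set.Iio chevE7.rank) := by
    refine Subgroup.inv_mem _ ((mem_Wp_iff h).2 ⟨l₁, fun i hi => hl₁ i hi, rfl⟩)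
  obtain ⟨l₀, hl₀, hπ₀⟩ := (mem_Wp_iff h).1 hπW
  have hl₀' : ∀ i ∈ l₀, i < chevE7.rank := fun i hi => hl₀ i hi
  have hrels : ∀ k : Fin chevE7.rank, chi chevE7 y₀ (wWord chevE7 l₀ (chevE7.simple k)) = chi chevE7 y₀ (chevE7.simple k) ^ q := by
    intro k
    have e1 := hrelπ ⟨chevE7.simple k, h.simple_lt k k.isLt⟩
    rw [hπ₀, wPw_val h hl₀'] at e1
    exact e1
  obtain ⟨A₀, γ₀, γ₁, γ₂, T, hR, hcase⟩ := lattice_E7 h hW hl₀' hrord hcne (eig_mem h hlam hc hrels)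
  obtain ⟨g₀, g₁, g₂, o01, o02, o12, a0, a1, a2, hS⟩ := roots_of_tri h T (hcase.imp id (fun e => e.1))
  have hcrdπ : ∀ s : Fin chevE7.nroots, crd chevE7 (((wPw h l₁)⁻¹ s : Fin chevE7.nroots) : ℕ) = Aw chevE7 l₀ *ᵥ crd chevE7 s := by
    intro s
    rw [hπ₀, wPw_val h hl₀', Aw_crd h hl₀' s.isLt]
  have hchiS : ∀ s : Fin chevE7.nroots, chi chevE7 y₀ s = 1 ↔ Six (crd chevE7 g₀) (crd chevE7 g₁) (crd chevE7 g₂) (crd chevE7 s) := by
    intro s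
    rw [chi_eq_one_iff hlam hc, hR _ (norm_crd h s.isLt)]
    exact hS _
  have hP : ∀ β, (β < chevE7.nroots ∧ chi chevE7 y₀ β = 1) → β = g₀ ∨ β = chevE7.neg g₀ ∨ β = g₁ ∨ β = chevE7.neg g₁ ∨ β = g₂ ∨ β = chevE7.neg g₂ := by
    rintro β ⟨hβ, hχ⟩
    have hS' := (hchiS ⟨β, hβ⟩).1 hχ
    have hneg : ∀ g : Fin chevE7.nroots, crd chevE7 β = - crd chevE7 g → β = chevE7.neg g := by
      intro g e1
      have e2 : (⟨β, hβ⟩ : Fin chevE7.nroots) = negF h g := root_ext h (by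
        rw [crd_negF]
        exact e1)
      exact congrArg Fin.val e2
    have hpos : ∀ g : Fin chevE7.nroots, crd chevE7 β = crd chevE7 g → β = g := by
      intro g e1
      have e2 : (⟨β, hβ⟩ : Fin chevE7.nroots) = g := root_ext h e1
      exact congrArg Fin.val e2
    rcases hS' with e1 | e1 | e1 | e1 | e1 | e1
    · exact Or.inl (hpos _ e1)
    · exact Or.inr (Or.inl (hneg _ e1))
    · exact Or.inr (Or.inr (Or.inl (hpos _ e1)))
    · exact Or.inr (Or.inr (Or.inr (Or.inl (hneg _ e1))))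
    · exact Or.inr (Or.inr (Or.inr (Or.inr (Or.inl (hpos _ e1)))))
    · exact Or.inr (Or.inr (Or.inr (Or.inr (Or.inr (hneg _ e1)))))
  have hchi1 : ∀ g : Fin chevE7.nroots, Six (crd chevE7 g₀) (crd chevE7 g₁) (crd chevE7 g₂) (crd chevE7 g) → chi chevE7 y₀ g = 1 ∧ chi chevE7 y₀ (chevE7.neg g) = 1 := by
    intro g hg
    refine ⟨(hchiS g).2 hg, ?_⟩
    have e1 := (hchiS (negF h g)).2 (by
      rw [crd_negF]
      rcases hg with e1 | e1 | e1 | e1 | e1 | e1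
      · exact Or.inr (Or.inl (by rw [e1]))
      · exact Or.inl (by rw [e1, neg_neg])
      · exact Or.inr (Or.inr (Or.inr (Or.inl (by rw [e1]))))
      · exact Or.inr (Or.inr (Or.inl (by rw [e1, neg_neg])))
      · exact Or.inr (Or.inr (Or.inr (Or.inr (Or.inr (by rw [e1])))))
      · exact Or.inr (Or.inr (Or.inr (Or.inr (Or.inl (by rw [e1, neg_neg]))))))
    exact e1
  -- the twist
  have hRCG : ∀ v ∈ RC axE y₀, v ∈ chevE7.group E := fun v hv => by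
    refine rootClosure_le axE (fun r t hr => xG_mem_group axE hr.1 t) hv
  let aG' : ↥(chevE7.group E) := ⟨a, hRCG a ha⟩
  have haG : (aG' : GL chevE7.Idx E) = a := rfl
  set w := (e⁻¹ * u * e) * mapX chevE7 (σ : E →+* E) a with hw
  have hwRC : w ∈ RC axE y₀ := by
    refine Subgroup.mul_mem _ ?_ (mapX_rootClosure axE axE (σ : E →+* E) ha)
    have := diagonal_conj_rootClosure axE h (fun r hr => hr.1) (Subgroup.inv_mem _ he) hu
    rwa [inv_inv] at this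
  obtain ⟨U₀, U₁, U₂, hU⟩ := range_T h h2 axE o01 o02 o12 hP hwRC
  refine ⟨E, inferInstance, inferInstance, σ, ι, axE, r, hrf, p₀, x * aG', y₀, lam, c, l₁, e, U₀, U₁, U₂, g₀, g₁, g₂, hcE, hσ, hσι, hrord, hrW', hW, ?_, hyH, hlam, hc, hcne, hl₁, he, ?_, o01, o02, o12, ?_, ?_, ?_, (hchi1 g₀ (Or.inl rfl)).1, (hchi1 g₀ (Or.inl rfl)).2,
    (hchi1 g₁ (Or.inr (Or.inr (Or.inl rfl)))).1, (hchi1 g₁ (Or.inr (Or.inr (Or.inl rfl)))).2, (hchi1 g₂ (Or.inr (Or.inr (Or.inr (Or.inr (Or.inl rfl)))))).1, (hchi1 g₂ (Or.inr (Or.inr (Or.inr (Or.inr (Or.inl rfl)))))).2⟩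
  · -- the torus element
    have e1 : (((x * aG')⁻¹ * ιh p₀ * (x * aG') : ↥(chevE7.group E)) : GL chevE7.Idx E) = a⁻¹ * (T₀ : GL chevE7.Idx E) * a := by
      have e2 : (x * aG')⁻¹ * ιh p₀ * (x * aG') = aG'⁻¹ * T₀ * aG' := by
        rw [hT₀]
        group
      rw [e2]
      rfl
    rw [e1, hy₀]
    have e3 : a⁻¹ * tor chevE7 y₀ * a = a⁻¹ * (tor chevE7 y₀ * a) := by group
    rw [e3, hac]
    group
  · -- the twist
    have e1 : (((x * aG')⁻¹ * s₀ (x * aG') : ↥(chevE7.group E)) : GL chevE7.Idx E) = a⁻¹ * ((x⁻¹ * s₀ x : ↥(chevE7.group E)) : GL chevE7.Idx E) * mapX chevE7 (σ : E →+* E) a := by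
      have e2 : (x * aG')⁻¹ * s₀ (x * aG') = aG'⁻¹ * (x⁻¹ * s₀ x) * s₀ aG' := by
        rw [map_mul]
        group
      rw [e2]
      rfl
    rw [e1, hτ, ← hU, hw]
    group
  · apply root_ext h
    rw [hcrdπ]
    exact a0
  · apply root_ext h
    rw [hcrdπ]
    exact a1
  · rcases a2 with e1 | e1
    · left
      apply root_ext h
      rw [hcrdπ]
      exact e1
    · right
      apply root_ext h
      rw [hcrdπ, crd_negF]
      exact e1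

end Cfsg.Agent.Lib.KS71.E7q
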