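import Mathlib

/-!
A matrix form of the theorem of Lang for `GL₂`, found by hand: a matrix `R` over a finite field becomes, over a finite extension,
antidiagonal after a twisted conjugation.
-/

set_option autoImplicit false
set_option linter.unusedVariables false
set_option linter.unusedSectionVars false

namespace Cfsg.Agent.Lib.KS71.E7u

open Polynomial Matrix
open scoped MatrixGroups

/-- The polynomial whose roots give the fixed points. -/
noncomputable def polyP {K : Type*} [Field K] (N : ℕ) (c a d b : K) : K[X] :=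
  C c * X ^ (N + 1) - C a * X ^ N + C d * X - C b

lemma map_polyP {K L : Type*} [Field K] [Field L] (j : K →+* L) (N : ℕ) (c a d b : K) :
    (polyP N c a d b).map j = polyP N (j c) (j a) (j d) (j b) := by
  simp [polyP, Polynomial.map_sub, Polynomial.map_add, Polynomial.map_mul, Polynomial.map_pow]

lemma eval_polyP {K : Type*} [Field K] (N : ℕ) (c a d b z : K) :
    (polyP N c a d b).eval z = c * z ^ (N + 1) - a * z ^ N + d * z - b := by
  simp [polyP]

lemma coeff_top {K : Type*} [Field K] {N : ℕ} (hN : 2 ≤ N) (c a d b : K) :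
    (polyP N c a d b).coeff (N + 1) = c := by
  simp only [polyP, coeff_sub, coeff_add, coeff_C_mul, coeff_X_pow, coeff_X, coeff_C]
  split_ifs <;> first | (exfalso; omega) | ring

lemma coeff_next {K : Type*} [Field K] {N : ℕ} (hN : 2 ≤ N) (c a d b : K) :
    (polyP N c a d b).coeff N = -a := by
  simp only [polyP, coeff_sub, coeff_add, coeff_C_mul, coeff_X_pow, coeff_X, coeff_C]
  split_ifs <;> first | (exfalso; omega) | ring

lemma coeff_one {K : Type*} [Field K] {N : ℕ} (hN : 2 ≤ N) (c a d b : K) :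
    (polyP N c a d b).coeff 1 = d := by
  simp only [polyP, coeff_sub, coeff_add, coeff_C_mul, coeff_X_pow, coeff_X, coeff_C]
  split_ifs <;> first | (exfalso; omega) | ring

lemma coeff_zero' {K : Type*} [Field K] {N : ℕ} (hN : 2 ≤ N) (c a d b : K) :
    (polyP N c a d b).coeff 0 = -b := by
  simp only [polyP, coeff_sub, coeff_add, coeff_C_mul, coeff_X_pow, coeff_X, coeff_C]
  split_ifs <;> first | (exfalso; omega) | ring

lemma natDegree_polyP_le {K : Type*} [Field K] (N : ℕ) (c a d b : K) (hN : 2 ≤ N) :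
    (polyP N c a d b).natDegree ≤ N + 1 := by
  rw [polyP]
  compute_degree

lemma polyP_ne_zero {K : Type*} [Field K] {N : ℕ} (hN : 2 ≤ N) {c a d b : K}
    (h : c ≠ 0 ∨ a ≠ 0 ∨ d ≠ 0 ∨ b ≠ 0) : polyP N c a d b ≠ 0 := by
  intro e
  have e1 := coeff_top hN c a d b
  have e2 := coeff_next hN c a d b
  have e3 := coeff_one hN c a d b
  have e4 := coeff_zero' hN c a d b
  rw [e, coeff_zero] at e1 e2 e3 e4
  rcases h with h | h | h | h
  · exact h e1.symm
  · exact h (by simpa using e2.symm)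
  · exact h e3.symm
  · exact h (by simpa using e4.symm)

lemma lower_natDegree {K : Type*} [Field K] {N : ℕ} (hN : 2 ≤ N) {c a d b : K}
    (h : c ≠ 0 ∨ a ≠ 0) : N ≤ (polyP N c a d b).natDegree := by
  rcases h with h | h
  · have : N + 1 ≤ _ := le_natDegree_of_ne_zero (p := polyP N c a d b) (n := N + 1) (by rw [coeff_top hN]; exact h)
    omega
  · exact le_natDegree_of_ne_zero (by rw [coeff_next hN]; exact neg_ne_zero.mpr h)

lemma derivative_polyP {K : Type*} [Field K] {N : ℕ} (hN : 2 ≤ N) (hN0 : (N : K) = 0) (c a d b : K) :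
    derivative (polyP N c a d b) = C c * X ^ N + C d := by
  simp only [polyP, derivative_sub, derivative_add, derivative_mul, derivative_C, derivative_X_pow, derivative_X, zero_mul, zero_add, mul_one]
  simp only [hN0, Nat.cast_add, Nat.cast_one, Nat.add_sub_cancel, map_add, map_one, map_zero, zero_mul, mul_zero, sub_zero, zero_add, one_mul]

/-- The existence of a good root. -/
theorem exists_root {K : Type} [Field K] {N M : ℕ} (hN : 2 ≤ N) (hN0 : (N : K) = 0) (hM : 2 ≤ M) (hMN : M + 1 < N) {c a d b c' a' d' b' : K}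
    (hdet : a * d - b * c ≠ 0) (hne : c' ≠ 0 ∨ a' ≠ 0 ∨ d' ≠ 0 ∨ b' ≠ 0) :
    ∃ z : (polyP N c a d b).SplittingField, (polyP N (algebraMap K _ c) (algebraMap K _ a) (algebraMap K _ d) (algebraMap K _ b)).eval z = 0 ∧
      (polyP M (algebraMap K _ c') (algebraMap K _ a') (algebraMap K _ d') (algebraMap K _ b')).eval z ≠ 0 := by
  classical
  set L := (polyP N c a d b).SplittingField with hL
  set j : K →+* L := algebraMap K L with hj
  have hinj : Function.Injective j := j.injective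
  have hs : ((polyP N c a d b).map j).Splits := SplittingField.splits _
  rw [map_polyP] at hs
  set f := polyP N (j c) (j a) (j d) (j b) with hf
  set g := polyP M (j c') (j a') (j d') (j b') with hg
  have hca : c ≠ 0 ∨ a ≠ 0 := by
    by_contra e
    push Not at e
    apply hdet
    rw [e.1, e.2]
    ring
  have hca' : j c ≠ 0 ∨ j a ≠ 0 := hca.imp (fun e => (map_ne_zero j).2 e) (fun e => (map_ne_zero j).2 e)
  have hf0 : f ≠ 0 := polyP_ne_zero hN (by
    rcases hca' with e | e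
    · exact Or.inl e
    · exact Or.inr (Or.inl e))
  have hg0 : g ≠ 0 := polyP_ne_zero hM (hne.imp (fun e => (map_ne_zero j).2 e) (fun e => e.imp (fun e => (map_ne_zero j).2 e) (fun e => e.imp (fun e => (map_ne_zero j).2 e) (fun e => (map_ne_zero j).2 e))))
  have hN0' : (N : L) = 0 := by
    have := congrArg j hN0
    simpa using this
  have hnodup : f.roots.Nodup := by
    rw [Multiset.nodup_iff_count_le_one]
    intro z
    rw [count_roots]
    by_contra e
    push Not at e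
    have e1 := (one_lt_rootMultiplicity_iff_isRoot hf0).1 e
    obtain ⟨e2, e3⟩ := e1
    rw [IsRoot, hf, eval_polyP] at e2
    rw [IsRoot, hf, derivative_polyP hN hN0'] at e3
    simp only [eval_add, eval_mul, eval_C, eval_pow, eval_X] at e3
    have e4 : j a * z ^ N + j b = 0 := by
      linear_combination z * e3 - e2
    -- the two linear equations
    have e5 : j (a * d - b * c) = 0 := by
      rw [map_sub, map_mul, map_mul]
      linear_combination (j a) * e3 - (j c) * e4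
    exact hdet ((map_eq_zero j).1 e5)
  by_contra hall
  push Not at hall
  have hsub : f.roots.toFinset ⊆ g.roots.toFinset := by
    intro z hz
    rw [Multiset.mem_toFinset] at hz ⊢
    rw [mem_roots hg0, IsRoot]
    exact hall z ((mem_roots hf0).1 hz)
  have h1 : f.natDegree = Multiset.card f.roots := hs.natDegree_eq_card_roots
  have h2 : (f.roots.toFinset).card = Multiset.card f.roots := Multiset.toFinset_card_of_nodup hnodup
  have h3 : (g.roots.toFinset).card ≤ Multiset.card g.roots := Multiset.toFinset_card_le _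
  have h4 : Multiset.card g.roots ≤ g.natDegree := card_roots' g
  have h5 := Finset.card_le_card hsub
  have h6 : g.natDegree ≤ M + 1 := natDegree_polyP_le _ _ _ _ _ hM
  have h7 : N ≤ f.natDegree := lower_natDegree hN hca'
  omega

/-- The computation in the extension. -/
lemma lang_L {L : Type*} [Field L] {Q : ℕ} (ψ : L →+* L) (hψ : ∀ x, ψ x = x ^ Q) (a b c d z : L)
    (hz1 : (c * a ^ Q + d * c ^ Q) * z ^ (Q ^ 2 + 1) - (a * a ^ Q + b * c ^ Q) * z ^ (Q ^ 2) + (c * b ^ Q + d * d ^ Q) * z - (a * b ^ Q + b * d ^ Q) = 0)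
    (hz2 : c * z ^ (Q + 1) - a * z ^ Q + d * z - b ≠ 0) :
    ∃ (D₀ : SL(2, L)) (μ Δ : L), !![a, b; c, d] * D₀.1.map ψ = D₀.1 * !![0, μ; Δ, 0] := by
  set Δ := c * z ^ (Q + 1) - a * z ^ Q + d * z - b with hΔ
  set W₀ := a * z ^ Q + b with hW₀
  set W₁ := c * z ^ Q + d with hW₁
  have hdetD : z * (W₁ / Δ) - (W₀ / Δ) * 1 = 1 := by
    field_simp
    rw [hΔ, hW₀, hW₁]
    ring
  let D₀ : SL(2, L) := ⟨!![z, W₀ / Δ; 1, W₁ / Δ], by
    rw [Matrix.det_fin_two_of]
    exact hdetD⟩
  have hD : D₀.1 = !![z, W₀ / Δ; 1, W₁ / Δ] := rfl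
  have hΔ' : ψ Δ ≠ 0 := (map_ne_zero ψ).2 hz2
  set Z := z ^ (Q ^ 2) with hZ
  have hzz : z ^ (Q ^ 2 + 1) = z * Z := by
    rw [pow_succ, hZ, mul_comm]
  have e0 : ψ z = z ^ Q := hψ z
  have eZ : ψ (z ^ Q) = Z := by
    rw [hψ, hZ, ← pow_mul, pow_two]
  have eW₀ : ψ W₀ = a ^ Q * Z + b ^ Q := by
    rw [hW₀, map_add, map_mul, hψ a, hψ b, eZ]
  have eW₁ : ψ W₁ = c ^ Q * Z + d ^ Q := by
    rw [hW₁, map_add, map_mul, hψ c, hψ d, eZ]
  refine ⟨D₀, ((c * a ^ Q + d * c ^ Q) * Z + (c * b ^ Q + d * d ^ Q)) / ψ Δ, Δ, ?_⟩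
  rw [hD]
  rw [hzz] at hz1
  ext i j
  fin_cases i <;> fin_cases j
  · simp only [Matrix.mul_apply, Fin.sum_univ_two, Matrix.map_apply]
    simp
    rw [e0]
    field_simp
    rw [hW₀]
  · simp only [Matrix.mul_apply, Fin.sum_univ_two, Matrix.map_apply]
    simp
    rw [eW₀, eW₁]
    field_simp
    linear_combination -hz1
  · simp only [Matrix.mul_apply, Fin.sum_univ_two, Matrix.map_apply]
    simp
    rw [e0]
    field_simp
    rw [hW₁]
  · simp only [Matrix.mul_apply, Fin.sum_univ_two, Matrix.map_apply]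
    simp
    rw [eW₀, eW₁]
    field_simp
    ring

/-- The finite extension. -/
lemma lang_step {E₁ : Type} [Field E₁] [Fintype E₁] {q p n Q : ℕ} [hp : Fact p.Prime] [CharP E₁ p] (hq : q = p ^ n) (hQ : Q = q ^ 3) (hq2 : 2 ≤ q) (hQ2 : 2 ≤ Q)
    (R : Matrix (Fin 2) (Fin 2) E₁) (a b c d : E₁) (ha : R 0 0 = a) (hb : R 0 1 = b) (hc : R 1 0 = c) (hd : R 1 1 = d)
    {L : Type} [Field L] [Algebra E₁ L] [FiniteDimensional E₁ L] (z : L)
    (hz1 : (algebraMap E₁ L c * algebraMap E₁ L a ^ Q + algebraMap E₁ L d * algebraMap E₁ L c ^ Q) * z ^ (Q ^ 2 + 1) - (algebraMap E₁ L a * algebraMap E₁ L a ^ Q + algebraMap E₁ L b * algebraMap E₁ L c ^ Q) * z ^ (Q ^ 2) + (algebraMap E₁ L c * algebraMap E₁ L b ^ Q + algebraMap E₁ L d * algebraMap E₁ L d ^ Q) * z - (algebraMap E₁ L a * algebraMap E₁ L b ^ Q + algebraMap E₁ L b * algebraMap E₁ L d ^ Q) = 0)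
    (hz2 : algebraMap E₁ L c * z ^ (Q + 1) - algebraMap E₁ L a * z ^ Q + algebraMap E₁ L d * z - algebraMap E₁ L b ≠ 0) :
    ∃ (L : Type) (_ : Field L) (_ : Fintype L) (j : E₁ →+* L) (σ' : L ≃+* L) (k : ℕ), 0 < k ∧ Fintype.card L = Fintype.card E₁ ^ k ∧
      (∀ x, σ' x = x ^ q) ∧ ∃ (D₀ : SL(2, L)) (μ Δ : L),
        R.map j * D₀.1.map (fun x => σ' (σ' (σ' x))) = D₀.1 * !![0, μ; Δ, 0] := by
  classical
  set j : E₁ →+* L := algebraMap E₁ L with hj
  haveI : Finite L := Module.finite_of_finite E₁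
  letI : Fintype L := Fintype.ofFinite L
  haveI hcL : CharP L p := charP_of_injective_ringHom j.injective p
  haveI : ExpChar L p := ExpChar.prime hp.out
  obtain ⟨σ', hσ'⟩ : ∃ σ' : L ≃+* L, ∀ x, σ' x = x ^ q := by
    let σ'' : L →+* L := iterateFrobenius L p n
    have hbij : Function.Bijective σ'' := Finite.injective_iff_bijective.1 σ''.injective
    refine ⟨RingEquiv.ofBijective σ'' hbij, fun x => ?_⟩
    show iterateFrobenius L p n x = _
    rw [iterateFrobenius_def, hq]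
  refine ⟨L, inferInstance, inferInstance, j, σ', Module.finrank E₁ L, Module.finrank_pos, Module.card_eq_pow_finrank, hσ', ?_⟩
  let ψ : L →+* L := (σ' : L →+* L).comp ((σ' : L →+* L).comp (σ' : L →+* L))
  have hψ : ∀ x, ψ x = x ^ Q := by
    intro x
    show σ' (σ' (σ' x)) = _
    rw [hσ', hσ', hσ', hQ, ← pow_mul, ← pow_mul]
    congr 1
    ring
  obtain ⟨D₀, μ, Δ, e⟩ := lang_L ψ hψ (j a) (j b) (j c) (j d) z hz1 hz2
  refine ⟨D₀, μ, Δ, ?_⟩
  have e5 : R.map j = !![j a, j b; j c, j d] := by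
    ext i k
    fin_cases i <;> fin_cases k
    · exact congrArg j ha
    · exact congrArg j hb
    · exact congrArg j hc
    · exact congrArg j hd
  rw [e5]
  exact e

/-- The form of Lang's theorem that we need. -/
theorem lang2 {E₁ : Type} [Field E₁] [Fintype E₁] {q p n : ℕ} [hp : Fact p.Prime] [CharP E₁ p] (hq : q = p ^ n) (hq2 : 2 ≤ q) (hq0 : (q : E₁) = 0)
    (σ₁ : E₁ ≃+* E₁) (hσ₁ : ∀ x, σ₁ x = x ^ q) (R : Matrix (Fin 2) (Fin 2) E₁) (hR : R.det ≠ 0) :
    ∃ (L : Type) (_ : Field L) (_ : Fintype L) (j : E₁ →+* L) (σ' : L ≃+* L) (k : ℕ), 0 < k ∧ Fintype.card L = Fintype.card E₁ ^ k ∧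
      (∀ x, σ' x = x ^ q) ∧ ∃ (D₀ : SL(2, L)) (μ Δ : L),
        R.map j * D₀.1.map (fun x => σ' (σ' (σ' x))) = D₀.1 * !![0, μ; Δ, 0] := by
  classical
  set Q := q ^ 3 with hQ
  have hq2' : 2 ^ 1 ≤ q := by simpa using hq2
  have hQ2 : 2 ≤ Q := by
    calc 2 ≤ q := hq2
      _ = q ^ 1 := (pow_one q).symm
      _ ≤ q ^ 3 := Nat.pow_le_pow_right (by omega) (by norm_num)
  have hN2 : 2 ≤ Q ^ 2 := by nlinarith
  have hQ3 : 3 ≤ Q := by
    have := Nat.pow_le_pow_left hq2 3
    rw [← hQ] at this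
    omega
  have hMN : Q + 1 < Q ^ 2 := by nlinarith
  have hψ₁ : ∀ x : E₁, σ₁ (σ₁ (σ₁ x)) = x ^ Q := by
    intro x
    rw [hσ₁, hσ₁, hσ₁, hQ, ← pow_mul, ← pow_mul]
    congr 1
    ring
  set a := R 0 0 with ha
  set b := R 0 1 with hb
  set c := R 1 0 with hc
  set d := R 1 1 with hd
  have hdet : a * d - b * c ≠ 0 := by
    rw [Matrix.det_fin_two] at hR
    exact hR
  have hdetQ : a ^ Q * d ^ Q - b ^ Q * c ^ Q ≠ 0 := by
    have e : σ₁ (σ₁ (σ₁ (a * d - b * c))) = a ^ Q * d ^ Q - b ^ Q * c ^ Q := by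
      simp only [map_sub, map_mul, hψ₁]
    intro e0
    rw [← e] at e0
    exact hdet ((map_eq_zero σ₁).1 ((map_eq_zero σ₁).1 ((map_eq_zero σ₁).1 e0)))
  set α := a * a ^ Q + b * c ^ Q with hα
  set β := a * b ^ Q + b * d ^ Q with hβ
  set γ := c * a ^ Q + d * c ^ Q with hγ
  set δ := c * b ^ Q + d * d ^ Q with hδ
  have hdet₂ : α * δ - β * γ ≠ 0 := by
    have e : α * δ - β * γ = (a * d - b * c) * (a ^ Q * d ^ Q - b ^ Q * c ^ Q) := by
      simp only [hα, hβ, hγ, hδ]
      ring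
    rw [e]
    exact mul_ne_zero hdet hdetQ
  have hN0 : ((Q ^ 2 : ℕ) : E₁) = 0 := by
    rw [hQ]
    push_cast
    rw [hq0]
    simp
  have hne : c ≠ 0 ∨ a ≠ 0 ∨ d ≠ 0 ∨ b ≠ 0 := by
    by_contra e
    push Not at e
    obtain ⟨e1, e2, e3, e4⟩ := e
    apply hdet
    rw [e2, e4]
    ring
  obtain ⟨z, hz1, hz2⟩ := exists_root (N := Q ^ 2) (M := Q) (K := E₁) hN2 hN0 hQ2 hMN (c := γ) (a := α) (d := δ) (b := β) (c' := c) (a' := a) (d' := d) (b' := b) hdet₂ hne
  refine lang_step hq hQ hq2 hQ2 R a b c d rfl rfl rfl rfl (L := (polyP (Q ^ 2) γ α δ β).SplittingField) z ?_ ?_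
  · rw [eval_polyP] at hz1
    have e1 : algebraMap E₁ _ γ = algebraMap E₁ (polyP (Q ^ 2) γ α δ β).SplittingField c * algebraMap E₁ _ a ^ Q + algebraMap E₁ _ d * algebraMap E₁ _ c ^ Q := by
      simp only [hγ, map_add, map_mul, map_pow]
    have e2 : algebraMap E₁ _ α = algebraMap E₁ (polyP (Q ^ 2) γ α δ β).SplittingField a * algebraMap E₁ _ a ^ Q + algebraMap E₁ _ b * algebraMap E₁ _ c ^ Q := by
      simp only [hα, map_add, map_mul, map_pow]
    have e3 : algebraMap E₁ _ δ = algebraMap E₁ (polyP (Q ^ 2) γ α δ β).SplittingField c * algebraMap E₁ _ b ^ Q + algebraMap E₁ _ d * algebraMap E₁ _ d ^ Q := by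
      simp only [hδ, map_add, map_mul, map_pow]
    have e4 : algebraMap E₁ _ β = algebraMap E₁ (polyP (Q ^ 2) γ α δ β).SplittingField a * algebraMap E₁ _ b ^ Q + algebraMap E₁ _ b * algebraMap E₁ _ d ^ Q := by
      simp only [hβ, map_add, map_mul, map_pow]
    rw [e1, e2, e3, e4] at hz1
    exact hz1
  · rw [eval_polyP] at hz2
    exact hz2

end Cfsg.Agent.Lib.KS71.E7u
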