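/-
The cyclic self-centralizing subgroup of order `(q⁴ - q² + 1)(q³ + 1) / gcd(2, q - 1)` in `E₇(q)`.
-/
import Mathlib
import Cfsg.Agent.Lib.KS71.E7q
import Cfsg.Agent.Lib.KS71.E7u

set_option autoImplicit false
set_option linter.unusedSectionVars false
set_option linter.unusedVariables false
set_option maxRecDepth 100000

namespace Cfsg.Agent.Lib.KS71.E7z

open scoped MatrixGroups Matrix
open Cfsg Cfsg.Lie Cfsg.Lie.ChevalleyDatum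
open Cfsg.Agent.Lib.Chev.Tables Cfsg.Agent.Lib.Chev.Tables2 Cfsg.Agent.Lib.Chev.Tables3 Cfsg.Agent.Lib.Chev.Raise
open Cfsg.Agent.Lib.Chev.Basic Cfsg.Agent.Lib.Chev.AxBasic Cfsg.Agent.Lib.Chev.Torus
open Cfsg.Agent.Lib.Chev.Products Cfsg.Agent.Lib.Chev.Products2 Cfsg.Agent.Lib.Chev.Mono1
open Cfsg.Agent.Lib.Chev.Mono2 Cfsg.Agent.Lib.Chev.Mono3 Cfsg.Agent.Lib.Chev.Bn
open Cfsg.Agent.Lib.Chev.Order1 Cfsg.Agent.Lib.Chev.Order2 Cfsg.Agent.Lib.Chev.Parab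
open Cfsg.Agent.Lib.Chev.Diag Cfsg.Agent.Lib.Chev.SL2 Cfsg.Agent.Lib.Chev.SL2Chev Cfsg.Agent.Lib.Chev.Order3
open Cfsg.Agent.Lib.KS71.ChevFix Cfsg.Agent.Lib.KS71.IVb Cfsg.Agent.Lib.KS71.IVf Cfsg.Agent.Lib.KS71.HCa
open Cfsg.Agent.Lib.KS71.HCb Cfsg.Agent.Lib.KS71.HCc Cfsg.Agent.Lib.KS71.HCd Cfsg.Agent.Lib.KS71.HCf Cfsg.Agent.Lib.KS71.HCg
open Cfsg.Agent.Lib.KS71.HCh Cfsg.Agent.Lib.KS71.HCi
open Cfsg.Agent.Lib.KS71.HCj Cfsg.Agent.Lib.KS71.HCk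
open Cfsg.Agent.Lib.KS71.HCm Cfsg.Agent.Lib.KS71.HCn Cfsg.Agent.Lib.KS71.HCo Cfsg.Agent.Lib.KS71.HCp
open Cfsg.Agent.Lib.KS71.E7k Cfsg.Agent.Lib.KS71.E7l
open Cfsg.Agent.Lib.KS71.E7m Cfsg.Agent.Lib.KS71.E7n Cfsg.Agent.Lib.KS71.E7o Cfsg.Agent.Lib.KS71.E7p Cfsg.Agent.Lib.KS71.E7t Cfsg.Agent.Lib.KS71.E7s
open Cfsg.Agent.Lib.KS71.E7q Cfsg.Agent.Lib.KS71.E7u

lemma mono_form (h : Tab chevE7) (h2 : Tab2 chevE7) {K : Type*} [Field K] (ax : Ax chevE7 K) {l : List ℕ} (hl : ∀ i ∈ l, i < chevE7.rank) {e : GL chevE7.Idx K}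
    (he : e ∈ chevE7.diagonalSubgroup K) :
    (nw chevE7 ax l)⁻¹ * e ∈ chevE7.monomialSubgroup K ∧ ∀ π c, IsNor h ax ((nw chevE7 ax l)⁻¹ * e) π c → π = (wPw h l)⁻¹ := by
  have h1 := nw_mem_monomial_aux h h2 ax hl
  have h3 : e ∈ chevE7.monomialSubgroup K := (le_sup_left : chevE7.diagonalSubgroup K ≤ _) he
  have hm := Subgroup.mul_mem _ (Subgroup.inv_mem _ h1) h3
  refine ⟨hm, ?_⟩
  intro π c H
  have e1 : piN h h2 ax ⟨(nw chevE7 ax l)⁻¹ * e, hm⟩ = π := piN_of_isNor h h2 ax H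
  have e2 : (⟨(nw chevE7 ax l)⁻¹ * e, hm⟩ : ↥(chevE7.monomialSubgroup K)) = (⟨nw chevE7 ax l, h1⟩ : ↥(chevE7.monomialSubgroup K))⁻¹ * ⟨e, h3⟩ := Subtype.ext rfl
  rw [← e1, e2, map_mul, map_inv, piN_nw h h2 ax hl, (piN_eq_one_iff h h2 ax _).2 he, mul_one]

lemma isNor_compare (h : Tab chevE7) (h2 : Tab2 chevE7) {K L : Type*} [Field K] [Field L] (j : K →+* L) (axK : Ax chevE7 K) (axL : Ax chevE7 L) {m : GL chevE7.Idx K}
    {π π' : Equiv.Perm (Fin chevE7.nroots)} {c : Fin chevE7.nroots → Kˣ} {c' : Fin chevE7.nroots → Lˣ} (H : IsNor h axK m π c) (H' : IsNor h axL (mapX chevE7 j m) π' c')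
    (s : Fin chevE7.nroots) : π' s = π s ∧ c' s = Units.map (j : K →* L) (c s) := by
  have e1 := congrArg (mapX chevE7 j) (H.conj s 1)
  simp only [map_mul, map_inv, mapX_xG axK axL] at e1
  have e2 := H'.conj s (j 1)
  rw [e2] at e1
  rw [map_one, mul_one, mul_one] at e1
  have e3 : (c' s : L) ≠ 0 := (c' s).ne_zero
  obtain ⟨e4, e5⟩ := xG_eq_iff axL h h2 (π' s).isLt (π s).isLt e3 e1
  refine ⟨Fin.ext e4, Units.ext ?_⟩
  exact e5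

lemma glmap_comm {K L : Type*} [Field K] [Field L] (j : K →+* L) (σ₁ : K →+* K) (σ' : L →+* L) (hj : ∀ x, σ' (j x) = j (σ₁ x)) (X : GL (Fin 2) K) :
    Matrix.GeneralLinearGroup.map j (Matrix.GeneralLinearGroup.map σ₁ X) = Matrix.GeneralLinearGroup.map σ' (Matrix.GeneralLinearGroup.map j X) := by
  apply Units.ext
  ext a b
  show j (σ₁ ((X : Matrix (Fin 2) (Fin 2) K) a b)) = σ' (j ((X : Matrix (Fin 2) (Fin 2) K) a b))
  rw [hj]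

lemma mapX_comp' {K L M : Type*} [Field K] [Field L] [Field M] (f : K →+* L) (g : L →+* M) (X : GL chevE7.Idx K) :
    mapX chevE7 g (mapX chevE7 f X) = mapX chevE7 (g.comp f) X := by
  apply Units.ext
  rw [coe_mapX, coe_mapX, coe_mapX]
  ext a b
  rfl

universe u

set_option maxHeartbeats 8000000 in
/-- The main construction for `E₇`. -/
theorem main_E7 {F : Type u} [Field F] [Fintype F] (q : ℕ) (hq : Fintype.card F = q) :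
    ∃ H : Subgroup ↥(chevE7.group F), IsCyclic ↥H ∧ Nat.card ↥H = (q ^ 4 - q ^ 2 + 1) * (q ^ 3 + 1) / Nat.gcd 2 (q - 1) ∧
      Subgroup.centralizer (H : Set ↥(chevE7.group F)) = H := by
  classical
  have hp : (chevE7, [2, 6, 8, 10, 12, 14, 18]) ∈ typeList := by simp [typeList]
  have hD := mem_list hp
  have h := tab_of_mem hD
  have h2 := tab2_of_mem hD
  have axF := Cfsg.Agent.Lib.Lie.AxOf.ax_of_mem (F := F) hD
  have hq2 : 2 ≤ q := by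
    rw [← hq]
    exact Fintype.one_lt_card
  obtain ⟨E₁, _, _, σ₁, ι₁, axE₁, r, hr, p₀, x₂, y₀, lam, c, l₁, e, U₀, U₁, U₂, g₀, g₁, g₂, hcE₁, hσ₁, hσι₁, hrord, hrW, hW, hy₀, hyH, hlam, hc, hcne, hl₁, he, hτ,
    o01, o02, o12, hπ0, hπ1, hπ2, χ0, χ0', χ1, χ1', χ2, χ2'⟩ := stage_AB q hq h h2 axF
  haveI := hr
  -- the monomial element over `E₁`
  obtain ⟨hmM, hmπ⟩ := mono_form h h2 axE₁ hl₁ he
  obtain ⟨π, κ, Hm⟩ := exists_isNor h h2 axE₁ hmM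
  have hπ := hmπ π κ Hm
  subst hπ
  obtain ⟨Z₂, hZ₂⟩ : ∃ Z : GL (Fin 2) E₁, ((wPw h l₁)⁻¹ g₂ = g₀ ∧ Z = dG (κ g₂)) ∨ ((wPw h l₁)⁻¹ g₂ = negF h g₀ ∧ Z = aG (κ g₂)) := by
    rcases hπ2 with e1 | e1
    · exact ⟨_, Or.inl ⟨e1, rfl⟩⟩
    · exact ⟨_, Or.inr ⟨e1, rfl⟩⟩
  set fE := Matrix.GeneralLinearGroup.map (n := Fin 2) (σ₁ : E₁ →+* E₁) with hfE
  set R₁ : GL (Fin 2) E₁ := Z₂ * gE U₂ * fE (dG (κ g₁)) * fE (gE U₁) * fE (fE (dG (κ g₀))) * fE (fE (gE U₀)) with hR₁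
  have hdetR : (R₁ : Matrix (Fin 2) (Fin 2) E₁).det ≠ 0 := by
    have := (Matrix.isUnit_iff_isUnit_det _).1 R₁.isUnit
    exact this.ne_zero
  -- Lang
  obtain ⟨p, hpc⟩ := CharP.exists F
  haveI hpF : Fact p.Prime := ⟨CharP.char_is_prime F p⟩
  obtain ⟨n, hpr, hqn⟩ := FiniteField.card F p
  haveI : CharP E₁ p := charP_of_injective_ringHom ι₁.injective p
  have hq0 : (q : E₁) = 0 := by
    have e1 : (q : F) = 0 := by
      rw [← hq]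
      exact Nat.cast_card_eq_zero F
    have e2 := congrArg ι₁ e1
    simpa using e2
  obtain ⟨L, _, _, j, σ', k, hk, hcL, hσ', D₀, μ, Δ, hLang⟩ := lang2 (q := q) (p := p) (n := n) (by rw [← hq, hqn]) hq2 hq0 σ₁ hσ₁ (R₁ : Matrix (Fin 2) (Fin 2) E₁) hdetR
  have axL : Ax chevE7 L := Cfsg.Agent.Lib.Lie.AxOf.ax_of_mem (F := L) hD
  have hσ'j : ∀ x, (σ' : L →+* L) (j x) = j ((σ₁ : E₁ →+* E₁) x) := by
    intro x
    show σ' (j x) = j (σ₁ x)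
    rw [hσ', hσ₁, map_pow]
  set ι' : F →+* L := j.comp ι₁ with hι'
  have hσι' : ∀ a, σ' (ι' a) = ι' a := by
    intro a
    exact (hσ'j (ι₁ a)).trans (congrArg j (hσι₁ a))
  -- the monomial element over `L`
  set e' := mapX chevE7 j e with he'def
  have he' : e' ∈ chevE7.diagonalSubgroup L := mapX_H axE₁ axL j he
  obtain ⟨hmM', hmπ'⟩ := mono_form h h2 axL hl₁ he'
  have hmm' : (nw chevE7 axL l₁)⁻¹ * e' = mapX chevE7 j ((nw chevE7 axE₁ l₁)⁻¹ * e) := by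
    rw [map_mul, map_inv, mapX_nw axE₁ axL j]
  obtain ⟨π', c', Hm'⟩ := exists_isNor h h2 axL hmM'
  have hπ' := hmπ' π' c' Hm'
  subst hπ'
  have hc' : ∀ s, c' s = Units.map (j : E₁ →* L) (κ s) := fun s => (isNor_compare h h2 j axE₁ axL Hm (hmm' ▸ Hm') s).2
  set Z₂' := Matrix.GeneralLinearGroup.map j Z₂ with hZ₂'def
  have hZ₂' : ((wPw h l₁)⁻¹ g₂ = g₀ ∧ Z₂' = dG (c' g₂)) ∨ ((wPw h l₁)⁻¹ g₂ = negF h g₀ ∧ Z₂' = aG (c' g₂)) := by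
    rcases hZ₂ with ⟨e1, e2⟩ | ⟨e1, e2⟩
    · left
      refine ⟨e1, ?_⟩
      rw [hZ₂'def, e2, glmap_dG, hc']
    · right
      refine ⟨e1, ?_⟩
      rw [hZ₂'def, e2, glmap_aG, hc']
  set fL := Matrix.GeneralLinearGroup.map (n := Fin 2) (σ' : L →+* L) with hfL
  set U₀' := Matrix.SpecialLinearGroup.map j U₀ with hU₀'
  set U₁' := Matrix.SpecialLinearGroup.map j U₁ with hU₁'
  set U₂' := Matrix.SpecialLinearGroup.map j U₂ with hU₂'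
  have hgl : ∀ X : GL (Fin 2) E₁, Matrix.GeneralLinearGroup.map j (fE X) = fL (Matrix.GeneralLinearGroup.map j X) := fun X => glmap_comm j _ _ hσ'j X
  have hR' : Matrix.GeneralLinearGroup.map j R₁ = Z₂' * gE U₂' * fL (dG (c' g₁)) * fL (gE U₁') * fL (fL (dG (c' g₀))) * fL (fL (gE U₀')) := by
    simp only [hR₁, map_mul, hgl, glmap_gE, glmap_dG, ← hc']
    rfl
  have hL : ((Z₂' * gE U₂' * fL (dG (c' g₁)) * fL (gE U₁') * fL (fL (dG (c' g₀))) * fL (fL (gE U₀')) : GL (Fin 2) L) : Matrix (Fin 2) (Fin 2) L) *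
      ((fL (fL (fL (gE D₀))) : GL (Fin 2) L) : Matrix (Fin 2) (Fin 2) L) = D₀.1 * !![0, μ; Δ, 0] := by
    rw [← hR', ← hLang]
    rfl
  -- the third step
  obtain ⟨D₁, D₂, m₃, π₃, c₃, hshuf, hm₃, H₃, p0, p1, p2⟩ := stageC h h2 axL (σ := (σ' : L →+* L)) o01 o02 o12 Hm' hmM' hπ0 hπ1 hZ₂' U₀' U₁' U₂' D₀ hL
  set d := phi h h2 axL g₀ D₀ * phi h h2 axL g₁ D₁ * phi h h2 axL g₂ D₂ with hd
  have hdG : d ∈ chevE7.group L := Subgroup.mul_mem _ (Subgroup.mul_mem _ (phi_mem_group h h2 axL _ _) (phi_mem_group h h2 axL _ _)) (phi_mem_group h h2 axL _ _)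
  let dg : ↥(chevE7.group L) := ⟨d, hdG⟩
  have hx₂G : mapX chevE7 j (x₂ : GL chevE7.Idx E₁) ∈ chevE7.group L := mapX_group axE₁ axL j h x₂.2
  let x₂' : ↥(chevE7.group L) := ⟨mapX chevE7 j (x₂ : GL chevE7.Idx E₁), hx₂G⟩
  let x₃ : ↥(chevE7.group L) := x₂' * dg
  let y' : ℕ → Lˣ := fun i => Units.map (j : E₁ →* L) (y₀ i)
  have hchi' : ∀ s, chi chevE7 y₀ s = 1 → chi chevE7 y' s = 1 := by
    intro s hs
    have e1 := chi_map (D := chevE7) j y₀ s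
    rw [hs, map_one] at e1
    exact e1.symm
  have hdt : tor chevE7 y' * d = d * tor chevE7 y' := by
    have k0 := tor_comm_phi h h2 axL y' g₀ (hchi' _ χ0) (hchi' _ χ0') D₀
    have k1 := tor_comm_phi h h2 axL y' g₁ (hchi' _ χ1) (hchi' _ χ1') D₁
    have k2 := tor_comm_phi h h2 axL y' g₂ (hchi' _ χ2) (hchi' _ χ2') D₂
    exact ((show Commute _ _ from k0).mul_right k1).mul_right k2
  have hιL : ∀ g : ↥(chevE7.group F), ((iotaHom h axF axL ι' g : ↥(chevE7.group L)) : GL chevE7.Idx L) =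
      mapX chevE7 j ((iotaHom h axF axE₁ ι₁ g : ↥(chevE7.group E₁)) : GL chevE7.Idx E₁) := fun g => (mapX_comp' ι₁ j _).symm
  have hy' : ((x₃⁻¹ * iotaHom h axF axL ι' p₀ * x₃ : ↥(chevE7.group L)) : GL chevE7.Idx L) = tor chevE7 y' := by
    have e1 := congrArg (mapX chevE7 j) hy₀
    rw [mapX_tor] at e1
    change _ = tor chevE7 y' at e1
    have e2 : mapX chevE7 j (((x₂⁻¹ * iotaHom h axF axE₁ ι₁ p₀ * x₂ : ↥(chevE7.group E₁))) : GL chevE7.Idx E₁) =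
        (mapX chevE7 j (x₂ : GL chevE7.Idx E₁))⁻¹ * ((iotaHom h axF axL ι' p₀ : ↥(chevE7.group L)) : GL chevE7.Idx L) * mapX chevE7 j (x₂ : GL chevE7.Idx E₁) := by
      rw [hιL]
      show mapX chevE7 j ((x₂ : GL chevE7.Idx E₁)⁻¹ * ((iotaHom h axF axE₁ ι₁ p₀ : ↥(chevE7.group E₁)) : GL chevE7.Idx E₁) * (x₂ : GL chevE7.Idx E₁)) = _
      rw [map_mul, map_mul, map_inv]
    rw [e2] at e1
    show (d⁻¹ * (mapX chevE7 j (x₂ : GL chevE7.Idx E₁))⁻¹) * ((iotaHom h axF axL ι' p₀ : ↥(chevE7.group L)) : GL chevE7.Idx L) * (mapX chevE7 j (x₂ : GL chevE7.Idx E₁) * d) = _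
    calc (d⁻¹ * (mapX chevE7 j (x₂ : GL chevE7.Idx E₁))⁻¹) * ((iotaHom h axF axL ι' p₀ : ↥(chevE7.group L)) : GL chevE7.Idx L) * (mapX chevE7 j (x₂ : GL chevE7.Idx E₁) * d)
        = d⁻¹ * ((mapX chevE7 j (x₂ : GL chevE7.Idx E₁))⁻¹ * ((iotaHom h axF axL ι' p₀ : ↥(chevE7.group L)) : GL chevE7.Idx L) * mapX chevE7 j (x₂ : GL chevE7.Idx E₁)) * d := by group
      _ = d⁻¹ * (tor chevE7 y' * d) := by
          rw [e1]
          group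
      _ = _ := by
          rw [hdt]
          group
  have hτ₃ : ((x₃⁻¹ * sAut h axL σ' x₃ : ↥(chevE7.group L)) : GL chevE7.Idx L) = m₃ := by
    rw [← hshuf]
    have e1 := congrArg (mapX chevE7 j) hτ
    have e2 : mapX chevE7 j (((x₂⁻¹ * sAut h axE₁ σ₁ x₂ : ↥(chevE7.group E₁))) : GL chevE7.Idx E₁) =
        (mapX chevE7 j (x₂ : GL chevE7.Idx E₁))⁻¹ * mapX chevE7 (σ' : L →+* L) (mapX chevE7 j (x₂ : GL chevE7.Idx E₁)) := by
      show mapX chevE7 j ((x₂ : GL chevE7.Idx E₁)⁻¹ * mapX chevE7 (σ₁ : E₁ →+* E₁) (x₂ : GL chevE7.Idx E₁)) = _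
      have hcomp : j.comp (σ₁ : E₁ →+* E₁) = (σ' : L →+* L).comp j := RingHom.ext (fun x => (hσ'j x).symm)
      rw [map_mul, map_inv, mapX_comp', mapX_comp', hcomp]
    rw [e2] at e1
    have e3 : mapX chevE7 j ((nw chevE7 axE₁ l₁)⁻¹ * e * (phi h h2 axE₁ g₀ U₀ * phi h h2 axE₁ g₁ U₁ * phi h h2 axE₁ g₂ U₂)) =
        (nw chevE7 axL l₁)⁻¹ * e' * (phi h h2 axL g₀ U₀' * phi h h2 axL g₁ U₁' * phi h h2 axL g₂ U₂') := by
      rw [map_mul, map_mul, map_mul, map_mul, map_inv, mapX_nw axE₁ axL j, phi_map h h2 j axE₁ axL, phi_map h h2 j axE₁ axL, phi_map h h2 j axE₁ axL]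
    rw [e3] at e1
    show (d⁻¹ * (mapX chevE7 j (x₂ : GL chevE7.Idx E₁))⁻¹) * mapX chevE7 (σ' : L →+* L) (mapX chevE7 j (x₂ : GL chevE7.Idx E₁) * d) = _
    rw [map_mul]
    calc (d⁻¹ * (mapX chevE7 j (x₂ : GL chevE7.Idx E₁))⁻¹) * (mapX chevE7 (σ' : L →+* L) (mapX chevE7 j (x₂ : GL chevE7.Idx E₁)) * mapX chevE7 (σ' : L →+* L) d)
        = d⁻¹ * ((mapX chevE7 j (x₂ : GL chevE7.Idx E₁))⁻¹ * mapX chevE7 (σ' : L →+* L) (mapX chevE7 j (x₂ : GL chevE7.Idx E₁))) * mapX chevE7 (σ' : L →+* L) d := by group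
      _ = _ := by rw [e1]
  -- the relation over `L`
  set s₃ := sAut h axL σ' with hs₃
  set ιh' := iotaHom h axF axL ι' with hιh'
  set T₃ := x₃⁻¹ * ιh' p₀ * x₃ with hT₃
  have hιfix' : ∀ g, s₃ (ιh' g) = ιh' g := sAut_iota h axF axL ι' σ' hσι'
  have hsT : ((s₃ T₃ : ↥(chevE7.group L)) : GL chevE7.Idx L) = tor chevE7 (y' ^ q) := by
    rw [hs₃, coe_sAut, hy']
    exact mapX_tor_frob σ' hσ' y'
  have hrelG : (x₃⁻¹ * s₃ x₃) * s₃ T₃ = T₃ * (x₃⁻¹ * s₃ x₃) := by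
    have e1 : s₃ T₃ = (s₃ x₃)⁻¹ * ιh' p₀ * s₃ x₃ := by
      rw [hT₃]
      simp only [map_mul, map_inv, hιfix']
    rw [e1, hT₃]
    group
  have hrel : m₃ * tor chevE7 (y' ^ q) = tor chevE7 y' * m₃ := by
    rw [← hτ₃, ← hsT, ← hy']
    exact congrArg Subtype.val hrelG
  have hconj : m₃ * tor chevE7 (y' ^ q) * m₃⁻¹ = tor chevE7 y' := by
    rw [hrel, mul_inv_cancel_right]
  have hrelπ : ∀ s : Fin chevE7.nroots, chi chevE7 y' ((π₃ s : Fin chevE7.nroots) : ℕ) = chi chevE7 y' s ^ q := by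
    intro s
    have e1 := conj_tor_chi h h2 axL H₃ (y' ^ q) y' hconj s
    rw [chi_pow] at e1
    exact e1
  -- the word
  have hπW : π₃ ∈ Wp h (Set.Iio chevE7.rank) := by
    have := piN_mem_Wp h h2 axL ⟨m₃, hm₃⟩
    rwa [piN_of_isNor h h2 axL (g := ⟨m₃, hm₃⟩) H₃] at this
  obtain ⟨l'', hl₀, hπ₀⟩ := (mem_Wp_iff h).1 hπW
  have hl'' : ∀ i ∈ l'', i < chevE7.rank := fun i hi => hl₀ i hi
  subst hπ₀
  obtain ⟨c₀, hn₀⟩ : ∃ c₀ : ℕ → Lˣ, m₃ = tor chevE7 (psi chevE7 c₀) * nw chevE7 axL l'' := by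
    have h1 := nw_mem_monomial_aux h h2 axL hl''
    have e1 : piN h h2 axL ((⟨m₃, hm₃⟩ : ↥(chevE7.monomialSubgroup L)) * (⟨nw chevE7 axL l'', h1⟩ : ↥(chevE7.monomialSubgroup L))⁻¹) = 1 := by
      rw [map_mul, map_inv, piN_of_isNor h h2 axL (g := ⟨m₃, hm₃⟩) H₃, piN_nw h h2 axL hl'', mul_inv_cancel]
    have e2 : m₃ * (nw chevE7 axL l'')⁻¹ ∈ chevE7.diagonalSubgroup L := (piN_eq_one_iff h h2 axL _).1 e1
    obtain ⟨c₀, hc₀⟩ := exists_psi h h2 axL e2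
    refine ⟨c₀, ?_⟩
    rw [← hc₀]
    group
  have hrels : ∀ k : Fin chevE7.rank, chi chevE7 y' (wWord chevE7 l'' (chevE7.simple k)) = chi chevE7 y' (chevE7.simple k) ^ q := by
    intro k
    have e1 := hrelπ ⟨chevE7.simple k, h.simple_lt k k.isLt⟩
    rw [wPw_val h hl''] at e1
    exact e1
  set lam' := Units.map (j : E₁ →* L) lam with hlam'
  have hlamord : orderOf lam' = r := (orderOf_injective _ (Units.map_injective j.injective) lam).trans hlam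
  have hc₁ : ∀ i : Fin chevE7.rank, lam' ^ c i = y' i := by
    intro i
    show (Units.map (j : E₁ →* L) lam) ^ c i = Units.map (j : E₁ →* L) (y₀ i)
    rw [← map_zpow, hc]
  obtain ⟨A₀, γ₀, γ₁, γ₂, T, hR, hcase⟩ := lattice_E7 h hW hl'' hrord hcne (eig_mem h hlamord hc₁ hrels)
  have hcrd : ∀ s : Fin chevE7.nroots, crd chevE7 ((wPw h l'' s : Fin chevE7.nroots) : ℕ) = Aw chevE7 l'' *ᵥ crd chevE7 s := by
    intro s
    rw [wPw_val h hl'', Aw_crd h hl'' s.isLt]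
  have a0 : Aw chevE7 l'' *ᵥ crd chevE7 g₀ = crd chevE7 g₁ := by rw [← hcrd, p0]
  have a1 : Aw chevE7 l'' *ᵥ crd chevE7 g₁ = crd chevE7 g₂ := by rw [← hcrd, p1]
  have a2 : Aw chevE7 l'' *ᵥ crd chevE7 g₂ = - crd chevE7 g₀ := by rw [← hcrd, p2, crd_negF]
  have hS0 : Six γ₀ γ₁ γ₂ (crd chevE7 g₀) := (hR _ (norm_crd h g₀.isLt)).1 ((chi_eq_one_iff hlamord hc₁ _).1 (hchi' _ χ0))
  rcases hcase with hneg | ⟨hA₀, hcp, hA12, β, hβ, hdet⟩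
  · exfalso
    subst hneg
    have hcube : ∀ u, Aw chevE7 l'' *ᵥ (Aw chevE7 l'' *ᵥ (Aw chevE7 l'' *ᵥ u)) = - ((-Aw chevE7 l'') *ᵥ ((-Aw chevE7 l'') *ᵥ ((-Aw chevE7 l'') *ᵥ u))) := by
      intro u
      simp only [Matrix.neg_mulVec, Matrix.mulVec_neg, neg_neg]
    have hfix : ∀ u, Six γ₀ γ₁ γ₂ u → Aw chevE7 l'' *ᵥ (Aw chevE7 l'' *ᵥ (Aw chevE7 l'' *ᵥ u)) = u := by
      intro u hu
      rw [hcube]
      have t0 := T.a0
      have t1 := T.a1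
      have t2 := T.a2
      rcases hu with e0 | e0 | e0 | e0 | e0 | e0 <;> rw [e0] <;> simp only [Matrix.mulVec_neg, t0, t1, t2, neg_neg]
    have e1 := hfix _ hS0
    rw [a0, a1, a2] at e1
    have e2 : B GE7 (-crd chevE7 g₀) (crd chevE7 g₀) = B GE7 (crd chevE7 g₀) (crd chevE7 g₀) := by rw [e1]
    rw [B_neg_left, norm_crd h g₀.isLt] at e2
    norm_num at e2
  · subst hA₀
    have hr2 : r ≠ 2 := by
      obtain ⟨-, e2, -⟩ := lt_of_order (by norm_num : 0 < 12) hrord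
      omega
    have hd0 : 0 < 24 * k := by omega
    have h12 : 12 ∣ 24 * k := ⟨2 * k, by ring⟩
    have hcLq : Fintype.card L = q ^ (24 * k) := by
      rw [hcL, hcE₁, pow_mul]
    have hdet' := hdet
    exact torus_final h h2 axF axL ι' σ' hq hq2 hσ' hσι' hd0 h12 hcLq x₃ hl'' c₀ (by rw [hτ₃]; exact hn₀) hcp hA12 hdet' T hr2 hrW p₀ y' hy' hlamord hc₁ hR

end Cfsg.Agent.Lib.KS71.E7z
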