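/-
Involutions in Chevalley groups, odd characteristic: the sum over the stabilizer in the Weyl group of a subsystem, by
a chain of reflection subgroups of the subsystem.
-/
import Mathlib
import Cfsg.Agent.Lib.KS71.IVf
import Cfsg.Agent.Lib.KS71.IVb

set_option autoImplicit false
set_option linter.unusedSectionVars false
set_option linter.unusedVariables false

namespace Cfsg.Agent.Lib.KS71.IVg

open scoped MatrixGroups Matrix Pointwise
open Cfsg Cfsg.Lie Cfsg.Lie.ChevalleyDatum
open Cfsg.Agent.Lib.Chev.Tables Cfsg.Agent.Lib.Chev.Tables2 Cfsg.Agent.Lib.Chev.Tables3 Cfsg.Agent.Lib.Chev.Raise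
open Cfsg.Agent.Lib.Chev.Basic Cfsg.Agent.Lib.Chev.AxBasic Cfsg.Agent.Lib.Chev.Torus
open Cfsg.Agent.Lib.Chev.Products Cfsg.Agent.Lib.Chev.Products2 Cfsg.Agent.Lib.Chev.Mono1
open Cfsg.Agent.Lib.Chev.Mono2 Cfsg.Agent.Lib.Chev.Mono3 Cfsg.Agent.Lib.Chev.Bn
open Cfsg.Agent.Lib.Chev.Order1 Cfsg.Agent.Lib.Chev.Order2 Cfsg.Agent.Lib.Chev.Parab
open Cfsg.Agent.Lib.Chev.Diag Cfsg.Agent.Lib.Chev.Order3
open Cfsg.Agent.Lib.KS71.IVb Cfsg.Agent.Lib.KS71.IVf Cfsg.Agent.Lib.KS71.StWeyl

variable {D : ChevalleyDatum} (h : Tab D)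

section abstract

variable (g : ℕ → Equiv.Perm (Fin D.nroots)) (Sel : ℕ → Bool)

/-- The subgroup generated by some of the generators. -/
def WG (I : Set ℕ) : Subgroup (Equiv.Perm (Fin D.nroots)) := Subgroup.closure (g '' I)

lemma WG_mono {I J : Set ℕ} (hJI : J ⊆ I) : WG g J ≤ WG g I := Subgroup.closure_mono (Set.image_mono hJI)

lemma g_mem_WG {I : Set ℕ} {i : ℕ} (hi : i ∈ I) : g i ∈ WG g I := Subgroup.subset_closure ⟨i, hi, rfl⟩

lemma prod_inv_reverse {I : Set ℕ} (hinv : ∀ i ∈ I, g i * g i = 1) (l : List ℕ) (hl : ∀ i ∈ l, i ∈ I) :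
    ((l.map g).prod)⁻¹ = (l.reverse.map g).prod := by
  induction l with
  | nil => simp
  | cons i l ih =>
    simp only [List.map_cons, List.prod_cons, _root_.mul_inv_rev, List.reverse_cons, List.map_append,
      List.prod_append, List.map_nil, mul_one]
    rw [ih (fun j hj => hl j (by simp [hj]))]
    congr 1
    exact inv_eq_of_mul_eq_one_left (hinv i (hl i (by simp)))

lemma mem_WG_iff {I : Set ℕ} (hinv : ∀ i ∈ I, g i * g i = 1) {w : Equiv.Perm (Fin D.nroots)} :
    w ∈ WG g I ↔ ∃ l : List ℕ, (∀ i ∈ l, i ∈ I) ∧ w = (l.map g).prod := by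
  constructor
  · intro hw
    induction hw using Subgroup.closure_induction with
    | mem x hx =>
      obtain ⟨i, hi, rfl⟩ := hx
      exact ⟨[i], by simpa using hi, by simp⟩
    | one => exact ⟨[], by simp, rfl⟩
    | mul a b _ _ ha hb =>
      obtain ⟨l, hl, rfl⟩ := ha
      obtain ⟨l', hl', rfl⟩ := hb
      refine ⟨l ++ l', ?_, by simp⟩
      intro i hi
      rcases List.mem_append.mp hi with hi | hi
      · exact hl i hi
      · exact hl' i hi
    | inv a _ ha =>
      obtain ⟨l, hl, rfl⟩ := ha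
      exact ⟨l.reverse, fun i hi => hl i (List.mem_reverse.mp hi), prod_inv_reverse g hinv l hl⟩
  · rintro ⟨l, hl, rfl⟩
    induction l with
    | nil => exact Subgroup.one_mem _
    | cons i l ih =>
      simp only [List.map_cons, List.prod_cons]
      exact Subgroup.mul_mem _ (Subgroup.subset_closure ⟨i, hl i (by simp), rfl⟩)
        (ih fun j hj => hl j (by simp [hj]))

/-- Closure properties of the subsystem of the smaller group. -/
structure SubT (TJ : Fin D.nroots → Prop) : Prop where
  sel : ∀ r, TJ r → Sel r = true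
  neg : ∀ r, TJ r → TJ (negF h r)

/-- The properties of an element of the smaller group. -/
structure GoodU (TJ : Fin D.nroots → Prop) (u : Equiv.Perm (Fin D.nroots)) : Prop where
  t : ∀ r, TJ (u r) ↔ TJ r
  pos : ∀ r : Fin D.nroots, D.IsPosRoot r → Sel r = true → ¬ TJ r → D.IsPosRoot (u r)
  sel : ∀ r : Fin D.nroots, Sel (u r) = Sel r

lemma goodU_of_mem {J : Set ℕ} {TJ : Fin D.nroots → Prop} (hinv : ∀ j ∈ J, g j * g j = 1)
    (hg : ∀ j ∈ J, GoodU Sel TJ (g j)) {u : Equiv.Perm (Fin D.nroots)} (hu : u ∈ WG g J) : GoodU Sel TJ u := by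
  obtain ⟨l, hl, rfl⟩ := (mem_WG_iff g hinv).mp hu
  clear hu
  induction l with
  | nil =>
    exact ⟨fun r => Iff.rfl, fun r hr _ _ => hr, fun r => rfl⟩
  | cons j l ih =>
    have hl' := ih fun i hi => hl i (by simp [hi])
    have hj := hg j (hl j (by simp))
    simp only [List.map_cons, List.prod_cons]
    refine ⟨fun r => ?_, fun r h1 h3 h4 => ?_, fun r => ?_⟩
    · rw [Equiv.Perm.mul_apply, hj.t, hl'.t]
    · rw [Equiv.Perm.mul_apply]
      exact hj.pos _ (hl'.pos r h1 h3 h4) ((hl'.sel r).trans h3) (fun e => h4 ((hl'.t r).mp e))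
    · rw [Equiv.Perm.mul_apply, hj.sel, hl'.sel]

open _root_.Classical in
/-- The part of `lenS` outside the smaller subsystem. -/
noncomputable def aS (TJ : Fin D.nroots → Prop) (w : Equiv.Perm (Fin D.nroots)) : ℕ :=
  (Finset.univ.filter fun r : Fin D.nroots => D.IsPosRoot r ∧ Sel r = true ∧ ¬ TJ r ∧ ¬ D.IsPosRoot (w r)).card

open _root_.Classical in
/-- The part of `lenS` inside the smaller subsystem. -/
noncomputable def bS (TJ : Fin D.nroots → Prop) (w : Equiv.Perm (Fin D.nroots)) : ℕ :=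
  (Finset.univ.filter fun r : Fin D.nroots => D.IsPosRoot r ∧ Sel r = true ∧ TJ r ∧ ¬ D.IsPosRoot (w r)).card

lemma lenS_split (TJ : Fin D.nroots → Prop) (w : Equiv.Perm (Fin D.nroots)) :
    lenS D Sel w = aS Sel TJ w + bS Sel TJ w := by
  classical
  rw [lenS, aS, bS, add_comm, ← Finset.card_filter_add_card_filter_not
    (s := Finset.univ.filter fun r : Fin D.nroots => D.IsPosRoot r ∧ Sel r = true ∧ ¬ D.IsPosRoot (w r))
    (fun r : Fin D.nroots => TJ r), Finset.filter_filter, Finset.filter_filter]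
  congr 2 <;>
  · ext r
    simp only [Finset.mem_filter, Finset.mem_univ, true_and]
    tauto

/-- Additivity of `lenS`. -/
theorem lenS_mul {TJ : Fin D.nroots → Prop} (hT : SubT h Sel TJ) {x u : Equiv.Perm (Fin D.nroots)}
    (hxneg : ∀ s, x (negF h s) = negF h (x s)) (hxpos : ∀ r : Fin D.nroots, D.IsPosRoot r → TJ r → D.IsPosRoot (x r))
    (hu : GoodU Sel TJ u) (hu' : GoodU Sel TJ u⁻¹) : lenS D Sel (x * u) = lenS D Sel x + lenS D Sel u := by
  classical
  have e1 : aS Sel TJ (x * u) = aS Sel TJ x := by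
    rw [aS, aS]
    apply Finset.card_bij (fun r _ => u r)
    · intro r hr
      obtain ⟨h1, h3, h4, h5⟩ := (Finset.mem_filter.mp hr).2
      exact Finset.mem_filter.mpr ⟨Finset.mem_univ _, hu.pos r h1 h3 h4, (hu.sel r).trans h3,
        fun e => h4 ((hu.t r).mp e), h5⟩
    · intro a _ b _ e
      exact u.injective e
    · intro r hr
      obtain ⟨h1, h3, h4, h5⟩ := (Finset.mem_filter.mp hr).2
      refine ⟨u⁻¹ r, Finset.mem_filter.mpr ⟨Finset.mem_univ _, hu'.pos r h1 h3 h4, (hu'.sel r).trans h3,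
        fun e => h4 ((hu'.t r).mp e), ?_⟩, by simp⟩
      simpa [Equiv.Perm.mul_apply] using h5
  have e2 : bS Sel TJ (x * u) = bS Sel TJ u := by
    rw [bS, bS]
    congr 1
    apply Finset.filter_congr
    intro r _
    simp only [Equiv.Perm.mul_apply]
    constructor
    · rintro ⟨h1, h3, h4, h5⟩
      refine ⟨h1, h3, h4, fun hc => h5 ?_⟩
      exact hxpos _ hc ((hu.t r).mpr h4)
    · rintro ⟨h1, h3, h4, h5⟩
      refine ⟨h1, h3, h4, fun hc => ?_⟩
      have h6 : D.IsPosRoot (negF h (u r)) := by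
        by_contra hne
        exact h5 (by
          have := (isPos_negF_iff h (u r))
          tauto)
      have h7 := hxpos _ h6 (hT.neg _ ((hu.t r).mpr h4))
      rw [hxneg] at h7
      exact (isPos_negF_iff h _).mp h7 hc
  have e3 : bS Sel TJ x = 0 := by
    rw [bS, Finset.card_eq_zero, Finset.filter_eq_empty_iff]
    rintro r - ⟨h1, h3, h4, h5⟩
    exact h5 (hxpos r h1 h4)
  have e4 : aS Sel TJ u = 0 := by
    rw [aS, Finset.card_eq_zero, Finset.filter_eq_empty_iff]
    rintro r - ⟨h1, h3, h4, h5⟩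
    exact h5 (hu.pos r h1 h3 h4)
  rw [lenS_split Sel TJ (x * u), lenS_split Sel TJ x, lenS_split Sel TJ u, e1, e2, e3, e4]
  omega

/-- The finset of a generated subgroup. -/
noncomputable def WGc (I : Set ℕ) : Finset (Equiv.Perm (Fin D.nroots)) := by
  classical
  exact Finset.univ.filter (· ∈ WG g I)

lemma mem_WGc {I : Set ℕ} {w : Equiv.Perm (Fin D.nroots)} : w ∈ WGc g I ↔ w ∈ WG g I := by
  classical
  simp [WGc]

/-- The factorisation of the sum. -/
theorem sum_factorS {I J : Set ℕ} (hJI : J ⊆ I) (hinv : ∀ i ∈ I, g i * g i = 1)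
    (hneg : ∀ w ∈ WG g I, ∀ s, w (negF h s) = negF h (w s)) {TJ : Fin D.nroots → Prop} (hT : SubT h Sel TJ)
    (hgJ : ∀ j ∈ J, GoodU Sel TJ (g j)) (X : Finset (Equiv.Perm (Fin D.nroots))) (h1 : (1 : Equiv.Perm (Fin D.nroots)) ∈ X)
    (hXI : ∀ x ∈ X, x ∈ WG g I) (hXpos : ∀ x ∈ X, ∀ r : Fin D.nroots, D.IsPosRoot r → TJ r → D.IsPosRoot (x r))
    (hcl : ∀ x ∈ X, ∀ i ∈ I, g i * x ∈ X ∨ ∃ j ∈ J, g i * x = x * g j)
    (hzX : ∀ x ∈ X, lenS D Sel x = 0 → x = 1) (hzJ : ∀ v ∈ WG g J, lenS D Sel v = 0 → v = 1) :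
    (∀ q : ℕ, ∑ w ∈ WGc g I, q ^ lenS D Sel w = (∑ x ∈ X, q ^ lenS D Sel x) * ∑ u ∈ WGc g J, q ^ lenS D Sel u) ∧
      ∀ v ∈ WG g I, lenS D Sel v = 0 → v = 1 := by
  classical
  have hinvJ : ∀ j ∈ J, g j * g j = 1 := fun j hj => hinv j (hJI hj)
  have hJle : WG g J ≤ WG g I := WG_mono g hJI
  have hadd : ∀ x ∈ X, ∀ u ∈ WG g J, lenS D Sel (x * u) = lenS D Sel x + lenS D Sel u := fun x hx u hu =>
    lenS_mul h Sel hT (hneg x (hXI x hx)) (hXpos x hx) (goodU_of_mem g Sel hinvJ hgJ hu)
      (goodU_of_mem g Sel hinvJ hgJ (Subgroup.inv_mem _ hu))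
  have hsurj : ∀ w ∈ WG g I, ∃ x ∈ X, ∃ u ∈ WG g J, w = x * u := by
    intro w hw
    obtain ⟨l, hl, rfl⟩ := (mem_WG_iff g hinv).mp hw
    clear hw
    induction l with
    | nil => exact ⟨1, h1, 1, Subgroup.one_mem _, by simp⟩
    | cons i l ih =>
      obtain ⟨x, hx, u, hu, e⟩ := ih fun j hj => hl j (by simp [hj])
      simp only [List.map_cons, List.prod_cons]
      rw [e, ← mul_assoc]
      rcases hcl x hx i (hl i (by simp)) with h3 | ⟨j, hj, h3⟩
      · exact ⟨_, h3, u, hu, rfl⟩
      · refine ⟨x, hx, g j * u, Subgroup.mul_mem _ (g_mem_WG g hj) hu, ?_⟩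
        rw [h3, mul_assoc]
  refine ⟨fun q => ?_, fun v hv hv0 => ?_⟩
  · rw [Finset.sum_mul_sum, ← Finset.sum_product']
    symm
    apply Finset.sum_bij (fun (p : Equiv.Perm (Fin D.nroots) × Equiv.Perm (Fin D.nroots)) _ => p.1 * p.2)
    · rintro ⟨x, u⟩ hp
      rw [Finset.mem_product] at hp
      rw [mem_WGc]
      exact Subgroup.mul_mem _ (hXI x hp.1) (hJle ((mem_WGc g).mp hp.2))
    · rintro ⟨x, u⟩ hp ⟨x', u'⟩ hp' e
      rw [Finset.mem_product] at hp hp'
      simp only at e hp hp'
      have hu := (mem_WGc g).mp hp.2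
      have hu' := (mem_WGc g).mp hp'.2
      set v := u * u'⁻¹ with hv
      have hvW : v ∈ WG g J := Subgroup.mul_mem _ hu (Subgroup.inv_mem _ hu')
      have e1 : x' = x * v := by
        rw [hv, ← mul_assoc, e, mul_assoc, mul_inv_cancel, mul_one]
      have e2 : x = x' * v⁻¹ := by rw [e1]; group
      have h3 := hadd x hp.1 v hvW
      have h4 := hadd x' hp'.1 v⁻¹ (Subgroup.inv_mem _ hvW)
      rw [← e1] at h3
      rw [← e2] at h4
      have h5 : lenS D Sel v = 0 := by omega
      have h6 : v = 1 := hzJ v hvW h5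
      have h7 : x' = x := by rw [e1, h6, mul_one]
      subst h7
      have h8 : u = u' := mul_left_cancel e
      subst h8
      rfl
    · intro w hw
      obtain ⟨x, hx, u, hu, e⟩ := hsurj w ((mem_WGc g).mp hw)
      refine ⟨(x, u), Finset.mem_product.mpr ⟨hx, (mem_WGc g).mpr hu⟩, e.symm⟩
    · rintro ⟨x, u⟩ hp
      rw [Finset.mem_product] at hp
      simp only
      rw [hadd x hp.1 u ((mem_WGc g).mp hp.2), pow_add]
  · obtain ⟨x, hx, u, hu, rfl⟩ := hsurj v hv
    rw [hadd x hx u hu] at hv0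
    rw [hzX x hx (by omega), hzJ u hu (by omega), mul_one]

lemma lenS_one : lenS D Sel 1 = 0 := by
  classical
  rw [lenS, Finset.card_eq_zero, Finset.filter_eq_empty_iff]
  rintro r - ⟨h1, h3, h4⟩
  exact h4 h1

lemma WG_empty : WGc g (∅ : Set ℕ) = {1} := by
  ext w
  rw [mem_WGc, Finset.mem_singleton, WG, Set.image_empty, Subgroup.closure_empty, Subgroup.mem_bot]

end abstract

/-! ### The levels -/

/-- One step of the chain. -/
structure LevelS where
  I : List ℕ
  J : List ℕ
  n : ℕ
  R : ℕ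
  P : ℕ
  G : ℕ
  C : ℕ
  T : ℕ
  E : List ℕ

/-- The identity row. -/
noncomputable def chk0 (N : ℕ) (L : LevelS) : Bool :=
  force (rowOf N L.R 0) fun r0 => allB N fun r => Nat.beq (byteAt r0 r) r

/-- The tree. -/
noncomputable def chk1 (N Tb : ℕ) (L : LevelS) : Bool :=
  allB L.n fun k => Nat.beq k 0 ||
    (Nat.blt (byteAt L.P k) k && memB (byteAt L.G k) L.I &&
      force (rowOf N L.R k) fun rk => force (rowOf N L.R (byteAt L.P k)) fun rp =>
        force (rowOf N Tb (byteAt L.G k)) fun tg =>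
          allB N fun r => Nat.beq (byteAt rk r) (byteAt tg (byteAt rp r)))

/-- The closure condition at a given code. -/
noncomputable def chkCode (N Tb : ℕ) (L : LevelS) (rk ti c : ℕ) : Bool :=
  cond (Nat.blt c L.n)
    (force (rowOf N L.R c) fun rc => allB N fun r => Nat.beq (byteAt rc r) (byteAt ti (byteAt rk r)))
    (memB (Nat.sub c L.n) L.J && force (rowOf N Tb (Nat.sub c L.n)) fun tj =>
      allB N fun r => Nat.beq (byteAt ti (byteAt rk r)) (byteAt rk (byteAt tj r)))

/-- The closure. -/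
noncomputable def chk2 (N l Tb : ℕ) (L : LevelS) : Bool :=
  allB L.n fun k => force (rowOf N L.R k) fun rk => L.I.all fun i =>
    force (rowOf N Tb i) fun ti => force (byteAt L.C (Nat.add (Nat.mul k l) i)) fun c => chkCode N Tb L rk ti c

/-- Positivity of the representatives on the smaller subsystem. -/
noncomputable def chk3 (N : ℕ) (L : LevelS) : Bool :=
  allB L.n fun k => force (rowOf N L.R k) fun rk => allB N fun r =>
    !(Nat.ble (Nat.div N 2) r && Nat.beq (byteAt L.T r) 1) || Nat.ble (Nat.div N 2) (byteAt rk r)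

/-- Distinctness of the representatives. -/
noncomputable def chk4 (N : ℕ) (L : LevelS) : Bool :=
  allB L.n fun k => force (rowOf N L.R k) fun rk => allB k fun k' => force (rowOf N L.R k') fun rk' =>
    anyBelow (fun r => !Nat.beq (byteAt rk r) (byteAt rk' r)) N

/-- The lengths of the representatives. -/
noncomputable def chk5 (N S : ℕ) (L : LevelS) : Bool :=
  Nat.beq L.E.length L.n && allB L.n fun k => force (rowOf N L.R k) fun rk =>
    Nat.beq (L.E.getD k 0)
      (countBelow (fun r => Nat.ble (Nat.div N 2) r && Nat.beq (byteAt S r) 1 && Nat.blt (byteAt rk r) (Nat.div N 2)) N)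

/-- Only the first representative has length zero. -/
noncomputable def chk6 (L : LevelS) : Bool :=
  allB L.n fun k => Nat.beq k 0 || !(Nat.beq (L.E.getD k 0) 0)

/-- The properties of the generators of the smaller group. -/
noncomputable def chk7 (N S Tb : ℕ) (L : LevelS) : Bool :=
  L.J.all fun j => force (rowOf N Tb j) fun tj => allB N fun r =>
    Nat.beq (byteAt L.T (byteAt tj r)) (byteAt L.T r) &&
    (!(Nat.ble (Nat.div N 2) r && Nat.beq (byteAt S r) 1 && !Nat.beq (byteAt L.T r) 1) || Nat.ble (Nat.div N 2) (byteAt tj r))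

/-- The smaller subsystem. -/
noncomputable def chk8 (N S : ℕ) (ng : ℕ → ℕ) (L : LevelS) : Bool :=
  allB N fun r => !Nat.beq (byteAt L.T r) 1 || (Nat.beq (byteAt S r) 1 && Nat.beq (byteAt L.T (ng r)) 1)

/-- All the checks on a level. -/
noncomputable def chk (N l S Tb : ℕ) (ng : ℕ → ℕ) (L : LevelS) : Bool :=
  Nat.blt 0 L.n && chk0 N L && chk1 N Tb L && chk2 N l Tb L && chk3 N L && chk4 N L && chk5 N S L && chk6 L &&
    chk7 N S Tb L && chk8 N S ng L && L.I.all (fun i => Nat.blt i l) && L.J.all (fun j => memB j L.I)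

section levels

variable (g : ℕ → Equiv.Perm (Fin D.nroots)) (Sel : ℕ → Bool)

lemma beq1 {a b : ℕ} : Nat.beq a b = true ↔ a = b :=
  ⟨Nat.eq_of_beq_eq_true, fun e => by rw [e]; exact Nat.beq_refl _⟩

/-- The level-by-level statement. -/
theorem levelS_sound {S Tb l : ℕ} (hS : ∀ r, r < D.nroots → (Sel r = true ↔ byteAt S r = 1))
    (hTb : ∀ i, i < l → ∀ r : Fin D.nroots, ((g i r : Fin D.nroots) : ℕ) = rf Tb D.nroots i r)
    (hposN : ∀ r, r < D.nroots → (D.IsPosRoot r ↔ D.nroots / 2 ≤ r))
    {L : LevelS} (hc : chk D.nroots l S Tb D.neg L = true) (hinv : ∀ i ∈ setOf' L.I, g i * g i = 1)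
    (hfix : ∀ i ∈ setOf' L.I, ∀ r : Fin D.nroots, Sel (g i r) = Sel r)
    (hneg : ∀ w ∈ WG g (setOf' L.I), ∀ s, w (negF h s) = negF h (w s))
    (hzJ : ∀ v ∈ WG g (setOf' L.J), lenS D Sel v = 0 → v = 1) :
    (∀ q : ℕ, ∑ w ∈ WGc g (setOf' L.I), q ^ lenS D Sel w =
      (L.E.map (q ^ ·)).sum * ∑ u ∈ WGc g (setOf' L.J), q ^ lenS D Sel u) ∧
      ∀ v ∈ WG g (setOf' L.I), lenS D Sel v = 0 → v = 1 := by
  classical
  simp only [chk, Bool.and_eq_true] at hc
  obtain ⟨⟨⟨⟨⟨⟨⟨⟨⟨⟨⟨hn, c0⟩, c1⟩, c2⟩, c3⟩, c4⟩, c5⟩, c6⟩, c7⟩, c8⟩, hI⟩, hJI⟩ := hc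
  simp only [chk0, chk1, chk2, chk3, chk4, chk5, chk6, chk7, chk8, force_eq] at c0 c1 c2 c3 c4 c5 c6 c7 c8
  have hn' : 0 < L.n := Nat.le_of_ble_eq_true hn
  have hI' : ∀ i ∈ L.I, i < l := fun i hi => Nat.le_of_ble_eq_true (List.all_eq_true.mp hI i hi)
  have hJI' : ∀ j ∈ L.J, j ∈ L.I := fun j hj => memB_spec (List.all_eq_true.mp hJI j hj)
  have hdiv : Nat.div D.nroots 2 = D.nroots / 2 := rfl
  have hble : ∀ a b, Nat.ble a b = true ↔ a ≤ b := fun a b => ⟨Nat.le_of_ble_eq_true, Nat.ble_eq_true_of_le⟩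
  -- the words
  have hrow : ∀ k, k < L.n → ∃ x : Equiv.Perm (Fin D.nroots), x ∈ WG g (setOf' L.I) ∧
      ∀ r : Fin D.nroots, ((x r : Fin D.nroots) : ℕ) = byteAt (rowOf D.nroots L.R k) r := by
    intro k
    induction k using Nat.strong_induction_on with
    | _ k ih =>
      intro hk
      have h1 := allB_spec c1 k hk
      rw [Bool.or_eq_true] at h1
      by_cases hk0 : k = 0
      · subst hk0
        refine ⟨1, Subgroup.one_mem _, fun r => ?_⟩
        exact (Nat.eq_of_beq_eq_true (allB_spec c0 r r.isLt)).symm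
      · rcases h1 with h1 | h1
        · exact absurd (Nat.eq_of_beq_eq_true h1) hk0
        · simp only [Bool.and_eq_true] at h1
          obtain ⟨⟨hp, hg⟩, he⟩ := h1
          have hp' : byteAt L.P k < k := Nat.le_of_ble_eq_true hp
          obtain ⟨w, hw, hr⟩ := ih _ hp' (hp'.trans hk)
          have hg' := memB_spec hg
          refine ⟨g (byteAt L.G k) * w, Subgroup.mul_mem _ (g_mem_WG g hg') hw, fun r => ?_⟩
          rw [Equiv.Perm.mul_apply, hTb _ (hI' _ hg'), hr r]
          exact (Nat.eq_of_beq_eq_true (allB_spec he r r.isLt)).symm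
  choose! xP hxW hxR using hrow
  have hrefl : ∀ i, i ∈ L.I → ∀ s : Fin D.nroots, ((g i s : Fin D.nroots) : ℕ) = rf Tb D.nroots i s :=
    fun i hi s => hTb i (hI' i hi) s
  let X : Finset (Equiv.Perm (Fin D.nroots)) := (Finset.range L.n).image xP
  let TJ : Fin D.nroots → Prop := fun r => byteAt L.T r = 1
  have hJ1 : setOf' L.J ⊆ setOf' L.I := fun j hj => hJI' j hj
  have hT : SubT h Sel TJ := by
    constructor
    · intro r hr
      have := allB_spec c8 r r.isLt
      rw [Bool.or_eq_true, Bool.not_eq_true', Bool.and_eq_true] at this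
      rcases this with h3 | h3
      · rw [beq1.mpr hr] at h3
        exact absurd h3 (by simp)
      · exact (hS r r.isLt).mpr (Nat.eq_of_beq_eq_true h3.1)
    · intro r hr
      have := allB_spec c8 r r.isLt
      rw [Bool.or_eq_true, Bool.not_eq_true', Bool.and_eq_true] at this
      rcases this with h3 | h3
      · rw [beq1.mpr hr] at h3
        exact absurd h3 (by simp)
      · exact Nat.eq_of_beq_eq_true h3.2
  have hgJ : ∀ j ∈ setOf' L.J, GoodU Sel TJ (g j) := by
    intro j hj
    have hall := List.all_eq_true.mp c7 j hj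
    have hval : ∀ r : Fin D.nroots, ((g j r : Fin D.nroots) : ℕ) = byteAt (rowOf D.nroots Tb j) r :=
      fun r => hrefl j (hJI' j hj) r
    refine ⟨fun r => ?_, fun r h1 h3 h4 => ?_, hfix j (hJ1 hj)⟩
    · have h5 := allB_spec hall r r.isLt
      rw [Bool.and_eq_true] at h5
      have h6 := Nat.eq_of_beq_eq_true h5.1
      change byteAt L.T ((g j r : Fin D.nroots) : ℕ) = 1 ↔ byteAt L.T r = 1
      rw [hval, h6]
    · have h5 := allB_spec hall r r.isLt
      rw [Bool.and_eq_true, Bool.or_eq_true] at h5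
      rw [hposN _ (Fin.isLt _), hval]
      rcases h5.2 with h6 | h6
      · exfalso
        have h7 : Nat.ble (Nat.div D.nroots 2) r = true := (hble _ _).mpr ((hposN r r.isLt).mp h1)
        have h8 : Nat.beq (byteAt S r) 1 = true := beq1.mpr ((hS r r.isLt).mp h3)
        have h9 : Nat.beq (byteAt L.T r) 1 = false := by
          rw [Bool.eq_false_iff]
          intro e
          exact h4 (beq1.mp e)
        rw [h7, h8, h9] at h6
        simp at h6
      · exact (hble _ _).mp h6
  have hE : ∀ k, k < L.n → lenS D Sel (xP k) = L.E.getD k 0 := by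
    intro k hk
    simp only [Bool.and_eq_true] at c5
    rw [Nat.eq_of_beq_eq_true (allB_spec c5.2 k hk), lenS]
    apply card_filter_fin
    intro r
    rw [Bool.and_eq_true, Bool.and_eq_true, hposN _ r.isLt, hposN _ (Fin.isLt _), hxR k hk, hS r r.isLt]
    constructor
    · rintro ⟨h3, h4, h5⟩
      refine ⟨⟨(hble _ _).mpr h3, beq1.mpr h4⟩, ?_⟩
      exact (hble _ _).mpr (by omega)
    · rintro ⟨⟨h3, h4⟩, h5⟩
      have h6 := (hble _ _).mp h3
      have h7 : byteAt (rowOf D.nroots L.R k) r + 1 ≤ Nat.div D.nroots 2 := (hble _ _).mp h5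
      exact ⟨h6, beq1.mp h4, by omega⟩
  obtain ⟨h3, h4⟩ := sum_factorS h g Sel hJ1 hinv hneg hT hgJ X
    (by
      refine Finset.mem_image.mpr ⟨0, Finset.mem_range.mpr hn', ?_⟩
      ext r
      rw [hxR 0 hn' r]
      exact Nat.eq_of_beq_eq_true (allB_spec c0 r r.isLt))
    (by
      intro x hx
      obtain ⟨k, hk, rfl⟩ := Finset.mem_image.mp hx
      exact hxW k (Finset.mem_range.mp hk))
    (by
      intro x hx r hr hrT
      obtain ⟨k, hk, rfl⟩ := Finset.mem_image.mp hx
      have hk' := Finset.mem_range.mp hk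
      rw [hposN _ (Fin.isLt _), hxR k hk']
      have := allB_spec (allB_spec c3 k hk') r r.isLt
      rw [Bool.or_eq_true] at this
      rcases this with h5 | h5
      · exfalso
        have h7 : Nat.ble (Nat.div D.nroots 2) r = true := (hble _ _).mpr ((hposN r r.isLt).mp hr)
        rw [h7, beq1.mpr hrT] at h5
        simp at h5
      · exact (hble _ _).mp h5)
    (by
      intro x hx i hi
      obtain ⟨k, hk, rfl⟩ := Finset.mem_image.mp hx
      have hk' := Finset.mem_range.mp hk
      have hcode := List.all_eq_true.mp (allB_spec c2 k hk') i hi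
      rw [chkCode] at hcode
      simp only [force_eq] at hcode
      by_cases hcn : byteAt L.C (k * l + i) < L.n
      · left
        have hcn' : Nat.blt (byteAt L.C (k * l + i)) L.n = true := Nat.ble_eq_true_of_le hcn
        rw [show Nat.add (Nat.mul k l) i = k * l + i from rfl, hcn', cond_true] at hcode
        refine Finset.mem_image.mpr ⟨_, Finset.mem_range.mpr hcn, ?_⟩
        ext r
        rw [hxR _ hcn, Equiv.Perm.mul_apply, hrefl i hi, hxR k hk']
        exact Nat.eq_of_beq_eq_true (allB_spec hcode r r.isLt)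
      · right
        have hcn' : Nat.blt (byteAt L.C (k * l + i)) L.n = false := by
          rw [Bool.eq_false_iff]
          intro hc
          exact hcn (Nat.le_of_ble_eq_true hc)
        rw [show Nat.add (Nat.mul k l) i = k * l + i from rfl, hcn', cond_false, Bool.and_eq_true] at hcode
        obtain ⟨hj, he⟩ := hcode
        have hj' := memB_spec hj
        refine ⟨_, hj', ?_⟩
        ext r
        rw [Equiv.Perm.mul_apply, Equiv.Perm.mul_apply, hrefl i hi, hxR k hk', hxR k hk', hrefl _ (hJI' _ hj')]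
        exact Nat.eq_of_beq_eq_true (allB_spec he r r.isLt))
    (by
      intro x hx h0
      obtain ⟨k, hk, rfl⟩ := Finset.mem_image.mp hx
      have hk' := Finset.mem_range.mp hk
      have h5 := allB_spec c6 k hk'
      rw [Bool.or_eq_true] at h5
      have hk0 : k = 0 := by
        rcases h5 with h5 | h5
        · exact beq1.mp h5
        · exfalso
          rw [hE k hk'] at h0
          rw [beq1.mpr h0] at h5
          simp at h5
      subst hk0
      ext r
      rw [hxR 0 hk' r]
      exact Nat.eq_of_beq_eq_true (allB_spec c0 r r.isLt))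
    hzJ
  refine ⟨fun q => ?_, h4⟩
  rw [h3 q]
  congr 1
  rw [Finset.sum_image]
  · have hE' : L.E.length = L.n := by
      simp only [Bool.and_eq_true] at c5
      exact Nat.eq_of_beq_eq_true c5.1
    rw [← sum_range_getD, hE']
    apply Finset.sum_congr rfl
    intro k hk
    rw [hE k (Finset.mem_range.mp hk)]
  · intro k hk k' hk' e
    have hk1 := Finset.mem_range.mp hk
    have hk2 := Finset.mem_range.mp hk'
    have key : ∀ a b, a < L.n → b < a → xP a ≠ xP b := by
      intro a b ha hb he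
      have h5 := allB_spec (allB_spec c4 a ha) b hb
      obtain ⟨r, hr, hne⟩ := anyBelow_spec h5
      have h6 : byteAt (rowOf D.nroots L.R a) r = byteAt (rowOf D.nroots L.R b) r := by
        have e1 := hxR a ha ⟨r, hr⟩
        have e2 := hxR b (hb.trans ha) ⟨r, hr⟩
        rw [← e1, ← e2, he]
      rw [h6] at hne
      simp at hne
    rcases lt_trichotomy k k' with h5 | h5 | h5
    · exact absurd e.symm (key k' k hk2 h5)
    · exact h5
    · exact absurd e (key k k' hk1 h5)

/-- A chain of levels. -/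
def isChainS : List ℕ → List LevelS → Bool
  | I, [] => I.isEmpty
  | I, L :: ls => (L.I == I) && isChainS L.J ls

lemma setOf_empty : setOf' [] = (∅ : Set ℕ) := by
  ext i
  simp [setOf']

/-- The chain. -/
theorem chainS_sound {S Tb l : ℕ} (hS : ∀ r, r < D.nroots → (Sel r = true ↔ byteAt S r = 1))
    (hTb : ∀ i, i < l → ∀ r : Fin D.nroots, ((g i r : Fin D.nroots) : ℕ) = rf Tb D.nroots i r)
    (hposN : ∀ r, r < D.nroots → (D.IsPosRoot r ↔ D.nroots / 2 ≤ r))
    (hinv : ∀ i, i < l → g i * g i = 1) (hfix : ∀ i, i < l → ∀ r : Fin D.nroots, Sel (g i r) = Sel r)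
    (hneg : ∀ (I : Set ℕ), ∀ w ∈ WG g I, ∀ s, w (negF h s) = negF h (w s)) :
    ∀ (ls : List LevelS) (I : List ℕ), isChainS I ls = true → (∀ i ∈ I, i < l) →
      (ls.all (chk D.nroots l S Tb D.neg)) = true →
      (∀ q : ℕ, ∑ w ∈ WGc g (setOf' I), q ^ lenS D Sel w = (ls.map fun L => (L.E.map (q ^ ·)).sum).prod) ∧
        ∀ v ∈ WG g (setOf' I), lenS D Sel v = 0 → v = 1 := by
  intro ls
  induction ls with
  | nil =>
    intro I hI _ _
    simp only [isChainS, List.isEmpty_iff] at hI
    subst hI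
    rw [setOf_empty]
    refine ⟨fun q => ?_, fun v hv _ => ?_⟩
    · rw [WG_empty, Finset.sum_singleton, lenS_one]
      simp
    · rw [WG, Set.image_empty, Subgroup.closure_empty, Subgroup.mem_bot] at hv
      exact hv
  | cons L ls ih =>
    intro I hI hIl hall
    simp only [isChainS, Bool.and_eq_true, beq_iff_eq] at hI
    simp only [List.all_cons, Bool.and_eq_true] at hall
    obtain ⟨h1, h3⟩ := hI
    subst h1
    have hcL := hall.1
    have hJI : ∀ j ∈ L.J, j ∈ L.I := by
      simp only [chk, Bool.and_eq_true] at hcL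
      exact fun j hj => memB_spec (List.all_eq_true.mp hcL.2 j hj)
    obtain ⟨ih1, ih2⟩ := ih L.J h3 (fun j hj => hIl j (hJI j hj)) hall.2
    obtain ⟨h5, h6⟩ := levelS_sound h g Sel hS hTb hposN hcL (fun i hi => hinv i (hIl i hi))
      (fun i hi => hfix i (hIl i hi)) (hneg _) ih2
    refine ⟨fun q => ?_, h6⟩
    rw [h5 q, ih1 q, List.map_cons, List.prod_cons]

end levels

/-! ### The certificate -/

/-- The evaluation of a word by a table. -/
def wordT (Ts N : ℕ) (w : List ℕ) (r : ℕ) : ℕ := w.foldr (fun i x => byteAt (rowOf N Ts i) x) r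

/-- The vector of values on the fundamental roots. -/
def vecT (N S Ts : ℕ) (sm : ℕ → ℕ) (l : ℕ) (W : List ℕ) : List Bool :=
  (List.range l).map fun j => Nat.beq (byteAt S (wordT Ts N W (sm j))) 1

/-- The selection of the roots with even coefficient. -/
def SelP (D : ChevalleyDatum) (p r : ℕ) : Bool := decide (coef D r p % 2 = 0)

/-- The certificate. -/
noncomputable def certS (D : ChevalleyDatum) (p S Ts Tg l : ℕ) (words : List (List ℕ)) (ls : List LevelS)
    (ds : List ℕ) : Bool :=
  (allB D.rank fun i => force (rowOf D.nroots Ts i) fun ti =>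
    allB D.nroots fun r => Nat.beq (byteAt ti r) (D.reflectRoot i r)) &&
  (allB D.nroots fun r => (decide (D.IsPosRoot r)) == (Nat.ble (Nat.div D.nroots 2) r)) &&
  (allB D.nroots fun r => (Nat.beq (byteAt S r) 1) == SelP D p r) &&
  (words.all fun w => w.all fun i => Nat.blt i D.rank) &&
  (allB l fun i => force (rowOf D.nroots Tg i) fun ti => allB D.nroots fun r =>
    Nat.beq (byteAt ti r) (wordT Ts D.nroots (words.getD i []) r)) &&
  (allB l fun i => force (rowOf D.nroots Tg i) fun ti => allB D.nroots fun r =>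
    Nat.beq (byteAt ti (byteAt ti r)) r) &&
  (allB l fun i => force (rowOf D.nroots Tg i) fun ti => allB D.nroots fun r =>
    Nat.beq (byteAt S (byteAt ti r)) (byteAt S r)) &&
  isChainS (List.range l) ls &&
  ls.all (chk D.nroots l S Tg D.neg) &&
  (polyProd (ls.map fun L => histOf L.E) == polyProd (ds.map geomP))

lemma evalP_geom_one (d : ℕ) : evalP (geomP d) 1 = d := by
  induction d with
  | zero => rfl
  | succ d ih =>
    simp only [geomP, evalP, ih, one_mul]
    ring

section main

variable {F : Type*} [Field F] (h2 : Tab2 D) (ax : Ax D F)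

include h in
lemma wordT_eq {Ts : ℕ} (hTs : ∀ i, i < D.rank → ∀ r, r < D.nroots → byteAt (rowOf D.nroots Ts i) r = D.reflectRoot i r)
    {w : List ℕ} (hw : ∀ i ∈ w, i < D.rank) {r : ℕ} (hr : r < D.nroots) :
    wordT Ts D.nroots w r = wWord D w r := by
  induction w with
  | nil => rfl
  | cons i w ih =>
    have ih' := ih fun j hj => hw j (by simp [hj])
    have e1 : wordT Ts D.nroots (i :: w) r = byteAt (rowOf D.nroots Ts i) (wordT Ts D.nroots w r) := rfl
    have e2 : wWord D (i :: w) r = D.reflectRoot i (wWord D w r) := rfl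
    rw [e1, e2, ih']
    exact hTs i (hw i (by simp)) _ (wWord_lt h (fun j hj => hw j (by simp [hj])) hr)

/-- The counting of the stabilizer. -/
lemma card_WcS_le (Sel : ℕ → Bool) (orb : List (List ℕ)) (hl : ∀ W ∈ orb, ∀ i ∈ W, i < D.rank)
    (hnd : (orb.map fun W => (List.range D.rank).map fun j => Sel (wWord D W (D.simple j))).Nodup) :
    (WcS h Sel).card * orb.length ≤ (Wc h).card := by
  classical
  have hnd' : orb.Nodup := List.Nodup.of_map _ hnd
  rw [← List.toFinset_card_of_nodup hnd', ← Finset.card_product]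
  apply Finset.card_le_card_of_injOn (fun p => p.1 * wPw h p.2)
  · rintro ⟨u, W⟩ hp
    rw [Finset.mem_coe, Finset.mem_product] at hp
    have hu := ((mem_WcS h).mp hp.1).1
    have hW := hl W (List.mem_toFinset.mp hp.2)
    simp only [Finset.mem_coe]
    rw [mem_Wc] at hu ⊢
    exact Subgroup.mul_mem _ hu ((mem_Wp_iff h).mpr ⟨W, fun i hi => hW i hi, rfl⟩)
  · rintro ⟨u, W⟩ hp ⟨u', W'⟩ hp' e
    rw [Finset.mem_coe, Finset.mem_product] at hp hp'
    simp only at hp hp' e
    have hu := ((mem_WcS h).mp hp.1).2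
    have hu' := ((mem_WcS h).mp hp'.1).2
    have hW := List.mem_toFinset.mp hp.2
    have hW' := List.mem_toFinset.mp hp'.2
    have key : ∀ j, j < D.rank → Sel (wWord D W (D.simple j)) = Sel (wWord D W' (D.simple j)) := by
      intro j hj
      have hs := h.simple_lt j hj
      have e1 := congrArg (fun x : Equiv.Perm (Fin D.nroots) => x ⟨D.simple j, hs⟩) e
      simp only [Equiv.Perm.mul_apply] at e1
      have e2 := hu (wPw h W ⟨D.simple j, hs⟩)
      have e3 := hu' (wPw h W' ⟨D.simple j, hs⟩)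
      rw [e1, e3, wPw_val h (hl W hW), wPw_val h (hl W' hW')] at e2
      exact e2.symm
    have e5 : ((List.range D.rank).map fun j => Sel (wWord D W (D.simple j))) =
        ((List.range D.rank).map fun j => Sel (wWord D W' (D.simple j))) :=
      List.map_congr_left fun j hj => key j (List.mem_range.mp hj)
    have e6 : W = W' := List.inj_on_of_nodup_map hnd hW hW' e5
    subst e6
    have e7 : u = u' := mul_right_cancel e
    subst e7
    rfl

include h2 ax in
/-- The sum over the stabilizer of the subsystem, from a certificate. -/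
theorem sum_WcS {p S Ts Tg l : ℕ} {words : List (List ℕ)} {ls : List LevelS} {ds : List ℕ}
    (hc : certS D p S Ts Tg l words ls ds = true) (orb : List (List ℕ)) (hOl : ∀ W ∈ orb, ∀ i ∈ W, i < D.rank)
    (hOnd : (orb.map (vecT D.nroots S Ts D.simple D.rank)).Nodup)
    {Tw : ℕ} {lsW : List Level} {dsW : List ℕ} (hW : certOK D Tw lsW dsW = true)
    (hnum : ds.prod * orb.length = dsW.prod) (q : ℕ) :
    ∑ w ∈ WcS h (SelP D p), q ^ lenS D (SelP D p) w = (ds.map fun d => evalP (geomP d) q).prod := by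
  classical
  simp only [certS, Bool.and_eq_true, beq_iff_eq] at hc
  obtain ⟨⟨⟨⟨⟨⟨⟨⟨⟨c1, c2⟩, c3⟩, c4⟩, c5⟩, c6⟩, c7⟩, c8⟩, c9⟩, c10⟩ := hc
  simp only [force_eq] at c1 c5 c6 c7
  have hTs : ∀ i, i < D.rank → ∀ r, r < D.nroots → byteAt (rowOf D.nroots Ts i) r = D.reflectRoot i r :=
    fun i hi r hr => Nat.eq_of_beq_eq_true (allB_spec (allB_spec c1 i hi) r hr)
  have hposN : ∀ r, r < D.nroots → (D.IsPosRoot r ↔ D.nroots / 2 ≤ r) := by
    intro r hr
    have := allB_spec c2 r hr
    rw [beq_iff_eq] at this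
    constructor
    · intro hp
      rw [decide_eq_true hp] at this
      exact Nat.le_of_ble_eq_true this.symm
    · intro hp
      have hp' : Nat.ble (Nat.div D.nroots 2) r = true := Nat.ble_eq_true_of_le hp
      rw [hp'] at this
      exact of_decide_eq_true this
  have hS : ∀ r, r < D.nroots → (SelP D p r = true ↔ byteAt S r = 1) := by
    intro r hr
    have := allB_spec c3 r hr
    rw [beq_iff_eq] at this
    rw [← this, beq1]
  have hwords : ∀ i, ∀ j ∈ words.getD i [], j < D.rank := by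
    intro i j hj
    by_cases hi : i < words.length
    · have hm : words.getD i [] ∈ words := by
        rw [List.getD_eq_getElem _ _ hi]
        exact List.getElem_mem hi
      exact Nat.le_of_ble_eq_true (List.all_eq_true.mp (List.all_eq_true.mp c4 _ hm) j hj)
    · rw [List.getD_eq_default _ _ (not_lt.mp hi)] at hj
      simp at hj
  let g : ℕ → Equiv.Perm (Fin D.nroots) := fun i => wPw h (words.getD i [])
  have hTb : ∀ i, i < l → ∀ r : Fin D.nroots, ((g i r : Fin D.nroots) : ℕ) = rf Tg D.nroots i r := by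
    intro i hi r
    rw [wPw_val h (hwords i), ← wordT_eq h hTs (hwords i) r.isLt]
    exact (Nat.eq_of_beq_eq_true (allB_spec (allB_spec c5 i hi) r r.isLt)).symm
  have hinv : ∀ i, i < l → g i * g i = 1 := by
    intro i hi
    ext r
    rw [Equiv.Perm.mul_apply, hTb i hi, hTb i hi]
    exact Nat.eq_of_beq_eq_true (allB_spec (allB_spec c6 i hi) r r.isLt)
  have hfix : ∀ i, i < l → ∀ r : Fin D.nroots, SelP D p (g i r) = SelP D p r := by
    intro i hi r
    have e1 := Nat.eq_of_beq_eq_true (allB_spec (allB_spec c7 i hi) r r.isLt)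
    have e2 : byteAt S ((g i r : Fin D.nroots) : ℕ) = byteAt S r := by
      rw [hTb i hi]
      exact e1
    rw [Bool.eq_iff_iff, hS _ (Fin.isLt _), hS _ r.isLt, e2]
  have hgW : ∀ i, g i ∈ Wp h (Set.Iio D.rank) := fun i =>
    (mem_Wp_iff h).mpr ⟨_, fun j hj => hwords i j hj, rfl⟩
  have hWle : ∀ I : Set ℕ, WG g I ≤ Wp h (Set.Iio D.rank) := by
    intro I
    rw [WG, Subgroup.closure_le]
    rintro _ ⟨i, _, rfl⟩
    exact hgW i
  have hneg : ∀ (I : Set ℕ), ∀ w ∈ WG g I, ∀ s, w (negF h s) = negF h (w s) := fun I w hw s =>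
    W_neg h h2 ax (hWle I hw) s
  have hIl : ∀ i ∈ List.range l, i < l := fun i hi => List.mem_range.mp hi
  obtain ⟨key1, -⟩ := chainS_sound h g (SelP D p) hS hTb hposN hinv hfix hneg ls (List.range l) c8 hIl c9
  have hsum : ∀ q : ℕ, ∑ w ∈ WGc g (setOf' (List.range l)), q ^ lenS D (SelP D p) w =
      (ds.map fun d => evalP (geomP d) q).prod := by
    intro q
    rw [key1 q]
    have e1 : (ls.map fun L => (L.E.map (q ^ ·)).sum).prod = evalP (polyProd (ls.map fun L => histOf L.E)) q := by
      rw [evalP_prod, List.map_map]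
      congr 1
      apply List.map_congr_left
      intro L _
      exact (evalP_hist L.E q).symm
    rw [e1, c10, evalP_prod, List.map_map]
    rfl
  -- the stabilizer
  have hsub : WGc g (setOf' (List.range l)) ⊆ WcS h (SelP D p) := by
    intro w hw
    have hw' := (mem_WGc g).mp hw
    rw [mem_WcS, mem_Wc]
    refine ⟨hWle _ hw', ?_⟩
    have hinv' : ∀ i ∈ setOf' (List.range l), g i * g i = 1 := fun i hi => hinv i (hIl i hi)
    obtain ⟨L, hL, rfl⟩ := (mem_WG_iff g hinv').mp hw'
    clear hw hw'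
    induction L with
    | nil => intro r; rfl
    | cons i L ih =>
      intro r
      simp only [List.map_cons, List.prod_cons, Equiv.Perm.mul_apply]
      rw [hfix i (hIl i (hL i (by simp)))]
      exact ih (fun j hj => hL j (by simp [hj])) r
  have hcardG : (WGc g (setOf' (List.range l))).card = ds.prod := by
    have := hsum 1
    simp only [one_pow, Finset.sum_const, smul_eq_mul, mul_one, evalP_geom_one, List.map_id'] at this
    exact this
  have hcardW : (Wc h).card = dsW.prod := by
    have := sum_of_cert h h2 ax hW 1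
    simp only [one_pow, Finset.sum_const, smul_eq_mul, mul_one, evalP_geom_one, List.map_id'] at this
    exact this
  have hOnd' : (orb.map fun W => (List.range D.rank).map fun j => SelP D p (wWord D W (D.simple j))).Nodup := by
    have e : (orb.map fun W => (List.range D.rank).map fun j => SelP D p (wWord D W (D.simple j))) =
        orb.map (vecT D.nroots S Ts D.simple D.rank) := by
      apply List.map_congr_left
      intro W hW
      apply List.map_congr_left
      intro j hj
      have hj' := List.mem_range.mp hj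
      have hs := h.simple_lt j hj'
      rw [wordT_eq h hTs (hOl W hW) hs]
      have hlt := wWord_lt h (hOl W hW) hs
      rw [Bool.eq_iff_iff, hS _ hlt, beq1]
    rw [e]
    exact hOnd
  have hle := card_WcS_le h (SelP D p) orb hOl hOnd'
  have hlen : 0 < orb.length := by
    by_contra h0
    have h3 : orb.length = 0 := by omega
    rw [h3, mul_zero] at hnum
    rw [h3] at hle
    have h4 : dsW.prod ≠ 0 := by
      rw [← hcardW]
      exact Finset.card_ne_zero_of_mem ((mem_Wc h).mpr (Subgroup.one_mem _))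
    exact h4 hnum.symm
  have heq : WGc g (setOf' (List.range l)) = WcS h (SelP D p) := by
    apply Finset.eq_of_subset_of_card_le hsub
    rw [hcardG]
    rw [hcardW, ← hnum] at hle
    exact Nat.le_of_mul_le_mul_right hle hlen
  rw [← heq]
  exact hsum q

end main



end Cfsg.Agent.Lib.KS71.IVg
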