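/-
Involutions in Chevalley groups, odd characteristic: the two classes of involutions, generically.
-/
import Mathlib
import Cfsg.Agent.Lib.KS71.IVg

set_option autoImplicit false
set_option linter.unusedSectionVars false
set_option linter.unusedVariables false

namespace Cfsg.Agent.Lib.KS71.IVi

open scoped MatrixGroups Matrix Pointwise
open Cfsg Cfsg.Lie Cfsg.Lie.ChevalleyDatum
open Cfsg.Agent.Lib.Chev.Tables Cfsg.Agent.Lib.Chev.Tables2 Cfsg.Agent.Lib.Chev.Tables3 Cfsg.Agent.Lib.Chev.Raise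
open Cfsg.Agent.Lib.Chev.Basic Cfsg.Agent.Lib.Chev.AxBasic Cfsg.Agent.Lib.Chev.Torus
open Cfsg.Agent.Lib.Chev.Products Cfsg.Agent.Lib.Chev.Products2 Cfsg.Agent.Lib.Chev.Mono1
open Cfsg.Agent.Lib.Chev.Mono2 Cfsg.Agent.Lib.Chev.Mono3 Cfsg.Agent.Lib.Chev.Bn
open Cfsg.Agent.Lib.Chev.Order1 Cfsg.Agent.Lib.Chev.Order2 Cfsg.Agent.Lib.Chev.Parab
open Cfsg.Agent.Lib.Chev.Diag Cfsg.Agent.Lib.Chev.Order3
open Cfsg.Agent.Lib.KS71.IVb Cfsg.Agent.Lib.KS71.IVf Cfsg.Agent.Lib.KS71.StWeyl Cfsg.Agent.Lib.KS71.IVg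

variable {D : ChevalleyDatum} {F : Type*} [Field F]
variable (h : Tab D) (h2 : Tab2 D) (ax : Ax D F)

/-- The torus element with value `-1` on one fundamental root. -/
def yP (F : Type*) [Field F] (p : ℕ) : ℕ → Fˣ := fun i => if i = p then -1 else 1

lemma chi_yP {p : ℕ} (hp : p < D.rank) (r : ℕ) : chi D (yP F p) r = (-1 : Fˣ) ^ coef D r p := by
  rw [chi, Finset.prod_eq_single p]
  · simp [yP]
  · intro i _ hi
    simp [yP, hi]
  · intro hn
    exact absurd (Finset.mem_range.mpr hp) hn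

lemma selOf_yP {p : ℕ} (hp : p < D.rank) : SelOf D (yP F p) (SelP D p) where
  pos := by
    intro r _ hs
    rw [chi_yP hp]
    have : coef D r p % 2 = 0 := of_decide_eq_true hs
    exact Even.neg_one_zpow (Int.even_iff.mpr this)
  neg := by
    intro r _ hs
    rw [chi_yP hp]
    have : ¬ coef D r p % 2 = 0 := of_decide_eq_false hs
    have h3 : Odd (coef D r p) := Int.not_even_iff_odd.mp (fun e => this (Int.even_iff.mp e))
    exact Odd.neg_one_zpow h3

lemma yP_sq (p : ℕ) : yP F p * yP F p = 1 := by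
  funext i
  by_cases hi : i = p <;> simp [yP, hi]

lemma tor_yP_sq (p : ℕ) : (tor D (yP F p) : GL D.Idx F) * tor D (yP F p) = 1 := by
  rw [← tor_mul, yP_sq, tor_one]

include h h2 ax in
lemma tor_yP_ne (h2F : (2 : F) ≠ 0) {p : ℕ} (hp : p < D.rank) : (tor D (yP F p) : GL D.Idx F) ≠ 1 := by
  intro e
  have e1 := tor_conj_xG ax h (yP F p) (h.simple_lt p hp) 1
  rw [e, chi_simple h _ hp] at e1
  simp only [one_mul, inv_one, mul_one] at e1
  have e2 := (xG_eq_iff ax h h2 (h.simple_lt p hp) (h.simple_lt p hp) (one_ne_zero (α := F)) e1).2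
  have e3 : yP F p p = -1 := by simp [yP]
  rw [e3] at e2
  apply h2F
  simp only [Units.val_neg, Units.val_one] at e2
  linear_combination e2

/-! ### The vector of an involution of the torus -/

/-- All Boolean lists of a given length. -/
def allVecs : ℕ → List (List Bool)
  | 0 => [[]]
  | n + 1 => (allVecs n).flatMap fun v => [true :: v, false :: v]

lemma mem_allVecs {n : ℕ} {v : List Bool} (hv : v.length = n) : v ∈ allVecs n := by
  induction n generalizing v with
  | zero =>
    have : v = [] := List.length_eq_zero_iff.mp hv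
    rw [this]
    simp [allVecs]
  | succ n ih =>
    cases v with
    | nil => simp at hv
    | cons a v =>
      have hv' : v.length = n := by simpa using hv
      simp only [allVecs, List.mem_flatMap]
      refine ⟨v, ih hv', ?_⟩
      cases a <;> simp

/-- The vector of a torus element. -/
noncomputable def vy (D : ChevalleyDatum) (y : ℕ → Fˣ) : List Bool := by
  classical
  exact (List.range D.rank).map fun j => decide (y j = 1)

lemma vy_length (y : ℕ → Fˣ) : (vy D y).length = D.rank := by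
  classical
  simp [vy]

include h h2 ax in
lemma y_sq {y : ℕ → Fˣ} (hy : (tor D y : GL D.Idx F) * tor D y = 1) {j : ℕ} (hj : j < D.rank) : y j = 1 ∨ y j = -1 := by
  have e1 := tor_conj_xG ax h (y * y) (h.simple_lt j hj) 1
  rw [tor_mul, hy, chi_simple h _ hj] at e1
  simp only [one_mul, inv_one, mul_one] at e1
  have e2 := (xG_eq_iff ax h h2 (h.simple_lt j hj) (h.simple_lt j hj) (one_ne_zero (α := F)) e1).2
  have e3 : (y j : F) * y j = 1 := by
    have : ((y * y) j : Fˣ) = y j * y j := rfl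
    rw [this, Units.val_mul] at e2
    exact e2.symm
  have e4 : (y j : F) = 1 ∨ (y j : F) = -1 := mul_self_eq_one_iff.mp e3
  rcases e4 with e4 | e4
  · exact Or.inl (Units.ext e4)
  · exact Or.inr (Units.ext (by simpa using e4))

section conj

variable {p S Ts : ℕ}

lemma certS_facts {Tg l : ℕ} {words : List (List ℕ)} {ls : List LevelS} {ds : List ℕ}
    (hc : certS D p S Ts Tg l words ls ds = true) :
    (∀ i, i < D.rank → ∀ r, r < D.nroots → byteAt (rowOf D.nroots Ts i) r = D.reflectRoot i r) ∧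
      ∀ r, r < D.nroots → (SelP D p r = true ↔ byteAt S r = 1) := by
  simp only [certS, Bool.and_eq_true, beq_iff_eq] at hc
  obtain ⟨⟨⟨⟨⟨⟨⟨⟨⟨c1, c2⟩, c3⟩, c4⟩, c5⟩, c6⟩, c7⟩, c8⟩, c9⟩, c10⟩ := hc
  simp only [force_eq] at c1
  refine ⟨fun i hi r hr => Nat.eq_of_beq_eq_true (allB_spec (allB_spec c1 i hi) r hr), ?_⟩
  intro r hr
  have := allB_spec c3 r hr
  rw [beq_iff_eq] at this
  rw [← this, beq1]

include h h2 ax in
/-- A torus element with the vector of a word is a conjugate of the base element. -/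
lemma tor_eq_conj (h2F : (2 : F) ≠ 0) (hp : p < D.rank) (hτT : tor D (yP F p) ∈ D.diagonalSubgroup F)
    (hTs : ∀ i, i < D.rank → ∀ r, r < D.nroots → byteAt (rowOf D.nroots Ts i) r = D.reflectRoot i r)
    (hS : ∀ r, r < D.nroots → (SelP D p r = true ↔ byteAt S r = 1)) {W : List ℕ} (hW : ∀ i ∈ W, i < D.rank)
    {y : ℕ → Fˣ} (hy : (tor D y : GL D.Idx F) * tor D y = 1) (hv : vecT D.nroots S Ts D.simple D.rank W = vy D y) :
    nw D ax W.reverse * tor D (yP F p) * (nw D ax W.reverse)⁻¹ = tor D y := by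
  classical
  have hWr : ∀ i ∈ W.reverse, i < D.rank := fun i hi => hW i (List.mem_reverse.mp hi)
  obtain ⟨c, Hn⟩ := exists_isNor_nw h h2 ax hWr
  have hT := Hn.conj_mem_H h ax hτT
  obtain ⟨y', hy'⟩ := exists_tor_of_mem ax h hT
  rw [hy']
  have hπ : (wPw h W.reverse)⁻¹ = wPw h W := by
    rw [wPw_reverse, List.reverse_reverse]
  have hS' := selOf_yP (F := F) hp
  have key : ∀ j, j < D.rank → y' j = y j := by
    intro j hj
    have hs := h.simple_lt j hj
    have e1 := conj_tor_chi h h2 ax Hn (yP F p) y' hy' (wPw h W ⟨D.simple j, hs⟩)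
    have e2 : wPw h W.reverse (wPw h W ⟨D.simple j, hs⟩) = ⟨D.simple j, hs⟩ := by
      rw [← hπ]
      simp
    rw [e2, chi_simple h _ hj, wPw_val h hW] at e1
    have hlt := wWord_lt h hW hs
    have e3 : Nat.beq (byteAt S (wordT Ts D.nroots W (D.simple j))) 1 = decide (y j = 1) := by
      have e4 := congrArg (fun l : List Bool => l.getD j false) hv
      simp only [vecT, vy] at e4
      rw [List.getD_eq_getElem _ _ (by simpa using hj), List.getD_eq_getElem _ _ (by simpa using hj)] at e4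
      simpa using e4
    rw [wordT_eq h hTs hW hs] at e3
    by_cases hsel : SelP D p (wWord D W (D.simple j)) = true
    · have e5 := hS'.pos _ hlt hsel
      rw [e5] at e1
      have e6 : decide (y j = 1) = true := by
        rw [← e3]
        exact beq1.mpr ((hS _ hlt).mp hsel)
      rw [e1, of_decide_eq_true e6]
    · have hsel' : SelP D p (wWord D W (D.simple j)) = false := by simpa using hsel
      have e5 := hS'.neg _ hlt hsel'
      rw [e5] at e1
      have e6 : decide (y j = 1) = false := by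
        rw [← e3, Bool.eq_false_iff]
        intro e7
        exact hsel ((hS _ hlt).mpr (beq1.mp e7))
      have e7 : y j ≠ 1 := of_decide_eq_false e6
      rcases y_sq h h2 ax hy hj with e8 | e8
      · exact absurd e8 e7
      · rw [e1, e8]
  apply tor_eq_of_chi
  intro s _
  simp only [chi]
  apply Finset.prod_congr rfl
  intro i hi
  rw [key i (Finset.mem_range.mp hi)]

end conj

/-! ### The conclusion for two base points -/

section main

variable {pa pb Sa Sb Ts : ℕ} {orba orbb : List (List ℕ)}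

include h h2 ax in
/-- The classes of the involutions. -/
theorem inv_class (h2F : (2 : F) ≠ 0) (hpa : pa < D.rank) (hpb : pb < D.rank)
    (hT : ∀ y : ℕ → Fˣ, tor D y ∈ D.diagonalSubgroup F)
    (hinvT : ∀ t : GL D.Idx F, t ∈ D.group F → t * t = 1 → ∃ g ∈ D.group F, g * t * g⁻¹ ∈ D.diagonalSubgroup F)
    (hTs : ∀ i, i < D.rank → ∀ r, r < D.nroots → byteAt (rowOf D.nroots Ts i) r = D.reflectRoot i r)
    (hSa : ∀ r, r < D.nroots → (SelP D pa r = true ↔ byteAt Sa r = 1))
    (hSb : ∀ r, r < D.nroots → (SelP D pb r = true ↔ byteAt Sb r = 1))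
    (hla : ∀ W ∈ orba, ∀ i ∈ W, i < D.rank) (hlb : ∀ W ∈ orbb, ∀ i ∈ W, i < D.rank)
    (hcov : ∀ v ∈ allVecs D.rank, v = List.replicate D.rank true ∨
      v ∈ orba.map (vecT D.nroots Sa Ts D.simple D.rank) ∨ v ∈ orbb.map (vecT D.nroots Sb Ts D.simple D.rank))
    {t : GL D.Idx F} (ht : t ∈ D.group F) (htt : t * t = 1) (hne : t ≠ 1) :
    ∃ g ∈ D.group F, g * t * g⁻¹ = tor D (yP F pa) ∨ g * t * g⁻¹ = tor D (yP F pb) := by
  classical
  obtain ⟨g, hg, hd⟩ := hinvT t ht htt
  obtain ⟨y, hy⟩ := exists_tor_of_mem ax h hd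
  have hyy : (tor D y : GL D.Idx F) * tor D y = 1 := by
    rw [← hy]
    have : g * t * g⁻¹ * (g * t * g⁻¹) = g * (t * t) * g⁻¹ := by group
    rw [this, htt]
    group
  have hnw : ∀ W : List ℕ, (∀ i ∈ W, i < D.rank) → nw D ax W ∈ D.group F := fun W hW =>
    monomial_le_group h ax (nw_mem_monomial_aux h h2 ax hW)
  rcases hcov _ (mem_allVecs (vy_length (D := D) y)) with h0 | h1 | h1
  · exfalso
    apply hne
    have hy1 : ∀ j, j < D.rank → y j = 1 := by
      intro j hj
      have e4 := congrArg (fun l : List Bool => l.getD j false) h0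
      simp only [vy] at e4
      rw [List.getD_eq_getElem _ _ (by simpa using hj), List.getD_eq_getElem _ _ (by simpa using hj)] at e4
      simpa using e4
    have e : (tor D y : GL D.Idx F) = tor D (1 : ℕ → Fˣ) := by
      apply tor_eq_of_chi
      intro s _
      simp only [chi]
      apply Finset.prod_congr rfl
      intro i hi
      rw [hy1 i (Finset.mem_range.mp hi)]
      rfl
    rw [tor_one] at e
    rw [e] at hy
    have e2 : t = g⁻¹ * (g * t * g⁻¹) * g := by group
    rw [e2, hy]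
    group
  · obtain ⟨W, hW, hv⟩ := List.mem_map.mp h1
    have hWr : ∀ i ∈ W.reverse, i < D.rank := fun i hi => hla W hW i (List.mem_reverse.mp hi)
    have e := tor_eq_conj (p := pa) h h2 ax h2F hpa (hT _) hTs hSa (hla W hW) hyy hv
    refine ⟨(nw D ax W.reverse)⁻¹ * g, Subgroup.mul_mem _ (Subgroup.inv_mem _ (hnw _ hWr)) hg, Or.inl ?_⟩
    have e2 : (nw D ax W.reverse)⁻¹ * g * t * ((nw D ax W.reverse)⁻¹ * g)⁻¹ =
        (nw D ax W.reverse)⁻¹ * (g * t * g⁻¹) * nw D ax W.reverse := by group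
    rw [e2, hy, ← e]
    group
  · obtain ⟨W, hW, hv⟩ := List.mem_map.mp h1
    have hWr : ∀ i ∈ W.reverse, i < D.rank := fun i hi => hlb W hW i (List.mem_reverse.mp hi)
    have e := tor_eq_conj (p := pb) h h2 ax h2F hpb (hT _) hTs hSb (hlb W hW) hyy hv
    refine ⟨(nw D ax W.reverse)⁻¹ * g, Subgroup.mul_mem _ (Subgroup.inv_mem _ (hnw _ hWr)) hg, Or.inr ?_⟩
    have e2 : (nw D ax W.reverse)⁻¹ * g * t * ((nw D ax W.reverse)⁻¹ * g)⁻¹ =
        (nw D ax W.reverse)⁻¹ * (g * t * g⁻¹) * nw D ax W.reverse := by group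
    rw [e2, hy, ← e]
    group

include h h2 ax in
/-- The order of the centralizer, from a certificate. -/
theorem card_cent [Fintype F] {q : ℕ} (hq : Fintype.card F = q) (h2F : (2 : F) ≠ 0) {p : ℕ} (hp : p < D.rank)
    {S Ts Tg l : ℕ} {words : List (List ℕ)} {ls : List LevelS} {ds : List ℕ}
    (hc : certS D p S Ts Tg l words ls ds = true) (orb : List (List ℕ)) (hOl : ∀ W ∈ orb, ∀ i ∈ W, i < D.rank)
    (hOnd : (orb.map (vecT D.nroots S Ts D.simple D.rank)).Nodup)
    {Tw : ℕ} {lsW : List Level} {dsW : List ℕ} (hW : certOK D Tw lsW dsW = true)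
    (hnum : ds.prod * orb.length = dsW.prod) (hlen : ds.length = D.rank)
    (hTc : Nat.card (D.diagonalSubgroup F) = (q - 1) ^ D.rank) {Ns : ℕ}
    (hNs : (D.posRoots.filter (SelP D p)).length = Ns)
    (hτT : tor D (yP F p) ∈ D.diagonalSubgroup F) (hτ : tor D (yP F p) ∈ D.group F) :
    Nat.card (Subgroup.centralizer ({⟨tor D (yP F p), hτ⟩} : Set ↥(D.group F))) =
      q ^ Ns * (ds.map fun d => q ^ d - 1).prod := by
  have hq1 : 1 ≤ q := by
    rw [← hq]
    exact Fintype.card_pos
  rw [card_centralizer h h2 ax h2F (selOf_yP hp) hτT hτ, hq, hNs, hTc, sum_WcS h h2 ax hc orb hOl hOnd hW hnum q,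
    ← prod_geom ds q hq1, hlen]
  ring

omit h h2 ax in
/-- Conjugate elements have centralizers of the same order. -/
lemma card_cent_conj {H : Type*} [Group H] {a b : H} (hc : IsConj a b) :
    Nat.card (Subgroup.centralizer ({a} : Set H)) = Nat.card (Subgroup.centralizer ({b} : Set H)) := by
  obtain ⟨c, rfl⟩ := isConj_iff.mp hc
  apply Nat.card_congr
  exact
    { toFun := fun x => ⟨c * x.1 * c⁻¹, by
        have hx := Subgroup.mem_centralizer_singleton_iff.mp x.2
        rw [Subgroup.mem_centralizer_singleton_iff]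
        calc c * x.1 * c⁻¹ * (c * a * c⁻¹) = c * (x.1 * a) * c⁻¹ := by group
          _ = c * (a * x.1) * c⁻¹ := by rw [hx]
          _ = _ := by group⟩
      invFun := fun x => ⟨c⁻¹ * x.1 * c, by
        have hx := Subgroup.mem_centralizer_singleton_iff.mp x.2
        rw [Subgroup.mem_centralizer_singleton_iff]
        calc c⁻¹ * x.1 * c * a = c⁻¹ * (x.1 * (c * a * c⁻¹)) * c := by group
          _ = c⁻¹ * ((c * a * c⁻¹) * x.1) * c := by rw [hx]
          _ = _ := by group⟩
      left_inv := fun x => Subtype.ext (by simp [mul_assoc])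
      right_inv := fun x => Subtype.ext (by simp [mul_assoc]) }

include h h2 ax in
/-- The final form. -/
theorem final_generic (h2F : (2 : F) ≠ 0) (hpa : pa < D.rank) (hpb : pb < D.rank)
    (hT : ∀ y : ℕ → Fˣ, tor D y ∈ D.diagonalSubgroup F)
    (hinvT : ∀ t : GL D.Idx F, t ∈ D.group F → t * t = 1 → ∃ g ∈ D.group F, g * t * g⁻¹ ∈ D.diagonalSubgroup F)
    (hTs : ∀ i, i < D.rank → ∀ r, r < D.nroots → byteAt (rowOf D.nroots Ts i) r = D.reflectRoot i r)
    (hSa : ∀ r, r < D.nroots → (SelP D pa r = true ↔ byteAt Sa r = 1))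
    (hSb : ∀ r, r < D.nroots → (SelP D pb r = true ↔ byteAt Sb r = 1))
    (hla : ∀ W ∈ orba, ∀ i ∈ W, i < D.rank) (hlb : ∀ W ∈ orbb, ∀ i ∈ W, i < D.rank)
    (hcov : ∀ v ∈ allVecs D.rank, v = List.replicate D.rank true ∨
      v ∈ orba.map (vecT D.nroots Sa Ts D.simple D.rank) ∨ v ∈ orbb.map (vecT D.nroots Sb Ts D.simple D.rank))
    {A B : ℕ}
    (hA : ∀ hτ : tor D (yP F pa) ∈ D.group F,
      Nat.card (Subgroup.centralizer ({⟨tor D (yP F pa), hτ⟩} : Set ↥(D.group F))) = A)
    (hB : ∀ hτ : tor D (yP F pb) ∈ D.group F,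
      Nat.card (Subgroup.centralizer ({⟨tor D (yP F pb), hτ⟩} : Set ↥(D.group F))) = B) (hAB : A ≠ B) :
    ∃ s t : ↥(D.group F), orderOf s = 2 ∧ orderOf t = 2 ∧ ¬ IsConj s t ∧
      (∀ u : ↥(D.group F), orderOf u = 2 → IsConj u s ∨ IsConj u t) ∧
      Nat.card (Subgroup.centralizer ({s} : Set ↥(D.group F))) = A ∧
      Nat.card (Subgroup.centralizer ({t} : Set ↥(D.group F))) = B := by
  haveI : Fact (Nat.Prime 2) := ⟨Nat.prime_two⟩
  have hGa : tor D (yP F pa) ∈ D.group F := diagonal_le_group h ax (hT _)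
  have hGb : tor D (yP F pb) ∈ D.group F := diagonal_le_group h ax (hT _)
  have hord : ∀ (p : ℕ) (hp : p < D.rank) (hG : tor D (yP F p) ∈ D.group F),
      orderOf (⟨tor D (yP F p), hG⟩ : ↥(D.group F)) = 2 := by
    intro p hp hG
    apply orderOf_eq_prime
    · apply Subtype.ext
      change (tor D (yP F p) : GL D.Idx F) ^ 2 = 1
      rw [pow_two, tor_yP_sq]
    · intro e
      exact tor_yP_ne h h2 ax h2F hp (congrArg Subtype.val e)
  refine ⟨⟨_, hGa⟩, ⟨_, hGb⟩, hord pa hpa hGa, hord pb hpb hGb, ?_, ?_, hA hGa, hB hGb⟩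
  · intro hc
    apply hAB
    rw [← hA hGa, ← hB hGb]
    exact card_cent_conj hc
  · intro u hu
    have hu2 : u.1 * u.1 = 1 := by
      have : u ^ 2 = 1 := by rw [← hu]; exact pow_orderOf_eq_one u
      have e := congrArg Subtype.val this
      rw [pow_two] at e
      exact e
    have hne : u.1 ≠ 1 := by
      intro e
      have : u = 1 := Subtype.ext e
      rw [this, orderOf_one] at hu
      omega
    obtain ⟨g, hg, e⟩ := inv_class h h2 ax h2F hpa hpb hT hinvT hTs hSa hSb hla hlb hcov u.2 hu2 hne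
    rcases e with e | e
    · exact Or.inl (isConj_iff.mpr ⟨⟨g, hg⟩, Subtype.ext e⟩)
    · exact Or.inr (isConj_iff.mpr ⟨⟨g, hg⟩, Subtype.ext e⟩)

end main

end Cfsg.Agent.Lib.KS71.IVi
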