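/-
Involutions in Chevalley groups, odd characteristic: the two classes of involutions of `E₈(q)`.
-/
import Mathlib
import Cfsg.Agent.Lib.KS71.IVi
import Cfsg.Agent.Lib.KS71.IVhE8a
import Cfsg.Agent.Lib.KS71.IVhE8b
import Cfsg.Agent.Lib.KS71.IVe2

set_option autoImplicit false
set_option linter.unusedSectionVars false
set_option linter.unusedVariables false

namespace Cfsg.Agent.Lib.KS71.IVjE8

open Cfsg Cfsg.Lie Cfsg.Lie.ChevalleyDatum
open Cfsg.Agent.Lib.Chev.Tables Cfsg.Agent.Lib.Chev.Tables2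
open Cfsg.Agent.Lib.Chev.Basic Cfsg.Agent.Lib.Chev.AxBasic Cfsg.Agent.Lib.Chev.Torus
open Cfsg.Agent.Lib.Chev.Order3 Cfsg.Agent.Lib.Chev.OrderData Cfsg.Agent.Lib.Chev.Diag
open Cfsg.Agent.Lib.KS71.IVg Cfsg.Agent.Lib.KS71.IVi Cfsg.Agent.Lib.KS71.IVhE8a Cfsg.Agent.Lib.KS71.IVhE8b
open Cfsg.Agent.Lib.KS71.IVe2

set_option maxRecDepth 100000 in
set_option maxHeartbeats 0 in
lemma covE8 : ∀ v ∈ allVecs chevE8.rank, v = List.replicate chevE8.rank true ∨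
    v ∈ orba.map (vecT chevE8.nroots Sa E8.Tb chevE8.simple chevE8.rank) ∨
    v ∈ orbb.map (vecT chevE8.nroots Sb E8.Tb chevE8.simple chevE8.rank) := by
  decide +kernel

lemma prodE8 (q : ℕ) : ∏ i ∈ Finset.Icc 1 7, (q ^ (2 * i) - 1) =
    (q ^ 2 - 1) * (q ^ 4 - 1) * (q ^ 6 - 1) * (q ^ 8 - 1) * (q ^ 10 - 1) * (q ^ 12 - 1) * (q ^ 14 - 1) := by
  simp only [Finset.prod_Icc_succ_top (by norm_num : 1 ≤ 6 + 1), Finset.prod_Icc_succ_top (by norm_num : 1 ≤ 5 + 1),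
    Finset.prod_Icc_succ_top (by norm_num : 1 ≤ 4 + 1), Finset.prod_Icc_succ_top (by norm_num : 1 ≤ 3 + 1),
    Finset.prod_Icc_succ_top (by norm_num : 1 ≤ 2 + 1), Finset.prod_Icc_succ_top (by norm_num : 1 ≤ 1 + 1),
    Finset.Icc_self, Finset.prod_singleton]

lemma neE8 {q : ℕ} (hq : 1 < q) : q ^ 56 * (q ^ 8 - 1) * ∏ i ∈ Finset.Icc 1 7, (q ^ (2 * i) - 1) ≠
    q ^ 64 * (q ^ 2 - 1) ^ 2 * (q ^ 6 - 1) * (q ^ 8 - 1) * (q ^ 10 - 1) * (q ^ 12 - 1) * (q ^ 14 - 1) * (q ^ 18 - 1) := by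
  rw [prodE8]
  intro e
  have h2 : 1 < q ^ 2 := Nat.one_lt_pow two_ne_zero hq
  have h4 : 1 < q ^ 4 := Nat.one_lt_pow (by norm_num) hq
  have h6 : 1 < q ^ 6 := Nat.one_lt_pow (by norm_num) hq
  have h8 : 1 < q ^ 8 := Nat.one_lt_pow (by norm_num) hq
  have h10 : 1 < q ^ 10 := Nat.one_lt_pow (by norm_num) hq
  have h12 : 1 < q ^ 12 := Nat.one_lt_pow (by norm_num) hq
  have h14 : 1 < q ^ 14 := Nat.one_lt_pow (by norm_num) hq
  have h418 : q ^ 4 ≤ q ^ 18 := Nat.pow_le_pow_right (by omega) (by norm_num)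
  have hK : 0 < q ^ 56 * (q ^ 2 - 1) * (q ^ 6 - 1) * (q ^ 8 - 1) * (q ^ 10 - 1) * (q ^ 12 - 1) * (q ^ 14 - 1) := by
    apply Nat.mul_pos (Nat.mul_pos (Nat.mul_pos (Nat.mul_pos (Nat.mul_pos (Nat.mul_pos (by positivity) (by omega)) (by omega))
      (by omega)) (by omega)) (by omega)) (by omega)
  have e1 : q ^ 56 * (q ^ 2 - 1) * (q ^ 6 - 1) * (q ^ 8 - 1) * (q ^ 10 - 1) * (q ^ 12 - 1) * (q ^ 14 - 1) *
        ((q ^ 8 - 1) * (q ^ 4 - 1)) =
      q ^ 56 * (q ^ 2 - 1) * (q ^ 6 - 1) * (q ^ 8 - 1) * (q ^ 10 - 1) * (q ^ 12 - 1) * (q ^ 14 - 1) *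
        (q ^ 8 * (q ^ 2 - 1) * (q ^ 18 - 1)) := by
    calc _ = q ^ 56 * (q ^ 8 - 1) * ((q ^ 2 - 1) * (q ^ 4 - 1) * (q ^ 6 - 1) * (q ^ 8 - 1) * (q ^ 10 - 1) * (q ^ 12 - 1) *
          (q ^ 14 - 1)) := by ring
      _ = _ := e
      _ = _ := by ring
  have e2 := Nat.eq_of_mul_eq_mul_left hK e1
  have h3 : q ^ 4 - 1 ≤ q ^ 18 - 1 := by omega
  have h5 : 1 ≤ q ^ 2 - 1 := by omega
  have h7 : 1 ≤ q ^ 4 - 1 := by omega
  have h9 : q ^ 8 - 1 + 1 = q ^ 8 := by omega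
  have h11 : (q ^ 8 - 1) * (q ^ 4 - 1) < q ^ 8 * (q ^ 4 - 1) := by
    apply Nat.mul_lt_mul_of_pos_right (by omega) (by omega)
  have h13 : q ^ 8 * (q ^ 4 - 1) ≤ q ^ 8 * (q ^ 18 - 1) := Nat.mul_le_mul_left _ h3
  have h15 : q ^ 8 * (q ^ 18 - 1) ≤ q ^ 8 * (q ^ 2 - 1) * (q ^ 18 - 1) := by
    apply Nat.mul_le_mul_right
    exact Nat.le_mul_of_pos_right _ (by omega)
  omega

/-- The classes of involutions of `E₈(q)`, `q` odd. -/
theorem classes_E8 {F : Type*} [Field F] [Fintype F] (hF : Odd (Fintype.card F)) (ax : Ax chevE8 F) :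
    ∃ s t : ↥(chevE8.group F), orderOf s = 2 ∧ orderOf t = 2 ∧ ¬ IsConj s t ∧
      (∀ u : ↥(chevE8.group F), orderOf u = 2 → IsConj u s ∨ IsConj u t) ∧
      Nat.card (Subgroup.centralizer ({s} : Set ↥(chevE8.group F))) =
        Fintype.card F ^ 56 * (Fintype.card F ^ 8 - 1) * ∏ i ∈ Finset.Icc 1 7, (Fintype.card F ^ (2 * i) - 1) ∧
      Nat.card (Subgroup.centralizer ({t} : Set ↥(chevE8.group F))) =
        Fintype.card F ^ 64 * (Fintype.card F ^ 2 - 1) ^ 2 * (Fintype.card F ^ 6 - 1) * (Fintype.card F ^ 8 - 1) *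
          (Fintype.card F ^ 10 - 1) * (Fintype.card F ^ 12 - 1) * (Fintype.card F ^ 14 - 1) * (Fintype.card F ^ 18 - 1) := by
  have hD : chevE8 ∈ [chevG2, chevB2, chevD4, chevF4, chevE6, chevE7, chevE8] := by simp
  have h := tab_of_mem hD
  have h2 := tab2_of_mem hD
  have h2F := two_ne_of_odd rfl hF
  have hq1 : 1 < Fintype.card F := Fintype.one_lt_card
  have hT : ∀ y : ℕ → Fˣ, tor chevE8 y ∈ chevE8.diagonalSubgroup F := fun y =>
    Cfsg.Agent.Lib.KS71.IVb4.tor_mem_of_inv h h2 ax (M := Cfsg.Agent.Lib.KS71.IVb5.tabZ Cfsg.Agent.Lib.KS71.IVb5.invE8)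
      (fun k j hk hj => Cfsg.Agent.Lib.KS71.IVb5.invE8_l k hk j hj) y
  have hTc : Nat.card (chevE8.diagonalSubgroup F) = (Fintype.card F - 1) ^ chevE8.rank := by
    have := card_diagonal_final rfl (chevE8, 1) (by simp) ax
    rw [one_mul] at this
    exact this
  have hca := certS_facts certa
  have hcb := certS_facts certb
  refine final_generic (pa := 5) (pb := 7) (Sa := Sa) (Sb := Sb) (Ts := E8.Tb) (orba := orba) (orbb := orbb)
    h h2 ax h2F (by decide) (by decide) hT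
    (fun t ht htt => inv_torus_E8 ax rfl hF ht htt) hca.1 hca.2 hcb.2 orbLa orbLb covE8 ?_ ?_ (neE8 hq1)
  · intro hτ
    rw [card_cent h h2 ax rfl h2F (by decide) certa orba orbLa orbNa E8.cert (by rw [orbCa]; decide) (by decide) hTc
      numCa (hT _) hτ, prodE8]
    simp only [List.map_cons, List.map_nil, List.prod_cons, List.prod_nil, mul_one]
    ring
  · intro hτ
    rw [card_cent h h2 ax rfl h2F (by decide) certb orbb orbLb orbNb E8.cert (by rw [orbCb]; decide) (by decide) hTc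
      numCb (hT _) hτ]
    simp only [List.map_cons, List.map_nil, List.prod_cons, List.prod_nil, mul_one]
    ring

end Cfsg.Agent.Lib.KS71.IVjE8
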