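/-
Involutions in Chevalley groups, odd characteristic: the two classes of involutions of `F₄(q)`.
-/
import Mathlib
import Cfsg.Agent.Lib.KS71.IVi
import Cfsg.Agent.Lib.KS71.IVhF4
import Cfsg.Agent.Lib.KS71.IVe2

set_option autoImplicit false
set_option linter.unusedSectionVars false
set_option linter.unusedVariables false

namespace Cfsg.Agent.Lib.KS71.IVjF4

open Cfsg Cfsg.Lie Cfsg.Lie.ChevalleyDatum
open Cfsg.Agent.Lib.Chev.Tables Cfsg.Agent.Lib.Chev.Tables2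
open Cfsg.Agent.Lib.Chev.Basic Cfsg.Agent.Lib.Chev.AxBasic Cfsg.Agent.Lib.Chev.Torus
open Cfsg.Agent.Lib.Chev.Order3 Cfsg.Agent.Lib.Chev.OrderData Cfsg.Agent.Lib.Chev.Diag
open Cfsg.Agent.Lib.KS71.IVg Cfsg.Agent.Lib.KS71.IVi Cfsg.Agent.Lib.KS71.IVhF4 Cfsg.Agent.Lib.KS71.IVe2

set_option maxRecDepth 100000 in
lemma covF4 : ∀ v ∈ allVecs chevF4.rank, v = List.replicate chevF4.rank true ∨
    v ∈ orba.map (vecT chevF4.nroots Sa F4.Tb chevF4.simple chevF4.rank) ∨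
    v ∈ orbb.map (vecT chevF4.nroots Sb F4.Tb chevF4.simple chevF4.rank) := by
  decide +kernel

lemma neF4 {q : ℕ} (hq : 1 < q) : q ^ 16 * (q ^ 2 - 1) * (q ^ 4 - 1) * (q ^ 6 - 1) * (q ^ 8 - 1) ≠
    q ^ 10 * (q ^ 2 - 1) ^ 2 * (q ^ 4 - 1) * (q ^ 6 - 1) := by
  intro e
  have h2 : 1 < q ^ 2 := Nat.one_lt_pow two_ne_zero hq
  have h4 : 1 < q ^ 4 := Nat.one_lt_pow (by norm_num) hq
  have h6 : 1 < q ^ 6 := Nat.one_lt_pow (by norm_num) hq
  have h28 : q ^ 2 ≤ q ^ 8 := Nat.pow_le_pow_right (by omega) (by norm_num)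
  have hK : 0 < q ^ 10 * (q ^ 2 - 1) * (q ^ 4 - 1) * (q ^ 6 - 1) := by
    apply Nat.mul_pos (Nat.mul_pos (Nat.mul_pos (by positivity) (by omega)) (by omega)) (by omega)
  have e1 : q ^ 10 * (q ^ 2 - 1) * (q ^ 4 - 1) * (q ^ 6 - 1) * (q ^ 6 * (q ^ 8 - 1)) =
      q ^ 10 * (q ^ 2 - 1) * (q ^ 4 - 1) * (q ^ 6 - 1) * (q ^ 2 - 1) := by
    calc _ = q ^ 16 * (q ^ 2 - 1) * (q ^ 4 - 1) * (q ^ 6 - 1) * (q ^ 8 - 1) := by ring
      _ = _ := e
      _ = _ := by ring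
  have e2 := Nat.eq_of_mul_eq_mul_left hK e1
  have h3 : q ^ 2 - 1 ≤ q ^ 8 - 1 := by omega
  have h5 : 1 ≤ q ^ 2 - 1 := by omega
  nlinarith

/-- The classes of involutions of `F₄(q)`, `q` odd. -/
theorem classes_F4 {F : Type*} [Field F] [Fintype F] (hF : Odd (Fintype.card F)) (ax : Ax chevF4 F) :
    ∃ s t : ↥(chevF4.group F), orderOf s = 2 ∧ orderOf t = 2 ∧ ¬ IsConj s t ∧
      (∀ u : ↥(chevF4.group F), orderOf u = 2 → IsConj u s ∨ IsConj u t) ∧
      Nat.card (Subgroup.centralizer ({s} : Set ↥(chevF4.group F))) =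
        Fintype.card F ^ 16 * (Fintype.card F ^ 2 - 1) * (Fintype.card F ^ 4 - 1) * (Fintype.card F ^ 6 - 1) *
          (Fintype.card F ^ 8 - 1) ∧
      Nat.card (Subgroup.centralizer ({t} : Set ↥(chevF4.group F))) =
        Fintype.card F ^ 10 * (Fintype.card F ^ 2 - 1) ^ 2 * (Fintype.card F ^ 4 - 1) * (Fintype.card F ^ 6 - 1) := by
  have hD : chevF4 ∈ [chevG2, chevB2, chevD4, chevF4, chevE6, chevE7, chevE8] := by simp
  have h := tab_of_mem hD
  have h2 := tab2_of_mem hD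
  have h2F := two_ne_of_odd rfl hF
  have hq1 : 1 < Fintype.card F := Fintype.one_lt_card
  have hT : ∀ y : ℕ → Fˣ, tor chevF4 y ∈ chevF4.diagonalSubgroup F := fun y =>
    Cfsg.Agent.Lib.KS71.IVb4.tor_mem_of_inv h h2 ax (M := Cfsg.Agent.Lib.KS71.IVb5.tabZ Cfsg.Agent.Lib.KS71.IVb5.invF4)
      (fun k j hk hj => Cfsg.Agent.Lib.KS71.IVb5.invF4_l k hk j hj) y
  have hTc : Nat.card (chevF4.diagonalSubgroup F) = (Fintype.card F - 1) ^ chevF4.rank := by
    have := card_diagonal_final rfl (chevF4, 1) (by simp) ax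
    rw [one_mul] at this
    exact this
  have hca := certS_facts certa
  have hcb := certS_facts certb
  refine final_generic (pa := 1) (pb := 3) (Sa := Sa) (Sb := Sb) (Ts := F4.Tb) (orba := orba) (orbb := orbb)
    h h2 ax h2F (by decide) (by decide) hT
    (fun t ht htt => inv_torus_F4 ax rfl hF ht htt) hca.1 hca.2 hcb.2 orbLa orbLb covF4 ?_ ?_ (neF4 hq1)
  · intro hτ
    rw [card_cent h h2 ax rfl h2F (by decide) certa orba orbLa orbNa F4.cert (by rw [orbCa]; decide) (by decide) hTc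
      numCa (hT _) hτ]
    simp only [List.map_cons, List.map_nil, List.prod_cons, List.prod_nil, mul_one]
    ring
  · intro hτ
    rw [card_cent h h2 ax rfl h2F (by decide) certb orbb orbLb orbNb F4.cert (by rw [orbCb]; decide) (by decide) hTc
      numCb (hT _) hτ]
    simp only [List.map_cons, List.map_nil, List.prod_cons, List.prod_nil, mul_one]
    ring

end Cfsg.Agent.Lib.KS71.IVjF4
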