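/-
Abstract lemmas for the value of the Steinberg character at semisimple elements:
fixed points on `P/Q` for `P = U Q`, `U` a normal `p`-subgroup with `U ∩ Q = 1`; divisibility of character values.
-/
import Mathlib
import Cfsg.Agent.Lib.KS71.StDefectAbs
import Cfsg.Agent.Lib.Char.Central

set_option autoImplicit false
set_option linter.unusedSectionVars false
set_option linter.unusedVariables false

namespace Cfsg.Agent.Lib.KS71.StSemiA

open Module
open Cfsg.Agent.Lib.KS71.StDefectAbs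

section affine

variable {P : Type*} [Group P] {U Q : Subgroup P}

lemma smul_mk'' (b g : P) : b • (g : P ⧸ Q) = ((b * g : P) : P ⧸ Q) := rfl

/-- The fixed points of `s` once one of them is known. -/
theorem card_fix_of_point [Finite P] (hn : U.Normal) (hUQ : U ⊓ Q = ⊥) (hP : ∀ x : P, ∃ u ∈ U, ∃ q ∈ Q, x = u * q)
    {s x : P} (hx : x⁻¹ * s * x ∈ Q) :
    Nat.card (MulAction.fixedBy (P ⧸ Q) s) = Nat.card ↥(U ⊓ Subgroup.centralizer {x⁻¹ * s * x}) := by
  set y := x⁻¹ * s * x with hy
  have hcomm : ∀ c ∈ U ⊓ Subgroup.centralizer {y}, c * y = y * c := by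
    intro c hc
    exact Subgroup.mem_centralizer_singleton_iff.mp hc.2
  have hs : s * x = x * y := by rw [hy]; group
  let f : ↥(U ⊓ Subgroup.centralizer {y}) → MulAction.fixedBy (P ⧸ Q) s := fun c =>
    ⟨((x * (c : P) : P) : P ⧸ Q), by
      rw [MulAction.mem_fixedBy, smul_mk'']
      apply QuotientGroup.eq.mpr
      have e : (s * (x * (c : P)))⁻¹ * (x * (c : P)) = y⁻¹ := by
        have e2 : s * (x * (c : P)) = x * (c : P) * y := by
          calc s * (x * (c : P)) = (s * x) * c := by group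
            _ = x * (y * c) := by rw [hs]; group
            _ = x * (c * y) := by rw [hcomm c c.2]
            _ = x * c * y := by group
        rw [e2]
        group
      rw [e]
      exact Subgroup.inv_mem _ hx⟩
  have hf : Function.Bijective f := by
    constructor
    · rintro c c' he
      have he' : ((x * (c : P) : P) : P ⧸ Q) = ((x * (c' : P) : P) : P ⧸ Q) := congrArg Subtype.val he
      have h1 := QuotientGroup.eq.mp he'
      have e : (x * (c : P))⁻¹ * (x * (c' : P)) = (c : P)⁻¹ * c' := by group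
      rw [e] at h1
      have h2 : (c : P)⁻¹ * c' ∈ U ⊓ Q := ⟨U.mul_mem (U.inv_mem c.2.1) c'.2.1, h1⟩
      rw [hUQ, Subgroup.mem_bot] at h2
      apply Subtype.ext
      exact (inv_mul_eq_one.mp h2)
    · rintro ⟨ξ, hξ⟩
      induction ξ using QuotientGroup.induction_on with
      | H z =>
        obtain ⟨c, hc, q, hq, e⟩ := hP (x⁻¹ * z)
        have e1 : z = x * c * q := by
          rw [mul_assoc, ← e]
          group
        have e2 : ((x * c : P) : P ⧸ Q) = (z : P ⧸ Q) := by
          apply QuotientGroup.eq.mpr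
          rw [e1]
          have : (x * c)⁻¹ * (x * c * q) = q := by group
          rw [this]
          exact hq
        have hfix : s • ((x * c : P) : P ⧸ Q) = ((x * c : P) : P ⧸ Q) := by
          rw [e2]
          exact hξ
        rw [smul_mk''] at hfix
        have h1 := QuotientGroup.eq.mp hfix
        have e3 : (s * (x * c))⁻¹ * (x * c) = c⁻¹ * y⁻¹ * c := by
          rw [hy]
          group
        rw [e3] at h1
        have h2 : c⁻¹ * y⁻¹ * c * y ∈ Q := Subgroup.mul_mem _ h1 hx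
        have h3 : c⁻¹ * y⁻¹ * c * y ∈ U := by
          have e4 : c⁻¹ * y⁻¹ * c * y = c⁻¹ * (y⁻¹ * c * y⁻¹⁻¹) := by group
          rw [e4]
          exact U.mul_mem (U.inv_mem hc) (hn.conj_mem c hc y⁻¹)
        have h4 : c⁻¹ * y⁻¹ * c * y ∈ U ⊓ Q := ⟨h3, h2⟩
        rw [hUQ, Subgroup.mem_bot] at h4
        have hcy : c * y = y * c := by
          have h5 : c⁻¹ * (y⁻¹ * (c * y)) = 1 := by rw [← h4]; group
          have h6 : y⁻¹ * (c * y) = c := (inv_mul_eq_one.mp h5).symm
          have h7 := congrArg (fun t => y * t) h6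
          simpa using h7
        have hcm : c ∈ U ⊓ Subgroup.centralizer {y} :=
          ⟨hc, Subgroup.mem_centralizer_singleton_iff.mpr hcy⟩
        exact ⟨⟨c, hcm⟩, Subtype.ext e2⟩
  exact (Nat.card_eq_of_bijective f hf).symm

variable (p : ℕ) [Fact p.Prime]

/-- The existence of a fixed point for a `p'`-element. -/
theorem exists_point [Finite P] (hU : IsPGroup p U) (hn : U.Normal) (hUQ : U ⊓ Q = ⊥)
    (hP : ∀ x : P, ∃ u ∈ U, ∃ q ∈ Q, x = u * q) (N : ℕ) :
    ∀ s : P, orderOf s ≤ N → ¬ p ∣ orderOf s → ∃ x : P, x⁻¹ * s * x ∈ Q := by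
  classical
  induction N with
  | zero =>
    intro s hs
    have := orderOf_pos s
    omega
  | succ N ih =>
    intro s hs hp
    by_cases h1 : orderOf s = 1
    · refine ⟨1, ?_⟩
      rw [orderOf_eq_one_iff.mp h1]
      simp [Q.one_mem]
    obtain ⟨ℓ, hℓ, hℓd⟩ := Nat.exists_prime_and_dvd h1
    haveI : Fact ℓ.Prime := ⟨hℓ⟩
    have hn0 : orderOf s ≠ 0 := (orderOf_pos s).ne'
    set a := (orderOf s).factorization ℓ with ha
    set n' := orderOf s / ℓ ^ a with hn'
    have hdec : orderOf s = ℓ ^ a * n' := (Nat.mul_div_cancel' (Nat.ordProj_dvd _ _)).symm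
    have hcop : Nat.Coprime (ℓ ^ a) n' :=
      (Nat.coprime_ordCompl hℓ hn0).pow_left _ |>.symm.symm
    have hapos : 0 < a := hℓ.factorization_pos_of_dvd hn0 hℓd
    -- the element `s₂` of smaller order
    set s₂ := s ^ (ℓ ^ a) with hs₂
    have hor2 : orderOf s₂ = n' := by
      rw [hs₂, orderOf_pow_of_dvd (pow_ne_zero _ hℓ.ne_zero) (Nat.ordProj_dvd _ _)]
    have hn'pos : 0 < n' := by
      rcases Nat.eq_zero_or_pos n' with h0 | h0
      · rw [h0, mul_zero] at hdec
        exact absurd hdec hn0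
      · exact h0
    have hlt : n' < orderOf s := by
      rw [hdec]
      have : 1 < ℓ ^ a := Nat.one_lt_pow hapos.ne' hℓ.one_lt
      nlinarith
    obtain ⟨x, hx⟩ := ih s₂ (by omega) (by
      rw [hor2]
      intro hd
      exact hp (hdec ▸ Dvd.dvd.mul_left hd _))
    -- the fixed points of `s₂` form a set whose size is a power of `p`
    have hcard := card_fix_of_point hn hUQ hP hx
    have hCp : IsPGroup p ↥(U ⊓ Subgroup.centralizer {x⁻¹ * s₂ * x}) :=
      hU.to_le inf_le_left
    obtain ⟨k, hk⟩ := IsPGroup.iff_card.mp hCp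
    -- the action of `s₁`
    set s₁ := s ^ n' with hs₁
    have hor1 : orderOf s₁ = ℓ ^ a := by
      rw [hs₁, orderOf_pow_of_dvd hn'pos.ne' ⟨ℓ ^ a, by rw [hdec]; ring⟩, hdec]
      exact Nat.mul_div_cancel _ hn'pos
    let G₁ := Subgroup.zpowers s₁
    have hG₁ : IsPGroup ℓ G₁ := by
      rw [IsPGroup.iff_card, Nat.card_zpowers, hor1]
      exact ⟨a, rfl⟩
    have hcomm : ∀ g ∈ G₁, ∀ ξ : P ⧸ Q, s₂ • ξ = ξ → s₂ • (g • ξ) = g • ξ := by
      rintro g ⟨m, rfl⟩ ξ hξ
      have e : s₂ * s₁ ^ m = s₁ ^ m * s₂ :=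
        (((Commute.refl s).pow_pow (ℓ ^ a) n').zpow_right m).eq
      simp only at hξ ⊢
      rw [smul_smul, e, mul_smul, hξ]
    let A : SubMulAction G₁ (P ⧸ Q) :=
      { carrier := MulAction.fixedBy (P ⧸ Q) s₂
        smul_mem' := by
          rintro ⟨g, hg⟩ ξ hξ
          exact hcomm g hg ξ hξ }
    have hcardA : Nat.card A = p ^ k := by
      have e : Nat.card A = Nat.card (MulAction.fixedBy (P ⧸ Q) s₂) := rfl
      rw [e, hcard, hk]
    have hℓp : ℓ ≠ p := by
      intro e
      rw [e] at hℓd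
      exact hp hℓd
    have hnd : ¬ ℓ ∣ Nat.card A := by
      rw [hcardA]
      intro hd
      have := (Nat.prime_dvd_prime_iff_eq hℓ (Fact.out : p.Prime)).mp (hℓ.dvd_of_dvd_pow hd)
      exact hℓp this
    obtain ⟨⟨ξ, hξ₂⟩, hfix⟩ := hG₁.nonempty_fixed_point_of_prime_not_dvd_card A hnd
    have hξ₁ : s₁ • ξ = ξ := by
      have := hfix ⟨s₁, Subgroup.mem_zpowers s₁⟩
      exact congrArg Subtype.val this
    have hξ₂' : s₂ • ξ = ξ := hξ₂
    have hst : s ∈ MulAction.stabilizer P ξ := by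
      have e0 : ((ℓ ^ a : ℕ) : ℤ) * Nat.gcdA (ℓ ^ a) n' + (n' : ℤ) * Nat.gcdB (ℓ ^ a) n' = 1 := by
        have := Nat.gcd_eq_gcd_ab (ℓ ^ a) n'
        rw [hcop] at this
        simpa using this.symm
      have e1 : s = s₂ ^ (Nat.gcdA (ℓ ^ a) n') * s₁ ^ (Nat.gcdB (ℓ ^ a) n') := by
        rw [hs₂, hs₁, ← zpow_natCast, ← zpow_natCast, ← zpow_mul, ← zpow_mul, ← zpow_add, e0, zpow_one]
      rw [e1]
      exact Subgroup.mul_mem _ (Subgroup.zpow_mem _ hξ₂' _) (Subgroup.zpow_mem _ hξ₁ _)
    induction ξ using QuotientGroup.induction_on with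
    | H z =>
      refine ⟨z, ?_⟩
      have e2 : s • (z : P ⧸ Q) = (z : P ⧸ Q) := hst
      rw [smul_mk''] at e2
      have h3 := QuotientGroup.eq.mp e2
      have e3 : z⁻¹ * s * z = ((s * z)⁻¹ * z)⁻¹ := by group
      rw [e3]
      exact Subgroup.inv_mem _ h3

/-- The summary of the affine action. -/
theorem fix_affine [Finite P] (hU : IsPGroup p U) (hn : U.Normal) (hUQ : U ⊓ Q = ⊥)
    (hP : ∀ x : P, ∃ u ∈ U, ∃ q ∈ Q, x = u * q) {s : P} (hs : ¬ p ∣ orderOf s) :
    ∃ x : P, ∃ C : Subgroup P, IsPGroup p C ∧ (∀ c ∈ C, c * (x⁻¹ * s * x) = (x⁻¹ * s * x) * c) ∧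
      Nat.card (MulAction.fixedBy (P ⧸ Q) s) = Nat.card C := by
  obtain ⟨x, hx⟩ := exists_point p hU hn hUQ hP _ s le_rfl hs
  refine ⟨x, U ⊓ Subgroup.centralizer {x⁻¹ * s * x}, hU.to_le inf_le_left, ?_, card_fix_of_point hn hUQ hP hx⟩
  intro c hc
  exact Subgroup.mem_centralizer_singleton_iff.mp hc.2

end affine

section integrality

variable {V : Type*} [AddCommGroup V] [Module ℂ V] [FiniteDimensional ℂ V]

/-- The trace of an endomorphism with `f ^ (n + 1) = f` is an algebraic integer. -/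
theorem isIntegral_trace_of_pow (f : End ℂ V) {n : ℕ} (hn : 0 < n) (hf : f ^ (n + 1) = f) :
    IsIntegral ℤ (LinearMap.trace ℂ V f) := by
  classical
  have hroots : ∀ μ ∈ (LinearMap.charpoly f).roots, IsIntegral ℤ μ := by
    intro μ hμ
    have hroot : (LinearMap.charpoly f).IsRoot μ := Polynomial.isRoot_of_mem_roots hμ
    have hev : f.HasEigenvalue μ := Module.End.hasEigenvalue_iff_isRoot_charpoly f μ |>.mpr hroot
    obtain ⟨v, hv⟩ := hev.exists_hasEigenvector
    have h1 : ∀ k : ℕ, (f ^ k) v = μ ^ k • v := by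
      intro k
      induction k with
      | zero => simp
      | succ k ih =>
        rw [pow_succ, Module.End.mul_apply, hv.apply_eq_smul, map_smul, ih, smul_smul, pow_succ']
    have h3 := h1 (n + 1)
    rw [hf, hv.apply_eq_smul] at h3
    have h4 : (μ ^ (n + 1) - μ) • v = 0 := by
      rw [sub_smul, h3, sub_self]
    have h5 : μ ^ (n + 1) - μ = 0 := (smul_eq_zero.mp h4).resolve_right hv.2
    refine ⟨Polynomial.X ^ (n + 1) - Polynomial.X, ?_, ?_⟩
    · apply Polynomial.monic_X_pow_sub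
      rw [Polynomial.degree_X]
      have h6 : (1 : ℕ) < n + 1 := by omega
      exact_mod_cast h6
    · simpa [Polynomial.eval₂_sub] using h5
  rw [Module.End.trace_eq_sum_roots_charpoly_of_splits (IsAlgClosed.splits _)]
  exact IsIntegral.multiset_sum hroots

end integrality

section dvd

variable {G : Type*} [Group G] [Finite G] {V : Type*} [AddCommGroup V] [Module ℂ V] [FiniteDimensional ℂ V]
variable (ρ : Representation ℂ G V)

/-- If the character vanishes on `g y`, `1 ≠ y ∈ Q`, for a subgroup `Q` commuting with `g`, then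
`χ(g) / |Q|` is an algebraic integer. -/
theorem isIntegral_div_of_vanish {g : G} (Q : Subgroup G) [Fintype Q] (hc : ∀ y ∈ Q, y * g = g * y)
    (hv : ∀ y ∈ Q, y ≠ 1 → ρ.character (g * y) = 0) :
    IsIntegral ℤ (ρ.character g / (Nat.card Q : ℂ)) := by
  classical
  have hn : 0 < orderOf g := orderOf_pos g
  have hg : ∀ c ∈ Q, g * c * g⁻¹ ∈ Q := by
    intro c hc'
    have e : g * c * g⁻¹ = c := by
      rw [← hc c hc']
      group
    rwa [e]
  have hproj : LinearMap.IsProj (Fx ρ Q) (avg ρ Q) := ⟨avg_mem ρ, fun _ hv => avg_of_mem ρ hv⟩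
  set τ : End ℂ V := ρ g * avg ρ Q with hτ
  have hcomm : ρ g * avg ρ Q = avg ρ Q * ρ g := by
    ext v
    simp only [Module.End.mul_apply]
    exact avg_conj ρ hg v
  have hidem : avg ρ Q * avg ρ Q = avg ρ Q := by
    ext v
    simp only [Module.End.mul_apply]
    exact avg_of_mem ρ (avg_mem ρ v)
  have hpow : ∀ k : ℕ, τ ^ (k + 1) = ρ (g ^ (k + 1)) * avg ρ Q := by
    intro k
    induction k with
    | zero => simp [hτ]
    | succ k ih =>
      rw [pow_succ, ih, hτ, pow_succ g (k + 1), map_mul]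
      calc ρ (g ^ (k + 1)) * avg ρ Q * (ρ g * avg ρ Q) = ρ (g ^ (k + 1)) * (avg ρ Q * ρ g) * avg ρ Q := by
            simp only [mul_assoc]
        _ = ρ (g ^ (k + 1)) * (ρ g * avg ρ Q) * avg ρ Q := by rw [hcomm]
        _ = ρ (g ^ (k + 1)) * ρ g * (avg ρ Q * avg ρ Q) := by simp only [mul_assoc]
        _ = _ := by rw [hidem]
  have hf : τ ^ (orderOf g + 1) = τ := by
    rw [hpow, pow_succ, pow_orderOf_eq_one, one_mul]
  have hint := isIntegral_trace_of_pow τ hn hf
  have htr : LinearMap.trace ℂ V τ = ρ.character g / (Nat.card Q : ℂ) := by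
    have e1 : τ = (Nat.card Q : ℂ)⁻¹ • ∑ k : Q, ρ (g * (k : G)) := by
      rw [hτ, avg, mul_smul_comm, Finset.mul_sum]
      simp only [map_mul]
    rw [e1, map_smul, map_sum, smul_eq_mul]
    have e2 : ∑ k : Q, LinearMap.trace ℂ V (ρ (g * (k : G))) = ρ.character g := by
      rw [Finset.sum_eq_single (1 : Q)]
      · simp [Representation.character]
      · intro k _ hk
        exact hv k k.2 (fun e => hk (Subtype.ext e))
      · simp
    rw [e2]
    ring
  rwa [htr] at hint

end dvd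

end Cfsg.Agent.Lib.KS71.StSemiA
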