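/-
Weyl group lemmas for the Steinberg character at semisimple elements.
-/
import Mathlib
import Cfsg.Agent.Lib.KS71.StUnip

set_option autoImplicit false
set_option linter.unusedSectionVars false
set_option linter.unusedVariables false

namespace Cfsg.Agent.Lib.KS71.StSemiB

open Cfsg Cfsg.Lie Cfsg.Lie.ChevalleyDatum
open Cfsg.Agent.Lib.Chev.Tables Cfsg.Agent.Lib.Chev.Tables2 Cfsg.Agent.Lib.Chev.Tables3 Cfsg.Agent.Lib.Chev.Raise
open Cfsg.Agent.Lib.Chev.Basic Cfsg.Agent.Lib.Chev.AxBasic Cfsg.Agent.Lib.Chev.Torus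
open Cfsg.Agent.Lib.Chev.Products Cfsg.Agent.Lib.Chev.Products2 Cfsg.Agent.Lib.Chev.Mono1
open Cfsg.Agent.Lib.Chev.Mono2 Cfsg.Agent.Lib.Chev.Mono3 Cfsg.Agent.Lib.Chev.Bn
open Cfsg.Agent.Lib.Chev.Order1 Cfsg.Agent.Lib.Chev.Order2 Cfsg.Agent.Lib.Chev.Parab
open Cfsg.Agent.Lib.KS71.StWeyl Cfsg.Agent.Lib.KS71.StCell Cfsg.Agent.Lib.KS71.StMain Cfsg.Agent.Lib.KS71.StUnip

variable {D : ChevalleyDatum} {F : Type*} [Field F]
variable (h : Tab D) (h2 : Tab2 D) (ax : Ax D F)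

include h2 in
/-- A root mapped to a fundamental root (up to sign) by an element of constant sign on a set of fundamental
roots is a fundamental root. -/
lemma simple_of_image {K : Set ℕ} {z : Equiv.Perm (Fin D.nroots)} (hz : z ∈ Wp h (Set.Iio D.rank)) {ε : ℤ}
    (hε : ε = 1 ∨ ε = -1)
    (hpos : ∀ k (hk : k < D.rank), k ∈ K → ∀ m, m < D.rank → 0 ≤ ε * coef D (z (sr h hk)) m)
    {r : Fin D.nroots} (hr : D.IsPosRoot r) (hrK : InJ D K r) {j : ℕ} (hj : j < D.rank)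
    (e : ∀ m, m < D.rank → ε * coef D (z r) m = coef D (D.simple j) m) :
    ∃ k, ∃ hk : k < D.rank, k ∈ K ∧ r = sr h hk := by
  classical
  obtain ⟨l, hl, rfl⟩ := (mem_Wp_iff h).mp hz
  have hl' : ∀ i ∈ l, i < D.rank := fun i hi => hl i hi
  have hc0 : ∀ k, k < D.rank → 0 ≤ coef D r k := (isPosRoot_iff h r.isLt).mp hr
  set a : ℕ → ℕ → ℤ := fun k m => ε * coef D (wWord D l (D.simple k)) m with ha
  have hzk : ∀ k (hk : k < D.rank) m, ε * coef D (wPw h l (sr h hk)) m = a k m := by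
    intro k hk m
    rw [wPw_val h hl']
    rfl
  have hsum : ∀ m, m < D.rank → coef D (D.simple j) m = ∑ k ∈ Finset.range D.rank, coef D r k * a k m := by
    intro m hm
    rw [← e m hm, wPw_val h hl', coef_wWord h hl' r.isLt hm, Finset.mul_sum]
    apply Finset.sum_congr rfl
    intro k _
    simp only [ha]
    ring
  have hnn : ∀ k ∈ Finset.range D.rank, ∀ m, m < D.rank → 0 ≤ coef D r k * a k m := by
    intro k hk m hm
    have hk' := Finset.mem_range.mp hk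
    by_cases hkK : k ∈ K
    · exact mul_nonneg (hc0 k hk') (by rw [← hzk k hk' m]; exact hpos k hk' hkK m hm)
    · rw [hrK k hk' hkK, zero_mul]
  -- the coefficient vectors
  have hsup : ∀ k (hk : k < D.rank), coef D r k ≠ 0 → k ∈ K ∧ a k j = 1 := by
    intro k hk hc
    have hkK : k ∈ K := by
      by_contra hn
      exact hc (hrK k hk hn)
    refine ⟨hkK, ?_⟩
    have hzero : ∀ m, m < D.rank → m ≠ j → coef D (wPw h l (sr h hk) : Fin D.nroots) m = 0 := by
      intro m hm hmj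
      have h3 := hsum m hm
      rw [h.coef_simple j hj m hm, if_neg hmj] at h3
      have h4 := (Finset.sum_eq_zero_iff_of_nonneg (fun k hk => hnn k hk m hm)).mp h3.symm k (Finset.mem_range.mpr hk)
      have h5 : a k m = 0 := (mul_eq_zero.mp h4).resolve_left hc
      have h6 := hzk k hk m
      rw [h5] at h6
      rcases hε with rfl | rfl
      · simpa using h6
      · simpa using h6
    have h3 := h2.support _ (Fin.isLt _) j hj hzero
    have h4 := hzk k hk j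
    have h5 := hpos k hk hkK j hj
    rw [h4] at h5
    rcases hε with rfl | rfl <;> rcases h3 with h3 | h3 <;> simp only [h3] at h4 <;> omega
  have h1 : ∑ k ∈ Finset.range D.rank, coef D r k * a k j = 1 := by
    rw [← hsum j hj, h.coef_simple j hj j hj, if_pos rfl]
  obtain ⟨k₀, hk₀, hpos0⟩ : ∃ k₀ ∈ Finset.range D.rank, coef D r k₀ * a k₀ j ≠ 0 := by
    by_contra hn
    push Not at hn
    rw [Finset.sum_eq_zero hn] at h1
    exact absurd h1 (by norm_num)
  have hk₀' := Finset.mem_range.mp hk₀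
  have hc₀ : coef D r k₀ ≠ 0 := left_ne_zero_of_mul hpos0
  obtain ⟨hk₀K, ha₀⟩ := hsup k₀ hk₀' hc₀
  have hle := Finset.single_le_sum (fun k hk => hnn k hk j hj) hk₀
  rw [h1, ha₀, mul_one] at hle
  have hc₁ : coef D r k₀ = 1 := by
    have := hc0 k₀ hk₀'
    omega
  have hrest : ∀ k, k < D.rank → k ≠ k₀ → coef D r k = 0 := by
    intro k hk hne
    by_contra hc
    obtain ⟨-, hak⟩ := hsup k hk hc
    have h3 : coef D r k * a k j + coef D r k₀ * a k₀ j ≤ 1 := by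
      have e1 : coef D r k * a k j + coef D r k₀ * a k₀ j = ∑ x ∈ {k, k₀}, coef D r x * a x j :=
        (Finset.sum_pair (f := fun x => coef D r x * a x j) hne).symm
      rw [← h1, e1]
      apply Finset.sum_le_sum_of_subset_of_nonneg
      · intro x hx
        simp only [Finset.mem_insert, Finset.mem_singleton] at hx
        rcases hx with rfl | rfl
        · exact Finset.mem_range.mpr hk
        · exact hk₀
      · intro i hi _
        exact hnn i hi j hj
    rw [hak, ha₀, hc₁] at h3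
    have := hc0 k hk
    omega
  refine ⟨k₀, hk₀', hk₀K, ?_⟩
  apply Fin.ext
  apply eq_of_coef_eq h r.isLt (h.simple_lt k₀ hk₀')
  intro m hm
  rw [h.coef_simple k₀ hk₀' m hm]
  by_cases hm0 : m = k₀
  · rw [if_pos hm0, hm0, hc₁]
  · rw [if_neg hm0, hrest m hm hm0]

lemma coef_negF (s : Fin D.nroots) {m : ℕ} (hm : m < D.rank) : coef D (negF h s) m = - coef D s m :=
  h.coef_neg _ s.isLt m hm

/-- The subset `J ∩ d K d⁻¹`. -/
def JK (h : Tab D) (d : Equiv.Perm (Fin D.nroots)) (J K : Set ℕ) : Set ℕ :=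
  {j | j ∈ J ∧ ∃ (hj : j < D.rank) (k : ℕ) (hk : k < D.rank), k ∈ K ∧ d (sr h hk) = sr h hj}

include h2 ax in
/-- Kilmoyer's lemma: `W_J ∩ d W_K d⁻¹ = W_{J ∩ d K d⁻¹}` for a minimal double coset representative `d`. -/
lemma kilmoyer {J K : Set ℕ} (hJ : ∀ j ∈ J, j < D.rank) (hK : ∀ j ∈ K, j < D.rank)
    {d : Equiv.Perm (Fin D.nroots)} (hd : d ∈ Wp h (Set.Iio D.rank)) (h1 : PosOn h d K) (h3 : PosOn h d⁻¹ J) (n : ℕ) :
    ∀ v ∈ Wp h J, Nw D v ≤ n → ∀ u ∈ Wp h K, v * d = d * u → v ∈ Wp h (JK h d J K) := by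
  have hJI : J ⊆ Set.Iio D.rank := fun j hj => hJ j hj
  have main : ∀ v ∈ Wp h J, ∀ u ∈ Wp h K, v * d = d * u → ¬ PosOn h v J →
      ∃ j, j ∈ JK h d J K ∧ ∃ v₁ ∈ Wp h J, Nw D v₁ < Nw D v ∧ v₁ * wP h j = v ∧ ∃ u₁ ∈ Wp h K, v₁ * d = d * u₁ := by
    intro v hv u hu e hp
    unfold PosOn at hp
    push Not at hp
    obtain ⟨j, hj, hjJ, hn⟩ := hp
    have hv' := Wp_mono h hJI hv
    set r : Fin D.nroots := d⁻¹ (sr h hj) with hr
    have hrpos : D.IsPosRoot r := h3 j hj hjJ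
    have hdr : d r = sr h hj := by simp [hr]
    have hρ : u r = d⁻¹ (v (sr h hj)) := by
      have e1 : u = d⁻¹ * (v * d) := by rw [e]; group
      rw [e1]
      simp only [Equiv.Perm.mul_apply, hdr]
    have hneg : D.IsNegRoot (v (sr h hj)) := (not_isPos_iff h (Fin.isLt _)).mp hn
    have hInJ : InJ D J (v (sr h hj)) := (InJ_of_mem_Wp h hJ hv).mpr (simple_InJ h hj hjJ)
    have h7 := neg_of_PosOn h (Subgroup.inv_mem _ hd) h3 hneg hInJ
    have hflip : ¬ D.IsPosRoot (u r) := by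
      rw [hρ]
      exact fun hc => not_isNeg_of_isPos h hc h7
    have hrK : InJ D K r := by
      by_contra hc
      exact hflip (pos_of_not_InJ h hK hu hrpos hc)
    obtain ⟨k, hk, hkK, hrk⟩ := simple_of_image h h2 hd (ε := 1) (Or.inl rfl)
      (fun k hk hkK m hm => by
        rw [one_mul]
        exact (isPosRoot_iff h (Fin.isLt _)).mp (h1 k hk hkK) m hm) hrpos hrK hj
      (fun m hm => by
        rw [one_mul, hdr]
        rfl)
    have hdk : d (sr h hk) = sr h hj := by rw [← hrk, hdr]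
    have e3 := conj_wP h h2 ax hd hk hj hdk
    refine ⟨j, ⟨hjJ, hj, k, hk, hkK, hdk⟩, v * wP h j, Subgroup.mul_mem _ hv (wP_mem_Wp h hjJ),
      Nw_mul_wP_lt h h2 ax hv' hj hn, ?_, u * wP h k, Subgroup.mul_mem _ hu (wP_mem_Wp h hkK), ?_⟩
    · rw [mul_assoc, wP_mul_self, mul_one]
    · have e4 : wP h j * d = d * wP h k := by rw [← e3]; group
      rw [mul_assoc, e4, ← mul_assoc, e, mul_assoc]
  induction n with
  | zero =>
    intro v hv h0 u hu e
    by_cases hp : PosOn h v J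
    · rw [eq_one_of_PosOn h h2 ax hJ hv hp]
      exact Subgroup.one_mem _
    · obtain ⟨j, _, v₁, _, hlt, _⟩ := main v hv u hu e hp
      omega
  | succ n ih =>
    intro v hv h0 u hu e
    by_cases hp : PosOn h v J
    · rw [eq_one_of_PosOn h h2 ax hJ hv hp]
      exact Subgroup.one_mem _
    · obtain ⟨j, hjJ, v₁, hv₁, hlt, ev, u₁, hu₁, e₁⟩ := main v hv u hu e hp
      rw [← ev]
      exact Subgroup.mul_mem _ (ih v₁ hv₁ (by omega) u₁ hu₁ e₁) (wP_mem_Wp h hjJ)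

/-- The fundamental roots of `J` are images of fundamental roots under `d`. -/
def QdJ (h : Tab D) (d : Equiv.Perm (Fin D.nroots)) (J : Set ℕ) : Prop :=
  ∀ j ∈ J, ∃ (hj : j < D.rank) (k : ℕ) (hk : k < D.rank), d (sr h hk) = sr h hj

/-- The nodes mapped into `J` by `d`. -/
noncomputable def Jp (h : Tab D) (d : Equiv.Perm (Fin D.nroots)) (J : Finset ℕ) : Finset ℕ := by
  classical
  exact (Finset.range D.rank).filter fun k => ∃ hk : k < D.rank, ∃ j ∈ J, ∃ hj : j < D.rank, d (sr h hk) = sr h hj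

lemma mem_Jp {d : Equiv.Perm (Fin D.nroots)} {J : Finset ℕ} {k : ℕ} :
    k ∈ Jp h d J ↔ ∃ hk : k < D.rank, ∃ j ∈ J, ∃ hj : j < D.rank, d (sr h hk) = sr h hj := by
  classical
  simp only [Jp, Finset.mem_filter, Finset.mem_range]
  constructor
  · rintro ⟨_, e⟩
    exact e
  · intro e
    exact ⟨e.1, e⟩

lemma Jp_lt {d : Equiv.Perm (Fin D.nroots)} {J : Finset ℕ} {k : ℕ} (hk : k ∈ Jp h d J) : k < D.rank :=
  ((mem_Jp h).mp hk).1

lemma sr_inj {i j : ℕ} (hi : i < D.rank) (hj : j < D.rank) (e : sr h hi = sr h hj) : i = j := by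
  by_contra hne
  have e2 : D.simple i = D.simple j := congrArg Fin.val e
  have h3 := h.coef_simple i hi i hi
  rw [e2, h.coef_simple j hj i hi, if_pos rfl, if_neg hne] at h3
  exact absurd h3 (by norm_num)

/-- The size of `Jp`. -/
lemma card_Jp {d : Equiv.Perm (Fin D.nroots)} {J : Finset ℕ} (hq : QdJ h d (↑J : Set ℕ)) :
    (Jp h d J).card = J.card := by
  classical
  refine Finset.card_bij (fun k hk => Classical.choose ((mem_Jp h).mp hk).2) ?_ ?_ ?_
  · intro k hk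
    exact (Classical.choose_spec ((mem_Jp h).mp hk).2).1
  · intro k₁ hk₁ k₂ hk₂ e
    obtain ⟨hj₁, e₁⟩ := (Classical.choose_spec ((mem_Jp h).mp hk₁).2).2
    obtain ⟨hj₂, e₂⟩ := (Classical.choose_spec ((mem_Jp h).mp hk₂).2).2
    have e3 : d (sr h (Jp_lt h hk₁)) = d (sr h (Jp_lt h hk₂)) := by
      rw [e₁, e₂]
      apply Fin.ext
      exact congrArg D.simple e
    exact sr_inj h _ _ (d.injective e3)
  · intro j hj
    obtain ⟨hj', k, hk, e⟩ := hq j hj
    have hkm : k ∈ Jp h d J := (mem_Jp h).mpr ⟨hk, j, hj, hj', e⟩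
    refine ⟨k, hkm, ?_⟩
    obtain ⟨hj₁, e₁⟩ := (Classical.choose_spec ((mem_Jp h).mp hkm).2).2
    exact (sr_inj h _ _ (e.symm.trans e₁)).symm

include h2 ax in
/-- Conjugation maps `W_J` into `W_{Jp}`. -/
lemma conj_W {d : Equiv.Perm (Fin D.nroots)} (hd : d ∈ Wp h (Set.Iio D.rank)) {J : Finset ℕ}
    (hq : QdJ h d (↑J : Set ℕ)) {v : Equiv.Perm (Fin D.nroots)} (hv : v ∈ Wp h (↑J : Set ℕ)) :
    d⁻¹ * v * d ∈ Wp h (↑(Jp h d J) : Set ℕ) := by
  obtain ⟨l, hl, rfl⟩ := (mem_Wp_iff h).mp hv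
  induction l with
  | nil =>
    have : d⁻¹ * wPw h [] * d = 1 := by
      have e : wPw h [] = 1 := rfl
      rw [e]
      group
    rw [this]
    exact Subgroup.one_mem _
  | cons i l ih =>
    have hi : i ∈ (↑J : Set ℕ) := hl i (by simp)
    obtain ⟨hi', k, hk, e⟩ := hq i hi
    have hkm : k ∈ (↑(Jp h d J) : Set ℕ) := (mem_Jp h).mpr ⟨hk, i, hi, hi', e⟩
    have e3 := conj_wP h h2 ax hd hk hi' e
    have e4 : d⁻¹ * wP h i * d = wP h k := by rw [← e3]; group
    have e5 : d⁻¹ * wPw h (i :: l) * d = (d⁻¹ * wP h i * d) * (d⁻¹ * wPw h l * d) := by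
      rw [wPw_cons]
      group
    rw [e5, e4]
    exact Subgroup.mul_mem _ (wP_mem_Wp h hkm) (ih (fun j hj => hl j (by simp [hj])) ((mem_Wp_iff h).mpr
      ⟨l, fun j hj => hl j (by simp [hj]), rfl⟩))

lemma JK_eq {d : Equiv.Perm (Fin D.nroots)} {J : Finset ℕ} {K : Set ℕ} (hq : QdJ h d (↑J : Set ℕ))
    (hJK : (↑(Jp h d J) : Set ℕ) ⊆ K) : JK h d (↑J : Set ℕ) K = (↑J : Set ℕ) := by
  ext j
  constructor
  · exact fun hj => hj.1
  · intro hj
    obtain ⟨hj', k, hk, e⟩ := hq j hj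
    exact ⟨hj, hj', k, hk, hJK ((mem_Jp h).mpr ⟨hk, j, hj, hj', e⟩), e⟩

lemma Jp_subset_posSet {d : Equiv.Perm (Fin D.nroots)} {J : Finset ℕ} : Jp h d J ⊆ posSet h d := by
  intro k hk
  obtain ⟨hk', j, hj, hj', e⟩ := (mem_Jp h).mp hk
  refine (mem_posSet h).mpr ⟨hk', ?_⟩
  rw [e]
  exact sr_isPos h hj'

/-- If `J ⊆ d K d⁻¹` the nodes of `Jp` are in `K`. -/
lemma Jp_subset_of_JK {d : Equiv.Perm (Fin D.nroots)} {J : Finset ℕ} {K : Set ℕ}
    (hJK : JK h d (↑J : Set ℕ) K = (↑J : Set ℕ)) : (↑(Jp h d J) : Set ℕ) ⊆ K := by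
  intro k hk
  obtain ⟨hk', j, hj, hj', e⟩ := (mem_Jp h).mp hk
  have h3 : j ∈ JK h d (↑J : Set ℕ) K := by
    rw [hJK]
    exact hj
  obtain ⟨-, hj'', k', hk'', hk'K, e'⟩ := h3
  have e2 : sr h hk' = sr h hk'' := d.injective (e.trans e'.symm)
  rw [sr_inj h _ _ e2]
  exact hk'K

lemma QdJ_of_JK {d : Equiv.Perm (Fin D.nroots)} {J : Finset ℕ} {K : Set ℕ}
    (hJK : JK h d (↑J : Set ℕ) K = (↑J : Set ℕ)) : QdJ h d (↑J : Set ℕ) := by
  intro j hj
  have h3 : j ∈ JK h d (↑J : Set ℕ) K := by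
    rw [hJK]
    exact hj
  obtain ⟨-, hj'', k', hk'', -, e'⟩ := h3
  exact ⟨hj'', k', hk'', e'⟩

section d0

variable {J : Finset ℕ}

include h2 ax in
/-- Existence of the element `d₀`. -/
theorem exists_d0 (hJ : ∀ j ∈ (↑J : Set ℕ), j < D.rank) :
    ∃ x ∈ Wp h (Set.Iio D.rank), PosOn h x⁻¹ (↑J : Set ℕ) ∧ QdJ h x (↑J : Set ℕ) ∧ posSet h x = Jp h x J ∧
      ∀ r : Fin D.nroots, D.IsPosRoot r → ¬ InJ D (↑J : Set ℕ) r → ¬ D.IsPosRoot (x⁻¹ r) := by
  have hJI : (↑J : Set ℕ) ⊆ Set.Iio D.rank := fun j hj => hJ j hj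
  obtain ⟨w₀, hw₀, hn⟩ := exists_allNeg h h2 ax
  obtain ⟨x', hx', hxp, u, hu, e⟩ := exists_rep_right h h2 ax hJ _ _ (Subgroup.inv_mem _ hw₀) le_rfl
  have hvW : u⁻¹ ∈ Wp h (↑J : Set ℕ) := Subgroup.inv_mem _ hu
  have hvW' : u⁻¹ ∈ Wp h (Set.Iio D.rank) := Wp_mono h hJI hvW
  have hxW : x'⁻¹ ∈ Wp h (Set.Iio D.rank) := Subgroup.inv_mem _ hx'
  have ew : w₀ = u⁻¹ * x'⁻¹ := by
    have e2 : w₀ = (w₀⁻¹)⁻¹ := by simp
    rw [e2, e, mul_inv_rev]
  set v := u⁻¹ with hv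
  set x := x'⁻¹ with hx
  have hxinv : x⁻¹ = x' := by simp [hx]
  have hxp' : PosOn h x⁻¹ (↑J : Set ℕ) := by rw [hxinv]; exact hxp
  -- `v` is negative on `J`
  have hvneg : NegOn h v (↑J : Set ℕ) := by
    intro j hj hjJ hc
    have h3 : D.IsPosRoot (x⁻¹ (sr h hj)) := hxp' j hj hjJ
    have h4 := AllNeg.neg_of_pos h h2 ax hw₀ hn h3
    apply h4
    rw [ew]
    simpa using hc
  have hvinv : NegOn h v⁻¹ (↑J : Set ℕ) := by
    intro k hk hkJ hc
    have h3 : InJ D (↑J : Set ℕ) (v⁻¹ (sr h hk)) :=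
      (InJ_of_mem_Wp h hJ (Subgroup.inv_mem _ hvW)).mpr (simple_InJ h hk hkJ)
    have h4 := neg_of_NegOn h h2 ax hvW' hvneg hc h3
    apply h4
    simpa using sr_isPos h hk
  refine ⟨x, hxW, hxp', ?_, ?_, ?_⟩
  · -- the fundamental roots of `J` come from fundamental roots
    intro j hj
    have hj' := hJ j hj
    refine ⟨hj', ?_⟩
    set r := x⁻¹ (sr h hj') with hr
    have hrpos : D.IsPosRoot r := hxp' j hj' hj
    have hxr : x r = sr h hj' := by simp [hr]
    set β := negF h (v (sr h hj')) with hβ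
    have hβpos : D.IsPosRoot β := (isPos_negF_iff h _).mpr (hvneg j hj' hj)
    have hβJ : InJ D (↑J : Set ℕ) β := by
      intro m hm hmJ
      rw [hβ, coef_negF h _ hm, (InJ_of_mem_Wp h hJ hvW).mpr (simple_InJ h hj' hj) m hm hmJ]
      simp
    have hvβ : v⁻¹ β = negF h (sr h hj') := by
      rw [hβ, W_neg h h2 ax (Subgroup.inv_mem _ hvW')]
      simp
    obtain ⟨j₁, hj₁, hj₁J, eβ⟩ := simple_of_image h h2 (Subgroup.inv_mem _ hvW') (ε := -1) (Or.inr rfl)
      (K := (↑J : Set ℕ))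
      (fun k hk hkJ m hm => by
        have := (isNegRoot_iff h (Fin.isLt _)).mp ((not_isPos_iff h (Fin.isLt _)).mp (hvinv k hk hkJ)) m hm
        omega) hβpos hβJ hj'
      (fun m hm => by
        rw [hvβ, coef_negF h _ hm]
        simp only [sr]
        ring)
    have hvα : v (sr h hj') = negF h (sr h hj₁) := by
      rw [← eβ, hβ, negF_negF]
    have hw₀r : w₀ r = negF h (sr h hj₁) := by
      rw [ew, Equiv.Perm.mul_apply, hxr, hvα]
    obtain ⟨k, hk, -, erk⟩ := simple_of_image h h2 hw₀ (ε := -1) (Or.inr rfl) (K := Set.Iio D.rank)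
      (fun k hk _ m hm => by
        have := (isNegRoot_iff h (Fin.isLt _)).mp ((not_isPos_iff h (Fin.isLt _)).mp (hn k hk)) m hm
        omega) hrpos (fun m hm hmn => absurd hm hmn) hj₁
      (fun m hm => by
        rw [hw₀r, coef_negF h _ hm]
        simp only [sr]
        ring)
    refine ⟨k, hk, ?_⟩
    rw [← erk]
    exact hxr
  · -- the positive set
    apply Finset.Subset.antisymm
    · intro k hk
      obtain ⟨hk', hp⟩ := (mem_posSet h).mp hk
      refine (mem_Jp h).mpr ⟨hk', ?_⟩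
      set ρ := x (sr h hk') with hρ
      have h3 : ¬ D.IsPosRoot (v ρ) := by
        have := hn k hk'
        rw [ew, Equiv.Perm.mul_apply] at this
        exact this
      have hρJ : InJ D (↑J : Set ℕ) ρ := by
        by_contra hc
        exact h3 (pos_of_not_InJ h hJ hvW hp hc)
      obtain ⟨j, hj, hjJ, e2⟩ := simple_of_image h h2 (Subgroup.inv_mem _ hxW) (ε := 1) (Or.inl rfl)
        (K := (↑J : Set ℕ))
        (fun m hm hmJ t ht => by
          rw [one_mul]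
          exact (isPosRoot_iff h (Fin.isLt _)).mp (hxp' m hm hmJ) t ht) hp hρJ hk'
        (fun m hm => by
          rw [one_mul, hρ]
          simp [sr])
      exact ⟨j, hjJ, hj, e2⟩
    · exact Jp_subset_posSet h
  · intro r hr hrJ
    have h3 : D.IsPosRoot (v r) := pos_of_not_InJ h hJ hvW hr hrJ
    have e2 : x⁻¹ = w₀⁻¹ * v := by
      rw [ew]
      group
    rw [e2, Equiv.Perm.mul_apply]
    exact AllNeg.neg_of_pos h h2 ax (Subgroup.inv_mem _ hw₀) (AllNeg.inv h h2 ax hw₀ hn) h3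

include h2 ax in
/-- Uniqueness of the element `d₀`. -/
theorem d0_unique (hJ : ∀ j ∈ (↑J : Set ℕ), j < D.rank) {d d' : Equiv.Perm (Fin D.nroots)}
    (hd : d ∈ Wp h (Set.Iio D.rank)) (hd' : d' ∈ Wp h (Set.Iio D.rank))
    (h1 : PosOn h d⁻¹ (↑J : Set ℕ)) (h3 : posSet h d = Jp h d J)
    (h1' : PosOn h d'⁻¹ (↑J : Set ℕ)) (h3' : posSet h d' = Jp h d' J) : d = d' := by
  have hJI : (↑J : Set ℕ) ⊆ Set.Iio D.rank := fun j hj => hJ j hj
  obtain ⟨hvW, hvn⟩ := lng_spec h h2 ax hJ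
  set v := lng h (↑J : Set ℕ) with hv
  have hvW' := Wp_mono h hJI hvW
  have key : ∀ x ∈ Wp h (Set.Iio D.rank), PosOn h x⁻¹ (↑J : Set ℕ) → posSet h x = Jp h x J → AllNeg h (v * x) := by
    intro x hx hx1 hx3 k hk
    rw [Equiv.Perm.mul_apply]
    by_cases hkp : D.IsPosRoot (x (sr h hk))
    · have hk1 : k ∈ Jp h x J := by
        rw [← hx3]
        exact (mem_posSet h).mpr ⟨hk, hkp⟩
      obtain ⟨_, j, hj, hj', e⟩ := (mem_Jp h).mp hk1
      rw [e]
      exact hvn j hj' hj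
    · set ρ := x (sr h hk) with hρ
      have hneg : D.IsNegRoot ρ := (not_isPos_iff h (Fin.isLt _)).mp hkp
      have hnJ : ¬ InJ D (↑J : Set ℕ) ρ := by
        intro hc
        have h4 := neg_of_PosOn h (Subgroup.inv_mem _ hx) hx1 hneg hc
        have e : x⁻¹ ρ = sr h hk := by simp [hρ]
        rw [e] at h4
        exact not_isNeg_of_isPos h (sr_isPos h hk) h4
      have hβ : D.IsPosRoot (negF h ρ) := (isPos_negF_iff h _).mpr hkp
      have hβJ : ¬ InJ D (↑J : Set ℕ) (negF h ρ) := by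
        intro hc
        apply hnJ
        intro m hm hmJ
        have := hc m hm hmJ
        rw [coef_negF h _ hm] at this
        omega
      have h5 := pos_of_not_InJ h hJ hvW hβ hβJ
      rw [W_neg h h2 ax hvW', isPos_negF_iff] at h5
      simpa using h5
  have e := AllNeg.unique h h2 ax (Subgroup.mul_mem _ hvW' hd) (Subgroup.mul_mem _ hvW' hd')
    (key d hd h1 h3) (key d' hd' h1' h3')
  exact mul_left_cancel e

include h2 ax in
/-- The images of roots of the subsystem. -/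
lemma InJ_image {d : Equiv.Perm (Fin D.nroots)} (hd : d ∈ Wp h (Set.Iio D.rank)) (hq : QdJ h d (↑J : Set ℕ))
    {r : Fin D.nroots} (hr : InJ D (↑J : Set ℕ) r) : InJ D (↑(Jp h d J) : Set ℕ) (d⁻¹ r) := by
  intro m hm hmJ
  obtain ⟨l, hl, el⟩ := (mem_Wp_iff h).mp (Subgroup.inv_mem _ hd)
  have hl' : ∀ i ∈ l, i < D.rank := fun i hi => hl i hi
  rw [el, wPw_val h hl', coef_wWord h hl' r.isLt hm]
  apply Finset.sum_eq_zero
  intro k hk
  have hk' := Finset.mem_range.mp hk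
  by_cases hkJ : k ∈ (↑J : Set ℕ)
  · obtain ⟨hk1, k₁, hk₁, e⟩ := hq k hkJ
    have hk₁J : k₁ ∈ Jp h d J := (mem_Jp h).mpr ⟨hk₁, k, hkJ, hk1, e⟩
    have e2 : wWord D l (D.simple k) = D.simple k₁ := by
      have e3 : d⁻¹ (sr h hk1) = sr h hk₁ := by
        rw [← e]
        simp
      rw [el] at e3
      have e4 := congrArg Fin.val e3
      rw [wPw_val h hl'] at e4
      exact e4
    rw [e2, h.coef_simple k₁ hk₁ m hm, if_neg, mul_zero]
    intro e5
    exact hmJ (e5 ▸ hk₁J)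
  · rw [hr k hk' hkJ, zero_mul]

end d0

end Cfsg.Agent.Lib.KS71.StSemiB
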