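/-
The value of the Steinberg character at a semisimple element: the reduction to the fixed points on a regular orbit
of a unipotent radical.
-/
import Mathlib
import Cfsg.Agent.Lib.KS71.StSemiA
import Cfsg.Agent.Lib.KS71.StSemiB

set_option autoImplicit false
set_option linter.unusedSectionVars false
set_option linter.unusedVariables false

namespace Cfsg.Agent.Lib.KS71.StSemiC

open Cfsg Cfsg.Lie Cfsg.Lie.ChevalleyDatum
open Cfsg.Agent.Lib.Chev.Tables Cfsg.Agent.Lib.Chev.Tables2 Cfsg.Agent.Lib.Chev.Tables3 Cfsg.Agent.Lib.Chev.Raise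
open Cfsg.Agent.Lib.Chev.Basic Cfsg.Agent.Lib.Chev.AxBasic Cfsg.Agent.Lib.Chev.Torus
open Cfsg.Agent.Lib.Chev.Products Cfsg.Agent.Lib.Chev.Products2 Cfsg.Agent.Lib.Chev.Mono1
open Cfsg.Agent.Lib.Chev.Mono2 Cfsg.Agent.Lib.Chev.Mono3 Cfsg.Agent.Lib.Chev.Bn
open Cfsg.Agent.Lib.Chev.Order1 Cfsg.Agent.Lib.Chev.Order2 Cfsg.Agent.Lib.Chev.Parab
open Cfsg.Agent.Lib.KS71.StWeyl Cfsg.Agent.Lib.KS71.StCell Cfsg.Agent.Lib.KS71.StMain Cfsg.Agent.Lib.KS71.StUnip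
open Cfsg.Agent.Lib.KS71.StSemiB

section abs

variable {G : Type*} [Group G] (A P : Subgroup G) (n : G)

/-- The elements `z` of `A` with `n⁻¹ z n ∈ P`. -/
def Qs : Subgroup ↥A where
  carrier := {z | n⁻¹ * (z : G) * n ∈ P}
  one_mem' := by simp [P.one_mem]
  mul_mem' := by
    intro a b ha hb
    have e : n⁻¹ * ((a * b : ↥A) : G) * n = (n⁻¹ * (a : G) * n) * (n⁻¹ * (b : G) * n) := by
      simp only [Subgroup.coe_mul]
      group
    change n⁻¹ * ((a * b : ↥A) : G) * n ∈ P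
    rw [e]
    exact P.mul_mem ha hb
  inv_mem' := by
    intro a ha
    have e : n⁻¹ * ((a⁻¹ : ↥A) : G) * n = (n⁻¹ * (a : G) * n)⁻¹ := by
      simp only [InvMemClass.coe_inv]
      group
    change n⁻¹ * ((a⁻¹ : ↥A) : G) * n ∈ P
    rw [e]
    exact P.inv_mem ha

variable {A P n}

lemma mem_Qs {z : ↥A} : z ∈ Qs A P n ↔ n⁻¹ * (z : G) * n ∈ P := Iff.rfl

lemma Qs_eq_of {P' : Subgroup G} (h1 : ∀ z : ↥A, n⁻¹ * (z : G) * n ∈ P → n⁻¹ * (z : G) * n ∈ P')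
    (h3 : ∀ z : ↥A, n⁻¹ * (z : G) * n ∈ P' → n⁻¹ * (z : G) * n ∈ P) : Qs A P n = Qs A P' n := by
  ext z
  exact ⟨h1 z, h3 z⟩

variable (A P n)

/-- The coset `y n P` attached to a coset `y Q`. -/
noncomputable def thetaQ (ξ : ↥A ⧸ Qs A P n) : G ⧸ P := (((ξ.out : ↥A) : G) * n : G)

variable {A P n}

lemma thetaQ_mk (y : ↥A) : thetaQ A P n (y : ↥A ⧸ Qs A P n) = (((y : G) * n : G) : G ⧸ P) := by
  obtain ⟨z, hz⟩ := QuotientGroup.mk_out_eq_mul (Qs A P n) y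
  rw [thetaQ, hz]
  apply QuotientGroup.eq.mpr
  have e : ((((y * (z : ↥A) : ↥A) : G) * n)⁻¹ * ((y : G) * n)) = n⁻¹ * (((z⁻¹ : ↥(Qs A P n)) : ↥A) : G) * n := by
    simp only [Subgroup.coe_mul, InvMemClass.coe_inv]
    group
  rw [e]
  exact (z⁻¹).2

lemma thetaQ_inj {y y' : ↥A} (e : thetaQ A P n (y : ↥A ⧸ Qs A P n) = thetaQ A P n (y' : ↥A ⧸ Qs A P n)) :
    (y : ↥A ⧸ Qs A P n) = (y' : ↥A ⧸ Qs A P n) := by
  rw [thetaQ_mk, thetaQ_mk] at e
  have h1 := QuotientGroup.eq.mp e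
  apply QuotientGroup.eq.mpr
  change n⁻¹ * (((y⁻¹ * y' : ↥A)) : G) * n ∈ P
  have e2 : n⁻¹ * (((y⁻¹ * y' : ↥A)) : G) * n = ((y : G) * n)⁻¹ * ((y' : G) * n) := by
    simp only [Subgroup.coe_mul, InvMemClass.coe_inv]
    group
  rw [e2]
  exact h1

/-- The fixed points on the orbit `A n P / P`. -/
theorem card_fix_orbit (b : ↥A) :
    Nat.card (MulAction.fixedBy (↥A ⧸ Qs A P n) b) =
      Nat.card {c : G ⧸ P // (b : G) • c = c ∧ ∃ y : ↥A, c = (((y : G) * n : G) : G ⧸ P)} := by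
  let f : MulAction.fixedBy (↥A ⧸ Qs A P n) b → {c : G ⧸ P // (b : G) • c = c ∧ ∃ y : ↥A, c = (((y : G) * n : G) : G ⧸ P)} :=
    fun ξ => ⟨thetaQ A P n ξ.1, by
      obtain ⟨ξ, hξ⟩ := ξ
      induction ξ using QuotientGroup.induction_on with
      | H y =>
        simp only
        rw [thetaQ_mk]
        refine ⟨?_, y, rfl⟩
        have e : ((b * y : ↥A) : ↥A ⧸ Qs A P n) = (y : ↥A ⧸ Qs A P n) := hξ
        have e2 := congrArg (thetaQ A P n) e
        rw [thetaQ_mk, thetaQ_mk] at e2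
        have e3 : (b : G) • (((y : G) * n : G) : G ⧸ P) = (((b * y : ↥A) : G) * n : G) := by
          simp only [Subgroup.coe_mul, mul_assoc]
          rfl
        rw [e3, e2]⟩
  have hf : Function.Bijective f := by
    constructor
    · rintro ⟨ξ, hξ⟩ ⟨ξ', hξ'⟩ he
      have he' : thetaQ A P n ξ = thetaQ A P n ξ' := congrArg Subtype.val he
      apply Subtype.ext
      simp only
      induction ξ using QuotientGroup.induction_on with
      | H y =>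
        induction ξ' using QuotientGroup.induction_on with
        | H y' =>
          exact thetaQ_inj he'
    · rintro ⟨c, hc1, y, e2⟩
      have e3 : thetaQ A P n (y : ↥A ⧸ Qs A P n) = c := by
        rw [thetaQ_mk, e2]
      have hfix : ((b * y : ↥A) : ↥A ⧸ Qs A P n) = (y : ↥A ⧸ Qs A P n) := by
        apply thetaQ_inj
        rw [thetaQ_mk, e3]
        have e4 : ((((b * y : ↥A) : G) * n : G) : G ⧸ P) = (b : G) • (((y : G) * n : G) : G ⧸ P) := by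
          simp only [Subgroup.coe_mul, mul_assoc]
          rfl
        rw [e4, ← e2]
        exact hc1
      refine ⟨⟨(y : ↥A ⧸ Qs A P n), hfix⟩, ?_⟩
      apply Subtype.ext
      exact e3
  exact Nat.card_eq_of_bijective f hf

end abs

variable {D : ChevalleyDatum} {F : Type*} [Field F]
variable (h : Tab D) (h2 : Tab2 D) (ax : Ax D F)

/-! ### Multiplication of the Bruhat index -/

section tau
variable [Finite F]

/-- The relation between the Bruhat indices of two conjugate elements. -/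
lemma tau_conj {J K : Set ℕ} (hJ : ∀ j ∈ J, j < D.rank) (hK : ∀ j ∈ K, j < D.rank) {n x y : ↥(D.group F)}
    (h1 : PosOn h (tau h h2 ax n) K) (h3 : PosOn h (tau h h2 ax n)⁻¹ J) (hx : tau h h2 ax x ∈ Wp h J)
    (hy : tau h h2 ax y ∈ Wp h K) (e : x * n = n * y) : tau h h2 ax x * tau h h2 ax n = tau h h2 ax n * tau h h2 ax y := by
  have e1 := tau_mul_PosOn h h2 ax hK h1 hy
  have h3' : PosOn h (tau h h2 ax n⁻¹) J := by
    rw [tau_inv]
    exact h3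
  have hx' : tau h h2 ax x⁻¹ ∈ Wp h J := by
    rw [tau_inv]
    exact Subgroup.inv_mem _ hx
  have e2 := tau_mul_PosOn h h2 ax hJ h3' hx'
  rw [tau_inv, tau_inv] at e2
  have e3 : n⁻¹ * x⁻¹ = (x * n)⁻¹ := by group
  rw [e3, tau_inv] at e2
  have e4 : tau h h2 ax (x * n) = tau h h2 ax x * tau h h2 ax n := by
    have := congrArg (fun t => t⁻¹) e2
    simpa using this
  rw [← e4, ← e1, e]

end tau

/-- A representative in the group of an element of the Weyl group. -/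
noncomputable def nD (h : Tab D) (h2 : Tab2 D) (ax : Ax D F) (d : Equiv.Perm (Fin D.nroots)) : ↥(D.group F) := by
  classical
  exact if hd : d ∈ Wp h (Set.Iio D.rank) then
    nwG h h2 ax (l := Classical.choose ((mem_Wp_iff h).mp hd))
      (fun i hi => (Classical.choose_spec ((mem_Wp_iff h).mp hd)).1 i hi)
  else 1

lemma nD_spec {d : Equiv.Perm (Fin D.nroots)} (hd : d ∈ Wp h (Set.Iio D.rank)) :
    ∃ l : List ℕ, ∃ hl : ∀ i ∈ l, i < D.rank, wPw h l = d ∧ nD h h2 ax d = nwG h h2 ax hl := by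
  classical
  refine ⟨Classical.choose ((mem_Wp_iff h).mp hd), fun i hi => (Classical.choose_spec ((mem_Wp_iff h).mp hd)).1 i hi,
    (Classical.choose_spec ((mem_Wp_iff h).mp hd)).2.symm, ?_⟩
  rw [nD, dif_pos hd]

lemma tau_nD {d : Equiv.Perm (Fin D.nroots)} (hd : d ∈ Wp h (Set.Iio D.rank)) : tau h h2 ax (nD h h2 ax d) = d := by
  obtain ⟨l, hl, e, e2⟩ := nD_spec h h2 ax hd
  rw [e2, tau_nwG, e]

/-- The minimal double coset representative of an element. -/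
lemma exists_pos [Finite F] {J K : Set ℕ} (hJ : ∀ j ∈ J, j < D.rank) (hK : ∀ j ∈ K, j < D.rank) (g : ↥(D.group F)) :
    ∃ d ∈ Wp h (Set.Iio D.rank), PosOn h d K ∧ PosOn h d⁻¹ J ∧ ∃ p p' : ↥(D.group F),
      (p : GL D.Idx F) ∈ D.parabolicSubgroup F J ∧ (p' : GL D.Idx F) ∈ D.parabolicSubgroup F K ∧ g = p * nD h h2 ax d * p' := by
  obtain ⟨v, hv, d, hd, u, hu, e, hd1, hd2⟩ := exists_rep_two h h2 ax hJ hK _ _ (tau_mem h h2 ax g) le_rfl
  refine ⟨d, hd, hd1, hd2, ?_⟩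
  obtain ⟨l, hl, el, en⟩ := nD_spec h h2 ax hd
  obtain ⟨lv, hlv, ev⟩ := (mem_Wp_iff h).mp hv
  obtain ⟨lu, hlu, eu⟩ := (mem_Wp_iff h).mp hu
  have hlv' : ∀ i ∈ lv, i < D.rank := fun i hi => hJ i (hlv i hi)
  have hlu' : ∀ i ∈ lu, i < D.rank := fun i hi => hK i (hlu i hi)
  have e2 : tau h h2 ax g = wPw h (lv ++ l ++ lu) := by rw [wPw_append, wPw_append, ← ev, ← eu, el, e]
  have hall : ∀ i ∈ lv ++ l ++ lu, i < D.rank := by
    intro i hi
    rcases List.mem_append.mp hi with hi | hi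
    · rcases List.mem_append.mp hi with hi | hi
      · exact hlv' i hi
      · exact hl i hi
    · exact hlu' i hi
  have hg := mem_cell_of_wPw h h2 ax hall e2
  obtain ⟨b₁, hb₁, b₂, hb₂, e3⟩ := mem_cell.mp hg
  rw [nw_append, nw_append] at e3
  have hb₁G : b₁ ∈ D.group F := borel_le_group h ax hb₁
  have hb₂G : b₂ ∈ D.group F := borel_le_group h ax hb₂
  refine ⟨⟨b₁, hb₁G⟩ * nwG h h2 ax hlv', nwG h h2 ax hlu' * ⟨b₂, hb₂G⟩, ?_, ?_, ?_⟩
  · exact Subgroup.mul_mem _ (borel_le_parabolic h h2 ax J hb₁) (nw_mem_parabolic h h2 ax hJ hlv)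
  · exact Subgroup.mul_mem _ (nw_mem_parabolic h h2 ax hK hlu) (borel_le_parabolic h h2 ax K hb₂)
  · apply Subtype.ext
    rw [en]
    simp only [Subgroup.coe_mul, nwG]
    rw [e3]
    group

/-- The representative is unique. -/
lemma pos_unique [Finite F] {J K : Set ℕ} (hJ : ∀ j ∈ J, j < D.rank) (hK : ∀ j ∈ K, j < D.rank)
    {d d' : Equiv.Perm (Fin D.nroots)} (hd : d ∈ Wp h (Set.Iio D.rank)) (hd' : d' ∈ Wp h (Set.Iio D.rank))
    (h1 : PosOn h d K) (h3 : PosOn h d⁻¹ J) (h4 : PosOn h d' K) (h5 : PosOn h d'⁻¹ J) {p p' q q' : ↥(D.group F)}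
    (hp : (p : GL D.Idx F) ∈ D.parabolicSubgroup F J) (hp' : (p' : GL D.Idx F) ∈ D.parabolicSubgroup F K)
    (hq : (q : GL D.Idx F) ∈ D.parabolicSubgroup F J) (hq' : (q' : GL D.Idx F) ∈ D.parabolicSubgroup F K)
    (e : p * nD h h2 ax d * p' = q * nD h h2 ax d' * q') : d' = d := by
  have key : ∀ (a : ↥(D.group F)) (a' : ↥(D.group F)) (x : Equiv.Perm (Fin D.nroots)), x ∈ Wp h (Set.Iio D.rank) →
      (a : GL D.Idx F) ∈ D.parabolicSubgroup F J → (a' : GL D.Idx F) ∈ D.parabolicSubgroup F K →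
      ∃ v ∈ Wp h J, ∃ u ∈ Wp h K, tau h h2 ax (a * nD h h2 ax x * a') = v * x * u := by
    intro a a' x hx ha ha'
    obtain ⟨u, hu, e1⟩ := tau_mul_right_parabolic h h2 ax ha' (a * nD h h2 ax x)
    obtain ⟨v, hv, e2⟩ := parabolic_le_TJ h h2 ax ha (nD h h2 ax x)
    refine ⟨v, hv, u, hu, ?_⟩
    rw [e1, e2, tau_nD h h2 ax hx]
  obtain ⟨v₁, hv₁, u₁, hu₁, e₁⟩ := key p p' d hd hp hp'
  obtain ⟨v₂, hv₂, u₂, hu₂, e₂⟩ := key q q' d' hd' hq hq'
  rw [e, e₂] at e₁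
  have e3 : d' = (v₂⁻¹ * v₁) * d * (u₁ * u₂⁻¹) := by
    have : d' = v₂⁻¹ * (v₂ * d' * u₂) * u₂⁻¹ := by group
    rw [this, e₁]
    group
  exact eq_of_two h h2 ax hJ hK hd hd' h1 h3 h4 h5 _ _ (Subgroup.mul_mem _ (Subgroup.inv_mem _ hv₂) hv₁) le_rfl _
    (Subgroup.mul_mem _ hu₁ (Subgroup.inv_mem _ hu₂)) e3

/-- An element of `P_J` with a conjugate in `P_K` lies in `P_{J ∩ d K d⁻¹}`. -/
lemma elliptic_aux [Finite F] {J K : Set ℕ} (hJ : ∀ j ∈ J, j < D.rank) (hK : ∀ j ∈ K, j < D.rank)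
    {d : Equiv.Perm (Fin D.nroots)} (hd : d ∈ Wp h (Set.Iio D.rank)) (h1 : PosOn h d K) (h3 : PosOn h d⁻¹ J)
    {x : ↥(D.group F)} (hx : (x : GL D.Idx F) ∈ D.parabolicSubgroup F J)
    (hy : (((nD h h2 ax d)⁻¹ * x * nD h h2 ax d : ↥(D.group F)) : GL D.Idx F) ∈ D.parabolicSubgroup F K) :
    (x : GL D.Idx F) ∈ D.parabolicSubgroup F (JK h d J K) := by
  have hJK : ∀ j ∈ JK h d J K, j < D.rank := fun j hj => hJ j hj.1
  have h4 := (mem_parabolic_iff' h h2 ax hJ x).mp hx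
  have h5 := (mem_parabolic_iff' h h2 ax hK _).mp hy
  have e : x * nD h h2 ax d = nD h h2 ax d * ((nD h h2 ax d)⁻¹ * x * nD h h2 ax d) := by group
  have h6 := tau_conj h h2 ax hJ hK (n := nD h h2 ax d) (by rwa [tau_nD h h2 ax hd]) (by rwa [tau_nD h h2 ax hd]) h4 h5 e
  rw [tau_nD h h2 ax hd] at h6
  rw [mem_parabolic_iff' h h2 ax hJK]
  exact kilmoyer h h2 ax hJ hK hd h1 h3 _ _ h4 le_rfl _ h5 h6

end Cfsg.Agent.Lib.KS71.StSemiC
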