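/-
The value of the Steinberg character at a semisimple element: the alternating sum.
-/
import Mathlib
import Cfsg.Agent.Lib.KS71.StSemiC

set_option autoImplicit false
set_option linter.unusedSectionVars false
set_option linter.unusedVariables false

namespace Cfsg.Agent.Lib.KS71.StSemiD

open Cfsg Cfsg.Lie Cfsg.Lie.ChevalleyDatum
open Cfsg.Agent.Lib.Chev.Tables Cfsg.Agent.Lib.Chev.Tables2 Cfsg.Agent.Lib.Chev.Tables3 Cfsg.Agent.Lib.Chev.Raise
open Cfsg.Agent.Lib.Chev.Basic Cfsg.Agent.Lib.Chev.AxBasic Cfsg.Agent.Lib.Chev.Torus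
open Cfsg.Agent.Lib.Chev.Products Cfsg.Agent.Lib.Chev.Products2 Cfsg.Agent.Lib.Chev.Mono1
open Cfsg.Agent.Lib.Chev.Mono2 Cfsg.Agent.Lib.Chev.Mono3 Cfsg.Agent.Lib.Chev.Bn
open Cfsg.Agent.Lib.Chev.Order1 Cfsg.Agent.Lib.Chev.Order2 Cfsg.Agent.Lib.Chev.Parab
open Cfsg.Agent.Lib.KS71.StWeyl Cfsg.Agent.Lib.KS71.StCell Cfsg.Agent.Lib.KS71.StMain Cfsg.Agent.Lib.KS71.StUnip
open Cfsg.Agent.Lib.KS71.StSemiB Cfsg.Agent.Lib.KS71.StSemiC

lemma alt_sum2 {S T A : Finset ℕ} (hT : T ⊆ S) (hA : A ⊆ T) :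
    ∑ K ∈ S.powerset, (-1 : ℂ) ^ K.card * (if A ⊆ K ∧ K ⊆ T then (1 : ℂ) else 0) =
      if A = T then (-1 : ℂ) ^ A.card else 0 := by
  classical
  have e1 : ∀ K ∈ S.powerset, (-1 : ℂ) ^ K.card * (if A ⊆ K ∧ K ⊆ T then (1 : ℂ) else 0) =
      if A ⊆ K ∧ K ⊆ T then (-1 : ℂ) ^ K.card else 0 := by
    intro K _
    split_ifs <;> simp
  rw [Finset.sum_congr rfl e1, ← Finset.sum_filter]
  have e2 : S.powerset.filter (fun K => A ⊆ K ∧ K ⊆ T) = (T \ A).powerset.image (fun K' => A ∪ K') := by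
    ext K
    simp only [Finset.mem_filter, Finset.mem_powerset, Finset.mem_image]
    constructor
    · rintro ⟨_, h1, h3⟩
      refine ⟨K \ A, ?_, ?_⟩
      · exact Finset.sdiff_subset_sdiff h3 (Finset.Subset.refl _)
      · exact Finset.union_sdiff_of_subset h1
    · rintro ⟨K', h1, rfl⟩
      have h3 : K' ⊆ T := h1.trans Finset.sdiff_subset
      exact ⟨(Finset.union_subset hA h3).trans hT, Finset.subset_union_left, Finset.union_subset hA h3⟩
  have hdisj : ∀ K' ∈ (T \ A).powerset, Disjoint A K' := by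
    intro K' hK'
    have h1 := Finset.mem_powerset.mp hK'
    exact Finset.disjoint_of_subset_right h1 Finset.disjoint_sdiff
  rw [e2, Finset.sum_image]
  · have e3 : ∀ K' ∈ (T \ A).powerset, (-1 : ℂ) ^ (A ∪ K').card = (-1 : ℂ) ^ A.card * (-1 : ℂ) ^ K'.card := by
      intro K' hK'
      rw [Finset.card_union_of_disjoint (hdisj K' hK'), pow_add]
    rw [Finset.sum_congr rfl e3, ← Finset.mul_sum]
    have e4 := Finset.sum_powerset_neg_one_pow_card (x := T \ A)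
    have e5 := congrArg (fun z : ℤ => (z : ℂ)) e4
    push_cast at e5
    rw [e5]
    by_cases hAT : A = T
    · subst hAT
      simp
    · have hne : T \ A ≠ ∅ := by
        intro he
        exact hAT (Finset.Subset.antisymm hA (Finset.sdiff_eq_empty_iff_subset.mp he))
      simp [hAT, hne]
  · intro K₁ h₁ K₂ h₂ e
    have h₁' := hdisj K₁ h₁
    have h₂' := hdisj K₂ h₂
    have e6 : (A ∪ K₁) \ A = (A ∪ K₂) \ A := by
      have e' : A ∪ K₁ = A ∪ K₂ := e
      rw [e']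
    rwa [Finset.union_sdiff_cancel_left h₁', Finset.union_sdiff_cancel_left h₂'] at e6

variable {D : ChevalleyDatum} {F : Type*} [Field F]
variable (h : Tab D) (h2 : Tab2 D) (ax : Ax D F)

/-- `s` lies in no conjugate of a smaller parabolic subgroup of `P_J`. -/
def Ell (s : ↥(D.group F)) (J : Finset ℕ) : Prop :=
  ∀ J₁ : Set ℕ, J₁ ⊆ (↑J : Set ℕ) → ∀ p : ↥(D.group F),
    ((p⁻¹ * s * p : ↥(D.group F)) : GL D.Idx F) ∈ D.parabolicSubgroup F J₁ → J₁ = (↑J : Set ℕ)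

/-- The double cosets which can contain fixed points. -/
def Rep (h : Tab D) (J K : Finset ℕ) (d : Equiv.Perm (Fin D.nroots)) : Prop :=
  PosOn h d (↑K : Set ℕ) ∧ PosOn h d⁻¹ (↑J : Set ℕ) ∧ QdJ h d (↑J : Set ℕ) ∧ (↑(Jp h d J) : Set ℕ) ⊆ (↑K : Set ℕ)

lemma mem_parabolicIn {J : Finset ℕ} {p : ↥(D.group F)} :
    p ∈ D.parabolicIn F J ↔ (p : GL D.Idx F) ∈ D.parabolicSubgroup F (↑J : Set ℕ) := Subgroup.mem_subgroupOf

variable [Finite F]

/-- The fixed points on the cosets of `P_K` are in the orbits of `P_J` of the representatives `Rep`. -/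
theorem card_fix_K {J K : Finset ℕ} (hJ : ∀ j ∈ (↑J : Set ℕ), j < D.rank) (hK : ∀ j ∈ (↑K : Set ℕ), j < D.rank)
    {s : ↥(D.group F)} (hs : s ∈ D.parabolicIn F J) (hell : Ell s J) [DecidablePred (Rep h J K)] :
    Nat.card (MulAction.fixedBy (↥(D.group F) ⧸ D.parabolicIn F K) s) =
      ∑ d ∈ (Wc h).filter (Rep h J K),
        Nat.card (MulAction.fixedBy (↥(D.parabolicIn F J) ⧸ Qs (D.parabolicIn F J) (D.parabolicIn F K) (nD h h2 ax d))
          (⟨s, hs⟩ : ↥(D.parabolicIn F J))) := by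
  classical
  haveI : Fintype (↥(D.group F) ⧸ D.parabolicIn F K) := Fintype.ofFinite _
  have hpos : ∀ ξ : ↥(D.group F) ⧸ D.parabolicIn F K, ∃ d ∈ Wp h (Set.Iio D.rank), PosOn h d (↑K : Set ℕ) ∧
      PosOn h d⁻¹ (↑J : Set ℕ) ∧ ∃ p : ↥(D.group F), p ∈ D.parabolicIn F J ∧
        ξ = ((p * nD h h2 ax d : ↥(D.group F)) : ↥(D.group F) ⧸ D.parabolicIn F K) := by
    intro ξ
    obtain ⟨d, hd, h1, h3, p, p', hp, hp', e⟩ := exists_pos h h2 ax hJ hK ξ.out
    refine ⟨d, hd, h1, h3, p, mem_parabolicIn.mpr hp, ?_⟩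
    have e2 : ξ = (ξ.out : ↥(D.group F) ⧸ D.parabolicIn F K) := (QuotientGroup.out_eq' ξ).symm
    rw [e2]
    apply QuotientGroup.eq.mpr
    rw [e]
    have e3 : (p * nD h h2 ax d * p')⁻¹ * (p * nD h h2 ax d) = p'⁻¹ := by group
    rw [e3]
    exact Subgroup.inv_mem _ (mem_parabolicIn.mpr hp')
  choose posOf hW h1K h3J hp using hpos
  choose pOf hpP hpE using hp
  let X : Finset (↥(D.group F) ⧸ D.parabolicIn F K) := Finset.univ.filter fun ξ => s • ξ = ξ
  have hmaps : ∀ ξ ∈ X, posOf ξ ∈ (Wc h).filter (Rep h J K) := by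
    intro ξ hξ
    have hfix : s • ξ = ξ := (Finset.mem_filter.mp hξ).2
    have hd := hW ξ
    refine Finset.mem_filter.mpr ⟨(mem_Wc h).mpr hd, ?_⟩
    set d := posOf ξ with hd'
    set p := pOf ξ with hp'
    have e1 := hpE ξ
    rw [e1] at hfix
    have h4 : ((s * (p * nD h h2 ax d) : ↥(D.group F)) : ↥(D.group F) ⧸ D.parabolicIn F K) =
        ((p * nD h h2 ax d : ↥(D.group F)) : ↥(D.group F) ⧸ D.parabolicIn F K) := hfix
    have h5 := QuotientGroup.eq.mp h4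
    have h6 : (((nD h h2 ax d)⁻¹ * (p⁻¹ * s * p) * nD h h2 ax d : ↥(D.group F))) ∈ D.parabolicIn F K := by
      have e3 : (nD h h2 ax d)⁻¹ * (p⁻¹ * s * p) * nD h h2 ax d =
          ((s * (p * nD h h2 ax d))⁻¹ * (p * nD h h2 ax d))⁻¹ := by group
      rw [e3]
      exact Subgroup.inv_mem _ h5
    have hxJ : p⁻¹ * s * p ∈ D.parabolicIn F J :=
      Subgroup.mul_mem _ (Subgroup.mul_mem _ (Subgroup.inv_mem _ (hpP ξ)) hs) (hpP ξ)
    have h7 := elliptic_aux h h2 ax hJ hK hd (h1K ξ) (h3J ξ) (mem_parabolicIn.mp hxJ) (mem_parabolicIn.mp h6)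
    have h8 : JK h d (↑J : Set ℕ) (↑K : Set ℕ) = (↑J : Set ℕ) := hell _ (fun j hj => hj.1) p h7
    exact ⟨h1K ξ, h3J ξ, QdJ_of_JK h h8, Jp_subset_of_JK h h8⟩
  have hcard0 : Nat.card (MulAction.fixedBy (↥(D.group F) ⧸ D.parabolicIn F K) s) = X.card := by
    have e : Nat.card (MulAction.fixedBy (↥(D.group F) ⧸ D.parabolicIn F K) s) =
        Nat.card {ξ : ↥(D.group F) ⧸ D.parabolicIn F K // s • ξ = ξ} := rfl
    rw [e, Nat.card_eq_fintype_card, Fintype.card_subtype]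
  rw [hcard0, Finset.card_eq_sum_card_fiberwise hmaps]
  apply Finset.sum_congr rfl
  intro d hd
  obtain ⟨hdW, hR⟩ := Finset.mem_filter.mp hd
  have hdW' := (mem_Wc h).mp hdW
  rw [card_fix_orbit, Nat.card_eq_fintype_card, Fintype.card_subtype]
  congr 1
  ext c
  simp only [Finset.mem_filter, Finset.mem_univ, true_and, X]
  constructor
  · rintro ⟨hfix, e⟩
    refine ⟨hfix, ⟨pOf c, hpP c⟩, ?_⟩
    have e1 := hpE c
    rw [e] at e1
    exact e1
  · rintro ⟨hfix, y, e⟩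
    refine ⟨hfix, ?_⟩
    have e1 := hpE c
    have e2 : (((pOf c * nD h h2 ax (posOf c) : ↥(D.group F))) : ↥(D.group F) ⧸ D.parabolicIn F K) =
        (((y : ↥(D.group F)) * nD h h2 ax d : ↥(D.group F)) : ↥(D.group F) ⧸ D.parabolicIn F K) := by
      rw [← e1, e]
    have h3 := QuotientGroup.eq.mp e2
    set q := (pOf c * nD h h2 ax (posOf c))⁻¹ * ((y : ↥(D.group F)) * nD h h2 ax d) with hq
    have e3 : ((y : ↥(D.group F))) * nD h h2 ax d * 1 = pOf c * nD h h2 ax (posOf c) * q := by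
      rw [hq]
      group
    exact pos_unique h h2 ax hJ hK hdW' (hW c) hR.1 hR.2.1 (h1K c) (h3J c) (mem_parabolicIn.mp y.2)
      (Subgroup.one_mem _) (mem_parabolicIn.mp (hpP c)) (mem_parabolicIn.mp h3) e3

/-- The subgroups `Qs` do not depend on `K`. -/
lemma Qs_eq {J K : Finset ℕ} (hJ : ∀ j ∈ (↑J : Set ℕ), j < D.rank) (hK : ∀ j ∈ (↑K : Set ℕ), j < D.rank)
    {d : Equiv.Perm (Fin D.nroots)} (hd : d ∈ Wp h (Set.Iio D.rank)) (hR : Rep h J K d) :
    Qs (D.parabolicIn F J) (D.parabolicIn F K) (nD h h2 ax d) =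
      Qs (D.parabolicIn F J) (D.parabolicIn F (Jp h d J)) (nD h h2 ax d) := by
  obtain ⟨h1, h3, hq, hsub⟩ := hR
  have hJp : ∀ j ∈ (↑(Jp h d J) : Set ℕ), j < D.rank := fun j hj => Jp_lt h hj
  apply Qs_eq_of
  · intro z hz
    rw [mem_parabolicIn, mem_parabolic_iff' h h2 ax hJp]
    have h4 := (mem_parabolic_iff' h h2 ax hJ _).mp (mem_parabolicIn.mp z.2)
    have h5 := (mem_parabolic_iff' h h2 ax hK _).mp (mem_parabolicIn.mp hz)
    have e : (z : ↥(D.group F)) * nD h h2 ax d = nD h h2 ax d * ((nD h h2 ax d)⁻¹ * (z : ↥(D.group F)) * nD h h2 ax d) := by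
      group
    have h6 := tau_conj h h2 ax hJ hK (n := nD h h2 ax d) (by rwa [tau_nD h h2 ax hd]) (by rwa [tau_nD h h2 ax hd]) h4 h5 e
    rw [tau_nD h h2 ax hd] at h6
    have h7 := conj_W h h2 ax hd hq h4
    have e2 : tau h h2 ax ((nD h h2 ax d)⁻¹ * (z : ↥(D.group F)) * nD h h2 ax d) =
        d⁻¹ * tau h h2 ax (z : ↥(D.group F)) * d := by
      rw [mul_assoc d⁻¹ _ d, h6, inv_mul_cancel_left]
    rw [e2]
    exact h7
  · intro z hz
    rw [mem_parabolicIn, mem_parabolic_iff' h h2 ax hK]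
    have h5 := (mem_parabolic_iff' h h2 ax hJp _).mp (mem_parabolicIn.mp hz)
    exact Wp_mono h hsub h5

/-- The value of the Steinberg character at an element which is elliptic in `P_J`. -/
theorem st_value [Fintype F] {J : Finset ℕ} (hJ : ∀ j ∈ (↑J : Set ℕ), j < D.rank)
    {s : ↥(D.group F)} (hs : s ∈ D.parabolicIn F J) (hell : Ell s J)
    {d₀ : Equiv.Perm (Fin D.nroots)} (hd₀ : d₀ ∈ Wp h (Set.Iio D.rank)) (h1 : PosOn h d₀⁻¹ (↑J : Set ℕ))
    (h3 : QdJ h d₀ (↑J : Set ℕ)) (h4 : posSet h d₀ = Jp h d₀ J) :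
    D.steinbergCharacter F s = (-1 : ℂ) ^ J.card *
      (Nat.card (MulAction.fixedBy (↥(D.parabolicIn F J) ⧸
        Qs (D.parabolicIn F J) (D.parabolicIn F (Jp h d₀ J)) (nD h h2 ax d₀))
          (⟨s, hs⟩ : ↥(D.parabolicIn F J))) : ℂ) := by
  classical
  set f : Equiv.Perm (Fin D.nroots) → ℂ := fun d =>
    (Nat.card (MulAction.fixedBy (↥(D.parabolicIn F J) ⧸
        Qs (D.parabolicIn F J) (D.parabolicIn F (Jp h d J)) (nD h h2 ax d))
          (⟨s, hs⟩ : ↥(D.parabolicIn F J))) : ℂ) with hf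
  have e1 : ∀ K ∈ (Finset.range D.rank).powerset,
      (-1 : ℂ) ^ K.card * fixedPointCharacter (D.parabolicIn F K) s =
      ∑ d ∈ Wc h, f d * ((-1 : ℂ) ^ K.card * (if Rep h J K d then (1 : ℂ) else 0)) := by
    intro K hK
    have hK' : ∀ j ∈ (↑K : Set ℕ), j < D.rank := fun j hj => Finset.mem_range.mp (Finset.mem_powerset.mp hK hj)
    rw [fixedPointCharacter, card_fix_K h h2 ax hJ hK' hs hell, Nat.cast_sum, Finset.mul_sum, Finset.sum_filter]
    apply Finset.sum_congr rfl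
    intro d hd
    by_cases hR : Rep h J K d
    · rw [if_pos hR, if_pos hR, Qs_eq h h2 ax hJ hK' ((mem_Wc h).mp hd) hR]
      simp only [hf]
      ring
    · rw [if_neg hR, if_neg hR]
      simp
  rw [ChevalleyDatum.steinbergCharacter, Finset.sum_congr rfl e1, Finset.sum_comm]
  have e2 : ∀ d ∈ Wc h, ∑ K ∈ (Finset.range D.rank).powerset,
      f d * ((-1 : ℂ) ^ K.card * (if Rep h J K d then (1 : ℂ) else 0)) =
      f d * (if PosOn h d⁻¹ (↑J : Set ℕ) ∧ QdJ h d (↑J : Set ℕ) ∧ Jp h d J = posSet h d then (-1 : ℂ) ^ J.card else 0) := by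
    intro d hd
    rw [← Finset.mul_sum]
    congr 1
    by_cases hc : PosOn h d⁻¹ (↑J : Set ℕ) ∧ QdJ h d (↑J : Set ℕ)
    · have e3 : ∀ K ∈ (Finset.range D.rank).powerset,
          (-1 : ℂ) ^ K.card * (if Rep h J K d then (1 : ℂ) else 0) =
          (-1 : ℂ) ^ K.card * (if Jp h d J ⊆ K ∧ K ⊆ posSet h d then (1 : ℂ) else 0) := by
        intro K hK
        have hK' : ∀ j ∈ K, j < D.rank := fun j hj => Finset.mem_range.mp (Finset.mem_powerset.mp hK hj)
        congr 1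
        by_cases hc2 : Jp h d J ⊆ K ∧ K ⊆ posSet h d
        · rw [if_pos hc2, if_pos]
          exact ⟨(posOn_iff h hK').mpr hc2.2, hc.1, hc.2, fun x hx => hc2.1 hx⟩
        · rw [if_neg hc2, if_neg]
          rintro ⟨h5, _, _, h6⟩
          exact hc2 ⟨fun x hx => h6 hx, (posOn_iff h hK').mp h5⟩
      rw [Finset.sum_congr rfl e3, alt_sum2 (posSet_subset h d) (Jp_subset_posSet h)]
      by_cases hc3 : Jp h d J = posSet h d
      · rw [if_pos hc3, if_pos ⟨hc.1, hc.2, hc3⟩, card_Jp h hc.2]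
      · rw [if_neg hc3, if_neg]
        exact fun h5 => hc3 h5.2.2
    · rw [if_neg (fun h5 => hc ⟨h5.1, h5.2.1⟩)]
      apply Finset.sum_eq_zero
      intro K _
      rw [if_neg (fun hR => hc ⟨hR.2.1, hR.2.2.1⟩), mul_zero]
  rw [Finset.sum_congr rfl e2, Finset.sum_eq_single d₀]
  · rw [if_pos ⟨h1, h3, h4.symm⟩]
    simp only [hf]
    ring
  · intro d hd hne
    rw [if_neg, mul_zero]
    rintro ⟨h5, _, h7⟩
    exact hne (d0_unique h h2 ax hJ ((mem_Wc h).mp hd) hd₀ h5 h7.symm h1 h4)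
  · intro hn
    exact absurd ((mem_Wc h).mpr hd₀) hn

end Cfsg.Agent.Lib.KS71.StSemiD
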