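/-
The value of the Steinberg character at a semisimple element.
-/
import Mathlib
import Cfsg.Agent.Lib.KS71.StSemiD
import Cfsg.Agent.Lib.KS71.StVanish

set_option autoImplicit false
set_option linter.unusedSectionVars false
set_option linter.unusedVariables false

namespace Cfsg.Agent.Lib.KS71.StSemiE

open Cfsg Cfsg.Lie Cfsg.Lie.ChevalleyDatum
open Cfsg.Agent.Lib.Chev.Tables Cfsg.Agent.Lib.Chev.Tables2 Cfsg.Agent.Lib.Chev.Tables3 Cfsg.Agent.Lib.Chev.Raise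
open Cfsg.Agent.Lib.Chev.Basic Cfsg.Agent.Lib.Chev.AxBasic Cfsg.Agent.Lib.Chev.Torus
open Cfsg.Agent.Lib.Chev.Products Cfsg.Agent.Lib.Chev.Products2 Cfsg.Agent.Lib.Chev.Mono1
open Cfsg.Agent.Lib.Chev.Mono2 Cfsg.Agent.Lib.Chev.Mono3 Cfsg.Agent.Lib.Chev.Bn
open Cfsg.Agent.Lib.Chev.Order1 Cfsg.Agent.Lib.Chev.Order2 Cfsg.Agent.Lib.Chev.Parab
open Cfsg.Agent.Lib.KS71.StWeyl Cfsg.Agent.Lib.KS71.StCell Cfsg.Agent.Lib.KS71.StMain Cfsg.Agent.Lib.KS71.StUnip
open Cfsg.Agent.Lib.KS71.StSemiB Cfsg.Agent.Lib.KS71.StSemiC Cfsg.Agent.Lib.KS71.StSemiD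

variable {D : ChevalleyDatum} {F : Type*} [Field F]
variable (h : Tab D) (h2 : Tab2 D) (ax : Ax D F)

/-- The unipotent radical inside the parabolic subgroup. -/
abbrev U₀ (D : ChevalleyDatum) (F : Type*) [Field F] (J : Finset ℕ) : Subgroup ↥(D.parabolicIn F J) :=
  ((D.unipotentRadical F (↑J : Set ℕ)).subgroupOf (D.group F)).subgroupOf (D.parabolicIn F J)

lemma mem_U₀ {J : Finset ℕ} {z : ↥(D.parabolicIn F J)} :
    z ∈ U₀ D F J ↔ (((z : ↥(D.group F)) : GL D.Idx F)) ∈ D.unipotentRadical F (↑J : Set ℕ) := by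
  rw [Subgroup.mem_subgroupOf, Subgroup.mem_subgroupOf]

include h h2 ax in
lemma U₀_normal (J : Finset ℕ) : (U₀ D F J).Normal := by
  constructor
  intro z hz a
  rw [mem_U₀] at hz ⊢
  have h3 := parabolic_le_normalizer h h2 ax (↑J : Set ℕ) (mem_parabolicIn.mp a.2)
  have h4 := (Subgroup.mem_normalizer_iff.mp h3 _).mp hz
  simpa using h4

include h h2 ax in
lemma U₀_isPGroup [Fintype F] (p : ℕ) [Fact p.Prime] [CharP F p] (J : Finset ℕ) : IsPGroup p (U₀ D F J) := by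
  obtain ⟨P, hP⟩ := Cfsg.Agent.Lib.KS71.ChevInv.exists_sylow (F := F) h h2 ax p
  intro z
  have hz : ((z : ↥(D.parabolicIn F J)) : ↥(D.group F)) ∈ (P : Subgroup ↥(D.group F)) := by
    rw [hP, Subgroup.mem_subgroupOf]
    exact radical_le_U h h2 ax _ (mem_U₀.mp z.2)
  obtain ⟨k, hk⟩ := P.isPGroup' ⟨_, hz⟩
  refine ⟨k, ?_⟩
  apply Subtype.ext
  apply Subtype.ext
  have := congrArg Subtype.val hk
  simpa using this

section d0

variable [Finite F] {J : Finset ℕ} {d₀ : Equiv.Perm (Fin D.nroots)}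

include h h2 ax in
/-- `U_J` meets `Q₀` trivially. -/
lemma U₀_inf_Q (hJ : ∀ j ∈ (↑J : Set ℕ), j < D.rank) (hd₀ : d₀ ∈ Wp h (Set.Iio D.rank))
    (h1 : PosOn h d₀⁻¹ (↑J : Set ℕ)) (h4 : ∀ r : Fin D.nroots, D.IsPosRoot r → ¬ InJ D (↑J : Set ℕ) r → ¬ D.IsPosRoot (d₀⁻¹ r)) :
    U₀ D F J ⊓ Qs (D.parabolicIn F J) (D.parabolicIn F (Jp h d₀ J)) (nD h h2 ax d₀) = ⊥ := by
  rw [eq_bot_iff]
  rintro z ⟨hz, hzQ⟩
  rw [Subgroup.mem_bot]
  have hzU := mem_U₀.mp hz
  have hJp : ∀ j ∈ (↑(Jp h d₀ J) : Set ℕ), j < D.rank := fun j hj => Jp_lt h hj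
  set zG : ↥(D.group F) := (z : ↥(D.group F)) with hzG
  set n := nD h h2 ax d₀ with hn
  have hy : ((n⁻¹ * zG * n : ↥(D.group F))) ∈ D.parabolicIn F (Jp h d₀ J) := hzQ
  have hτz : tau h h2 ax zG = 1 := by
    apply tau_of_mem_BG
    rw [mem_BG]
    exact (le_sup_left : D.posUnipotent F ≤ _) (radical_le_U h h2 ax _ hzU)
  have h5 := (mem_parabolic_iff' h h2 ax hJp _).mp (mem_parabolicIn.mp hy)
  have e : zG * n = n * (n⁻¹ * zG * n) := by group
  have hpos : PosOn h d₀ (↑(Jp h d₀ J) : Set ℕ) := by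
    intro k hk hkJ
    obtain ⟨_, j, _, hj', e2⟩ := (mem_Jp h).mp hkJ
    change D.IsPosRoot (d₀ (sr h hk))
    rw [e2]
    exact sr_isPos h hj'
  have h6 := tau_conj h h2 ax hJ hJp (n := n) (by rwa [hn, tau_nD h h2 ax hd₀]) (by rwa [hn, tau_nD h h2 ax hd₀])
    (by rw [hτz]; exact Subgroup.one_mem _) h5 e
  rw [hτz, one_mul, hn, tau_nD h h2 ax hd₀] at h6
  have h7 : tau h h2 ax (n⁻¹ * zG * n) = 1 := by
    have := mul_left_cancel (a := d₀) (b := 1) (c := tau h h2 ax (n⁻¹ * zG * n)) (by rw [mul_one]; exact h6)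
    exact this.symm
  have h8 := mem_BG.mp (mem_BG_of_tau h h2 ax h7)
  -- it lies in `V`
  obtain ⟨l, hl, el, en⟩ := nD_spec h h2 ax hd₀
  obtain ⟨c, H⟩ := exists_isNor_nw h h2 ax hl
  have hnv : ((n : ↥(D.group F)) : GL D.Idx F) = nw D ax l := by rw [hn, en]; rfl
  have h9 : (nw D ax l)⁻¹ * (zG : GL D.Idx F) * ((nw D ax l)⁻¹)⁻¹ ∈ D.negUnipotent F := by
    rw [unipotentRadical_eq h h2 ax] at hzU
    refine conj_mem_of_gen ax ?_ hzU
    rintro r t ⟨hr, hrJ⟩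
    have e3 := H.inv.conj ⟨r, hr.1⟩ t
    simp only at e3
    rw [e3, negUnipotent_eq ax]
    apply xG_mem_rootClosure ax
    rw [el]
    have hnot : ¬ InJ D (↑J : Set ℕ) (⟨r, hr.1⟩ : Fin D.nroots) := by
      intro hc
      exact hrJ ((inRootSub_iff h hr.1).mpr hc)
    exact (not_isPos_iff h (Fin.isLt _)).mp (h4 ⟨r, hr.1⟩ hr hnot)
  have h10 : ((n⁻¹ * zG * n : ↥(D.group F)) : GL D.Idx F) ∈ D.borelSubgroup F ⊓ D.negUnipotent F := by
    refine ⟨h8, ?_⟩
    have e4 : ((n⁻¹ * zG * n : ↥(D.group F)) : GL D.Idx F) = (nw D ax l)⁻¹ * (zG : GL D.Idx F) * ((nw D ax l)⁻¹)⁻¹ := by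
      simp only [Subgroup.coe_mul, InvMemClass.coe_inv, hnv, inv_inv]
    rw [e4]
    exact h9
  rw [borel_inf_V ax h, Subgroup.mem_bot] at h10
  have h11 : n⁻¹ * zG * n = 1 := Subtype.ext h10
  have h12 : zG = 1 := by
    have := congrArg (fun t => n * t * n⁻¹) h11
    simpa [mul_assoc] using this
  apply Subtype.ext
  exact h12

include h h2 ax in
/-- `P_J = U_J Q₀`. -/
lemma exists_U₀_mul_Q (hJ : ∀ j ∈ (↑J : Set ℕ), j < D.rank) (hd₀ : d₀ ∈ Wp h (Set.Iio D.rank))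
    (h3 : QdJ h d₀ (↑J : Set ℕ)) (x : ↥(D.parabolicIn F J)) :
    ∃ u ∈ U₀ D F J, ∃ q ∈ Qs (D.parabolicIn F J) (D.parabolicIn F (Jp h d₀ J)) (nD h h2 ax d₀), x = u * q := by
  classical
  obtain ⟨l, hl, el, en⟩ := nD_spec h h2 ax hd₀
  obtain ⟨c, H⟩ := exists_isNor_nw h h2 ax hl
  -- the Levi subgroup conjugates into `P_{Jp}`
  have hLevi : D.leviSubgroup F (↑J : Set ℕ) ≤
      (D.parabolicSubgroup F (↑(Jp h d₀ J) : Set ℕ)).comap (MulAut.conj (nw D ax l)⁻¹).toMonoidHom := by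
    rw [leviSubgroup_eq h h2 ax]
    apply sup_le
    · intro a ha
      simp only [Subgroup.mem_comap, MulEquiv.coe_toMonoidHom, MulAut.conj_apply]
      have h5 := H.inv.conj_mem_H h ax ha
      exact borel_le_parabolic h h2 ax _ (diag_mem_borel h h2 ax h5)
    · apply rootClosure_le
      intro r t hr
      simp only [Subgroup.mem_comap, MulEquiv.coe_toMonoidHom, MulAut.conj_apply]
      have e3 := H.inv.conj ⟨r, hr.1⟩ t
      simp only at e3
      rw [e3, parabolic_eq h h2 ax]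
      apply (le_sup_right : _ ≤ D.diagonalSubgroup F ⊔ _)
      apply xG_mem_rootClosure ax
      right
      have hr1 : InJ D (↑J : Set ℕ) (⟨r, hr.1⟩ : Fin D.nroots) := (inRootSub_iff h hr.1).mp hr
      have h5 := InJ_image h h2 ax hd₀ h3 hr1
      rw [el]
      exact (inRootSub_iff h (Fin.isLt _)).mpr h5
  -- the product decomposition
  have hnorm : ∀ a ∈ D.leviSubgroup F (↑J : Set ℕ), a ∈ Subgroup.normalizer (D.unipotentRadical F (↑J : Set ℕ) : Set (GL D.Idx F)) := by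
    intro a ha
    apply parabolic_le_normalizer h h2 ax
    rw [← radical_sup_levi h h2 ax]
    exact (le_sup_right : D.leviSubgroup F (↑J : Set ℕ) ≤ _) ha
  let S : Subgroup (GL D.Idx F) :=
    { carrier := {g | ∃ u ∈ D.unipotentRadical F (↑J : Set ℕ), ∃ a ∈ D.leviSubgroup F (↑J : Set ℕ), g = u * a}
      one_mem' := ⟨1, Subgroup.one_mem _, 1, Subgroup.one_mem _, by simp⟩
      mul_mem' := by
        rintro _ _ ⟨u, hu, a, ha, rfl⟩ ⟨u', hu', a', ha', rfl⟩
        refine ⟨u * (a * u' * a⁻¹), Subgroup.mul_mem _ hu ((Subgroup.mem_normalizer_iff.mp (hnorm a ha) u').mp hu'),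
          a * a', Subgroup.mul_mem _ ha ha', by group⟩
      inv_mem' := by
        rintro _ ⟨u, hu, a, ha, rfl⟩
        refine ⟨a⁻¹ * u⁻¹ * a⁻¹⁻¹, (Subgroup.mem_normalizer_iff.mp (hnorm a⁻¹ (Subgroup.inv_mem _ ha)) u⁻¹).mp
          (Subgroup.inv_mem _ hu), a⁻¹, Subgroup.inv_mem _ ha, by group⟩ }
  have hle : D.parabolicSubgroup F (↑J : Set ℕ) ≤ S := by
    rw [← radical_sup_levi h h2 ax]
    apply sup_le
    · intro u hu
      exact ⟨u, hu, 1, Subgroup.one_mem _, by simp⟩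
    · intro a ha
      exact ⟨1, Subgroup.one_mem _, a, ha, by simp⟩
  obtain ⟨u, hu, a, ha, e⟩ := hle (mem_parabolicIn.mp x.2)
  have huG : u ∈ D.group F := U_le_group h ax (radical_le_U h h2 ax _ hu)
  have hup : (⟨u, huG⟩ : ↥(D.group F)) ∈ D.parabolicIn F J := by
    rw [mem_parabolicIn]
    rw [← radical_sup_levi h h2 ax]
    exact (le_sup_left : D.unipotentRadical F (↑J : Set ℕ) ≤ _) hu
  let uA : ↥(D.parabolicIn F J) := ⟨⟨u, huG⟩, hup⟩
  refine ⟨uA, mem_U₀.mpr hu, uA⁻¹ * x, ?_, by group⟩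
  rw [mem_Qs, mem_parabolicIn]
  have e5 : (((uA⁻¹ * x : ↥(D.parabolicIn F J)) : ↥(D.group F)) : GL D.Idx F) = a := by
    simp only [Subgroup.coe_mul, InvMemClass.coe_inv, uA]
    rw [e]
    group
  have hnv : (((nD h h2 ax d₀) : ↥(D.group F)) : GL D.Idx F) = nw D ax l := by rw [en]; rfl
  have e6 : (((nD h h2 ax d₀)⁻¹ * ((uA⁻¹ * x : ↥(D.parabolicIn F J)) : ↥(D.group F)) * nD h h2 ax d₀ : ↥(D.group F)) : GL D.Idx F) =
      (nw D ax l)⁻¹ * a * ((nw D ax l)⁻¹)⁻¹ := by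
    simp only [Subgroup.coe_mul, InvMemClass.coe_inv] at e5 ⊢
    rw [e5, hnv, inv_inv]
  rw [e6]
  have := hLevi ha
  simpa using this

end d0

variable [Fintype F]

include h h2 ax in
/-- **The value of the Steinberg character at a `p'`-element.** -/
theorem steinberg_semisimple (p : ℕ) [hp : Fact p.Prime] [CharP F p] (g : ↥(D.group F)) (hg : ¬ p ∣ orderOf g) :
    D.steinbergCharacter F g = ((p ^ (Nat.card ↥(Subgroup.centralizer ({g} : Set ↥(D.group F)))).factorization p : ℕ) : ℂ) ∨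
      D.steinbergCharacter F g = -((p ^ (Nat.card ↥(Subgroup.centralizer ({g} : Set ↥(D.group F)))).factorization p : ℕ) : ℂ) := by
  classical
  obtain ⟨n, ρ, hirr, eρ⟩ := Cfsg.Agent.Lib.KS71.StIrr.isIrr_steinberg h h2 ax
  have hrange : (↑(Finset.range D.rank) : Set ℕ) = Set.Iio D.rank := by
    ext x
    simp
  -- a minimal parabolic subgroup containing a conjugate of `g`
  let S : Finset (Finset ℕ) := (Finset.range D.rank).powerset.filter fun J => ∃ x : ↥(D.group F), x * g * x⁻¹ ∈ D.parabolicIn F J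
  have hS : S.Nonempty := by
    refine ⟨Finset.range D.rank, Finset.mem_filter.mpr ⟨Finset.mem_powerset.mpr (Finset.Subset.refl _), 1, ?_⟩⟩
    rw [mem_parabolicIn, mem_parabolic_iff' h h2 ax (by simp), hrange]
    exact tau_mem h h2 ax _
  obtain ⟨J, hJS, hmin⟩ := Finset.exists_min_image S Finset.card hS
  obtain ⟨hJr, x, hx⟩ := Finset.mem_filter.mp hJS
  have hJ : ∀ j ∈ (↑J : Set ℕ), j < D.rank := fun j hj => Finset.mem_range.mp (Finset.mem_powerset.mp hJr hj)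
  set s := x * g * x⁻¹ with hs
  have hell : Ell s J := by
    intro J₁ hJ₁ y hy
    have e1 : J₁ = ↑(J.filter (· ∈ J₁)) := by
      ext t
      simp only [Finset.coe_filter, Set.mem_ofPred_eq]
      exact ⟨fun ht => ⟨hJ₁ ht, ht⟩, fun ht => ht.2⟩
    rw [e1] at hy
    have hsub : J.filter (· ∈ J₁) ⊆ J := Finset.filter_subset _ _
    have hmem : J.filter (· ∈ J₁) ∈ S := by
      refine Finset.mem_filter.mpr ⟨Finset.mem_powerset.mpr (hsub.trans (Finset.mem_powerset.mp hJr)), y⁻¹ * x, ?_⟩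
      rw [mem_parabolicIn]
      have e2 : y⁻¹ * x * g * (y⁻¹ * x)⁻¹ = y⁻¹ * s * y := by
        rw [hs]
        group
      rw [e2]
      exact hy
    have hle := hmin _ hmem
    have heq := Finset.eq_of_subset_of_card_le hsub hle
    rw [e1, heq]
  -- the value
  obtain ⟨d₀, hd₀, h1, h3, h4, h5⟩ := exists_d0 h h2 ax hJ
  have hval := st_value h h2 ax hJ hx hell hd₀ h1 h3 h4
  have hconj : D.steinbergCharacter F s = D.steinbergCharacter F g := by
    rw [← eρ]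
    exact Representation.char_conj ρ g x
  rw [hconj] at hval
  -- the fixed points
  have hord : ¬ p ∣ orderOf (⟨s, hx⟩ : ↥(D.parabolicIn F J)) := by
    rw [Subgroup.orderOf_mk, hs, ← MulAut.conj_apply, MulEquiv.orderOf_eq]
    exact hg
  obtain ⟨y, C, hCp, hCc, hcard⟩ := Cfsg.Agent.Lib.KS71.StSemiA.fix_affine p (U₀_isPGroup h h2 ax p J)
    (U₀_normal h h2 ax J) (U₀_inf_Q h h2 ax hJ hd₀ h1 h5) (exists_U₀_mul_Q h h2 ax hJ hd₀ h3) hord
  rw [hcard] at hval
  obtain ⟨a, ha⟩ := IsPGroup.iff_card.mp hCp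
  set Cg := Subgroup.centralizer ({g} : Set ↥(D.group F)) with hCg
  set v := (Nat.card ↥Cg).factorization p with hv
  have hp' : p.Prime := hp.out
  -- the subgroup `C` conjugated into the centraliser
  set t : ↥(D.group F) := x⁻¹ * (y : ↥(D.group F)) with ht
  have hCle : (C.map (D.parabolicIn F J).subtype).map (MulAut.conj t).toMonoidHom ≤ Cg := by
    rintro _ ⟨_, ⟨c, hc, rfl⟩, rfl⟩
    rw [hCg, Subgroup.mem_centralizer_singleton_iff]
    have e1 := congrArg Subtype.val (hCc c hc)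
    simp only [Subgroup.coe_mul, InvMemClass.coe_inv] at e1
    simp only [Subgroup.coe_subtype, MulEquiv.coe_toMonoidHom, MulAut.conj_apply]
    have e2 : g = t * ((y : ↥(D.group F))⁻¹ * s * (y : ↥(D.group F))) * t⁻¹ := by
      rw [ht, hs]
      group
    conv_lhs => rw [e2]
    conv_rhs => rw [e2]
    calc t * (c : ↥(D.group F)) * t⁻¹ * (t * ((y : ↥(D.group F))⁻¹ * s * (y : ↥(D.group F))) * t⁻¹)
        = t * ((c : ↥(D.group F)) * ((y : ↥(D.group F))⁻¹ * s * (y : ↥(D.group F)))) * t⁻¹ := by group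
      _ = t * (((y : ↥(D.group F))⁻¹ * s * (y : ↥(D.group F))) * (c : ↥(D.group F))) * t⁻¹ := by
          rw [e1]
      _ = _ := by group
  have hcardC : Nat.card ↥((C.map (D.parabolicIn F J).subtype).map (MulAut.conj t).toMonoidHom) = p ^ a := by
    rw [Subgroup.card_map_of_injective (MulEquiv.injective _), Subgroup.card_map_of_injective (Subgroup.subtype_injective _), ha]
  have hdvd : p ^ a ∣ Nat.card ↥Cg := by
    rw [← hcardC]
    exact Subgroup.card_dvd_of_le hCle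
  have hpos : Nat.card ↥Cg ≠ 0 := Nat.card_pos.ne'
  have hav : a ≤ v := (hp'.pow_dvd_iff_le_factorization hpos).mp hdvd
  -- the Sylow subgroup of the centraliser
  obtain ⟨P⟩ : Nonempty (Sylow p ↥Cg) := inferInstance
  set Q' : Subgroup ↥(D.group F) := (P : Subgroup ↥Cg).map Cg.subtype with hQ'
  have hcQ : Nat.card ↥Q' = p ^ v := by
    rw [hQ', Subgroup.card_map_of_injective (Subgroup.subtype_injective _), Sylow.card_eq_multiplicity]
  haveI : Fintype ↥Q' := Fintype.ofFinite _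
  have hQc : ∀ z ∈ Q', z * g = g * z := by
    rintro _ ⟨z, _, rfl⟩
    exact Subgroup.mem_centralizer_singleton_iff.mp z.2
  have hQp : IsPGroup p ↥Q' := IsPGroup.iff_card.mpr ⟨v, hcQ⟩
  have hQv : ∀ z ∈ Q', z ≠ 1 → ρ.character (g * z) = 0 := by
    intro z hz hne
    rw [eρ]
    apply Cfsg.Agent.Lib.KS71.StVanish.steinberg_vanish h h2 ax p
    obtain ⟨k, hk⟩ := IsPGroup.iff_orderOf.mp hQp ⟨z, hz⟩
    rw [Subgroup.orderOf_mk] at hk
    have hk0 : k ≠ 0 := by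
      intro h0
      rw [h0, pow_zero, orderOf_eq_one_iff] at hk
      exact hne hk
    have hcop : Nat.Coprime (orderOf g) (orderOf z) := by
      rw [hk]
      exact Nat.Coprime.pow_right _ ((Nat.Prime.coprime_iff_not_dvd hp').mpr hg).symm
    have hcm : Commute g z := (hQc z hz).symm
    rw [hcm.orderOf_mul_eq_mul_orderOf_of_coprime hcop, hk]
    exact Dvd.dvd.mul_left (dvd_pow_self p hk0) _
  have hint := Cfsg.Agent.Lib.KS71.StSemiA.isIntegral_div_of_vanish ρ Q' hQc hQv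
  rw [eρ, hval, hcQ] at hint
  have hint2 : IsIntegral ℤ (((p ^ a : ℕ) : ℂ) / ((p ^ v : ℕ) : ℂ)) := by
    have e3 : ((Nat.card ↥C : ℕ) : ℂ) = ((p ^ a : ℕ) : ℂ) := by rw [ha]
    rw [e3] at hint
    rcases neg_one_pow_eq_or ℂ J.card with e | e
    · rw [e, one_mul] at hint
      exact hint
    · rw [e, neg_one_mul, neg_div] at hint
      simpa using hint.neg
  have hd2 := Cfsg.Agent.Lib.Char.Central.nat_dvd_of_isIntegral_div (pow_ne_zero _ hp'.ne_zero) hint2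
  have hva : v ≤ a := (Nat.pow_dvd_pow_iff_le_right hp'.one_lt).mp hd2
  have heq : a = v := le_antisymm hav hva
  have e3 : ((Nat.card ↥C : ℕ) : ℂ) = ((p ^ v : ℕ) : ℂ) := by rw [ha, heq]
  rw [e3] at hval
  rcases neg_one_pow_eq_or ℂ J.card with e | e
  · left
    rw [hval, e, one_mul]
  · right
    rw [hval, e, neg_one_mul]

end Cfsg.Agent.Lib.KS71.StSemiE
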